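import Cfsg.Agent.H5.As9

set_option autoImplicit false

/-! Block monomial matrices, symplectic type groups, small fields. -/

namespace CfsgH5.As

open Matrix Module Cfsg.Geo
open scoped Kronecker commutatorElement

universe u

variable {ι : Type} [Fintype ι] [DecidableEq ι] {F : Type u} [Field F] {σ : F →+* F}

theorem class_two {R : Type*} [Group R] [Finite R] [Group.IsNilpotent R]
    (h : ∀ A : Subgroup R, A.Characteristic → IsMulCommutative A → IsCyclic A)
    (h1 : Monoid.exponent R ≤ Nat.card (Subgroup.center R)) : commutator R ≤ Subgroup.center R := by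
  have k : ∀ N, (⊤ : Subgroup R).lowerCentralSeries (N + 1) ≤ Subgroup.center R →
      commutator R ≤ Subgroup.center R := fun N => by
    induction N with
    | zero => exact id
    | succ N ih =>
      refine fun h2 => ih ?_
      set B := (⊤ : Subgroup R).lowerCentralSeries (N + 1)
      have h3 : ⁅⁅B, ⊤⁆, (⊤ : Subgroup R)⁆ = ⊥ := Subgroup.commutator_eq_bot_iff_le_centralizer.2
        (h2.trans (Subgroup.center_le_centralizer _))
      have h4 : ⁅commutator R, B⁆ = ⊥ := Subgroup.commutator_commutator_eq_bot_of_rotate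
        (by rwa [Subgroup.commutator_comm ⊤ B]) h3
      have h5 : B ≤ commutator R := Subgroup.lowerCentralSeries_antitone ⊤ (show 1 ≤ N + 1 by omega)
      have h6 : IsMulCommutative (B ⊔ Subgroup.center R : Subgroup R) := by
        rw [← Subgroup.le_centralizer_iff_isMulCommutative]
        refine sup_le (Subgroup.le_centralizer_iff.1 (sup_le ?_ ?_)) ?_
        · exact h5.trans (Subgroup.commutator_eq_bot_iff_le_centralizer.1 h4)
        all_goals exact Subgroup.center_le_centralizer _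
      have := h _ inferInstance h6
      refine le_sup_left.trans (Subgroup.eq_of_le_of_card_ge le_sup_right ?_).ge
      exact (Nat.le_of_dvd (Monoid.ExponentExists.of_finite.exponent_pos) (IsCyclic.exponent_eq_card.symm.dvd.trans
        (Monoid.exponent_dvd_of_monoidHom _ (Subgroup.subtype_injective _)))).trans h1
  obtain ⟨N, hN⟩ := Subgroup.nilpotent_iff_lowerCentralSeries.1 ‹_›
  exact k N ((Subgroup.lowerCentralSeries_antitone ⊤ (Nat.le_succ N)).trans (hN.le.trans bot_le))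

theorem heis_of_symp [Finite F] [Nonempty ι] {r : ℕ} {R : Subgroup (GL ι F)}
    (h : IsSymplecticTypeGroup r R) (h1 : env F R = ⊤)
    (h2 : Nat.card (Subgroup.center R) = r * Nat.gcd 2 r) : Heis R ∧ ∃ m, Fintype.card ι = r ^ m := by
  have := Fact.mk h.prime
  have := h.pGroup.isNilpotent
  have h3 : Heis R := ⟨h1, fun x hx => by
    have h4 := comm_le_left (Nm.self R) hx
    obtain ⟨c, hc⟩ := scalar_of_env h1 (z := x) fun y hy => congrArg (fun a : R => (a.1 : Matrix ι ι F))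
      (Subgroup.mem_center_iff.1 (class_two h.cyclic_of_characteristic (h.exponent_eq.trans h2.symm).le
        ((mem_commutator_subtype (g := ⟨x, h4⟩)).2 hx)) ⟨y, hy⟩).symm
    exact mem_scalars_of_eq hc⟩
  obtain ⟨j, hj⟩ := (h.pGroup.to_quotient ((scalars ι F).subgroupOf R)).exists_card_eq
  obtain ⟨m, -, hm⟩ := (Nat.dvd_prime_pow h.prime).1 ((dvd_pow_self _ two_ne_zero).trans
    (h3.card_quot.symm.trans hj).dvd)
  exact ⟨h3, m, hm⟩

theorem det_tp {κ : Type} [Fintype κ] [DecidableEq κ] (e : ι ≃ κ) (P : GL ι F) (X : Matrix κ κ F) :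
    (tp e P X).det = X.det := by
  rw [tp, AlgEquiv.trans_apply, cj_apply, det_units_conj]; simp

/-- block monomial matrices -/
def bm {t : ℕ} {κ : Type} [DecidableEq κ] (s : Equiv.Perm (Fin t)) (A : Fin t → Matrix κ κ F) :
    Matrix (κ × Fin t) (κ × Fin t) F :=
  (blockDiagonal A).submatrix (Equiv.prodCongrRight fun _ => s) id

theorem bm_apply {t : ℕ} {κ : Type} [DecidableEq κ] (s : Equiv.Perm (Fin t))
    (A : Fin t → Matrix κ κ F) (x y : κ × Fin t) :
    bm s A x y = if s x.2 = y.2 then A y.2 x.1 y.1 else 0 := by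
  simp only [bm, submatrix_apply, blockDiagonal_apply, id]
  split_ifs with h1 h2 h2
  · rw [← h2]; rfl
  · exact absurd h1 h2
  · exact absurd h2 h1
  · rfl

theorem det_bm {t : ℕ} {κ : Type} [Fintype κ] [DecidableEq κ] (s : Equiv.Perm (Fin t))
    (A : Fin t → Matrix κ κ F) :
    (bm s A).det = ((Equiv.Perm.sign s : ℤ) : F) ^ Fintype.card κ * ∏ j, (A j).det := by
  rw [bm, det_permute, det_blockDiagonal, Equiv.Perm.sign_prodCongrRight]; simp

theorem pull_bm {t : ℕ} {κ : Type} [Fintype κ] [DecidableEq κ] (s : Equiv.Perm (Fin t))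
    (A : Fin t → Matrix κ κ F) (Γ : Matrix κ κ F) : pull σ (blockDiagonal fun _ => Γ) (bm s A) =
      blockDiagonal fun j => pull σ Γ (A j) := by
  have : (blockDiagonal fun _ : Fin t => Γ) = (blockDiagonal fun _ : Fin t => Γ).submatrix
      (Equiv.prodCongrRight fun _ => s) (Equiv.prodCongrRight fun _ => s) := by
    ext; simp [blockDiagonal_apply]
  rw [this, pull, bm, transpose_submatrix, ← submatrix_map, submatrix_mul_equiv, submatrix_mul_equiv,
    submatrix_id_id, blockDiagonal_map _ _ (map_zero σ), blockDiagonal_transpose, ← blockDiagonal_mul,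
    ← blockDiagonal_mul]
  rfl

theorem exists_bm {t m : ℕ} {D : Fin t → Submodule F (ι → F)} (hD : IsMDecomposition m D) :
    ∃ (e : ι ≃ Fin m × Fin t) (P : GL ι F), (∀ j x, (P : Matrix ι ι F) *ᵥ (x ∘ e) ∈ D j ↔
      ∀ a i, i ≠ j → x (a, i) = 0) ∧ ∀ g ∈ decompositionStabilizer D,
      ∃ s A, (g : Matrix ι ι F) = tp e P (bm s A) := by
  have hI := DirectSum.isInternal_submodule_of_iSupIndep_of_iSup_eq_top hD.indep hD.iSup_eq_top
  let v := fun i => finBasisOfFinrankEq F (D i) (hD.finrank_eq i)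
  let b := (hI.collectedBasis v).reindex ((Equiv.sigmaEquivProd _ _).trans (Equiv.prodComm _ _))
  obtain ⟨e, P, hP⟩ := exists_tp_of_basis b
  have k : ∀ j x, (P : Matrix ι ι F) *ᵥ (x ∘ e) ∈ D j ↔ ∀ a i, i ≠ j → x (a, i) = 0 := fun j x => by
    refine ⟨fun h a i hi => ?_, fun h => hP x ▸ sum_mem fun y _ => ?_⟩
    · have := hI.collectedBasis_repr_of_mem_ne v hi.symm (a := a) h
      have h2 := (hI.collectedBasis v).repr_reindex_apply ((P : Matrix ι ι F) *ᵥ (x ∘ e))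
        ((Equiv.sigmaEquivProd _ _).trans (Equiv.prodComm _ _)) (a, i)
      exact (congrFun (b.repr_sum_self x) _).symm.trans (hP x ▸ h2.trans this)
    · by_cases hy : y.2 = j
      · exact Submodule.smul_mem _ _ (by rw [← hy, Basis.reindex_apply]; exact hI.collectedBasis_mem v ⟨y.2, y.1⟩)
      · rw [h y.1 y.2 hy, zero_smul]; exact zero_mem _
  refine ⟨e, P, k, fun g ⟨s, hs⟩ => ?_⟩
  obtain ⟨X, hX⟩ := (tp e P).surjective g
  refine ⟨s.symm, fun j => of fun a b => X (a, s j) (b, j), hX ▸ congrArg _ ?_⟩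
  ext x y
  rw [bm_apply]
  split_ifs with h
  · rw [of_apply, ← h, s.apply_symm_apply, h]
  · have h1 : toLin' (g : Matrix ι ι F) (P *ᵥ (Pi.single y 1 ∘ e)) ∈ D (s y.2) :=
      hs y.2 ▸ Submodule.mem_map_of_mem ((k _ _).2 fun a i hi => Pi.single_eq_of_ne (by
        rintro rfl; exact hi rfl) _)
    rw [toLin'_apply, ← hX, tp_mulVec, k] at h1
    simpa using h1 x.1 x.2 fun e => h (by rw [e, s.symm_apply_apply])

theorem HF.blockDiagonal {κ : Type} [Fintype κ] [DecidableEq κ] {ε : F} {Γ : GL κ F} (h : HF σ ε Γ)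
    (t : ℕ) : ∃ Γ' : GL (κ × Fin t) F, HF σ ε Γ' ∧
      (Γ' : Matrix (κ × Fin t) (κ × Fin t) F) = Matrix.blockDiagonal fun _ => (Γ : Matrix κ κ F) :=
  ⟨Units.map (blockDiagonalRingHom κ (Fin t) F).toMonoidHom (Units.map (Pi.constRingHom _ _).toMonoidHom Γ),
    ⟨h.invol, h.eps, by
      change ((Matrix.blockDiagonal fun _ => (Γ : Matrix κ κ F)).map σ)ᵀ = ε • Matrix.blockDiagonal fun _ => _
      rw [blockDiagonal_map _ _ (map_zero σ), blockDiagonal_transpose, ← blockDiagonal_smul]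
      exact congrArg _ (funext fun _ => h.symm)⟩, rfl⟩

theorem decomp_le_sim [Nonempty ι] {t m : ℕ} {D : Fin t → Submodule F (ι → F)}
    (hD : IsMDecomposition m D) {ε : F} {Γ : GL (Fin m) F} (h : HF σ ε Γ) {H : Subgroup (GL ι F)}
    (h1 : H ≤ decompositionStabilizer D) (h2 : ∀ g ∈ H, ∀ (A : Fin t → Matrix (Fin m) (Fin m) F) (s : ℤˣ),
      (g : Matrix ι ι F).det = ((s : ℤ) : F) ^ m * ∏ j, (A j).det →
        ∃ l : F, ∀ j, pull σ (Γ : Matrix (Fin m) (Fin m) F) (A j) = l • (Γ : Matrix (Fin m) (Fin m) F)) :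
    ∃ Γ' : GL ι F, HF σ ε Γ' ∧ H ≤ similarityGroup (fm σ (Γ' : Matrix ι ι F)) := by
  obtain ⟨e, P, -, h3⟩ := exists_bm hD
  obtain ⟨Γ₁, h4, h5⟩ := h.blockDiagonal t
  obtain ⟨Γ', h6, h7⟩ := exists_tg e P h4
  refine ⟨Γ', h6, fun g hg => mem_sim_iff.2 ?_⟩
  obtain ⟨s, A, h8⟩ := h3 g (h1 hg)
  obtain ⟨l, hl⟩ := h2 g hg A (Equiv.Perm.sign s) (by rw [h8, det_tp, det_bm, Fintype.card_fin])
  refine ⟨l, ?_⟩
  rw [h7, h8, h5, pull_tg, pull_bm, ← tg_smul, ← blockDiagonal_smul]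
  exact congrArg _ (congrArg _ (funext hl))

theorem hf_one (h : ∀ a, σ (σ a) = a) : HF σ 1 (1 : GL ι F) := ⟨h, .inl rfl, by simp⟩

theorem form_cases [Fintype F] {H : Subgroup (GL ι F)} (hn : 2 ≤ Fintype.card ι) (hI : Irr H) {ε : F}
    {Γ : GL ι F} (h : HF σ ε Γ) (h1 : σ ≠ RingHom.id F → ε = 1)
    (hH : H ≤ similarityGroup (fm σ (Γ : Matrix ι ι F))) :
    (Odd (Fintype.card F) ∧ ∃ Q, IsNondegenerateQuadraticForm Q ∧ H ≤ quadSimilarityGroup Q) ∨
    (Even (Fintype.card ι) ∧ ∃ f, IsSymplecticForm f ∧ H ≤ similarityGroup f) ∨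
    ∃ (τ : F ≃+* F) (f : _), IsUnitaryForm τ f ∧ H ≤ similarityGroup f := by
  by_cases hσ : σ = RingHom.id F
  · subst hσ
    by_cases ha : ∀ v, fm (RingHom.id F) (Γ : Matrix ι ι F) v v = 0
    · exact .inr (.inl ⟨even_of_alt ha, _, HF.symplectic ha, hH⟩)
    have h2 : (2 : F) ≠ 0 := fun h2 => ha (alt_of_irr h2 h hI hn hH)
    obtain rfl : ε = 1 := h.eps.resolve_right (by rintro rfl; exact ha (h.alt_of_neg h2))
    exact .inl ⟨two_ne_zero_iff.1 h2, fun v => fm (RingHom.id F) (Γ : Matrix ι ι F) v v, quad_of_polar h2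
      (fun c v => by rw [fm_smul_left, fm_smul_right]; simp; ring) h.polar,
      fun g hg => (hH hg).imp fun c hc v => hc v v⟩
  · obtain ⟨τ, hτ⟩ := (h1 hσ ▸ h).unitary hσ
    exact .inr (.inr ⟨τ, _, hτ, hH⟩)

theorem fld_case [Fintype F] [Nonempty ι] {H : Subgroup (GL ι F)} {K : Subalgebra F (Matrix ι ι F)}
    (h : Fld K) (h0 : K ≠ ⊥) (h1 : Nz H K) : ∃ r K₀, r.Prime ∧ r ∣ Fintype.card ι ∧
      IsFieldSubalgebra r K₀ ∧ H ≤ subalgebraNormalizer K₀ :=
  let ⟨r, K₀, a, b, c, _, d, _⟩ := h.exists_prime h0 h1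
  ⟨r, K₀, a, b.trans h.finrank_dvd, c, d.le_normalizer⟩

/-- the first tensor factor -/
def kronL (κ μ : Type) [Fintype κ] [DecidableEq κ] [Fintype μ] [DecidableEq μ] (F : Type u)
    [Field F] : Matrix κ κ F →ₐ[F] Matrix (κ × μ) (κ × μ) F where
  toFun X := X ⊗ₖ 1
  map_one' := one_kronecker_one
  map_mul' X Y := by rw [← mul_kronecker_mul, mul_one]
  map_zero' := zero_kronecker _
  map_add' X Y := add_kronecker _ _ _
  commutes' c := by simp [Algebra.algebraMap_eq_smul_one, smul_kronecker]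

theorem kronL_apply {κ μ : Type} [Fintype κ] [DecidableEq κ] [Fintype μ] [DecidableEq μ]
    (X : Matrix κ κ F) : kronL κ μ F X = X ⊗ₖ 1 := rfl

theorem cj_kronG {κ μ : Type} [Fintype κ] [DecidableEq κ] [Fintype μ] [DecidableEq μ] (a : GL κ F)
    (b : GL μ F) (X : Matrix κ κ F) (Y : Matrix μ μ F) :
    cj (kronG κ μ F (a, b)) (X ⊗ₖ Y) = cj a X ⊗ₖ cj b Y := by
  rw [cj_apply, ← map_inv, Prod.inv_mk, kronG_coe, kronG_coe, ← mul_kronecker_mul, ← mul_kronecker_mul]
  rfl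

theorem Fld.map [Nonempty ι] {κ : Type} [Fintype κ] [DecidableEq κ] {K : Subalgebra F (Matrix κ κ F)}
    (h : Fld K) (φ : Matrix κ κ F →ₐ[F] Matrix ι ι F) : Fld (K.map φ) := by
  constructor
  · rintro _ ⟨x, hx, rfl⟩ _ ⟨y, hy, rfl⟩
    exact (map_mul φ _ _).symm.trans ((congrArg φ (h.comm x hx y hy)).trans (map_mul φ _ _))
  · rintro _ ⟨x, hx, rfl⟩ h0
    obtain ⟨y, a, b⟩ := h.inv x hx fun e => h0 (e ▸ map_zero φ)
    exact ⟨φ y, ⟨y, a, rfl⟩, (map_mul φ _ _).symm.trans (b ▸ map_one φ)⟩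

theorem eq_zero_or_one [Fintype F] (h : Fintype.card F = 2) (a : F) : a = 0 ∨ a = 1 :=
  or_iff_not_imp_left.2 fun h0 => by simpa [h] using FiniteField.pow_card_sub_one_eq_one a h0

/-- the field with four elements inside the two by two matrices -/
def K4 (F : Type u) [Field F] : Subalgebra F (Matrix (Fin 2) (Fin 2) F) where
  carrier := {X | X 0 0 + X 0 1 = X 1 1 ∧ X 1 0 = X 0 1}
  mul_mem' := by
    rintro X Y ⟨a, b⟩ ⟨c, d⟩
    simp only [Set.mem_setOf_eq, mul_apply, Fin.sum_univ_two, ← a, ← c, b, d]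
    constructor <;> ring
  add_mem' := by
    rintro X Y ⟨a, b⟩ ⟨c, d⟩
    simp only [Set.mem_setOf_eq, Matrix.add_apply, ← a, ← c, b, d, and_true]
    ring
  algebraMap_mem' c := by simp [Algebra.algebraMap_eq_smul_one]

theorem fld_K4 [Fintype F] (h : Fintype.card F = 2) : Fld (K4 F) ∧ Nz ⊤ (K4 F : Set (Matrix (Fin 2) (Fin 2) F)) := by
  have h2 : (1 : F) + 1 = 0 := by
    rw [one_add_one_eq_two]; by_contra e; exact absurd (two_ne_zero_iff.1 e) (by rw [h]; decide)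
  have k : ∀ X : Matrix (Fin 2) (Fin 2) F, X ∈ K4 F ↔ X = 0 ∨ X = 1 ∨ X * X + X + 1 = 0 := fun X => by
    change (_ ∧ _) ↔ _
    rw [X.eta_fin_two, one_fin_two]
    rcases eq_zero_or_one h (X 0 0) with a | a <;> rcases eq_zero_or_one h (X 0 1) with b | b <;>
      rcases eq_zero_or_one h (X 1 0) with c | c <;> rcases eq_zero_or_one h (X 1 1) with d | d <;>
      simp [a, b, c, d, h2, ← Matrix.ext_iff]
  refine ⟨⟨?_, fun X hX h0 => ?_⟩, fun g _ X hX => ?_⟩
  · rintro X ⟨a, b⟩ Y ⟨c, d⟩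
    ext i j
    fin_cases i <;> fin_cases j <;> simp [mul_apply, ← a, ← c, b, d] <;> ring
  · rcases ((k X).1 hX).resolve_left h0 with rfl | e
    · exact ⟨1, one_mem _, one_mul _⟩
    · exact ⟨-(X + 1), neg_mem (add_mem hX (one_mem _)), by
        rw [mul_neg, mul_add, mul_one, neg_eq_iff_add_eq_zero, e]⟩
  · refine (k _).2 (((k X).1 hX).imp (fun e => by rw [e, map_zero]) (Or.imp (fun e => by rw [e, map_one])
      fun e => ?_))
    rw [← map_mul, ← map_add, ← map_one (cj g), ← map_add, e, map_zero]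

theorem tensor_two [Fintype F] (h : Fintype.card F = 2) {l : ℕ} (hl : 0 < l) (e : ι ≃ Fin 2 × Fin l)
    (P : GL ι F) : ∃ r K₀, r.Prime ∧ r ∣ Fintype.card ι ∧ IsFieldSubalgebra r K₀ ∧
      tensorProductSubgroup 2 l e P ≤ subalgebraNormalizer K₀ := by
  have : Nonempty ι := ⟨e.symm (0, ⟨0, hl⟩)⟩
  refine fld_case ((fld_K4 h).1.map ((tp e P).toAlgHom.comp (kronL _ _ F))) (fun e0 => ?_) ?_
  · obtain ⟨c, hc⟩ := Algebra.mem_bot.1 (e0.le ⟨!![0, 1; 1, 1], ⟨by simp, by simp⟩, rfl⟩)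
    simpa [kronL_apply] using congrFun (congrFun (tp_eq_smul (hc.symm.trans
      (Algebra.algebraMap_eq_smul_one c))) (0, ⟨0, hl⟩)) (1, ⟨0, hl⟩)
  · rintro g hg _ ⟨X, hX, rfl⟩
    obtain ⟨a, b, rfl⟩ := mem_tensor_iff.1 hg
    refine ⟨cj a X, (fld_K4 h).2 a trivial X hX, ?_⟩
    have : tp e P (cj a X ⊗ₖ 1) = cj (tpG e P (kronG _ _ F (a, b))) (tp e P (X ⊗ₖ 1)) := by
      rw [cj_tpG, cj_kronG, map_one]
    exact this

end CfsgH5.As
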