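import Cfsg.Agent.H5.As10

set_option autoImplicit false

/-! Two small exceptional configurations and the special linear group. -/

namespace CfsgH5.As

open Matrix Module Cfsg.Geo
open scoped Kronecker commutatorElement

universe u

variable {ι : Type} [Fintype ι] [DecidableEq ι] {F : Type u} [Field F] {σ : F →+* F}

/-- the prime field in characteristic two -/
def F01 (h : (1 : F) + 1 = 0) : Subfield F where
  carrier := {x | x = 0 ∨ x = 1}
  mul_mem' := by rintro _ _ (rfl | rfl) (rfl | rfl) <;> simp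
  one_mem' := .inr rfl
  add_mem' := by rintro _ _ (rfl | rfl) (rfl | rfl) <;> simp [h]
  zero_mem' := .inl rfl
  neg_mem' := by rintro _ (rfl | rfl) <;> simp [neg_eq_iff_add_eq_zero, h]
  inv_mem' := by rintro _ (rfl | rfl) <;> simp

theorem one_add_one_of_even [Fintype F] (h : Even (Fintype.card F)) : (1 : F) + 1 = 0 := by
  rw [one_add_one_eq_two]; by_contra e; exact Nat.not_even_iff_odd.2 (two_ne_zero_iff.1 e) h

theorem natDegree_minpoly {K : Type*} [Field K] [Algebra F K] {r : ℕ} (hr : r.Prime)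
    (h : finrank F K = r) {x : K} (hx : x ∉ (algebraMap F K).range) : (minpoly F x).natDegree = r := by
  have := FiniteDimensional.of_finrank_pos (h ▸ hr.pos)
  exact ((Nat.dvd_prime hr).1 (h ▸ minpoly.degree_dvd (Algebra.IsIntegral.isIntegral x))).resolve_left
    fun e => hx (minpoly.natDegree_eq_one_iff.1 e)

theorem singer_aux [Fintype F] (hF : Fintype.card F = 4) {K : Type*} [Field K] [Algebra F K]
    (hK : finrank F K = 3) (h2 : (1 : F) + 1 = 0) : (∀ k : K, k ≠ 0 → k ^ 63 = 1) ∧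
    (∀ z : K, z ^ 3 = 1 → z ∈ (algebraMap F K).range) ∧ ∃ y : K, y ^ 8 = y ∧
      (LinearIndependent F fun i : Fin 3 => y ^ (i : ℕ)) ∧
      ∀ l : K, l ^ 8 = l → ∃ u : Fin 3 → F, (∀ i, u i ∈ F01 h2) ∧ l = ∑ i, u i • y ^ (i : ℕ) := by
  classical
  have := FiniteDimensional.of_finrank_pos (hK ▸ three_pos)
  have := Module.finite_of_finite F (M := K)
  have := Fintype.ofFinite K
  have hc : Fintype.card K = 64 := by rw [Module.card_eq_pow_finrank (K := F), hK, hF]; rfl
  have := Fact.mk Nat.prime_three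
  have := Fact.mk (by decide : Nat.Prime 7)
  refine ⟨fun k hk => by simpa [hc] using FiniteField.pow_card_sub_one_eq_one k hk, fun z hz => ?_, ?_⟩
  · obtain ⟨w, hw⟩ := exists_prime_orderOf_dvd_card (G := Fˣ) 3 (by rw [Fintype.card_units, hF])
    obtain ⟨i, -, rfl⟩ := ((IsPrimitiveRoot.coe_units_iff.2 (hw ▸ IsPrimitiveRoot.orderOf w)).map_of_injective
      (algebraMap F K).injective).eq_pow_of_pow_eq_one hz
    exact ⟨w ^ i, map_pow _ _ _⟩
  obtain ⟨y, hy⟩ := exists_prime_orderOf_dvd_card (G := Kˣ) 7 (by rw [Fintype.card_units, hc]; decide)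
  have hp : IsPrimitiveRoot (y : K) 7 := IsPrimitiveRoot.coe_units_iff.2 (hy ▸ IsPrimitiveRoot.orderOf y)
  have h3 : (1 : K) + 1 = 0 := by simpa using congrArg (algebraMap F K) h2
  have h4 := natDegree_minpoly Nat.prime_three hK (x := (y : K)) (by
    rintro ⟨c, hc⟩
    have h0 : c ≠ 0 := by rintro rfl; exact y.ne_zero (by simpa using hc.symm)
    have := FiniteField.pow_card_sub_one_eq_one c h0
    exact absurd (hp.dvd_of_pow_eq_one 3 (by rw [← hc, ← map_pow, ← map_one (algebraMap F K), ← this, hF]))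
      (by decide))
  refine ⟨y, by rw [pow_succ, hp.pow_eq_one, one_mul], h4 ▸ linearIndependent_pow (y : K), fun l hl => ?_⟩
  by_cases h0 : l = 0
  · exact ⟨0, fun _ => zero_mem _, by simp [h0]⟩
  obtain ⟨i, -, rfl⟩ := hp.eq_pow_of_pow_eq_one (ξ := l) (by rwa [pow_succ, mul_eq_right₀ h0] at hl)
  have h5 : ∃ a ∈ F01 h2, ∃ b ∈ F01 h2, (y : K) ^ 3 = 1 + a • (y : K) + b • (y : K) ^ 2 := by
    have : ((y : K) - 1) * (((y : K) ^ 3 - (1 + y)) * (y ^ 3 - (1 + y ^ 2))) = 0 := by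
      linear_combination hp.pow_eq_one + (-(y : K) ^ 6 + y ^ 3) * h3
    rcases mul_eq_zero.1 ((mul_eq_zero.1 this).resolve_left
      (sub_ne_zero.2 (hp.ne_one (by decide)))) with e | e
    · exact ⟨1, one_mem _, 0, zero_mem _, by simpa [sub_eq_zero] using e⟩
    · exact ⟨0, zero_mem _, 1, one_mem _, by simpa [sub_eq_zero] using e⟩
  obtain ⟨a, ha, b, hb, h5⟩ := h5
  clear hl h0
  induction i with
  | zero => exact ⟨Pi.single 0 1, fun i => by fin_cases i <;> simp, by simp [Fin.sum_univ_three]⟩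
  | succ i ih =>
    obtain ⟨u, h6, h7⟩ := ih
    refine ⟨![u 2, u 0 + u 2 * a, u 1 + u 2 * b], fun i => ?_, ?_⟩
    · fin_cases i <;> simp [h6, add_mem, mul_mem, ha, hb]
    · simp only [pow_succ _ i, h7, Fin.sum_univ_three, Algebra.smul_def] at h5 ⊢
      simp
      linear_combination algebraMap F K (u 2) * h5

theorem singer_four [Fintype F] (hF : Fintype.card F = 4) {K : Subalgebra F (Matrix (Fin 3) (Fin 3) F)}
    (hK : IsFieldSubalgebra 3 K) : ∃ (F₀ : Subfield F) (P : GL (Fin 3) F), F₀ ≠ ⊤ ∧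
      subalgebraNormalizer K ⊓ specialLinear _ F ≤ subfieldSubgroup F₀ P := by
  classical
  have h := fld_of_fs hK
  letI := h.isField.toField
  have h2 := one_add_one_of_even (F := F) (by rw [hF]; decide)
  obtain ⟨a1, a2, y, a3, a4, a5⟩ := singer_aux hF hK.finrank_eq h2
  let v : Fin 3 → F := Pi.single 0 1
  have hv : v ≠ 0 := by simp [v]
  let M : Matrix (Fin 3) (Fin 3) F := of fun i j => ((y ^ (j : ℕ)).1 *ᵥ v) i
  have hM : ∀ u, M *ᵥ u = (∑ i, u i • y ^ (i : ℕ) : K).1 *ᵥ v := fun u => by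
    ext i; simp [M, Fin.sum_univ_three, mulVec, dotProduct, add_mul]; ring
  obtain ⟨P, hP⟩ : IsUnit M := mulVec_injective_iff_isUnit.1 ((injective_iff_map_eq_zero M.mulVecLin).2
    fun u hu => funext (Fintype.linearIndependent_iff.1 a4 u (Subtype.ext
      (h.mulVec_eq_zero (Subtype.property _) hv ((hM u).symm.trans hu)))))
  have b1 : ∀ x : Matrix (Fin 3) (Fin 3) F, (∀ l : K, l ^ 8 = l → ∃ l' : K, l' ^ 8 = l' ∧
      x *ᵥ (l.1 *ᵥ v) = l'.1 *ᵥ v) → cj P⁻¹ x ∈ Ov (F01 h2) := fun x hx => mem_Ov.2 fun i j => by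
    obtain ⟨l, h3, h4⟩ := hx (y ^ (j : ℕ)) (by rw [← pow_mul, mul_comm, pow_mul, a3])
    obtain ⟨u, h5, rfl⟩ := a5 l h3
    have : cj P⁻¹ x *ᵥ Pi.single j 1 = u := by
      rw [← inv_mulVec_mulVec P (Pi.single j 1), cj_mulVec, hP, mulVec_single_one]
      exact (congrArg _ (h4.trans ((hM u).symm.trans (hP ▸ rfl)))).trans (inv_mulVec_mulVec P u)
    simpa [← this] using h5 i
  refine ⟨F01 h2, P, fun e => ?_, fun g ⟨g1, g2⟩ => ?_⟩
  · have := Finset.card_le_card (show Finset.univ ⊆ ({0, 1} : Finset F) from fun x _ => by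
      rw [Finset.mem_insert, Finset.mem_singleton]; exact e.ge (Subfield.mem_top x))
    exact absurd (this.trans Finset.card_le_two) (by simp [hF])
  obtain ⟨k, hk⟩ : ∃ k : K, (g : Matrix (Fin 3) (Fin 3) F) *ᵥ v = k.1 *ᵥ v :=
    ⟨_, by rw [← hM, ← hP, mulVec_inv_mulVec]⟩
  have h0 : k ≠ 0 := by rintro rfl; exact hv (gl_mulVec_eq_zero.1 (by simpa using hk))
  have h3 := b1 ((k ^ 35).1 * g) fun l hl => ⟨⟨cj g l.1, (g1 _).1 l.2⟩ * k ^ 36, by
    rw [mul_pow, show (k ^ 36) ^ 8 = (k ^ 63) ^ 4 * k ^ 36 by ring, a1 k h0, one_pow, one_mul]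
    refine congrArg (· * _) (Subtype.ext ?_)
    rw [SubmonoidClass.coe_pow, ← map_pow, ← SubmonoidClass.coe_pow, hl], by
      rw [← mulVec_mulVec, ← cj_mulVec, hk, mulVec_mulVec, mulVec_mulVec, mul_comm _ (k ^ 36),
        pow_add k 35 1, pow_one, mul_right_comm]
      simp only [MulMemClass.coe_mul]⟩
  have h4 : (k ^ 35).1.det = 1 := by
    have h5 := det_mem_of_Ov h3
    rw [cj_apply, det_units_conj, det_mul, show (g : Matrix (Fin 3) (Fin 3) F).det = 1 from
      congrArg Units.val g2, mul_one] at h5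
    refine h5.resolve_left (IsUnit.ne_zero ((isUnit_iff_isUnit_det _).1 ?_))
    exact ((pow_ne_zero 35 h0).isUnit).map K.val
  obtain ⟨c, hc⟩ : k ^ 35 ∈ (algebraMap F K).range := by
    by_contra h5
    obtain ⟨w, hw⟩ := a2 ((k ^ 35) ^ 3) (by
      rw [show ((k ^ 35) ^ 3) ^ 3 = (k ^ 63) ^ 5 by ring, a1 k h0, one_pow])
    have h6 := natDegree_minpoly Nat.prime_three hK.finrank_eq h5
    have h7 : ∀ p : Polynomial F, p.Monic → p.natDegree = 3 → Polynomial.aeval (k ^ 35) p = 0 →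
        p = minpoly F (k ^ 35) := fun p a b c => Polynomial.eq_of_monic_of_dvd_of_natDegree_le
      (minpoly.monic (Algebra.IsIntegral.isIntegral _)) a (minpoly.dvd _ _ c) (b.trans h6.symm).le
    generalize k ^ 35 = z at *
    have h8 := (h7 _ z.1.charpoly_monic (by simp) (Subtype.ext
      ((Polynomial.aeval_algHom_apply K.val z z.1.charpoly).symm.trans (aeval_self_charpoly z.1) :))).trans
      (h7 _ (Polynomial.monic_X_pow_sub_C w three_ne_zero) Polynomial.natDegree_X_pow_sub_C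
        (by rw [map_sub, map_pow, Polynomial.aeval_X, Polynomial.aeval_C, hw, sub_self])).symm
    rw [det_eq_sign_charpoly_coeff, h8] at h4
    obtain rfl : w = 1 := by simpa [Odd.neg_one_pow (⟨1, rfl⟩ : Odd 3)] using h4
    exact h5 (a2 _ (by rw [← hw, map_one]))
  refine mem_subfieldSubgroup.2 ⟨c, by rintro rfl; exact pow_ne_zero 35 h0 (by simpa using hc.symm), ?_⟩
  rwa [← hc, Subalgebra.coe_algebraMap, ← Algebra.smul_def, map_smul] at h3

theorem exists_mono {t : ℕ} {D : Fin t → Submodule F (ι → F)} (hD : IsMDecomposition 1 D) :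
    ∃ (e : ι ≃ Fin t) (P : GL ι F), (∀ j x, (P : Matrix ι ι F) *ᵥ (x ∘ e) ∈ D j ↔
      ∀ i, i ≠ j → x i = 0) ∧ ∀ g ∈ decompositionStabilizer D, ∃ (s : Equiv.Perm (Fin t))
      (c : Fin t → F), (g : Matrix ι ι F) = tp e P ((diagonal c).submatrix s id) := by
  obtain ⟨e, P, h1, h2⟩ := exists_bm hD
  refine ⟨e.trans (Equiv.uniqueProd _ _), P, fun j x => (h1 j (x ∘ Prod.snd)).trans
    ⟨fun h => h 0, fun h _ => h⟩, fun g hg => ?_⟩
  obtain ⟨s, A, h⟩ := h2 g hg
  refine ⟨s, fun j => A j 0 0, h.trans (congrArg (cj P) ?_)⟩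
  ext a b
  change bm s A (e a) (e b) = diagonal (fun j => A j 0 0) (s (e a).2) (e b).2
  rw [bm_apply, diagonal_apply]
  split_ifs with h
  · rw [h, Subsingleton.elim (e a).1 0, Subsingleton.elim (e b).1 0]
  · rfl

theorem mem_SL {g : GL ι F} : g ∈ specialLinear ι F ↔ (g : Matrix ι ι F).det = 1 := Units.ext_iff

theorem exists_SL {X : Matrix ι ι F} (h : X.det = 1) : ∃ g ∈ specialLinear ι F,
    (g : Matrix ι ι F) = X := ⟨SpecialLinearGroup.toGL ⟨X, h⟩, mem_SL.2 h, rfl⟩

/-- Klein's configuration of sixty points -/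
def Om {R : Type*} [CommRing R] (x : Fin 4 → R) : Prop :=
  (∃ i j, i ≠ j ∧ x i = 0 ∧ x j = 0) ∨ (∏ i, x i) ^ 2 = 1

theorem om_map {R S : Type*} [CommRing R] [CommRing S] (φ : R ≃+* S) (x : Fin 4 → R) :
    Om (φ ∘ x) ↔ Om x := by simp [Om, ← map_prod, ← map_pow]

theorem om_five : ∀ a b c d : ZMod 5, Om ![a, b, c, d] ↔ Om ![-a - c, b + d, a - c, b - d] := by
  unfold Om; decide +kernel

theorem not_max_five [Fintype F] (hF : Fintype.card F = 5) {D : Fin 4 → Submodule F (ι → F)}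
    (hD : IsMDecomposition 1 D) :
    ¬ IsMaximalIn (specialLinear ι F) (decompositionStabilizer D ⊓ specialLinear ι F) := fun h => by
  obtain ⟨e, P, -, h1⟩ := exists_mono hD
  let K := Cfsg.stabilizing (Cfsg.glToMat ι F) ((fun x => (P : Matrix ι ι F) *ᵥ (x ∘ e)) '' {x | Om x})
  have k : ∀ (g : GL ι F) X, (g : Matrix ι ι F) = tp e P X → (g ∈ K ↔ ∀ x, Om x ↔ Om (X *ᵥ x)) :=
    fun g X hX => by
    have : Function.Injective fun x : Fin 4 → F => (P : Matrix ι ι F) *ᵥ (x ∘ e) := fun x y hxy =>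
      e.surjective.injective_comp_right (by simpa using congrArg ((P⁻¹ : GL ι F).1 *ᵥ ·) hxy)
    refine (Function.Surjective.forall fun v => (exists_mulVec_comp e P v).imp fun _ => Eq.symm).trans
      (forall_congr' fun x => iff_congr this.mem_set_image ?_)
    change (g : Matrix ι ι F) *ᵥ _ ∈ _ ↔ _
    rw [hX, tp_mulVec]
    exact this.mem_set_image
  have h5 : (5 : F) = 0 := by simpa [hF] using FiniteField.cast_card_eq_zero F
  rcases h.2 (K ⊓ specialLinear ι F) (inf_le_inf_right _ le_rfl |>.trans fun g ⟨g1, g2⟩ => ⟨by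
    obtain ⟨s, c, hg⟩ := h1 g g1
    have h2 := congrArg (· ^ 2) (mem_SL.1 g2)
    simp only [hg, det_tp, det_permute, det_diagonal, mul_pow, ← Int.cast_pow, ← Units.val_pow_eq_pow_val,
      Int.units_sq, Units.val_one, Int.cast_one, one_mul, one_pow] at h2
    have h3 : ∀ i, c i ≠ 0 := fun i hi => by
      rw [Finset.prod_eq_zero (Finset.mem_univ i) hi] at h2; simp at h2
    refine (k g _ hg).2 fun x => ?_
    have : (diagonal c).submatrix s id *ᵥ x = fun i => c (s i) * x (s i) := by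
      ext i; simp [mulVec, dotProduct, diagonal_apply]
    rw [this, Om, Om, Equiv.prod_comp s fun i => c i * x i, Finset.prod_mul_distrib, mul_pow, h2, one_mul,
      s.surjective.exists₂]
    simp [h3], g2⟩) inf_le_right with h2 | h2
  · obtain ⟨g, g1, g2⟩ := exists_SL (X := tp e P !![-1, 0, -1, 0; 0, 1, 0, 1; 1, 0, -1, 0; 0, 1, 0, -1])
      (by rw [det_tp]; simp [det_succ_row_zero, Fin.sum_univ_succ, Fin.succAbove]; linear_combination -h5)
    have h3 := h1 g (h2.le ⟨(k g _ g2).2 fun x => ?_, g1⟩).1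
    · obtain ⟨s, c, h3⟩ := h3
      have h4 := (tp e P).injective (g2.symm.trans h3)
      have h6 : ∀ j, (diagonal c).submatrix s id 0 j ≠ 0 → s 0 = j := fun j hj => by
        by_contra e; exact hj (diagonal_apply_ne _ e)
      exact absurd ((h6 0 (by rw [← h4]; simp)).symm.trans (h6 2 (by rw [← h4]; simp))) (by decide)
    · let φ := ZMod.ringEquivOfPrime F (by decide) hF
      obtain ⟨x, rfl⟩ := φ.surjective.comp_left x
      rw [om_map, show x = ![x 0, x 1, x 2, x 3] from by ext i; fin_cases i <;> rfl, om_five, ← om_map φ]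
      refine iff_of_eq (congrArg _ ?_)
      ext i
      fin_cases i <;> simp [mulVec, dotProduct, Fin.sum_univ_succ, sub_eq_add_neg]
  · obtain ⟨g, g1, g2⟩ := exists_SL (X := tp e P (transvection 0 1 1))
      (by rw [det_tp, det_transvection_of_ne _ _ (by decide)])
    have h3 := ((k g _ g2).1 (h2.ge g1).1 ![0, 1, 1, 0]).1 (.inl ⟨0, 3, by decide, rfl, rfl⟩)
    rw [show transvection 0 1 (1 : F) *ᵥ ![0, 1, 1, 0] = ![1, 1, 1, 0] by
      ext i; fin_cases i <;> simp [transvection, add_mulVec, single_mulVec_eq]] at h3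
    rcases h3 with ⟨i, j, a, b, c⟩ | a
    · fin_cases i <;> fin_cases j <;> simp_all
    · simp [Fin.prod_univ_four] at a

theorem exists_tv {i j : ι} (h : i ≠ j) (c : F) : ∃ g ∈ specialLinear ι F,
    (g : Matrix ι ι F) = 1 + single i j c := exists_SL (det_transvection_of_ne i j h c)

theorem env_SL (hn : 2 ≤ Fintype.card ι) : env F (specialLinear ι F) = ⊤ := by
  have k : ∀ i j c, i ≠ j → single i j c ∈ env F (specialLinear ι F) := fun i j c h => by
    obtain ⟨g, a, b⟩ := exists_tv h c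
    simpa [b] using sub_mem (mem_env (k := F) a) (one_mem _)
  refine eq_top_iff.2 fun x _ => matrix_eq_sum_single x ▸ sum_mem fun i _ => sum_mem fun j _ => ?_
  by_cases h : i = j
  · obtain ⟨l, hl⟩ := Fintype.exists_ne_of_one_lt_card hn i
    simpa [h] using mul_mem (k i l (x i j) hl.symm) (k l i 1 hl)
  · exact k i j _ h

theorem qs_SL [Finite F] {n : ℕ} (hn : 3 ≤ n) : ∃ p f, QS (specialLinear (Fin n) F) p f := by
  have : Nonempty (Fin n) := ⟨⟨0, by omega⟩⟩
  have := Fintype.ofFinite F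
  have h0 := env_SL (ι := Fin n) (F := F) (by simp; omega)
  obtain ⟨p, _, f, h1, h2⟩ := FiniteField.card' F
  obtain ⟨h3, h4⟩ := normal_of_simple (G := specialLinear (Fin n) F) slEquivKerDet
    (commutator_SL_eq_top (by simpa)) (PSL_isSimpleGroup (by simpa)) h0
  rw [← Nat.card_eq_fintype_card] at h2
  refine ⟨p, f, h3, h4, h0, by simp; omega, h1, f.2, h2 ▸ pow_dvd_pow _ (by omega), ?_⟩
  obtain ⟨m, -, h5⟩ := card_GL_eq (F := F) n
  rw [← card_units_mul_card_SL, Nat.card_congr slEquivKerDet.toEquiv, Nat.card_units] at h5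
  rw [pow_mul, ← h2, Fintype.card_fin]
  refine Nat.Coprime.dvd_of_dvd_mul_left (Nat.Coprime.pow_left _ (Nat.Coprime.symm
    ((Nat.coprime_self_sub_left Nat.card_pos).2 (Nat.coprime_one_left _))))
    (h5 ▸ (pow_dvd_pow _ ?_).mul_right _)
  rw [Nat.choose_two_right, Nat.le_div_iff_mul_le two_pos]
  exact Nat.mul_le_mul_left _ (by omega)

theorem exists_trace_SL (hn : 2 ≤ Fintype.card ι) {F₀ : Subfield F} (h : F₀ ≠ ⊤) :
    ∃ g ∈ specialLinear ι F, (g : Matrix ι ι F).trace ∉ F₀ := by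
  obtain ⟨c, hc⟩ : ∃ c, c ∉ F₀ := not_forall.1 fun e => h (eq_top_iff.2 fun x _ => e x)
  obtain ⟨i, j, hij⟩ := Fintype.one_lt_card_iff.1 hn
  obtain ⟨a, a1, a2⟩ := exists_tv hij c
  obtain ⟨b, b1, b2⟩ := exists_tv hij.symm (1 : F)
  refine ⟨a * b, mul_mem a1 b1, fun e => hc ?_⟩
  simpa [a2, b2, mul_add, add_mul, hij, hij.symm] using sub_mem e (natCast_mem F₀ (Fintype.card ι))

theorem SL_not_le_isoG (hn : 3 ≤ Fintype.card ι) {f : (ι → F) → (ι → F) → F}
    (h1 : ∀ x y v, f (x + y) v = f x v + f y v) (h2 : IsNondegenerateForm f) :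
    ¬ specialLinear ι F ≤ isoG f := fun h => by
  obtain ⟨k⟩ : Nonempty ι := Fintype.card_pos_iff.1 (by omega)
  obtain ⟨x, hx⟩ := (h2 (Pi.single k 1) (by simp)).1
  refine hx (Pi.single_induction (fun x => f x (Pi.single k 1) = 0) x
    (by simpa using h1 0 0 (Pi.single k 1)) (fun x y a b => by rw [h1, a, b, add_zero]) fun i c => ?_)
  obtain ⟨j, a, b⟩ := exists_ne_ne_of_three_le hn i k
  obtain ⟨g, g1, g2⟩ := exists_tv a.symm c
  have := h g1 (Pi.single j 1) (Pi.single k 1)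
  rwa [g2, add_mulVec, add_mulVec, one_mulVec, one_mulVec, single_mulVec_eq, single_mulVec_eq, h1,
    Pi.single_eq_of_ne b, mul_zero, zero_smul, add_zero, Pi.single_eq_same, mul_one, ← Pi.single_smul,
    smul_eq_mul, mul_one, add_eq_left] at this

end CfsgH5.As
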