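import Cfsg.Agent.H5.As11

set_option autoImplicit false

/-! Maximal subgroups of the special linear groups. -/

namespace CfsgH5.As

open Matrix Module Cfsg.Geo
open scoped Kronecker commutatorElement

universe u

variable {ι : Type} [Fintype ι] [DecidableEq ι] {F : Type u} [Field F] {σ : F →+* F}

theorem mod_eq_one_iff {z a : ℕ} (hz : 1 < z) (ha : 0 < a) : a % z = 1 ↔ z ∣ a - 1 := by
  rw [← Nat.modEq_iff_dvd' ha, Nat.ModEq, Nat.mod_eq_of_lt hz, eq_comm]

theorem minimal_mod [Fintype F] {r p e : ℕ} (h : IsMinimalFieldFor r p e F) (hr : r.Prime)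
    (hp : r ≠ p) : e < r ∧ (p % r) ^ e % r = 1 ∧ ∀ d, 0 < d → d < e → (p % r) ^ d % r ≠ 1 := by
  simp only [← Nat.pow_mod, ne_eq, mod_eq_one_iff hr.one_lt (pow_pos h.1.pos _)]
  refine ⟨not_le.1 fun e => h.2.2.2.2 (r - 1) (by have := hr.two_le; omega) (by have := hr.pos; omega)
    ((Nat.modEq_iff_dvd' (pow_pos h.1.pos _)).1 ?_), h.2.2.2⟩
  exact (Nat.totient_prime hr ▸ Nat.ModEq.pow_totient ((Nat.coprime_primes h.1 hr).2 hp.symm)).symm

theorem data_cases [Fintype F] {r : ℕ} {R : Subgroup (GL ι F)} (hn : 3 ≤ Fintype.card ι)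
    (h : IsLinearSymplecticTypeData r R) : (∃ m, Fintype.card ι = r ^ m) ∧ ∃ p e, p.Prime ∧ CharP F p ∧
      Fintype.card F = p ^ e ∧ ((Odd r ∧ Odd e ∧ e < r ∧ (p % r) ^ e % r = 1 ∧
        ∀ d, 0 < d → d < e → (p % r) ^ d % r ≠ 1) ∨ (r = 2 ∧ e = 1 ∧ p % 4 = 1)) := by
  have : Nonempty ι := Fintype.card_pos_iff.1 (by omega)
  have h0 := env_of_absIrr h.absIrred
  obtain ⟨p, e, h1, h2, ⟨a, b, c, -⟩ | ⟨rfl, rfl, c, -⟩ | ⟨-, -, c, -⟩⟩ := h.field
  · exact ⟨(heis_of_symp h.symplecticType h0 (by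
      rw [c, (Nat.coprime_two_left.2 a).gcd_eq_one, mul_one])).2, p, e, h2.1, h2.2.1, h2.2.2.1,
      .inl ⟨a, b, minimal_mod (c ▸ h2) h.symplecticType.prime h1⟩⟩
  · exact ⟨(heis_of_symp h.symplecticType h0 c).2, p, 1, h2.1, h2.2.1, h2.2.2.1, .inr ⟨rfl, rfl,
      (mod_eq_one_iff (by decide) h2.1.pos).2 (by simpa [c] using h2.2.2.2.1)⟩⟩
  · omega

theorem IsMDecomposition.card {t m : ℕ} {D : Fin t → Submodule F (ι → F)} (hD : IsMDecomposition m D) :
    m * t = Fintype.card ι := by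
  obtain ⟨e, -⟩ := exists_bm hD
  simp [Fintype.card_congr e]

theorem card_cases (F : Type u) [Field F] [Fintype F] : Fintype.card F ≠ 6 ∧ 2 ≤ Fintype.card F :=
  ⟨fun h => absurd (h ▸ FiniteField.isPrimePow_card F) (by decide), Fintype.one_lt_card⟩

theorem mul_self_of_card [Fintype F] (h : Fintype.card F ≤ 3) {a : F} (ha : a ≠ 0) : a * a = 1 := by
  have := FiniteField.pow_card_sub_one_eq_one a ha
  have h1 := card_cases F
  rcases (by omega : Fintype.card F = 2 ∨ Fintype.card F = 3) with h | h <;> simp_all [sq]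

theorem pull_one_fin_one (a : Matrix (Fin 1) (Fin 1) F) (h : a.det * σ a.det = 1) :
    pull σ ((1 : GL (Fin 1) F) : Matrix (Fin 1) (Fin 1) F) a =
      (1 : F) • ((1 : GL (Fin 1) F) : Matrix (Fin 1) (Fin 1) F) := by
  ext i j
  rw [Subsingleton.elim i 0, Subsingleton.elim j 0]
  simpa [pull, mul_apply] using h

theorem sl_max [Fintype F] {n : ℕ} (hn : 3 ≤ n) {H : Subgroup (GL (Fin n) F)}
    (hH : IsMaximalIn (specialLinear _ F) H) :
    (∃ W : Submodule F (Fin n → F), W ≠ ⊥ ∧ W ≠ ⊤ ∧ H = subspaceStabilizer W ⊓ specialLinear _ F) ∨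
    (∃ (t m : ℕ) (D : Fin t → Submodule F (Fin n → F)), IsMDecomposition m D ∧ m * t = n ∧
      (m = 1 → 5 ≤ Fintype.card F ∧ (n = 4 → 7 ≤ Fintype.card F)) ∧
      (m = 2 → 3 ≤ Fintype.card F ∧ (n = 4 → 4 ≤ Fintype.card F)) ∧
      H = decompositionStabilizer D ⊓ specialLinear _ F) ∨
    (∃ r K, r.Prime ∧ r ∣ n ∧ (n = 3 → Fintype.card F ≠ 4) ∧ IsFieldSubalgebra r K ∧
      H = subalgebraNormalizer K ⊓ specialLinear _ F) ∨
    (∃ k l e P, 2 ≤ k ∧ k < l ∧ k * l = n ∧ (k = 2 → 3 ≤ Fintype.card F) ∧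
      H = tensorProductSubgroup k l e P ⊓ specialLinear _ F) ∨
    (∃ (F₀ : Subfield F) (r : ℕ) (P : GL (Fin n) F), r.Prime ∧ Fintype.card F = Nat.card F₀ ^ r ∧
      H = subfieldSubgroup F₀ P ⊓ specialLinear _ F) ∨
    (∃ r R, IsLinearSymplecticTypeData r R ∧ H = subgroupNormalizer R ⊓ specialLinear _ F) ∨
    (∃ k t e P, 3 ≤ k ∧ 2 ≤ t ∧ k ^ t = n ∧ H = tensorWreathSubgroup k t e P ⊓ specialLinear _ F) ∨
    (Odd (Fintype.card F) ∧ ∃ Q, IsNondegenerateQuadraticForm Q ∧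
      H = quadSimilarityGroup Q ⊓ specialLinear _ F) ∨
    (Even n ∧ ∃ f, IsSymplecticForm f ∧ H = similarityGroup f ⊓ specialLinear _ F) ∨
    (∃ (τ : F ≃+* F) (f : _), IsUnitaryForm τ f ∧ H = similarityGroup f ⊓ specialLinear _ F) ∨
    InLinearResidualClass H := by
  have : Nonempty (Fin n) := ⟨⟨0, by omega⟩⟩
  have hn' : 3 ≤ Fintype.card (Fin n) := by simpa
  obtain ⟨p, f, hQ⟩ := qs_SL (F := F) hn
  rcases irr_or_stab H with hI | ⟨W, h1, h2, h3⟩
  swap
  · exact .inl ⟨W, h1, h2, eq_inf_of_max hH h3 (hQ.irr.not_le_stab h1 h2)⟩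
  by_contra hc
  simp only [not_or] at hc
  obtain ⟨-, c2, c3, c4, c5, c6, c7, c8, c9, c10, c11⟩ := hc
  have k5 : ∀ F₀ P, F₀ ≠ ⊤ → ¬ H ≤ subfieldSubgroup F₀ P := fun F₀ P h0 h1 => by
    obtain ⟨F₁, r, h2, h3, h4⟩ := exists_prime_index_subfield h0
    exact c5 ⟨F₁, r, P, h3, h4, eq_inf_of_max hH (h1.trans (subfieldSubgroup_mono h2 P))
      (hQ.not_le_subfield P (exists_trace_SL hQ.two_le (ne_top_of_card h3 h4)))⟩
  have k8 : ∀ Q, Odd (Fintype.card F) → IsNondegenerateQuadraticForm Q → ¬ H ≤ quadSimilarityGroup Q :=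
    fun Q a b c => c8 ⟨a, Q, b, eq_inf_of_max hH c fun e => SL_not_le_isoG hn' b.polar_bilinear.add_left
      b.nondegenerate fun g hg => polar_fix fun v => le_isoG_of_perfect hQ.perfect (quadSim_eq Q ▸ e) hg v v⟩
  have k9 : ∀ f, Even n → IsSymplecticForm f → ¬ H ≤ similarityGroup f := fun f a b c =>
    c9 ⟨a, f, b, eq_inf_of_max hH c fun e => SL_not_le_isoG hn' b.bilinear.add_left b.nondegenerate
      (le_isoG_of_perfect hQ.perfect e)⟩
  have k10 : ∀ τ f, IsUnitaryForm τ f → ¬ H ≤ similarityGroup f := fun τ f b c =>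
    c10 ⟨τ, f, b, eq_inf_of_max hH c fun e => SL_not_le_isoG hn' b.add_left b.nondegenerate
      (le_isoG_of_perfect hQ.perfect e)⟩
  have kf : ∀ (σ : F →+* F) ε, (σ ≠ RingHom.id F → ε = 1) → ¬ ∃ Γ : GL (Fin n) F, HF σ ε Γ ∧
      H ≤ similarityGroup (fm σ (Γ : Matrix (Fin n) (Fin n) F)) := fun σ ε a ⟨Γ, b, c⟩ => by
    rcases form_cases hQ.two_le hI b a c with ⟨d, Q, e, g⟩ | ⟨d, f, e, g⟩ | ⟨τ, f, e, g⟩
    exacts [k8 Q d e g, k9 f (by simpa using d) e g, k10 τ f e g]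
  have k3 : ∀ r K, r.Prime → IsFieldSubalgebra r K → ¬ H ≤ subalgebraNormalizer K := fun r K a b c => by
    have h1 : r ∣ n := by simpa [b.finrank_eq] using (fld_of_fs b).finrank_dvd
    refine c3 ⟨r, K, a, h1, ?_, b, eq_inf_of_max hH c (hQ.not_le_fs a b)⟩
    rintro rfl h4
    obtain rfl := (Nat.prime_dvd_prime_iff_eq a Nat.prime_three).1 h1
    obtain ⟨F₀, P, h2, h3⟩ := singer_four h4 b
    exact k5 F₀ P h2 ((le_inf c hH.1.le).trans h3)
  obtain ⟨M, ⟨W, a, b, rfl⟩ | ⟨W, U, a, b, c, rfl⟩ | ⟨W, U, a, b, c, d, rfl⟩ | ⟨t, m, D, a, rfl⟩ |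
    ⟨r, K, a, b, rfl⟩ | ⟨k, l, e, P, a, b, rfl⟩ | ⟨F₀, r, P, a, b, rfl⟩ | ⟨r, R, a, rfl⟩ |
    ⟨k, t, e, P, a, b, rfl⟩ | ⟨f, a, b, c, rfl⟩ | ⟨τ, f, a, b, rfl⟩ | ⟨Q, a, b, c, rfl⟩, hM⟩ :=
    (linear_main hn H).resolve_right c11
  · exact hI.not_le_stab a b hM
  · exact hI.not_le_stab a b.ne_top (hM.trans inf_le_left)
  · refine hI.not_le_stab a ?_ (hM.trans inf_le_left)
    rintro rfl
    exact d.not_ge (Submodule.finrank_mono le_top)
  · have h1 := eq_inf_of_max hH hM (hQ.not_le_decomp a)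
    have h2 : m * t = n := by simpa using IsMDecomposition.card a
    have h0 : ∀ g ∈ H, ∀ (A : Fin t → Matrix (Fin m) (Fin m) F) (s : ℤˣ),
        (g : Matrix (Fin n) (Fin n) F).det = ((s : ℤ) : F) ^ m * ∏ j, (A j).det → ∀ j, (A j).det ≠ 0 :=
      fun g _ A s e j h => (isUnit_iff_isUnit_det _).1 g.isUnit |>.ne_zero (by
        rw [e, Finset.prod_eq_zero (Finset.mem_univ j) h, mul_zero])
    have hq := card_cases F
    refine c2 ⟨t, m, D, a, h2, ?_, ?_, h1⟩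
    · rintro rfl
      have h3 : 5 ≤ Fintype.card F := by
        by_contra h3
        obtain ⟨σ, h4, h5⟩ : ∃ σ : F →+* F, (∀ a, σ (σ a) = a) ∧ ∀ a, a ≠ 0 → a * σ a = 1 := by
          by_cases h4 : Fintype.card F = 4
          · obtain ⟨σ, h5⟩ := exists_UF (F := F) (q := 2) h4
            exact ⟨σ, h5.invol, fun a ha => by
              simpa [h4, h5.norm_eq] using FiniteField.pow_card_sub_one_eq_one a ha⟩
          · exact ⟨RingHom.id F, fun _ => rfl, fun a ha => mul_self_of_card (by omega) ha⟩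
        exact kf σ 1 (fun _ => rfl) (decomp_le_sim a (hf_one h4) hM fun g hg A s e =>
          ⟨1, fun j => pull_one_fin_one _ (h5 _ (h0 g hg A s e j))⟩)
      refine ⟨h3, fun h4 => by_contra fun h5 => ?_⟩
      obtain rfl : t = 4 := by omega
      exact not_max_five (by omega) a (h1 ▸ hH)
    · rintro rfl
      have h3 : ∀ g ∈ H, ∀ (A : Fin t → Matrix (Fin 2) (Fin 2) F) (s : ℤˣ),
          (g : Matrix (Fin n) (Fin n) F).det = ((s : ℤ) : F) ^ 2 * ∏ j, (A j).det →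
          ∏ j, (A j).det = 1 := fun g hg A s e => by
        rwa [mem_SL.1 (hH.1.le hg), ← Int.cast_pow, ← Units.val_pow_eq_pow_val, Int.units_sq,
          Units.val_one, Int.cast_one, one_mul, eq_comm] at e
      refine ⟨by_contra fun h4 => kf _ _ (fun e => absurd rfl e) (decomp_le_sim a hf_J2 hM
        fun g hg A s e => ⟨1, fun j => ?_⟩), fun h4 => by_contra fun h5 => kf _ _
          (fun e => absurd rfl e) (decomp_le_sim a hf_J2 hM fun g hg A s e => ?_)⟩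
      · rw [pull_J2, (eq_zero_or_one (by omega) _).resolve_left (h0 g hg A s e j)]
      · obtain rfl : t = 2 := by omega
        refine ⟨(A 0).det, fun j => ?_⟩
        have h6 := h3 g hg A s e
        rw [Fin.prod_univ_two] at h6
        have h8 := mul_self_of_card (by omega) (h0 g hg A s e 0)
        rw [pull_J2]
        fin_cases j
        · rfl
        · exact congrArg (· • _) (mul_left_cancel₀ (h0 g hg A s e 0) (h6.trans h8.symm))
  · exact k3 r K a b hM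
  · refine c4 ⟨k, l, e, P, a, b, by simpa using (Fintype.card_congr e).symm, ?_,
      eq_inf_of_max hH hM (hQ.not_le_tensor a (by omega) e P)⟩
    rintro rfl
    by_contra h1
    obtain ⟨r, K, h2, -, h3, h4⟩ := tensor_two (F := F) (by have := card_cases F; omega) (by omega) e P
    exact k3 r K h2 h3 (hM.trans h4)
  · exact k5 F₀ P (ne_top_of_card a b) hM
  · have := Fact.mk a.symplecticType.prime
    have := a.symplecticType.pGroup.isNilpotent
    exact c6 ⟨r, R, a, eq_inf_of_max hH hM fun e => hQ.not_le_normalizer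
      (fun g _ x hx => Subgroup.Normal.conj_mem (MonoidHom.normal_ker _) x hx g)
      (fun g hg x hx => (e hg x).1 hx) (env_of_absIrr a.absIrred) inferInstance⟩
  · exact c7 ⟨k, t, e, P, a, b, by simpa using (Fintype.card_congr e).symm,
      eq_inf_of_max hH hM (hQ.not_le_wreath (by omega) b e P)⟩
  · exact k9 f b a hM
  · exact k10 τ f a hM
  · exact k8 Q b a hM

end CfsgH5.As
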