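import Cfsg.Agent.H5.As12

set_option autoImplicit false

/-! Adjoints; invariant subspaces and commutative subalgebras in the presence of a form. -/

namespace CfsgH5.As

open Matrix Module Cfsg.Geo
open scoped Kronecker commutatorElement

universe u

variable {ι : Type} [Fintype ι] [DecidableEq ι] {F : Type u} [Field F] {σ : F →+* F}

/-- the adjoint with respect to a form -/
def ad (σ : F →+* F) (Γ : GL ι F) (x : Matrix ι ι F) : Matrix ι ι F := (cj Γ⁻¹ xᵀ).map σ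

section ad

variable {Γ : GL ι F} {ε : F}

theorem ad_mul (x y : Matrix ι ι F) : ad σ Γ (x * y) = ad σ Γ y * ad σ Γ x := by
  simp [ad, Matrix.map_mul]

theorem ad_add (x y : Matrix ι ι F) : ad σ Γ (x + y) = ad σ Γ x + ad σ Γ y := by
  simp [ad, Matrix.map_add]

theorem ad_sub (x y : Matrix ι ι F) : ad σ Γ (x - y) = ad σ Γ x - ad σ Γ y := by
  simp [ad, Matrix.map_sub]

@[simp] theorem ad_one : ad σ Γ 1 = 1 := by simp [ad]

@[simp] theorem ad_zero : ad σ Γ 0 = 0 := by simp [ad]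

theorem ad_smul (c : F) (x : Matrix ι ι F) : ad σ Γ (c • x) = σ c • ad σ Γ x := by
  ext; simp [ad]

theorem ad_pow (x : Matrix ι ι F) (k : ℕ) : ad σ Γ (x ^ k) = ad σ Γ x ^ k := by
  induction k with
  | zero => simp
  | succ k ih => rw [pow_succ, ad_mul, ih, pow_succ']

namespace HF

theorem fm_ad (h : HF σ ε Γ) (x : Matrix ι ι F) (u v : ι → F) :
    fm σ (Γ : Matrix ι ι F) (x *ᵥ u) v = fm σ (Γ : Matrix ι ι F) u (ad σ Γ x *ᵥ v) := by
  rw [← one_mulVec v, fm_mulVec, one_mulVec, ← one_mulVec u, fm_mulVec, one_mulVec, ad, Matrix.map_map,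
    show σ ∘ σ = id from funext h.invol, Matrix.map_id, cj_apply]
  simp [mul_assoc]

theorem eq_ad (h : HF σ ε Γ) {x y : Matrix ι ι F} (e : ∀ u v,
    fm σ (Γ : Matrix ι ι F) (x *ᵥ u) v = fm σ (Γ : Matrix ι ι F) u (y *ᵥ v)) : ad σ Γ x = y :=
  mat_ext_mulVec fun v => sub_eq_zero.1 (fm_left_eq_zero (σ := σ) Γ fun u => by
    rw [sub_eq_add_neg, fm_add_right, ← h.fm_ad, e, ← fm_add_right, add_neg_cancel, fm_zero_right])

theorem fm_ad' (h : HF σ ε Γ) (x : Matrix ι ι F) (u v : ι → F) :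
    fm σ (Γ : Matrix ι ι F) u (x *ᵥ v) = fm σ (Γ : Matrix ι ι F) (ad σ Γ x *ᵥ u) v := by
  rw [h.fm_symm, h.fm_ad, ← h.fm_symm]

theorem ad_ad (h : HF σ ε Γ) (x : Matrix ι ι F) : ad σ Γ (ad σ Γ x) = x :=
  h.eq_ad fun u v => (h.fm_ad' x u v).symm

theorem ad_sim (h : HF σ ε Γ) {g : GL ι F} (hg : g ∈ similarityGroup (fm σ (Γ : Matrix ι ι F))) :
    ∃ c : F, c ≠ 0 ∧ ad σ Γ g = c • ((g⁻¹ : GL ι F) : Matrix ι ι F) :=
  let ⟨c, hc⟩ := hg
  ⟨σ c, by simp, h.eq_ad fun u v => by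
    rw [smul_mulVec, fm_smul_right, h.invol, ← hc, mulVec_inv_mulVec]⟩

theorem ad_iso (h : HF σ ε Γ) {g : GL ι F} (hg : g ∈ isoG (fm σ (Γ : Matrix ι ι F))) :
    ad σ Γ g = ((g⁻¹ : GL ι F) : Matrix ι ι F) :=
  h.eq_ad fun u v => by rw [← hg u, mulVec_inv_mulVec]

theorem mem_isoG_of_ad (h : HF σ ε Γ) {g : GL ι F} (hg : ad σ Γ g * g = 1) :
    g ∈ isoG (fm σ (Γ : Matrix ι ι F)) := fun u v => by rw [h.fm_ad, mulVec_mulVec, hg, one_mulVec]

theorem cj_ad (h : HF σ ε Γ) {g : GL ι F} (hg : g ∈ similarityGroup (fm σ (Γ : Matrix ι ι F)))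
    (x : Matrix ι ι F) : ad σ Γ (cj g x) = cj g (ad σ Γ x) :=
  let ⟨c, hc⟩ := hg
  h.eq_ad fun u v => by
    rw [← mulVec_inv_mulVec g u, ← mulVec_inv_mulVec g v, cj_mulVec, cj_mulVec, hc, hc, h.fm_ad]

theorem ad_mem_env (h : HF σ ε Γ) {N : Subgroup (GL ι F)}
    (hN : N ≤ similarityGroup (fm σ (Γ : Matrix ι ι F))) {x : Matrix ι ι F} (hx : x ∈ env F N) :
    ad σ Γ x ∈ env F N :=
  env_induction (p := fun x => ad σ Γ x ∈ env F N) (fun g hg => by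
    obtain ⟨c, -, e⟩ := h.ad_sim (hN hg)
    exact e ▸ Subalgebra.smul_mem _ (mem_env (inv_mem hg)) c) (by simp)
    (fun x y a b => ad_add (σ := σ) x y ▸ add_mem a b)
    (fun (c : F) x a => ad_smul (σ := σ) c x ▸ Subalgebra.smul_mem _ a _) hx

theorem ad_center (h : HF σ ε Γ) {A : Subalgebra F (Matrix ι ι F)} (hA : ∀ x ∈ A, ad σ Γ x ∈ A) :
    ∀ x ∈ A ⊓ Subalgebra.centralizer F (A : Set (Matrix ι ι F)),
      ad σ Γ x ∈ A ⊓ Subalgebra.centralizer F (A : Set (Matrix ι ι F)) := fun x hx =>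
  ⟨hA x hx.1, fun y hy => by rw [← h.ad_ad y, ← ad_mul, ← ad_mul, hx.2 _ (hA y hy)]⟩

theorem adClosed (h : HF σ ε Γ) {K : Subalgebra F (Matrix ι ι F)} (hK : ∀ x ∈ K, ad σ Γ x ∈ K) :
    IsAdjointClosedFor (fm σ (Γ : Matrix ι ι F)) K := fun k hk => ⟨_, hK k hk, h.fm_ad k⟩

theorem selfAdj_iff (h : HF σ ε Γ) {K : Subalgebra F (Matrix ι ι F)} :
    IsSelfAdjointFor (fm σ (Γ : Matrix ι ι F)) K ↔ ∀ x ∈ K, ad σ Γ x = x :=
  ⟨fun e x hx => h.eq_ad (e x hx), fun e x hx u v => by rw [h.fm_ad, e x hx]⟩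

end HF

theorem scalars_le_sim (σ : F →+* F) (Γ : Matrix ι ι F) : scalars ι F ≤ similarityGroup (fm σ Γ) :=
  fun g hg => by
    obtain ⟨c, hc⟩ := (mem_scalars_iff g).1 hg
    exact ⟨c * Units.map σ.toMonoidHom c, fun u v => by
      simp [hc, smul_mulVec, fm_smul_left, fm_smul_right, mul_assoc, mul_left_comm]⟩

theorem sup_le_sim {H : Subgroup (GL ι F)} {Γ : Matrix ι ι F} (h : H ≤ isoG (fm σ Γ)) :
    H ⊔ scalars ι F ≤ similarityGroup (fm σ Γ) := sup_le (h.trans (isoG_le_sim _)) (scalars_le_sim σ Γ)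

/-- orthogonal complement -/
def pp (σ : F →+* F) (Γ : Matrix ι ι F) (W : Submodule F (ι → F)) : Submodule F (ι → F) where
  carrier := {v | ∀ w ∈ W, fm σ Γ v w = 0}
  add_mem' a b w hw := by rw [fm_add_left, a w hw, b w hw, add_zero]
  zero_mem' w _ := fm_zero_left _ _
  smul_mem' c v a w hw := by rw [fm_smul_left, a w hw, mul_zero]

theorem mem_pp {Γ : Matrix ι ι F} {W : Submodule F (ι → F)} {v : ι → F} :
    v ∈ pp σ Γ W ↔ ∀ w ∈ W, fm σ Γ v w = 0 := Iff.rfl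

theorem stab_le_stab_pp {Γ : Matrix ι ι F} (W : Submodule F (ι → F)) :
    subspaceStabilizer W ⊓ similarityGroup (fm σ Γ) ≤ subspaceStabilizer (pp σ Γ W) :=
  le_stab fun g hg v hv w hw => by
    obtain ⟨c, hc⟩ := hg.2
    rw [← mulVec_inv_mulVec g w, hc, hv _ ((mem_stab.1 (inv_mem (Subgroup.mem_inf.1 hg).1) w).1 hw), mul_zero]

theorem HF.finrank_pp (h : HF σ ε Γ) (W : Submodule F (ι → F)) :
    finrank F W + finrank F (pp σ (Γ : Matrix ι ι F) W) = Fintype.card ι := by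
  let b := finBasis F W
  let L : (ι → F) →ₗ[F] (Fin (finrank F W) → F) := LinearMap.pi fun i =>
    ⟨⟨fun v => fm σ (Γ : Matrix ι ι F) v (b i), fun _ _ => fm_add_left _ _ _ _⟩,
      fun _ _ => fm_smul_left _ _ _ _⟩
  have h1 : LinearMap.ker L = pp σ (Γ : Matrix ι ι F) W := by
    ext v
    refine ⟨fun hv w hw => ?_, fun hv => funext fun i => hv _ (b i).2⟩
    refine Submodule.span_induction (p := fun (w : W) _ => fm σ (Γ : Matrix ι ι F) v w = 0) ?_ (by simp)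
      (fun x y _ _ a b => by simp [fm_add_right, a, b]) (fun c x _ a => by simp [fm_smul_right, a])
      (b.mem_span ⟨w, hw⟩)
    rintro _ ⟨i, rfl⟩; exact congrFun hv i
  have h2 : LinearMap.range L = ⊤ := by
    by_contra e
    obtain ⟨φ, h0, h3⟩ := Submodule.exists_le_ker_of_lt_top _ (lt_top_iff_ne_top.2 e)
    have h4 : ∑ i, σ (φ (Pi.single i 1)) • b i = 0 := Subtype.ext (fm_left_eq_zero (σ := σ) Γ fun u => by
      have h5 : φ (L u) = 0 := h3 ⟨u, rfl⟩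
      rw [pi_eq_sum_univ' (L u), map_sum] at h5
      rw [← h5, Submodule.coe_sum]
      refine (map_sum (⟨⟨fun v => fm σ (Γ : Matrix ι ι F) u v, fm_zero_right _ _⟩, fm_add_right _ _⟩ :
        _ →+ F) _ _).trans (Finset.sum_congr rfl fun i _ => ?_)
      simp [fm_smul_right, h.invol, L, mul_comm])
    exact h0 (LinearMap.pi_ext' fun i => LinearMap.ext_ring (by
      simpa using Fintype.linearIndependent_iff.1 b.linearIndependent _ h4 i))
  have := L.finrank_range_add_finrank_ker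
  rwa [h1, h2, finrank_top, finrank_fin_fun, finrank_fintype_fun_eq_card] at this

theorem HF.pp_pp (h : HF σ ε Γ) (W : Submodule F (ι → F)) :
    pp σ (Γ : Matrix ι ι F) (pp σ (Γ : Matrix ι ι F) W) = W := by
  refine Eq.symm (Submodule.eq_of_le_of_finrank_eq (fun w hw => mem_pp.2 fun v hv =>
    h.fm_eq_zero_comm (hv w hw)) ?_)
  have := h.finrank_pp W
  have := h.finrank_pp (pp σ (Γ : Matrix ι ι F) W)
  omega

theorem HF.nondeg_iff (h : HF σ ε Γ) {W : Submodule F (ι → F)} :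
    IsNondegenerateOn (fm σ (Γ : Matrix ι ι F)) W ↔ Disjoint W (pp σ (Γ : Matrix ι ι F) W) := by
  rw [Submodule.disjoint_def]
  refine forall₂_congr fun w hw => ⟨fun e a => by_contra fun h0 => ?_, fun e h0 => ?_⟩
  · obtain ⟨x, b, c⟩ := (e h0).2
    exact c (a x b)
  · obtain ⟨x, b, c⟩ : ∃ x ∈ W, fm σ (Γ : Matrix ι ι F) w x ≠ 0 := by
      by_contra! a; exact h0 (e a)
    exact ⟨⟨x, b, fun a => c (h.fm_eq_zero_comm a)⟩, x, b, c⟩

theorem HF.nondeg_pp (h : HF σ ε Γ) {W : Submodule F (ι → F)}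
    (e : IsNondegenerateOn (fm σ (Γ : Matrix ι ι F)) W) :
    IsNondegenerateOn (fm σ (Γ : Matrix ι ι F)) (pp σ (Γ : Matrix ι ι F) W) :=
  h.nondeg_iff.2 (by rw [h.pp_pp]; exact (h.nondeg_iff.1 e).symm)

/-- a minimal invariant subspace is totally isotropic or non-degenerate -/
theorem HF.reducible (h : HF σ ε Γ) {H : Subgroup (GL ι F)}
    (hH : H ≤ similarityGroup (fm σ (Γ : Matrix ι ι F))) (hI : ¬ Irr H) :
    ∃ W : Submodule F (ι → F), W ≠ ⊥ ∧ W ≠ ⊤ ∧ H ≤ subspaceStabilizer W ∧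
      (∀ U ≤ W, H ≤ subspaceStabilizer U → U = ⊥ ∨ U = W) ∧
      (IsTotallySingularFor (fm σ (Γ : Matrix ι ι F)) W ∨ IsNondegenerateOn (fm σ (Γ : Matrix ι ι F)) W) := by
  obtain ⟨W₀, a, b, c⟩ := (irr_or_stab H).resolve_left hI
  obtain ⟨W, d, ⟨e1, e2⟩, hm⟩ := exists_minimal_le_of_wellFoundedLT
    (fun W : Submodule F (ι → F) => W ≠ ⊥ ∧ H ≤ subspaceStabilizer W) W₀ ⟨a, c⟩
  have k : ∀ U ≤ W, H ≤ subspaceStabilizer U → U = ⊥ ∨ U = W := fun U h1 h2 =>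
    or_iff_not_imp_left.2 fun h3 => le_antisymm h1 (hm ⟨h3, h2⟩ h1)
  refine ⟨W, e1, fun e => b (top_le_iff.1 (e ▸ d)), e2, k, ?_⟩
  rcases k (W ⊓ pp σ Γ W) inf_le_left (le_stab fun g hg w hw => ⟨(e2 hg w).1 hw.1,
    (stab_le_stab_pp W ⟨e2 hg, hH hg⟩ w).1 hw.2⟩) with e | e
  · exact .inr (h.nondeg_iff.2 (disjoint_iff.2 e))
  · exact .inl fun u hu => (e.ge hu).2

theorem HF.decomp_pair (h : HF σ ε Γ) {W : Submodule F (ι → F)} (h0 : W ≠ ⊥)
    (h1 : IsNondegenerateOn (fm σ (Γ : Matrix ι ι F)) W) (h2 : 2 * finrank F W = Fintype.card ι) :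
    IsNondegenerateMDecomposition (fm σ (Γ : Matrix ι ι F)) (finrank F W) ![W, pp σ Γ W] ∧
      subspaceStabilizer W ⊓ similarityGroup (fm σ (Γ : Matrix ι ι F)) ≤
        decompositionStabilizer ![W, pp σ (Γ : Matrix ι ι F) W] := by
  have h3 := h.finrank_pp W
  have h4 := h.nondeg_iff.1 h1
  have k : ∀ {U : Submodule F (ι → F)} {g : GL ι F}, g ∈ subspaceStabilizer U →
      U.map (toLin' (g : Matrix ι ι F)) = U := fun {U g} hg =>
    Submodule.eq_of_le_of_finrank_eq (by rintro _ ⟨w, hw, rfl⟩; exact (hg w).1 hw) (finrank_map_gl g U)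
  refine ⟨⟨⟨le_rfl, finrank_pos_iff.2 (Submodule.nontrivial_iff_ne_bot.2 h0), by
    rw [Fin.forall_fin_two]; exact ⟨rfl, by change finrank F (pp σ _ W) = _; omega⟩,
    (iSupIndep_pair zero_ne_one (by decide)).2 h4, ?_⟩, by
      rw [Fin.forall_fin_two]; exact ⟨h1, h.nondeg_pp h1⟩, ?_⟩, fun g hg => ⟨1, ?_⟩⟩
  · exact eq_top_iff.2 ((Submodule.eq_top_of_disjoint _ _ (by simpa using h3.ge) h4).ge.trans
      (sup_le (le_iSup ![W, pp σ Γ W] 0) (le_iSup ![W, pp σ Γ W] 1)))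
  · simp only [Fin.forall_fin_two, ne_eq, not_true, false_imp_iff, true_and, and_true]
    exact ⟨fun _ u hu v hv => h.fm_eq_zero_comm (hv u hu), fun _ u hu v hv => hu v hv⟩
  · rw [Fin.forall_fin_two]; exact ⟨k hg.1, k (stab_le_stab_pp W hg)⟩

end ad

theorem Irr.orbit [Finite F] {H : Subgroup (GL ι F)} (h : Irr H) {e : Matrix ι ι F} (h0 : e ≠ 0)
    (h1 : e ≠ 1) (he : e * e = e) (ho : ∀ g ∈ H, cj g e = e ∨ e * cj g e = 0) :
    ∃ (t m : ℕ) (x : Fin t → Matrix ι ι F), IsMDecomposition m (fun i => rg (x i)) ∧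
      H ≤ decompositionStabilizer (fun i => rg (x i)) ∧ (∀ i, ∃ g ∈ H, cj g e = x i) ∧
      ∀ i j, i ≠ j → x i * x j = 0 := by
  classical
  have := Fintype.ofFinite F
  let O : Finset (Matrix ι ι F) := {x | ∃ g ∈ H, cj g e = x}
  have mO : ∀ {x}, x ∈ O ↔ ∃ g ∈ H, cj g e = x := by simp [O]
  have o2 : ∀ x ∈ O, ∀ z ∈ O, x ≠ z → x * z = 0 := fun x hx z hz hne => by
    obtain ⟨a, ha, rfl⟩ := mO.1 hx
    obtain ⟨b, hb, rfl⟩ := mO.1 hz
    rw [← cj_cj_inv a (cj b e), ← cj_mul a⁻¹] at hne ⊢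
    rw [← map_mul, (ho _ (mul_mem (inv_mem ha) hb)).resolve_left fun e => hne (by rw [e]), map_zero]
  have o3 : ∀ g ∈ H, ∀ x ∈ O, cj g x ∈ O := fun g hg x hx => by
    obtain ⟨g', hg', rfl⟩ := mO.1 hx
    exact mO.2 ⟨g * g', mul_mem hg hg', cj_mul _ _ _⟩
  have eO : e ∈ O := mO.2 ⟨1, one_mem _, cj_one _⟩
  have o4 : ∑ x ∈ O, x = 1 := by
    refine (sub_eq_zero.1 (h.eq_zero (S := {1 - ∑ x ∈ O, x}) ?_ h0 ?_ _ rfl)).symm
    · rintro g hg _ rfl
      rw [Set.mem_singleton_iff, map_sub, map_one, map_sum]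
      congr 1
      exact Finset.sum_nbij' (cj g) (cj g⁻¹) (o3 g hg) (o3 _ (inv_mem hg)) (by simp) (by simp)
        (by simp)
    · rintro _ rfl
      rw [sub_mul, one_mul, Finset.sum_mul, Finset.sum_eq_single_of_mem e eO
        fun x hx hne => o2 x hx e eO hne, he, sub_self]
  let x : Fin O.card → Matrix ι ι F := fun i => O.equivFin.symm i
  have x1 : ∀ i, ∃ g ∈ H, cj g e = x i := fun i => mO.1 (O.equivFin.symm i).2
  have x2 : ∀ i j, i ≠ j → x i * x j = 0 := fun i j hij => o2 _ (Finset.coe_mem _) _ (Finset.coe_mem _)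
    fun e => hij (O.equivFin.symm.injective (Subtype.ext e))
  have x3 : ∀ i, x i ≠ 0 := fun i => by obtain ⟨g, -, e⟩ := x1 i; simpa [← e]
  have x4 : ∀ i, x i * x i = x i := fun i => by obtain ⟨g, -, e⟩ := x1 i; rw [← e, ← map_mul, he]
  obtain ⟨m, hm⟩ := decomp_of_idem (e := x) (by
    by_contra ht
    exact h1 (by rw [← o4, Finset.sum_eq_single_of_mem e eO fun x hx hne =>
      absurd (Finset.one_lt_card.2 ⟨x, hx, e, eO, hne⟩) ht])) x3 x4 x2 (by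
    rw [← o4, ← Finset.sum_coe_sort O]; exact O.equivFin.symm.sum_comp Subtype.val) fun i j => by
    obtain ⟨a, -, a'⟩ := x1 i
    obtain ⟨b, -, b'⟩ := x1 j
    exact ⟨b * a⁻¹, by rw [← a', ← b', cj_mul, cj_inv_cj]⟩
  exact ⟨_, m, x, hm, fun g hg => mem_decomp_of_forall (rg_injective x3 x4 x2) fun i =>
    ⟨O.equivFin ⟨_, o3 g hg _ (O.equivFin.symm i).2⟩, by simp [map_rg, x]⟩, x1, x2⟩

end CfsgH5.As
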