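import Cfsg.Agent.H5.As13

set_option autoImplicit false

/-! Commutative adjoint-closed subalgebras; quadratic forms with a given polar form. -/

namespace CfsgH5.As

open Matrix Module Cfsg.Geo
open scoped Kronecker commutatorElement

universe u

variable {ι : Type} [Fintype ι] [DecidableEq ι] {F : Type u} [Field F] {σ : F →+* F} {Γ : GL ι F}
  {ε : F} {H : Subgroup (GL ι F)}

/-- a transitively permuted orthogonal decomposition -/
def OrthD (f : (ι → F) → (ι → F) → F) (H : Subgroup (GL ι F)) : Prop :=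
  ∃ (t m : ℕ) (D : Fin t → Submodule F (ι → F)), IsNondegenerateMDecomposition f m D ∧
    H ≤ decompositionStabilizer D ∧ ∀ i j, ∃ g ∈ H, (D i).map (toLin' (g : Matrix ι ι F)) = D j

/-- a pair of complementary totally isotropic subspaces -/
def IsoP (σ : F →+* F) (Γ : GL ι F) (H : Subgroup (GL ι F)) (e : Matrix ι ι F) : Prop :=
  e * e = e ∧ ad σ Γ e = 1 - e ∧ ∀ g ∈ H, cj g e = e ∨ cj g e = 1 - e

theorem HF.orthD [Finite F] (h : HF σ ε Γ) (hI : Irr H)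
    (hH : H ≤ similarityGroup (fm σ (Γ : Matrix ι ι F))) {e : Matrix ι ι F} (h0 : e ≠ 0) (h1 : e ≠ 1)
    (he : e * e = e) (ha : ad σ Γ e = e) (ho : ∀ g ∈ H, cj g e = e ∨ e * cj g e = 0) :
    OrthD (fm σ (Γ : Matrix ι ι F)) H := by
  obtain ⟨t, m, x, a, b, c, d⟩ := hI.orbit h0 h1 he ho
  have k : ∀ i, ad σ Γ (x i) = x i := fun i => by
    obtain ⟨g, hg, e⟩ := c i; rw [← e, h.cj_ad (hH hg), ha]
  refine ⟨t, m, _, ⟨a, fun i => h.nondeg_iff.2 (Submodule.disjoint_def.2 fun v h2 h3 => ?_), ?_⟩, b,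
    fun i j => ?_⟩
  · obtain ⟨g, -, e⟩ := c i
    refine fm_right_eq_zero (σ := σ) Γ fun u => ?_
    rw [← (mem_rg_of_idem (by rw [← e, ← map_mul, he])).1 h2, h.fm_ad, k]
    exact h3 _ ⟨u, rfl⟩
  · rintro i j hij _ ⟨u, rfl⟩ _ ⟨v, rfl⟩
    rw [toLin'_apply, toLin'_apply, h.fm_ad, k, mulVec_mulVec, d i j hij, zero_mulVec, fm_zero_right]
  · obtain ⟨g, hg, e⟩ := c i
    obtain ⟨g', hg', e'⟩ := c j
    exact ⟨g' * g⁻¹, mul_mem hg' (inv_mem hg), by rw [map_rg, ← e, ← e', cj_mul, cj_inv_cj]⟩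

theorem HF.comm_case [Fintype F] [Nonempty ι] (h : HF σ ε Γ) (hI : Irr H)
    (hH : H ≤ similarityGroup (fm σ (Γ : Matrix ι ι F))) {K : Subalgebra F (Matrix ι ι F)}
    (hK : Nz H K) (h0 : K ≠ ⊥) (hc : ∀ x ∈ K, ∀ y ∈ K, x * y = y * x) (ha : ∀ x ∈ K, ad σ Γ x ∈ K) :
    OrthD (fm σ (Γ : Matrix ι ι F)) H ∨ (∃ e, IsoP σ Γ H e) ∨ ∃ r K₀, r.Prime ∧
      IsFieldSubalgebra r K₀ ∧ K₀ ≤ K ∧ Nz H K₀ ∧ ∀ x ∈ K₀, ad σ Γ x ∈ K₀ := by
  rcases hI.fld_or_idem hK hc with h1 | ⟨t, e, h1⟩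
  · obtain ⟨r, K₀, a, -, b, c, d, e⟩ := h1.exists_prime h0 hK
    exact .inr (.inr ⟨r, K₀, a, b, c, d, fun x hx => (e _).2 ⟨ha x (c hx), by
      rw [← ad_pow, ((e x).1 hx).2]⟩⟩)
  have k0 : ∀ i, ad σ Γ (e i) * ad σ Γ (e i) = ad σ Γ (e i) := fun i => by rw [← ad_mul, h1.idem]
  have k1 : ∀ i, ad σ Γ (e i) ≠ 0 := fun i a => h1.ne i (by rw [← h.ad_ad (e i), a, ad_zero])
  have k : ∀ i, ∃ j, ad σ Γ (e i) = e j := fun i => by
    obtain ⟨j, hj⟩ : ∃ j, ad σ Γ (e i) * e j ≠ 0 := by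
      by_contra! a
      exact k1 i (by rw [← mul_one (ad σ Γ _), ← h1.sum, Finset.mul_sum, Finset.sum_eq_zero fun j _ => a j])
    have h2 := congrArg (ad σ Γ) ((h1.prim _ (ha _ (h1.mem i)) (k0 i) j).resolve_left hj)
    rw [ad_mul, h.ad_ad] at h2
    exact ⟨j, by rw [← ((h1.prim _ (ha _ (h1.mem j)) (k0 j) i).resolve_left (h2.symm ▸ k1 j)), h2, h.ad_ad]⟩
  have ht := h1.two_le
  let o : Fin t := ⟨0, by omega⟩
  obtain ⟨j, hj⟩ := k o
  by_cases h2 : j = o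
  · refine .inl (h.orthD hI hH (h1.ne o) (fun a => h1.ne ⟨1, by omega⟩ ?_) (h1.idem o) (h2 ▸ hj)
      fun g hg => ?_)
    · simpa [a] using h1.orth o ⟨1, by omega⟩ (by simp [o])
    · obtain ⟨i, hi⟩ := h1.perm g hg o
      rw [hi]
      exact (eq_or_ne o i).imp (fun a => by rw [a]) (h1.orth o i)
  have hj' : ad σ Γ (e j) = e o := by rw [← hj, h.ad_ad]
  by_cases h3 : e o + e j = 1
  · refine .inr (.inl ⟨e o, h1.idem o, by rw [hj, ← h3, add_sub_cancel_left], fun g hg => ?_⟩)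
    obtain ⟨i, hi⟩ := h1.perm g hg o
    rw [hi, ← h3, add_sub_cancel_left]
    by_contra! a
    exact h1.ne i (by rw [← mul_one (e i), ← h3, mul_add, h1.orth i o fun b => a.1 (b ▸ rfl),
      h1.orth i j fun b => a.2 (b ▸ rfl), add_zero])
  refine .inl (h.orthD hI hH (fun a => h1.ne o ?_) h3 ?_ (by rw [ad_add, hj, hj', add_comm]) fun g hg => ?_)
  · simpa [mul_add, h1.idem, h1.orth o j (Ne.symm h2)] using congrArg (e o * ·) a
  · simp [mul_add, add_mul, h1.idem, h1.orth o j (Ne.symm h2), h1.orth j o h2]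
  · obtain ⟨i, hi⟩ := h1.perm g hg o
    obtain ⟨l, hl⟩ := k i
    have hl' : ad σ Γ (e l) = e i := by rw [← hl, h.ad_ad]
    have h4 : cj g (e j) = e l := by rw [← hj, ← h.cj_ad (hH hg), hi, hl]
    rw [map_add, hi, h4]
    by_cases a : i = o
    · exact .inl (by rw [← hl, a, hj])
    by_cases b : i = j
    · exact .inl (by rw [← hl, b, hj', add_comm])
    have inj := fun i j (a : e i = e j) => rg_injective h1.ne h1.idem h1.orth (congrArg rg a)
    have c : l ≠ o := fun c => b (inj _ _ (by rw [← hl', c, hj]))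
    have d : l ≠ j := fun c => a (inj _ _ (by rw [← hl', c, hj']))
    exact .inr (by simp [mul_add, add_mul, h1.orth, Ne.symm a, Ne.symm b, c.symm, d.symm])

theorem IsoP.decomp [Nonempty ι] (h : HF σ ε Γ) (hI : Irr H) {e : Matrix ι ι F} (he : IsoP σ Γ H e) :
    ∃ k, 2 * k = Fintype.card ι ∧ IsMDecomposition k ![rg e, rg (1 - e)] ∧
      (∀ i, IsTotallySingularFor (fm σ (Γ : Matrix ι ι F)) (![rg e, rg (1 - e)] i)) ∧
      H ≤ decompositionStabilizer ![rg e, rg (1 - e)] := by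
  obtain ⟨h1, h2, h3⟩ := he
  have a0 : e ≠ 0 := by rintro rfl; simp at h2
  have a1 : 1 - e ≠ 0 := fun a => a0 (by rw [← h.ad_ad e, h2, a, ad_zero])
  obtain ⟨g, h4⟩ : ∃ g : GL ι F, cj g e = 1 - e := by
    by_contra! a
    rcases hI (rg e) fun g hg w hw => (h3 g hg).resolve_right (a g) ▸ map_rg g e ▸ ⟨w, hw, rfl⟩ with b | b
    · exact a0 (toLin'.injective (by rw [LinearMap.range_eq_bot.1 b, map_zero]))
    · exact a1 (mat_ext_mulVec fun v => by
        rw [sub_mulVec, one_mulVec, (mem_rg_of_idem h1).1 (b ▸ Submodule.mem_top), sub_self, zero_mulVec])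
  have b0 : ∀ i, ![e, 1 - e] i ≠ 0 := Fin.forall_fin_two.2 ⟨a0, a1⟩
  have b1 : ∀ i, ![e, 1 - e] i * ![e, 1 - e] i = ![e, 1 - e] i :=
    Fin.forall_fin_two.2 ⟨h1, by simp [mul_sub, sub_mul, h1]⟩
  have b2 : ∀ i j, i ≠ j → ![e, 1 - e] i * ![e, 1 - e] j = 0 := by
    simp [Fin.forall_fin_two, mul_sub, sub_mul, h1]
  have b3 : (fun i => rg (![e, 1 - e] i)) = ![rg e, rg (1 - e)] := by ext1 i; fin_cases i <;> rfl
  obtain ⟨k, hk⟩ := decomp_of_idem le_rfl b0 b1 b2 (by simp) (by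
    simp only [Fin.forall_fin_two]
    exact ⟨⟨⟨1, cj_one _⟩, g, h4⟩, ⟨g⁻¹, by simp [← h4]⟩, 1, cj_one _⟩)
  refine ⟨k, by rw [← IsMDecomposition.card hk, mul_comm], b3 ▸ hk, Fin.forall_fin_two.2 ⟨?_, ?_⟩,
    fun g hg => b3 ▸ mem_decomp_of_forall (rg_injective b0 b1 b2) ?_⟩
  · rintro _ ⟨u, rfl⟩ _ ⟨v, rfl⟩
    rw [toLin'_apply, toLin'_apply, h.fm_ad, h2, mulVec_mulVec]; simp [sub_mul, h1]
  · rintro _ ⟨u, rfl⟩ _ ⟨v, rfl⟩
    rw [toLin'_apply, toLin'_apply, h.fm_ad, ad_sub, h2, mulVec_mulVec]; simp [mul_sub, h1]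
  · simp only [map_rg, Fin.forall_fin_two, Fin.exists_fin_two]
    rcases h3 g hg with a | a <;> simp [a]

theorem HF.fs_cases [Finite F] [Nonempty ι] (h : HF σ ε Γ) {K : Subalgebra F (Matrix ι ι F)} {r : ℕ}
    (hr : r.Prime) (hK : IsFieldSubalgebra r K) (ha : ∀ x ∈ K, ad σ Γ x ∈ K) :
    (σ = RingHom.id F → (∀ x ∈ K, ad σ Γ x = x) ∨ r = 2) ∧ (σ ≠ RingHom.id F → r ≠ 2) := by
  letI := (fld_of_fs hK).isField.toField
  let α : K →+* K := RingHom.mk' ⟨⟨fun x => ⟨_, ha x x.2⟩, Subtype.ext ad_one⟩, fun x y =>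
    Subtype.ext ((ad_mul _ _).trans (hK.comm _ (ha _ y.2) _ (ha _ x.2)))⟩ fun x y => Subtype.ext (ad_add _ _)
  have h1 : ∀ x, α (α x) = x := fun x => Subtype.ext (h.ad_ad _)
  have h2 : ∀ c, α (algebraMap F K c) = algebraMap F K (σ c) := fun c => Subtype.ext (by
    change ad σ Γ (algebraMap F _ c) = algebraMap F _ _
    simp [Algebra.algebraMap_eq_smul_one, ad_smul])
  refine ⟨fun e => or_iff_not_imp_left.2 fun a => ?_, fun e a => e (RingHom.ext fun c => ?_)⟩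
  · let β : K ≃ₐ[F] K := AlgEquiv.ofBijective ⟨α, fun c => by simpa [e] using h2 c⟩
      (Function.Involutive.bijective h1)
    have := Fact.mk Nat.prime_two
    have h3 := orderOf_dvd_natCard β
    rw [orderOf_eq_prime (p := 2) (AlgEquiv.ext h1) fun b => a fun x hx =>
      congrArg Subtype.val (AlgEquiv.congr_fun b ⟨x, hx⟩), IsGalois.card_aut_eq_finrank, hK.finrank_eq] at h3
    exact ((Nat.prime_dvd_prime_iff_eq Nat.prime_two hr).1 h3).symm
  · obtain ⟨q, hq⟩ := exists_UF_of_invol (σ := α) (fun b => e (RingHom.ext fun c =>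
      (algebraMap F K).injective (by rw [← h2, b]; rfl))) h1
    have h3 := hq.card
    rw [Module.natCard_eq_pow_finrank (K := F), hK.finrank_eq, a] at h3
    have := Fintype.ofFinite F
    refine (algebraMap F K).injective ?_
    rw [← h2, hq.pow, ← Nat.pow_left_injective two_ne_zero h3, ← map_pow, Nat.card_eq_fintype_card,
      FiniteField.pow_card]; rfl

theorem Fld.mem_of_comm [Nonempty ι] {K : Subalgebra F (Matrix ι ι F)} (h : Fld K)
    (hn : finrank F K = Fintype.card ι) {x : Matrix ι ι F} (hx : ∀ y ∈ K, x * y = y * x) : x ∈ K := by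
  obtain ⟨i⟩ := ‹Nonempty ι›
  let L : K →ₗ[F] (ι → F) := ⟨⟨fun k => k.1 *ᵥ Pi.single i 1, fun _ _ => add_mulVec _ _ _⟩,
    fun _ _ => smul_mulVec _ _ _⟩
  have hs := (LinearMap.injective_iff_surjective_of_finrank_eq_finrank (f := L) (by simpa using hn)).1
    ((injective_iff_map_eq_zero L).2 fun k hk => Subtype.ext (h.mulVec_eq_zero k.2 (by simp) hk))
  obtain ⟨k, hk⟩ := hs (x *ᵥ Pi.single i 1)
  suffices x = k from this ▸ k.2
  refine mat_ext_mulVec fun v => ?_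
  obtain ⟨l, rfl⟩ := hs v
  change x *ᵥ (l.1 *ᵥ _) = k.1 *ᵥ (l.1 *ᵥ _)
  rw [mulVec_mulVec, hx l l.2, ← mulVec_mulVec, ← hk, mulVec_mulVec, h.comm _ k.2 _ l.2, ← mulVec_mulVec]
  rfl

/-- quadratic forms with a given polar form -/
structure QF (Γ : Matrix ι ι F) (Q : (ι → F) → F) : Prop where
  smul : ∀ (c : F) v, Q (c • v) = c ^ 2 * Q v
  polar : ∀ u v, QuadraticMap.polar Q u v = fm (RingHom.id F) Γ u v

/-- isometries of a quadratic form -/
abbrev qiso (Q : (ι → F) → F) : Subgroup (GL ι F) := isoG fun u _ => Q u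

theorem mem_qiso {Q : (ι → F) → F} {g : GL ι F} :
    g ∈ qiso Q ↔ ∀ v, Q ((g : Matrix ι ι F) *ᵥ v) = Q v := ⟨fun h v => h v v, fun h u _ => h u⟩

namespace QF

variable {Γ : Matrix ι ι F} {Q Q' : (ι → F) → F}

theorem add (h : QF Γ Q) (u v : ι → F) : Q (u + v) = Q u + Q v + fm (RingHom.id F) Γ u v := by
  rw [← h.polar, QuadraticMap.polar]; ring

theorem zero (h : QF Γ Q) : Q 0 = 0 := by simpa using h.smul 0 0

theorem fm_self (h : QF Γ Q) (v : ι → F) : fm (RingHom.id F) Γ v v = 2 * Q v := by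
  have := h.add v v
  rw [← two_smul F, h.smul] at this
  linear_combination -this

theorem nondeg {Γ : GL ι F} (h : QF (Γ : Matrix ι ι F) Q) : IsNondegenerateQuadraticForm Q :=
  quad_of_polar one_ne_zero h.smul fun u v => by rw [h.polar, one_mul]

theorem hf {Γ : GL ι F} (h : QF (Γ : Matrix ι ι F) Q) : HF (RingHom.id F) 1 Γ :=
  hf_of_symm (fun _ => rfl) (.inl rfl) fun u v => by simp [← h.polar, QuadraticMap.polar_comm Q u v]

theorem le_isoG (h : QF Γ Q) : qiso Q ≤ isoG (fm (RingHom.id F) Γ) := fun g hg u v => by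
  rw [← h.polar, ← h.polar, polar_fix (mem_qiso.1 hg)]

/-- the vectors on which two quadratic forms with the same polar form agree -/
def eqSub (h : QF Γ Q) (h' : QF Γ Q') : Submodule F (ι → F) where
  carrier := {v | Q v = Q' v}
  add_mem' a b := by rw [Set.mem_setOf_eq, h.add, h'.add, a, b]
  zero_mem' := h.zero.trans h'.zero.symm
  smul_mem' c v a := by rw [Set.mem_setOf_eq, h.smul, h'.smul, a]

theorem comp (h : QF Γ Q) {g : GL ι F} (hg : g ∈ isoG (fm (RingHom.id F) Γ)) :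
    QF Γ fun v => Q ((g : Matrix ι ι F) *ᵥ v) :=
  ⟨fun c v => by rw [mulVec_smul, h.smul], fun u v => by
    rw [← hg, ← h.polar]; simp only [QuadraticMap.polar, mulVec_add]⟩

theorem unique [Finite F] (h : QF Γ Q) (h' : QF Γ Q') {N : Subgroup (GL ι F)} (hI : Irr N)
    (hn : 2 ≤ Fintype.card ι) (a : N ≤ qiso Q) (b : N ≤ qiso Q') : Q = Q' := by
  by_cases h2 : (2 : F) = 0
  swap
  · exact funext fun v => mul_left_cancel₀ h2 ((h.fm_self v).symm.trans (h'.fm_self v))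
  rcases hI (h.eqSub h') fun g hg w hw => (mem_qiso.1 (a hg) w).trans
    (hw.trans (mem_qiso.1 (b hg) w).symm) with e | e
  · obtain ⟨i, j, hij⟩ := Fintype.one_lt_card_iff.1 hn
    have hi : Q (Pi.single i 1) - Q' (Pi.single i 1) ≠ 0 := fun h0 => by
      simpa using e.le (show Pi.single i 1 ∈ h.eqSub h' from sub_eq_zero.1 h0)
    obtain ⟨s, hs⟩ := exists_sq_of_two_eq_zero h2 ((Q (Pi.single j 1) - Q' (Pi.single j 1)) /
      (Q (Pi.single i 1) - Q' (Pi.single i 1)))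
    rw [eq_div_iff hi] at hs
    have : s • Pi.single i 1 + Pi.single j 1 ∈ h.eqSub h' := (h.add _ _).trans (by
      rw [h'.add, h.smul, h'.smul]
      linear_combination hs + (Q (Pi.single j 1) - Q' (Pi.single j 1)) * h2)
    exact absurd (congrFun ((Submodule.mem_bot F).1 (e.le this)) j) (by simp [hij.symm])
  · exact funext fun v => (e ▸ Submodule.mem_top : v ∈ h.eqSub h')

theorem nm [Finite F] (h : QF Γ Q) {N : Subgroup (GL ι F)} (hI : Irr N) (hn : 2 ≤ Fintype.card ι)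
    (h1 : Nm H N) (h2 : H ≤ isoG (fm (RingHom.id F) Γ)) (h3 : N ≤ qiso Q) : H ≤ qiso Q :=
  fun g hg => mem_qiso.2 (congrFun ((h.comp (h2 hg)).unique h hI hn (fun x hx => mem_qiso.2 fun v => by
    rw [← cj_mulVec, cj_coe, mem_qiso.1 (h3 (h1 g hg x hx))]) h3))

theorem mem_of_basis (h : QF Γ Q) {κ : Type} [Fintype κ] [DecidableEq κ] (e : ι ≃ κ) (P : GL ι F)
    {g : GL ι F} (hg : g ∈ isoG (fm (RingHom.id F) Γ)) (h1 : ∀ a : κ, Q ((g : Matrix ι ι F) *ᵥ
      ((P : Matrix ι ι F) *ᵥ (Pi.single a 1 ∘ e))) = Q ((P : Matrix ι ι F) *ᵥ (Pi.single a 1 ∘ e))) :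
    g ∈ qiso Q := mem_qiso.2 fun v => by
  obtain ⟨x, rfl⟩ := exists_mulVec_comp e P v
  change _ ∈ (h.comp hg).eqSub h
  refine Pi.single_induction (fun x : κ → F => (P : Matrix ι ι F) *ᵥ (x ∘ e) ∈ (h.comp hg).eqSub h) x
    (by simp) (fun x y a b => by rw [Pi.add_comp, mulVec_add]; exact add_mem a b) fun a c => ?_
  rw [show Pi.single a c = c • (Pi.single a 1 : κ → F) by simp [← Pi.single_smul], Pi.smul_comp, mulVec_smul]
  exact Submodule.smul_mem _ _ (h1 a)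

end QF

theorem qf_of_gram {Γ U : Matrix ι ι F} (h : U + Uᵀ = Γ) : QF Γ fun v => fm (RingHom.id F) U v v :=
  ⟨fun c v => by rw [fm_smul_left, fm_smul_right]; simp; ring, fun u v => by
    have := fm_transpose (σ := RingHom.id F) (fun _ => rfl) U u v
    rw [RingHom.coe_id, Matrix.map_id] at this
    rw [QuadraticMap.polar, fm_add_left, fm_add_right, fm_add_right, ← h, fm_add_gram, this]; simp; ring⟩

theorem HF.exists_quad (h : HF (RingHom.id F) ε Γ) (h2 : (2 : F) = 0)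
    (ha : ∀ v, fm (RingHom.id F) (Γ : Matrix ι ι F) v v = 0)
    (hH : H ≤ isoG (fm (RingHom.id F) (Γ : Matrix ι ι F))) {ω : Matrix ι ι F}
    (h1 : ad (RingHom.id F) Γ ω = 1 - ω) (h3 : ∀ g ∈ H, ∃ a : F, cj g ω = ω + a • 1) :
    QF (Γ : Matrix ι ι F) (fun v => fm (RingHom.id F) (Γ : Matrix ι ι F) (ω *ᵥ v) v) ∧
      H ≤ qiso fun v => fm (RingHom.id F) (Γ : Matrix ι ι F) (ω *ᵥ v) v := by
  refine ⟨⟨fun c v => by rw [mulVec_smul, fm_smul_left, fm_smul_right]; simp; ring, fun u v => ?_⟩,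
    fun g hg => mem_qiso.2 fun v => ?_⟩
  · have h4 := h.fm_ad ω u v
    rw [h1, sub_mulVec, one_mulVec, sub_eq_add_neg, fm_add_right, ← neg_one_smul F, fm_smul_right] at h4
    have h5 := h.fm_symm u (ω *ᵥ v)
    simp only [QuadraticMap.polar, mulVec_add, fm_add_left, fm_add_right, RingHom.id_apply] at h4 h5 ⊢
    rcases h.eps with rfl | rfl
    · linear_combination h4 + h5
    · linear_combination h4 + h5 - fm (RingHom.id F) (Γ : Matrix ι ι F) u (ω *ᵥ v) * h2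
  · obtain ⟨a, e⟩ := h3 g⁻¹ (inv_mem hg)
    conv_lhs => rw [← cj_cj_inv g ω]
    rw [cj_mulVec, hH hg, e, add_mulVec, fm_add_left, smul_mulVec, one_mulVec,
      fm_smul_left, ha, mul_zero, add_zero]

end CfsgH5.As
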