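import Cfsg.Agent.H5.As14

set_option autoImplicit false

/-! Tensor decompositions in the presence of a form. -/

namespace CfsgH5.As

open Matrix Module Cfsg.Geo
open scoped Kronecker commutatorElement

universe u

variable {ι : Type} [Fintype ι] [DecidableEq ι] {F : Type u} [Field F] {σ : F →+* F} {Γ : GL ι F}
  {ε : F} {H : Subgroup (GL ι F)}

theorem HF.mem_sim_of_ad (h : HF σ ε Γ) {g : GL ι F} {c : F} (hc : c ≠ 0)
    (hg : ad σ Γ g * g = c • 1) : g ∈ similarityGroup (fm σ (Γ : Matrix ι ι F)) :=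
  ⟨Units.mk0 (σ c) (by simpa), fun u v => by
    rw [h.fm_ad, mulVec_mulVec, hg, smul_mulVec, one_mulVec, fm_smul_right]; rfl⟩

theorem mem_isoG_iff {Γ : Matrix ι ι F} {g : GL ι F} :
    g ∈ isoG (fm σ Γ) ↔ pull σ Γ (g : Matrix ι ι F) = Γ :=
  ⟨fun h => fm_ext (σ := σ) fun u v => (fm_pull _ _ _ _).trans (h u v),
    fun h u v => by rw [← fm_pull, h]⟩

section
variable {κ μ : Type} [Fintype κ] [DecidableEq κ] [Fintype μ] [DecidableEq μ]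

theorem HF.ad_tp (h : HF σ ε Γ) {e : ι ≃ κ} {P : GL ι F} {ε' : F} {Γ' : GL κ F} (h' : HF σ ε' Γ')
    {c : F} (hΓ : (Γ : Matrix ι ι F) = tg σ e P (c • (Γ' : Matrix κ κ F))) (X : Matrix κ κ F) :
    ad σ Γ (tp e P X) = tp e P (ad σ Γ' X) := h.eq_ad fun u v => by
  obtain ⟨x, rfl⟩ := exists_mulVec_comp e P u
  obtain ⟨y, rfl⟩ := exists_mulVec_comp e P v
  rw [hΓ, tp_mulVec, tp_mulVec, fm_tg, fm_tg, fm_smul_gram, fm_smul_gram, h'.fm_ad]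

omit [Fintype κ] [DecidableEq κ] [Fintype μ] [DecidableEq μ] in
theorem kron_eq_smul {A A' : Matrix κ κ F} {B B' : Matrix μ μ F} {c : F} (hA : A' ≠ 0) (hB : B' ≠ 0)
    (hc : c ≠ 0) (h : A ⊗ₖ B = c • A' ⊗ₖ B') : ∃ a b, A = a • A' ∧ B = b • B' ∧ a * b = c := by
  obtain ⟨i, j, h1⟩ : ∃ i j, A' i j ≠ 0 := by by_contra! a; exact hA (Matrix.ext a)
  obtain ⟨k, l, h2⟩ : ∃ i j, B' i j ≠ 0 := by by_contra! a; exact hB (Matrix.ext a)
  have e : ∀ i j k l, A i j * B k l = c * (A' i j * B' k l) := fun i j k l => by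
    simpa using congrFun (congrFun h (i, k)) (j, l)
  obtain ⟨h3, h4⟩ := mul_ne_zero_iff.1 (e i j k l ▸ mul_ne_zero hc (mul_ne_zero h1 h2))
  refine ⟨c * B' k l / B k l, c * A' i j / A i j, ?_, ?_, ?_⟩
  · ext a b; rw [Matrix.smul_apply, smul_eq_mul]; field_simp; linear_combination e a b k l
  · ext a b; rw [Matrix.smul_apply, smul_eq_mul]; field_simp; linear_combination e i j a b
  · field_simp; linear_combination -e i j k l

theorem pull_kron (Γ₁ a : Matrix κ κ F) (Γ₂ b : Matrix μ μ F) :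
    pull σ (Γ₁ ⊗ₖ Γ₂) (a ⊗ₖ b) = pull σ Γ₁ a ⊗ₖ pull σ Γ₂ b := by
  simp only [pull, mul_kronecker_mul]
  congr 1
  ext; simp

theorem HF.kron {ε₁ ε₂ : F} {Γ₁ : GL κ F} {Γ₂ : GL μ F} (h₁ : HF σ ε₁ Γ₁) (h₂ : HF σ ε₂ Γ₂) :
    HF σ (ε₁ * ε₂) (kronG κ μ F (Γ₁, Γ₂)) :=
  ⟨h₁.invol, by rcases h₁.eps with rfl | rfl <;> rcases h₂.eps with rfl | rfl <;> simp, by
    rw [kronG_coe, mul_smul, ← kronecker_smul, ← smul_kronecker, ← h₁.symm, ← h₂.symm]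
    ext; simp⟩

theorem ad_kron (Γ₁ : GL κ F) (Γ₂ : GL μ F) (X : Matrix κ κ F) (Y : Matrix μ μ F) :
    ad σ (kronG κ μ F (Γ₁, Γ₂)) (X ⊗ₖ Y) = ad σ Γ₁ X ⊗ₖ ad σ Γ₂ Y := by
  rw [ad, ← map_inv, Prod.inv_mk, ← kroneckerMap_transpose, cj_kronG]
  ext; simp [ad]

theorem kron_mulVec (a : Matrix κ κ F) (b : Matrix μ μ F) (u : κ → F) (w : μ → F) :
    (a ⊗ₖ b) *ᵥ (fun p => u p.1 * w p.2) = fun p => (a *ᵥ u) p.1 * (b *ᵥ w) p.2 := by
  ext p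
  simp [mulVec, dotProduct, Fintype.sum_prod_type, Finset.sum_mul_sum, mul_mul_mul_comm]

theorem fm_kron (a : Matrix κ κ F) (b : Matrix μ μ F) (u u' : κ → F) (w w' : μ → F) :
    fm σ (a ⊗ₖ b) (fun p => u p.1 * w p.2) (fun p => u' p.1 * w' p.2) = fm σ a u u' * fm σ b w w' := by
  simp only [fm_eq_sum, Fintype.sum_prod_type, Finset.sum_mul_sum, map_mul, kroneckerMap_apply]
  refine Finset.sum_congr rfl fun i _ => Finset.sum_congr rfl fun j _ => Finset.sum_congr rfl fun k _ =>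
    Finset.sum_congr rfl fun l _ => by ring

theorem eps_of_tg [Nonempty κ] (h : HF σ ε Γ) {e : ι ≃ κ} {P : GL ι F} {ε' : F} {Γ' : GL κ F}
    (h' : HF σ ε' Γ') {c : F} (hΓ : (Γ : Matrix ι ι F) = tg σ e P (c • (Γ' : Matrix κ κ F))) :
    c * ε' = ε * σ c := by
  obtain ⟨i⟩ := ‹Nonempty κ›
  obtain ⟨x, hx⟩ := (fm_nondeg (σ := σ) Γ' (Pi.single i 1) (by simp)).1
  have := h.fm_symm ((P : Matrix ι ι F) *ᵥ (x ∘ e)) (P *ᵥ (Pi.single i 1 ∘ e))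
  rw [hΓ, fm_tg, fm_tg, fm_smul_gram, fm_smul_gram, h'.fm_symm, map_mul, ← mul_assoc, ← mul_assoc] at this
  exact mul_right_cancel₀ ((map_ne_zero σ).2 hx) this

theorem tg_transpose (e : ι ≃ κ) (P : GL ι F) (X : Matrix κ κ F) :
    (tg (RingHom.id F) e P X)ᵀ = tg (RingHom.id F) e P Xᵀ := by simp [tg, pull, mul_assoc]

theorem tg_add (e : ι ≃ κ) (P : GL ι F) (X Y : Matrix κ κ F) :
    tg σ e P (X + Y) = tg σ e P X + tg σ e P Y := by simp [tg, pull, submatrix_add, mul_add, add_mul]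

end

/-- a tensor decomposition compatible with the form -/
structure TensF (σ : F →+* F) (Γ : GL ι F) (H : Subgroup (GL ι F)) {k l : ℕ} (e : ι ≃ Fin k × Fin l)
    (P : GL ι F) (c ε₁ ε₂ : F) (Γ₁ : GL (Fin k) F) (Γ₂ : GL (Fin l) F) : Prop where
  two_le_k : 2 ≤ k
  two_le_l : 2 ≤ l
  hf₁ : HF σ ε₁ Γ₁
  hf₂ : HF σ ε₂ Γ₂
  eps : σ ≠ RingHom.id F → ε₁ = 1 ∧ ε₂ = 1
  ne : c ≠ 0
  gram : (Γ : Matrix ι ι F) = tg σ e P (c • (Γ₁ : Matrix (Fin k) (Fin k) F) ⊗ₖ (Γ₂ : Matrix (Fin l) (Fin l) F))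
  le : H ≤ tensorProductSubgroup k l e P

theorem HF.tensF (h : HF σ ε Γ) {k l : ℕ} (hk : 2 ≤ k) (hl : 2 ≤ l) {e : ι ≃ Fin k × Fin l}
    {P : GL ι F} (hH : H ≤ tensorProductSubgroup k l e P)
    (ha : ∀ X, ∃ Y, tp e P (Y ⊗ₖ 1) = ad σ Γ (tp e P (X ⊗ₖ 1))) :
    ∃ c ε₁ ε₂ Γ₁ Γ₂, TensF σ Γ H e P c ε₁ ε₂ Γ₁ Γ₂ := by
  have : Nonempty (Fin k) := ⟨⟨0, by omega⟩⟩
  have : Nonempty (Fin l) := ⟨⟨0, by omega⟩⟩
  obtain ⟨Γ', h1, h2⟩ := exists_eq_tg e P h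
  obtain ⟨a, b, h3⟩ := inv_mem_iff.1 (mem_kron_of_nz (by omega) (by omega) (g := Γ'⁻¹) fun X => by
    obtain ⟨Y, hY⟩ := ha Xᵀ
    rw [h.ad_tp h1 (by rwa [one_smul]), (tp e P).injective.eq_iff, ad, ← kroneckerMap_transpose,
      transpose_one, transpose_transpose] at hY
    refine ⟨Y.map σ, ?_⟩
    ext i j
    simpa [h.invol, one_apply, apply_ite σ] using congrArg σ (congrFun (congrFun hY i) j))
  obtain ⟨x, y, h4, h5, -⟩ := kron_eq_smul (A := (a.1.map σ)ᵀ) (B := (b.1.map σ)ᵀ) a.ne_zero b.ne_zero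
    (left_ne_zero_of_mul_eq_one h1.eps_sq) (by rw [← h3, ← h1.symm, h3]; ext; simp)
  obtain ⟨ε₁, d₁, Γ₁, a1, a2, a3, a4⟩ := exists_HF_of_smul h.invol h4
  obtain ⟨ε₂, d₂, Γ₂, b1, b2, b3, b4⟩ := exists_HF_of_smul h.invol h5
  exact ⟨(d₁ * d₂)⁻¹, ε₁, ε₂, Γ₁, Γ₂, hk, hl, a1, b1, fun e => ⟨a2 e, b2 e⟩, by simp [a3, b3], by
    rw [h2, h3, a4, b4, smul_kronecker, kronecker_smul, smul_smul, smul_smul, mul_assoc,
      inv_mul_cancel₀ (mul_ne_zero a3 b3), one_smul], hH⟩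

theorem Irr.snd {k l : ℕ} (hk : 0 < k) {e : ι ≃ Fin k × Fin l} {P : GL ι F} (hI : Irr H)
    (hH : H ≤ tensorProductSubgroup k l e P) :
    Irr ((H.comap ((tpG e P).toMonoidHom.comp (kronG _ _ F))).map (MonoidHom.snd _ _)) := by
  intro U hU
  let W : Submodule F (Fin k × Fin l → F) := ⨅ i, U.comap (LinearMap.funLeft F F (Prod.mk i))
  have m : ∀ x, x ∈ W ↔ ∀ i, (fun j => x (i, j)) ∈ U := fun x => Submodule.mem_iInf _
  let L := (toLin' (P : Matrix ι ι F)).comp (LinearMap.funLeft F F e)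
  have hL : Function.Injective L := fun x y hxy =>
    e.surjective.injective_comp_right (show LinearMap.funLeft F F e x = LinearMap.funLeft F F e y by
      simpa [L] using congrArg ((P⁻¹ : GL ι F).1 *ᵥ ·) hxy)
  refine (hI (W.map L) ?_).imp (fun a => eq_bot_iff.2 fun u hu => ?_) fun a => eq_top_iff.2 fun u _ => ?_
  · rintro g hg _ ⟨x, hx, rfl⟩
    obtain ⟨a, b, rfl⟩ := mem_tensor_iff.1 (hH hg)
    refine ⟨(kronG _ _ F (a, b)).1 *ᵥ x, (m _).2 fun i => ?_, (tp_mulVec e P (kronG _ _ F (a, b)).1 x).symm⟩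
    convert U.sum_mem (t := Finset.univ) fun i' _ => U.smul_mem (a.1 i i') (hU b ⟨(a, b), hg, rfl⟩ _
      ((m x).1 hx i')) using 1
    ext j
    simp [kronG_coe, mulVec, dotProduct, Fintype.sum_prod_type, Finset.mul_sum, mul_assoc]
  · have := hL ((a.le ⟨fun p => u p.2, (m _).2 fun _ => hu, rfl⟩).trans (map_zero L).symm)
    exact funext fun j => congrFun this (⟨0, hk⟩, j)
  · obtain ⟨x, hx, e⟩ := a.ge (Submodule.mem_top (x := L fun p => u p.2))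
    simpa [hL e] using (m x).1 hx ⟨0, hk⟩

theorem exists_half {k : ℕ} {Γ : Matrix (Fin k) (Fin k) F} (h2 : (2 : F) = 0)
    (h : ∀ v, fm (RingHom.id F) Γ v v = 0) : ∃ U : Matrix (Fin k) (Fin k) F, U + Uᵀ = Γ := by
  refine ⟨of fun i j => if i < j then Γ i j else 0, ?_⟩
  ext i j
  have h1 := h (Pi.single i 1 + Pi.single j 1)
  rw [fm_add_left, fm_add_right, fm_add_right, h, h, fm_single, fm_single] at h1
  rcases lt_trichotomy i j with a | rfl | a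
  · simp [a, a.not_gt]
  · simpa using ((fm_single _ i i).symm.trans (h _)).symm
  · simp only [Matrix.add_apply, of_apply, a, a.not_gt, transpose_apply, if_true, if_false]
    linear_combination h1 - Γ i j * h2

namespace TensF

variable {k l : ℕ} {e : ι ≃ Fin k × Fin l} {P : GL ι F} {c ε₁ ε₂ : F} {Γ₁ : GL (Fin k) F}
  {Γ₂ : GL (Fin l) F}

theorem swap (h : TensF σ Γ H e P c ε₁ ε₂ Γ₁ Γ₂) :
    TensF σ Γ H (e.trans (Equiv.prodComm _ _)) P c ε₂ ε₁ Γ₂ Γ₁ :=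
  ⟨h.two_le_l, h.two_le_k, h.hf₂, h.hf₁, fun a => (h.eps a).symm, h.ne, h.gram.trans (by
    unfold tg; congr 1; ext; simp [mul_comm]), h.le.trans (tensor_swap e P)⟩

theorem card (_ : TensF σ Γ H e P c ε₁ ε₂ Γ₁ Γ₂) : k * l = Fintype.card ι := by
  simp [Fintype.card_congr e]

theorem struct (h : TensF σ Γ H e P c ε₁ ε₂ Γ₁ Γ₂) : IsTensorFormStructure σ (fm σ (Γ : Matrix ι ι F))
    (fm σ (Γ₁ : Matrix _ _ F)) (fm σ (Γ₂ : Matrix _ _ F)) e P :=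
  ⟨c, h.ne, fun x y => by rw [h.gram, fm_tg, fm_smul_gram, gram_fm, gram_fm, fm_eq_sum]; rfl⟩

theorem eps_eq (h : TensF σ Γ H e P c ε₁ ε₂ Γ₁ Γ₂) (h0 : HF σ ε Γ) : c * (ε₁ * ε₂) = ε * σ c :=
  have : Nonempty (Fin k × Fin l) := ⟨(⟨0, by have := h.two_le_k; omega⟩, ⟨0, by have := h.two_le_l; omega⟩)⟩
  eps_of_tg h0 (h.hf₁.kron h.hf₂) h.gram

theorem pull_eq (h : TensF σ Γ H e P c ε₁ ε₂ Γ₁ Γ₂) {a : GL (Fin k) F} {b : GL (Fin l) F} {d : F}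
    (hd : d ≠ 0) (hg : pull σ (Γ : Matrix ι ι F) (tpG e P (kronG _ _ F (a, b)) : Matrix ι ι F) = d • Γ) :
    ∃ x y, pull σ (Γ₁ : Matrix _ _ F) (a : Matrix (Fin k) (Fin k) F) = x • (Γ₁ : Matrix _ _ F) ∧
      pull σ (Γ₂ : Matrix _ _ F) (b : Matrix (Fin l) (Fin l) F) = y • (Γ₂ : Matrix _ _ F) ∧ x * y = d := by
  have : Nonempty (Fin k) := ⟨⟨0, by have := h.two_le_k; omega⟩⟩
  have : Nonempty (Fin l) := ⟨⟨0, by have := h.two_le_l; omega⟩⟩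
  rw [h.gram, tpG_coe, pull_tg, ← tg_smul, (tg_injective e P).eq_iff, pull_smul_gram, smul_comm,
    (smul_right_injective _ h.ne).eq_iff, kronG_coe, pull_kron] at hg
  exact kron_eq_smul Γ₁.ne_zero Γ₂.ne_zero hd hg

theorem sim (h : TensF σ Γ H e P c ε₁ ε₂ Γ₁ Γ₂) {a : GL (Fin k) F} {b : GL (Fin l) F}
    (hg : tpG e P (kronG _ _ F (a, b)) ∈ similarityGroup (fm σ (Γ : Matrix ι ι F))) :
    a ∈ similarityGroup (fm σ (Γ₁ : Matrix _ _ F)) ∧ b ∈ similarityGroup (fm σ (Γ₂ : Matrix _ _ F)) := by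
  have : Nonempty (Fin k) := ⟨⟨0, by have := h.two_le_k; omega⟩⟩
  have : Nonempty (Fin l) := ⟨⟨0, by have := h.two_le_l; omega⟩⟩
  obtain ⟨d, hd⟩ := hg
  obtain ⟨x, y, a, b, -⟩ := h.pull_eq d.ne_zero (fm_ext (σ := σ) fun u v => by
    rw [fm_pull, hd, fm_smul_gram])
  exact ⟨mem_sim_iff.2 ⟨x, a⟩, mem_sim_iff.2 ⟨y, b⟩⟩

theorem alt [Finite F] (h : TensF (RingHom.id F) Γ H e P c ε₁ ε₂ Γ₁ Γ₂) (h2 : (2 : F) = 0) (hI : Irr H)
    (hH : H ≤ similarityGroup (fm (RingHom.id F) (Γ : Matrix ι ι F))) (v : Fin l → F) :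
    fm (RingHom.id F) (Γ₂ : Matrix _ _ F) v v = 0 :=
  alt_of_irr h2 h.hf₂ (hI.snd (by have := h.two_le_k; omega) h.le) (by simpa using h.two_le_l)
    (by rintro _ ⟨⟨a, b⟩, hg, rfl⟩; exact (h.sim (hH hg)).2) v

theorem exists_quad (h : TensF (RingHom.id F) Γ H e P c ε₁ ε₂ Γ₁ Γ₂) (h2 : (2 : F) = 0)
    (h3 : ∀ v, fm (RingHom.id F) (Γ₁ : Matrix (Fin k) (Fin k) F) v v = 0)
    (h4 : ∀ v, fm (RingHom.id F) (Γ₂ : Matrix (Fin l) (Fin l) F) v v = 0) : ∃ Q, QF (Γ : Matrix ι ι F) Q ∧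
      (∀ (u : Fin k → F) (w : Fin l → F), Q ((P : Matrix ι ι F) *ᵥ ((fun p => u p.1 * w p.2) ∘ e)) = 0) ∧
      tensorProductSubgroup k l e P ⊓ isoG (fm (RingHom.id F) (Γ : Matrix ι ι F)) ≤ qiso Q := by
  obtain ⟨U, hU⟩ := exists_half h2 h3
  obtain ⟨U', hU'⟩ := exists_half h2 h4
  have a := qf_of_gram (U := tg (RingHom.id F) e P (c • U ⊗ₖ (Γ₂ : Matrix (Fin l) (Fin l) F))) (Γ := Γ) (by
    rw [h.gram, tg_transpose, ← tg_add, transpose_smul, ← smul_add, ← kroneckerMap_transpose, ← hU',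
      transpose_add, transpose_transpose, add_comm U'ᵀ, ← add_kronecker, hU])
  have b : ∀ (u : Fin k → F) (w : Fin l → F), fm (RingHom.id F) (tg (RingHom.id F) e P (c • U ⊗ₖ
      (Γ₂ : Matrix (Fin l) (Fin l) F))) ((P : Matrix ι ι F) *ᵥ ((fun p => u p.1 * w p.2) ∘ e))
      ((P : Matrix ι ι F) *ᵥ ((fun p => u p.1 * w p.2) ∘ e)) = 0 := fun u w => by
    rw [fm_tg, fm_smul_gram, fm_kron, h4, mul_zero, mul_zero]
  refine ⟨_, a, b, fun g ⟨g1, g2⟩ => a.mem_of_basis e P g2 fun p => ?_⟩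
  obtain ⟨x, y, rfl⟩ := mem_tensor_iff.1 g1
  have : (Pi.single p 1 : _ → F) = fun q => (Pi.single p.1 1 : _ → F) q.1 * (Pi.single p.2 1 : _ → F) q.2 := by
    ext q; by_cases a : q.1 = p.1 <;> simp [Pi.single_apply, Prod.ext_iff, a]
  rw [this, tpG_coe, tp_mulVec, kronG_coe, kron_mulVec, b, b]

end TensF

theorem HF.adjoin (h : HF σ ε Γ) {x : Matrix ι ι F} (h1 : ∀ g ∈ H, cj g x ∈ Algebra.adjoin F {x})
    (h2 : ad σ Γ x ∈ Algebra.adjoin F {x}) : Nz H (Algebra.adjoin F {x} :) ∧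
      (∀ y ∈ Algebra.adjoin F {x}, ∀ z ∈ Algebra.adjoin F {x}, y * z = z * y) ∧
      ∀ y ∈ Algebra.adjoin F {x}, ad σ Γ y ∈ Algebra.adjoin F {x} := by
  refine ⟨fun g hg y hy => ?_, fun y hy z hz => Algebra.commute_of_mem_adjoin_singleton_of_commute hz
    (Algebra.commute_of_mem_adjoin_self hy).symm, fun y hy => ?_⟩
  · exact Algebra.adjoin_le (S := (Algebra.adjoin F {x}).comap (cj g).toAlgHom)
      (Set.singleton_subset_iff.2 (h1 g hg)) hy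
  · induction hy using Algebra.adjoin_induction with
    | mem y hy => exact hy ▸ h2
    | algebraMap c => simp [Algebra.algebraMap_eq_smul_one, ad_smul, Subalgebra.smul_mem]
    | add y z _ _ a b => exact ad_add (σ := σ) y z ▸ add_mem a b
    | mul y z _ _ a b => exact ad_mul (σ := σ) y z ▸ mul_mem b a

theorem TensF.two {k : ℕ} {e : ι ≃ Fin k × Fin 2} {P : GL ι F} {c ε₁ : F} {Γ₁ : GL (Fin k) F}
    {Γ₂ : GL (Fin 2) F} (h : TensF (RingHom.id F) Γ H e P c ε₁ 1 Γ₁ Γ₂) (h0 : HF (RingHom.id F) ε Γ)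
    (h2 : (2 : F) ≠ 0) (hH : H ≤ similarityGroup (fm (RingHom.id F) (Γ : Matrix ι ι F))) :
    ∃ x : Matrix ι ι F, (∀ d : F, x ≠ d • 1) ∧ ad (RingHom.id F) Γ x = -x ∧
      ∀ g ∈ H, ∃ d : F, cj g x = d • x := by
  have h1 : (Γ₂ : Matrix (Fin 2) (Fin 2) F)ᵀ = Γ₂ := by simpa using h.hf₂.symm
  have h3 : (J2 F : Matrix (Fin 2) (Fin 2) F)ᵀ = -J2 F := by simpa using (hf_J2 (F := F)).symm
  refine ⟨tp e P (1 ⊗ₖ ((Γ₂⁻¹ * J2 F : GL (Fin 2) F) : Matrix (Fin 2) (Fin 2) F)), fun d hd => ?_, ?_,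
    fun g hg => ?_⟩
  · have h4 : ((Γ₂⁻¹ * J2 F : GL (Fin 2) F) : Matrix (Fin 2) (Fin 2) F) = d • 1 := by
      ext i j
      have k0 : Fin k := ⟨0, by have := h.two_le_k; omega⟩
      simpa [one_apply] using congrFun (congrFun (tp_eq_smul hd) (k0, i)) (k0, j)
    have h5 : (J2 F : Matrix (Fin 2) (Fin 2) F) = d • Γ₂ := by
      simpa using congrArg ((Γ₂ : Matrix (Fin 2) (Fin 2) F) * ·) h4
    have h6 := congrFun (congrFun (h5.trans (h1 ▸ (transpose_smul d _).symm.trans (congrArg _ h5.symm))) 0) 1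
    simp only [J2, transpose_apply, of_apply, cons_val] at h6
    exact h2 (by linear_combination h6)
  · rw [h0.ad_tp (h.hf₁.kron h.hf₂) h.gram, ad_kron, ad_one, ← map_neg, ← neg_one_smul F, ← kronecker_smul]
    congr 2
    refine h.hf₂.eq_ad fun u v => ?_
    have h4 : ((Γ₂⁻¹ : GL (Fin 2) F) : Matrix (Fin 2) (Fin 2) F)ᵀ * Γ₂ = 1 := by
      rw [← h1, ← transpose_mul, Units.mul_inv, transpose_one]
    rw [← one_mulVec v, fm_mulVec, one_mulVec, ← one_mulVec u, fm_mulVec, one_mulVec]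
    simp [mul_assoc, h3, -coe_units_inv, h4]
  · obtain ⟨a, b, e1⟩ := mem_tensor_iff.1 (h.le (inv_mem hg))
    obtain ⟨y, hy⟩ := (h.sim (e1 ▸ hH (inv_mem hg))).2
    refine ⟨(y : F)⁻¹ * b.1.det, ?_⟩
    rw [← inv_inv g, e1, ← map_inv, ← map_inv, Prod.inv_mk, cj_tpG, cj_kronG, map_one, ← map_smul,
      ← kronecker_smul]
    congr 2
    have h4 : b.1ᵀ * Γ₂ * b = (y : F) • Γ₂ := fm_ext (σ := RingHom.id F) fun u v => by
      rw [fm_smul_gram, ← hy, fm_mulVec]; rfl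
    have h5 : b.1ᵀ * J2 F * b = _ := pull_J2 b.1
    rw [mul_smul, Units.val_mul, ← mul_smul_comm, ← h5, eq_inv_smul_iff₀ y.ne_zero, cj_apply, inv_inv,
      ← mul_assoc, ← mul_assoc, ← mul_assoc, ← smul_mul_assoc, ← smul_mul_assoc]
    congr 2
    refine (Γ₂.mul_right_inj.1 ((b⁻¹ * Γ₂⁻¹)⁻¹.mul_left_inj.1 ?_))
    simp [← h4, mul_assoc, -coe_units_inv]

end CfsgH5.As
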