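import Cfsg.Agent.H5.As15

set_option autoImplicit false

/-! Tensor powers, multipliers and subfield structures in the presence of a form. -/

namespace CfsgH5.As

open Matrix Module Cfsg.Geo
open scoped Kronecker commutatorElement

universe u

variable {ι : Type} [Fintype ι] [DecidableEq ι] {F : Type u} [Field F] {σ : F →+* F} {Γ : GL ι F}
  {ε : F} {H G : Subgroup (GL ι F)}

section
variable {t : ℕ} {κ : Type} [Fintype κ] [DecidableEq κ]

omit [Fintype κ] in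
theorem ptens_single_apply (i : Fin t) (X : Matrix κ κ F) (x y : Fin t → κ) :
    ptens (Pi.mulSingle i X) x y = X (x i) (y i) *
      ∏ j ∈ Finset.univ.erase i, (1 : Matrix κ κ F) (x j) (y j) := by
  rw [ptens_apply, ← Finset.mul_prod_erase _ _ (Finset.mem_univ i), Pi.mulSingle_eq_same]
  exact congrArg _ (Finset.prod_congr rfl fun j hj => by
    rw [Pi.mulSingle_eq_of_ne (Finset.ne_of_mem_erase hj)])

/-- the `i`-th factor of a tensor power -/
def fac (i : Fin t) : Matrix κ κ F →ₐ[F] Matrix (Fin t → κ) (Fin t → κ) F :=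
  AlgHom.ofLinearMap
    { toFun X := ptens (Pi.mulSingle i X)
      map_add' X Y := by ext; simp [ptens_single_apply, add_mul]
      map_smul' c X := by ext; simp [ptens_single_apply, mul_assoc] }
    (by simp [ptens_one]) fun X Y => by simp [← ptens_mul, Pi.mulSingle_mul]

theorem fac_apply (i : Fin t) (X : Matrix κ κ F) : fac i X = ptens (Pi.mulSingle i X) := rfl

theorem fac_transpose (i : Fin t) (X : Matrix κ κ F) : (fac i X)ᵀ = fac i Xᵀ := by
  ext x y; simp [fac_apply, ptens_single_apply, one_apply, eq_comm]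

theorem fac_map (i : Fin t) (X : Matrix κ κ F) : (fac i X).map σ = fac i (X.map σ) := by
  ext x y; simp [fac_apply, ptens_single_apply, one_apply, apply_ite σ]

theorem eq_top_of_fac {A : Subalgebra F (Matrix (Fin t → κ) (Fin t → κ) F)} (h : ∀ i X, fac i X ∈ A) :
    A = ⊤ := by
  have h1 : ∀ X : Fin t → Matrix κ κ F, ptens X ∈ A := pi_induction (by rw [ptens_one]; exact A.one_mem)
    fun i x y hy => by rw [ptens_mul]; exact A.mul_mem (h i x) hy
  refine eq_top_iff.2 fun X _ => ?_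
  rw [matrix_eq_sum_single X]
  refine sum_mem fun a _ => sum_mem fun b _ => ?_
  simpa [ptens_single] using A.smul_mem (h1 fun i => single (a i) (b i) 1) (X a b)

omit [Fintype κ] [DecidableEq κ] in
theorem ptens_update (X : Matrix κ κ F) (i : Fin t) (U : Matrix κ κ F) (x y : Fin t → κ) :
    ptens (Function.update (fun _ => X) i U) x y = U (x i) (y i) *
      ∏ j ∈ Finset.univ.erase i, X (x j) (y j) := by
  rw [ptens_apply, ← Finset.mul_prod_erase _ _ (Finset.mem_univ i), Function.update_self]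
  exact congrArg _ (Finset.prod_congr rfl fun j hj => by
    rw [Function.update_of_ne (Finset.ne_of_mem_erase hj)])

omit [DecidableEq κ] in
theorem ptens_mulVec (X : Fin t → Matrix κ κ F) (u : Fin t → κ → F) :
    ptens X *ᵥ (fun x => ∏ i, u i (x i)) = fun x => ∏ i, (X i *ᵥ u i) (x i) := by
  ext x
  simp only [mulVec, dotProduct, ptens_apply, ← Finset.prod_mul_distrib, Finset.prod_univ_sum,
    Fintype.piFinset_univ]

omit [DecidableEq κ] in
theorem fm_ptens (X : Fin t → Matrix κ κ F) (u w : Fin t → κ → F) :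
    fm σ (ptens X) (fun x => ∏ i, u i (x i)) (fun x => ∏ i, w i (x i)) = ∏ i, fm σ (X i) (u i) (w i) := by
  rw [fm, show σ ∘ (fun x : Fin t → κ => ∏ i, w i (x i)) = fun x => ∏ i, (σ ∘ w i) (x i) from
    funext fun x => map_prod σ _ _, ptens_mulVec]
  simp only [fm, dotProduct, ← Finset.prod_mul_distrib, Finset.prod_univ_sum, Fintype.piFinset_univ]

theorem fperm_mulVec (s : Equiv.Perm (Fin t)) (u : Fin t → κ → F) :
    fperm s *ᵥ (fun x => ∏ i, u i (x i)) = fun x => ∏ i, u (s.symm i) (x i) := by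
  ext x
  simp [mulVec, dotProduct, fperm, ← Equiv.prod_comp s fun i => u (s.symm i) (x i)]

end

theorem pull_eq_iff {Γ : GL ι F} {x : Matrix ι ι F} {l : F} :
    pull σ (Γ : Matrix ι ι F) x = l • Γ ↔ cj Γ⁻¹ xᵀ * x.map σ = l • 1 := by
  rw [cj_apply, inv_inv, pull, mul_assoc, mul_assoc, mul_assoc, Units.inv_mul_eq_iff_eq_mul, mul_smul_comm,
    mul_one]

/-- a tensor power decomposition compatible with the form -/
structure WrF (σ : F →+* F) (Γ : GL ι F) (H : Subgroup (GL ι F)) {k t : ℕ} (e : ι ≃ (Fin t → Fin k))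
    (P : GL ι F) (c ε₀ : F) (Γ₀ : GL (Fin k) F) : Prop where
  two_le_k : 2 ≤ k
  two_le_t : 2 ≤ t
  hf : HF σ ε₀ Γ₀
  eps : σ ≠ RingHom.id F → ε₀ = 1
  ne : c ≠ 0
  gram : (Γ : Matrix ι ι F) = tg σ e P (c • ptens fun _ => (Γ₀ : Matrix (Fin k) (Fin k) F))
  le : H ≤ tensorWreathSubgroup k t e P

theorem TensSys.wrF {k t : ℕ} {e : ι ≃ (Fin t → Fin k)} {P : GL ι F} (hT : TensSys G k t e P)
    (h : HF σ ε Γ) (hG : G ≤ similarityGroup (fm σ (Γ : Matrix ι ι F))) : ∃ c ε₀ Γ₀,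
      WrF σ Γ G e P c ε₀ Γ₀ ∧ ∃ L : Subgroup (GL (Fin k) F), env F L = ⊤ ∧ ⁅L, L⁆ = L ∧
        L ≤ isoG (fm σ (Γ₀ : Matrix (Fin k) (Fin k) F)) := by
  have : Nonempty (Fin k) := ⟨⟨0, by have := hT.two_le_k; omega⟩⟩
  let i₀ : Fin t := ⟨0, by have := hT.two_le_t; omega⟩
  obtain ⟨L, h1, h2, h3⟩ := hT.comp
  obtain ⟨Γ', h4, h5⟩ := exists_eq_tg e P h
  let φ : Fin t → GL (Fin k) F →* GL (Fin t → Fin k) F := fun i => Units.map (fac i).toMonoidHom
  have h6 : ∀ i, ∀ a ∈ L, pull σ Γ'.1 (fac i a.1) = Γ' := fun i a ha => by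
    have := mem_isoG_iff.1 (le_isoG_of_perfect (G := L.map ((tpG e P).toMonoidHom.comp (φ i)))
      (by rw [← Subgroup.map_commutator, h2]) (by
        rintro _ ⟨a, ha, rfl⟩
        obtain ⟨x, hx, e1⟩ := h3 i a ha
        exact (Units.ext e1 : x = tpG e P (φ i a)) ▸ hG hx) ⟨a, ha, rfl⟩)
    rw [h5] at this
    exact tg_injective e P ((pull_tg e P _ _).symm.trans this)
  obtain ⟨a, ha⟩ := exists_cj_of_range_le ((cj Γ'⁻¹).toAlgHom.comp (fac i₀)) (fac i₀) fun X => by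
    refine env_induction (k := F) (N := L) (p := fun X => cj Γ'⁻¹ (fac i₀ Xᵀ) ∈ (fac i₀).range)
      (fun b hb => ⟨((b⁻¹ : GL _ F) : Matrix _ _ F).map σ, ?_⟩) (by simp) (fun x y a b => by
        simpa using add_mem a b) (fun c x a => by simpa using Subalgebra.smul_mem _ a c)
      (x := Xᵀ) (h1 ▸ Algebra.mem_top)
    have := pull_eq_iff.1 ((h6 i₀ b hb).trans (one_smul _ _).symm)
    rw [fac_transpose, fac_map, one_smul] at this
    refine (left_inv_eq_right_inv this ?_).symm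
    rw [AlgHom.toRingHom_eq_coe, RingHom.coe_coe, ← map_mul, ← Matrix.map_mul, Units.mul_inv]; simp
  obtain ⟨ε₀, Γ₀, h7, h8, h9⟩ := exists_HF h.invol h1 a⁻¹.ne_zero fun b hb => by
    have := pull_eq_iff.1 ((h6 i₀ b hb).trans (one_smul _ _).symm)
    rw [fac_transpose, fac_map, show cj Γ'⁻¹ (fac i₀ _) = _ from ha _, ← map_mul, one_smul,
      ← map_one (fac (κ := Fin k) (F := F) i₀)] at this
    exact (pull_eq_iff.2 (by
      rw [inv_inv, one_smul]; exact (fac i₀).toRingHom.injective this)).trans (one_smul _ _)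
  obtain ⟨c, hc⟩ := gram_unique (σ := σ) (N := ⨆ i, L.map (φ i)) (Γ := ptensG fun _ => Γ₀) (Γ' := Γ')
    (eq_top_of_fac fun i X => env_induction (k := F) (N := L) (p := fun X => fac i X ∈ _)
      (fun b hb => mem_env (g := φ i b) (Subgroup.mem_iSup_of_mem (S := fun i => L.map (φ i)) i
        ⟨b, hb, rfl⟩)) (by simp)
      (fun x y a b => by simpa using add_mem a b) (fun c x a => by simpa using Subalgebra.smul_mem _ a c)
      (h1 ▸ Algebra.mem_top)) fun x hx => by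
    have : x ∈ isoG (fm σ (ptensG fun _ : Fin t => Γ₀).1) ⊓ isoG (fm σ Γ'.1) := by
      refine (iSup_le fun i => ?_ : ⨆ i, L.map (φ i) ≤ _) hx
      rintro _ ⟨b, hb, rfl⟩
      refine ⟨mem_isoG_iff.2 ((pull_ptens _ _).trans (congrArg ptens (funext fun j => ?_))),
        mem_isoG_iff.2 (h6 i b hb)⟩
      by_cases hj : j = i <;> simp [Pi.mulSingle_apply, hj, h9 b hb]
    exact ⟨1, by simpa using mem_isoG_iff.1 this.1, by simpa using mem_isoG_iff.1 this.2⟩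
  exact ⟨c, ε₀, Γ₀, ⟨hT.two_le_k, hT.two_le_t, h7, h8, by rintro rfl; simp at hc, h5.trans (congrArg _ hc),
    hT.le⟩, L, h1, h2, fun b hb => mem_isoG_iff.2 (h9 b hb)⟩

namespace WrF

variable {k t : ℕ} {e : ι ≃ (Fin t → Fin k)} {P : GL ι F} {c ε₀ : F} {Γ₀ : GL (Fin k) F}

theorem mono (h : WrF σ Γ G e P c ε₀ Γ₀) (hH : H ≤ tensorWreathSubgroup k t e P) :
    WrF σ Γ H e P c ε₀ Γ₀ := ⟨h.1, h.2, h.3, h.4, h.5, h.6, hH⟩

theorem card (_ : WrF σ Γ H e P c ε₀ Γ₀) : k ^ t = Fintype.card ι := by simp [Fintype.card_congr e]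

theorem struct (h : WrF σ Γ H e P c ε₀ Γ₀) : IsTensorPowerFormStructure σ (fm σ (Γ : Matrix ι ι F))
    (fm σ (Γ₀ : Matrix _ _ F)) e P :=
  ⟨c, h.ne, fun x y => by rw [h.gram, fm_tg, fm_smul_gram, gram_fm, fm_eq_sum]; rfl⟩

theorem eps_eq (h : WrF σ Γ H e P c ε₀ Γ₀) (h0 : HF σ ε Γ) : c * ε₀ ^ t = ε * σ c :=
  have : Nonempty (Fin k) := ⟨⟨0, by have := h.two_le_k; omega⟩⟩
  eps_of_tg h0 h.hf.ptens h.gram

theorem exists_quad (h : WrF (RingHom.id F) Γ H e P c ε₀ Γ₀) (h2 : (2 : F) = 0)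
    (h3 : ∀ v, fm (RingHom.id F) (Γ₀ : Matrix (Fin k) (Fin k) F) v v = 0) : ∃ Q, QF (Γ : Matrix ι ι F) Q ∧
      (∀ u : Fin t → Fin k → F, Q ((P : Matrix ι ι F) *ᵥ ((fun x => ∏ i, u i (x i)) ∘ e)) = 0) ∧
      tensorWreathSubgroup k t e P ⊓ isoG (fm (RingHom.id F) (Γ : Matrix ι ι F)) ≤ qiso Q := by
  obtain ⟨U, hU⟩ := exists_half h2 h3
  have := h.two_le_t
  let i₀ : Fin t := ⟨0, by omega⟩
  let U' := tg (RingHom.id F) e P (c • ptens (Function.update (fun _ => Γ₀.1) i₀ U))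
  have a := qf_of_gram (U := U') (Γ := Γ) (by
    rw [h.gram, tg_transpose, ← tg_add, transpose_smul, ← smul_add]
    congr 2
    ext x y
    rw [← Function.update_eq_self i₀ fun _ => Γ₀.1]
    simp only [Matrix.add_apply, transpose_apply, ptens_update, Function.update_idem, ← hU, add_mul,
      add_comm (U (y _) _)])
  have b : ∀ u : Fin t → Fin k → F, fm (RingHom.id F) U' (P.1 *ᵥ ((fun x => ∏ i, u i (x i)) ∘ e))
      (P.1 *ᵥ ((fun x => ∏ i, u i (x i)) ∘ e)) = 0 := fun u => by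
    rw [fm_tg, fm_smul_gram, fm_ptens, Finset.prod_eq_zero (Finset.mem_univ ⟨1, by omega⟩)
      (by rw [Function.update_of_ne (by simp [i₀, Fin.ext_iff]), h3]), mul_zero]
  refine ⟨_, a, b, fun g ⟨g1, g2⟩ => a.mem_of_basis e P g2 fun p => ?_⟩
  obtain ⟨s, x, rfl⟩ := mem_wreath_iff g1
  have : (Pi.single p 1 : _ → F) = fun q => ∏ i, (Pi.single (p i) 1 : _ → F) (q i) := by
    ext q; simp [Pi.single_apply, Finset.prod_ite_zero, funext_iff]
  rw [this, tpG_coe, tp_mulVec, Units.val_mul, ← mulVec_mulVec]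
  exact ((congrArg (fun v => fm _ U' (P.1 *ᵥ (v ∘ e)) (P.1 *ᵥ (v ∘ e))) ((congrArg _
    (ptens_mulVec _ _)).trans (fperm_mulVec s _))).trans (b _)).trans (b _).symm

end WrF

theorem tpG_mulVec {κ : Type} [Fintype κ] [DecidableEq κ] (e : ι ≃ κ) (P : GL ι F) (b : GL κ F)
    (x : κ → F) : (tpG e P b * P).1 *ᵥ (x ∘ e) = P.1 *ᵥ ((b.1 *ᵥ x) ∘ e) := by
  rw [Units.val_mul, ← mulVec_mulVec, tpG_coe, tp_mulVec]

theorem tpG_mul {κ : Type} [Fintype κ] [DecidableEq κ] (e : ι ≃ κ) (P : GL ι F) (b x : GL κ F) :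
    tpG e (tpG e P b * P) x = tpG e P (b * x * b⁻¹) := Units.ext (by
  rw [tpG_coe, tpG_coe, ← cj_coe, ← cj_tpG]; exact cj_mul _ _ _)

theorem TensF.wrF {k : ℕ} {e : ι ≃ Fin k × Fin k} {P : GL ι F} {c ε₁ ε₂ : F} {Γ₁ Γ₂ : GL (Fin k) F}
    (h : TensF σ Γ H e P c ε₁ ε₂ Γ₁ Γ₂) {b : GL (Fin k) F} {d : F} (hd : d ≠ 0)
    (hb : pull σ Γ₂.1 b.1 = d • Γ₁.1) : ∃ P', TensF σ Γ H e P' (c * d) ε₁ ε₁ Γ₁ Γ₁ ∧
      WrF σ Γ H (e.trans (finTwoArrowEquiv _).symm) P' (c * d) ε₁ Γ₁ := by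
  have h1 : TensF σ Γ H e (tpG e P (kronG _ _ F (1, b)) * P) (c * d) ε₁ ε₁ Γ₁ Γ₁ :=
    ⟨h.1, h.1, h.3, h.3, fun a => ⟨(h.eps a).1, (h.eps a).1⟩, mul_ne_zero h.ne hd,
      fm_ext_tp (σ := σ) e _ fun x y => by
        rw [fm_tg, tpG_mulVec, tpG_mulVec, h.gram, fm_tg, ← fm_pull, pull_smul_gram, kronG_coe, pull_kron,
          hb, Units.val_one, pull_one, kronecker_smul, smul_smul], fun g hg => by
      obtain ⟨x, y, rfl⟩ := mem_tensor_iff.1 (h.le hg)
      exact mem_tensor_iff.2 ⟨x, b⁻¹ * y * b, by rw [tpG_mul, ← map_inv, ← map_mul, ← map_mul]; simp [mul_assoc]⟩⟩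
  refine ⟨_, h1, h.1, le_rfl, h.3, fun a => (h.eps a).1, h1.ne, h1.gram.trans ?_,
    h1.le.trans (kron_le_wreath _ _)⟩
  unfold tg; congr 1; ext; simp [ptens_apply]

end CfsgH5.As
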