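import Cfsg.Agent.H5.As16

set_option autoImplicit false

/-! Multipliers, subfield structures and extraspecial groups in the presence of a form. -/

namespace CfsgH5.As

open Matrix Module Cfsg.Geo
open scoped Kronecker commutatorElement

universe u

variable {ι : Type} [Fintype ι] [DecidableEq ι] {F : Type u} [Field F] {σ : F →+* F} {Γ : GL ι F}
  {ε : F} {H G N : Subgroup (GL ι F)}

theorem exists_mult [Nonempty ι] (σ : F →+* F) (Γ : GL ι F) :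
    ∃ μ : similarityGroup (fm σ (Γ : Matrix ι ι F)) →* Fˣ, ∀ g, pull σ Γ.1 g.1.1 = (μ g : F) • Γ.1 := by
  have h : ∀ g : similarityGroup (fm σ (Γ : Matrix ι ι F)), ∃ c : Fˣ, pull σ Γ.1 g.1.1 = (c : F) • Γ.1 :=
    fun g => g.2.imp fun c hc => fm_ext (σ := σ) fun u v => by rw [fm_pull, hc, fm_smul_gram]
  choose μ hμ using h
  refine ⟨MonoidHom.mk' μ fun a b => Units.ext (smul_left_injective F Γ.ne_zero ?_), hμ⟩
  simp only [← hμ, Subgroup.coe_mul, Units.val_mul, pull_mul, mul_smul]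
  rw [hμ a, pull_smul_gram, hμ b]

theorem map_trace {x : GL ι F} {l : F} (h : pull σ Γ.1 x.1 = l • Γ.1) :
    σ x.1.trace = l * (x⁻¹).1.trace := by
  have h1 := congrArg (cj Γ⁻¹ (x⁻¹).1ᵀ * ·) (pull_eq_iff.1 h)
  simp only [← mul_assoc, ← map_mul, ← transpose_mul, Units.mul_inv, transpose_one, map_one, one_mul,
    mul_smul_comm, mul_one] at h1
  rw [← trace_transpose (x⁻¹).1, ← trace_cj Γ⁻¹ (x⁻¹).1ᵀ, ← smul_eq_mul, ← trace_smul, ← h1, AddMonoidHom.map_trace]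

theorem HF.map_mult [Nonempty ι] (h : HF σ ε Γ) {x : Matrix ι ι F} {l : F} (hl : pull σ Γ.1 x = l • Γ.1) :
    σ l = l := by
  have := pull_transpose h.invol Γ.1 x
  rw [h.symm, pull_smul_gram, hl, map_smul' _ _ _ (map_mul σ), transpose_smul, h.symm, smul_comm] at this
  exact (smul_left_injective F (smul_ne_zero (left_ne_zero_of_mul_eq_one h.eps_sq) Γ.ne_zero) this).symm

/-- the fixed field -/
def fixF (σ : F →+* F) : Subfield F := σ.eqLocusField (RingHom.id F)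

theorem fixF_ne_top (h : σ ≠ RingHom.id F) : fixF σ ≠ ⊤ := fun e =>
  h (RingHom.ext fun x => (e.ge (Subfield.mem_top x) :))

theorem realisable_of_two [Finite F] [Nonempty ι] (hN : env F N = ⊤) {B : GL ι F}
    (h1 : N ≤ isoG (fm σ Γ.1)) (h2 : N ≤ isoG (fm (RingHom.id F) B.1)) :
    ∃ P : GL ι F, ∀ x ∈ N, cj P⁻¹ (x : Matrix ι ι F) ∈ Ov (fixF σ) :=
  exists_Ov_of_trace hN fun x hx =>
    (map_trace ((mem_isoG_iff.1 (h1 hx)).trans (one_smul _ _).symm)).trans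
      (map_trace ((mem_isoG_iff.1 (h2 hx)).trans (one_smul _ _).symm)).symm

theorem UF.map_mem {q : ℕ} (h : UF σ q) {F₀ : Subfield F} {x : F} (hx : x ∈ F₀) : σ x ∈ F₀ :=
  h.pow x ▸ F₀.pow_mem hx _

theorem map_mem_of_invol [Finite F] (h : ∀ a, σ (σ a) = a) {F₀ : Subfield F} {x : F} (hx : x ∈ F₀) :
    σ x ∈ F₀ := by
  by_cases e : σ = RingHom.id F
  · rwa [e]
  · obtain ⟨q, hq⟩ := exists_UF_of_invol e h; exact UF.map_mem hq hx

theorem pull_map_proj {F₀ : Subfield F} (π : F →ₗ[F₀] F₀) (hσ : ∀ x ∈ F₀, σ x ∈ F₀) (X : Matrix ι ι F)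
    {y : Matrix ι ι F} (hy : y ∈ Ov F₀) :
    pull σ (X.map fun a => (π a : F)) y = (pull σ X y).map fun a => (π a : F) := by
  ext i j
  simp only [pull, mul_apply, map_apply, transpose_apply, map_sum, Finset.sum_mul, AddSubmonoidClass.coe_finset_sum]
  refine Finset.sum_congr rfl fun a _ => Finset.sum_congr rfl fun b _ => ?_
  have := π.map_smul (⟨y b i * σ (y a j), mul_mem (hy b i) (hσ _ (hy a j))⟩ : F₀) (X b a)
  rw [show y b i * X b a * σ (y a j) = _ from _, this]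
  · simp; ring
  · simp [Subfield.smul_def]; ring

/-- a subfield structure compatible with the form -/
structure SubF [Fintype F] (σ : F →+* F) (Γ : GL ι F) (H N : Subgroup (GL ι F)) (F₁ : Subfield F) (r : ℕ)
    (P : GL ι F) (d : F) : Prop where
  prime : r.Prime
  card : Fintype.card F = Nat.card F₁ ^ r
  ne : d ≠ 0
  rat : d • pull σ Γ.1 P.1 ∈ Ov F₁
  le : H ≤ subfieldSubgroup F₁ P
  span : env F N = ⊤
  sim : N ≤ similarityGroup (fm σ Γ.1)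
  ov : ∀ x ∈ N, cj P⁻¹ x.1 ∈ Ov F₁

theorem pull_cj (Γ : Matrix ι ι F) (P : GL ι F) (x : Matrix ι ι F) :
    pull σ (pull σ Γ P.1) (cj P⁻¹ x) = pull σ (pull σ Γ x) P.1 := by
  rw [← pull_mul, ← pull_mul, cj_apply, inv_inv, ← mul_assoc, ← mul_assoc, Units.mul_inv, one_mul]

theorem env_cs (hN : env F N = ⊤) (g : GL ι F) : env F (cs g N) = ⊤ := eq_top_iff.2 fun x _ => by
  obtain ⟨x, rfl⟩ := (cj g).surjective x
  exact cj_mem_env (N := N) (N' := cs g N) (fun x hx => ⟨x, hx, rfl⟩) (hN ▸ Algebra.mem_top)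

theorem exists_pull_gl (σ : F →+* F) (Γ P : GL ι F) : ∃ Γ' : GL ι F, Γ'.1 = pull σ Γ.1 P.1 :=
  exists_gl_of_nondeg (σ := σ) fun v hv => gl_mulVec_eq_zero.1 (fm_right_eq_zero (σ := σ) Γ fun u => by
    simpa [fm_pull] using hv ((P⁻¹).1 *ᵥ u))

theorem HF.pull (h : HF σ ε Γ) {Γ' : GL ι F} {P : Matrix ι ι F} (e : Γ'.1 = pull σ Γ.1 P) : HF σ ε Γ' :=
  ⟨h.1, h.2, by rw [e, ← pull_transpose h.invol, h.symm, pull_smul_gram]⟩

theorem exists_subF [Fintype F] [Nonempty ι] (h : ∀ a, σ (σ a) = a) (h1 : Nm H N) (h2 : env F N = ⊤)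
    {F₀ : Subfield F} (h3 : F₀ ≠ ⊤) {P : GL ι F} (h4 : ∀ x ∈ N, cj P⁻¹ x.1 ∈ Ov F₀)
    (h5 : ∀ x ∈ N, ∃ l ∈ F₀, pull σ Γ.1 x.1 = l • Γ.1) : ∃ F₁ r d, F₀ ≤ F₁ ∧ SubF σ Γ H N F₁ r P d := by
  obtain ⟨F₁, r, a1, a2, a3⟩ := exists_prime_index_subfield h3
  obtain ⟨π, hπ⟩ := exists_proj F₀
  obtain ⟨Γ', hΓ⟩ := exists_pull_gl σ Γ P
  obtain ⟨i, j, hij⟩ : ∃ i j, Γ'.1 i j ≠ 0 := by by_contra! a; exact Γ'.ne_zero (Matrix.ext a)
  obtain ⟨d, hd⟩ := gram_unique (σ := σ) (env_cs h2 P⁻¹) (Γ := Γ')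
    (Γ' := ((Γ'.1 i j)⁻¹ • Γ'.1).map fun a => (π a : F)) (by
    rintro _ ⟨x, hx, rfl⟩
    obtain ⟨l, hl, e⟩ := h5 x hx
    have e1 : pull σ Γ'.1 (cj P⁻¹ x.1) = l • Γ'.1 := by rw [hΓ, pull_cj, e, pull_smul_gram]
    refine ⟨l, by rwa [cj_coe] at e1, ?_⟩
    refine (congrArg _ (cj_coe P⁻¹ x).symm).trans ?_
    rw [pull_map_proj π (fun _ => map_mem_of_invol h) _ (h4 x hx), pull_smul_gram, e1, smul_comm]
    ext a b
    exact congrArg Subtype.val (π.map_smul ⟨l, hl⟩ _))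
  refine ⟨F₁, r, d, a1, a2, a3, ?_, ?_, (h1.le_subfield h2 h4).trans (subfieldSubgroup_mono a1 P), h2,
    fun x hx => mem_sim_iff.2 ((h5 x hx).imp fun _ => And.right), fun x hx => Ov_mono a1 (h4 x hx)⟩
  · rintro rfl
    simpa [hij, hπ] using congrFun (congrFun hd i) j
  · rw [← hΓ, ← hd]; exact fun a b => a1 (π _).2

theorem fm_mem {F₀ : Subfield F} (hσ : ∀ x ∈ F₀, σ x ∈ F₀) {X : Matrix ι ι F} (hX : X ∈ Ov F₀)
    {u v : ι → F} (hu : ∀ i, u i ∈ F₀) (hv : ∀ i, v i ∈ F₀) : fm σ X u v ∈ F₀ := by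
  rw [fm_eq_sum]
  exact sum_mem fun a _ => sum_mem fun b _ => mul_mem (mul_mem (hu a) (hX a b)) (hσ _ (hv b))

theorem rational_of_Ov {F₀ : Subfield F} (hσ : ∀ x ∈ F₀, σ x ∈ F₀) {Γ : Matrix ι ι F} {P : GL ι F} {d : F}
    (h : d • pull σ Γ P.1 ∈ Ov F₀) : IsFormRationalStructure (fm σ Γ) F₀ d P := fun u v hu hv => by
  simpa [fm_smul_gram, fm_pull] using fm_mem hσ h hu hv

theorem SubF.rescale [Fintype F] {F₁ : Subfield F} {r : ℕ} {P : GL ι F} {d : F}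
    (h : SubF σ Γ H N F₁ r P d) {s : F} (hs : s ≠ 0) {d' : F} (hd : d' ≠ 0) (e : d' * (s * σ s) / d ∈ F₁) :
    ∃ P', SubF σ Γ H N F₁ r P' d' := by
  let z := GeneralLinearGroup.scalar ι (Units.mk0 s hs)
  have hz : z ∈ scalars ι F := ⟨_, rfl⟩
  have e1 : ∀ x, cj (P * z)⁻¹ x = cj P⁻¹ x := fun x => by
    rw [_root_.mul_inv_rev, cj_mul, cj_of_scalar (inv_mem hz)]
  refine ⟨P * z, h.1, h.2, hd, ?_, fun g hg => ?_, h.span, h.sim, fun x hx => e1 x.1 ▸ h.ov x hx⟩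
  · have := smul_mem_Ov e h.rat
    rwa [smul_smul, div_mul_cancel₀ _ h.ne, mul_smul, ← pull_smul, show s • P.1 = (P * z).1 by
      simp [z, scalar_apply, ← smul_one_eq_diagonal]] at this
  · simpa only [mem_subfieldSubgroup, e1] using h.le hg

/-- the outcomes of a normalised commutative algebra -/
def CommC (σ : F →+* F) (Γ : GL ι F) (H : Subgroup (GL ι F)) : Prop :=
  OrthD (fm σ Γ.1) H ∨ (∃ e, IsoP σ Γ H e) ∨
    ∃ r K₀, r.Prime ∧ IsFieldSubalgebra r K₀ ∧ Nz H K₀ ∧ ∀ x ∈ K₀, ad σ Γ x ∈ K₀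

theorem HF.commC [Fintype F] [Nonempty ι] (h : HF σ ε Γ) (hI : Irr H) (hH : H ≤ similarityGroup (fm σ Γ.1))
    {K : Subalgebra F (Matrix ι ι F)} (hK : Nz H K) (h0 : K ≠ ⊥) (hc : ∀ x ∈ K, ∀ y ∈ K, x * y = y * x)
    (ha : ∀ x ∈ K, ad σ Γ x ∈ K) : CommC σ Γ H :=
  (h.comm_case hI hH hK h0 hc ha).imp_right (.imp_right fun ⟨r, K, a, b, _, c⟩ => ⟨r, K, a, b, c⟩)

theorem HF.commC_adjoin [Fintype F] [Nonempty ι] (h : HF σ ε Γ) (hI : Irr H)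
    (hH : H ≤ similarityGroup (fm σ Γ.1)) {x : Matrix ι ι F} (h0 : ∀ d : F, x ≠ d • 1)
    (h1 : ∀ g ∈ H, cj g x ∈ Algebra.adjoin F {x}) (h2 : ad σ Γ x ∈ Algebra.adjoin F {x}) : CommC σ Γ H :=
  have ⟨a, b, c⟩ := h.adjoin h1 h2
  h.commC hI hH a (fun e => by
    obtain ⟨d, hd⟩ := Algebra.mem_bot.1 (e.le (Algebra.self_mem_adjoin_singleton F x))
    exact h0 d (hd.symm.trans (Algebra.algebraMap_eq_smul_one d))) b c

theorem HF.form_raw [Fintype F] (h : HF σ ε Γ) (hn : 2 ≤ Fintype.card ι) (hI : Irr H)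
    (hH : H ≤ isoG (fm σ Γ.1)) : CommC σ Γ H ∨
    (∃ (k l : ℕ) (e : ι ≃ Fin k × Fin l) (P : GL ι F), ∃ c ε₁ ε₂ Γ₁ Γ₂, TensF σ Γ H e P c ε₁ ε₂ Γ₁ Γ₂) ∨
    (∃ (k t : ℕ) (e : ι ≃ (Fin t → Fin k)) (P : GL ι F), ∃ c ε₀ Γ₀, WrF σ Γ H e P c ε₀ Γ₀ ∧
      (∃ L : Subgroup (GL (Fin k) F), env F L = ⊤ ∧ ⁅L, L⁆ = L ∧ L ≤ isoG (fm σ Γ₀.1)) ∧
      ∃ D ≤ H, Nm H D ∧ ⁅D, D⁆ = D ∧ env F D = ⊤) ∨
    (Prim (H ⊔ scalars ι F) ∧ ∃ r R, Ext (H ⊔ scalars ι F) r R ∧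
      ∀ x ∈ scalars ι F, x ^ (r * Nat.gcd 2 r) = 1 → x ∈ R) ∨ ∃ P, Core H P := by
  have : Nonempty ι := Fintype.card_pos_iff.1 (by omega)
  have hs := hH.trans (isoG_le_sim _)
  rcases prim_or (H ⊔ scalars ι F) with hP | ⟨N, h1, h2, h3, h4⟩
  · rcases master hI hn hP with ⟨k, t, e, P, h1⟩ | ⟨N, h1, h2⟩ | h1
    · obtain ⟨c, ε₀, Γ₀, h2, h3⟩ := h1.wrF h (sup_le_sim hH)
      obtain ⟨D, a, b, c', d⟩ := h1.span
      refine .inr (.inr (.inl ⟨k, t, e, P, c, ε₀, Γ₀, h2.mono (le_sup_left.trans h2.le), h3, D, ?_,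
        b.mono le_sup_left, c', d⟩))
      rw [← c']
      exact (Subgroup.commutator_mono a a).trans ((comm_sup H H).le.trans (H.commutator_le_self))
    · exact .inr (.inr (.inr (.inl ⟨hP, exists_ext hP h1 h2 hn⟩)))
    · exact .inr (.inr (.inr (.inr h1)))
  · have h5 : Nz H (env F N) := (h2.mono le_sup_left).nz
    have h6 : ∀ x ∈ env F N, ad σ Γ x ∈ env F N := fun x => h.ad_mem_env (h1.trans (sup_le_sim hH))
    rcases hI.comm_or_tensor h5 h3 h4 with h7 | ⟨k, l, e, P, a, b, c, d⟩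
    · exact .inl (h.commC hI hs h5.center h7 (fun x hx y hy => hy.2 x hx.1) (h.ad_center h6))
    · exact .inr (.inl ⟨k, l, e, P, h.tensF a b c fun X => (d _).1 (h6 _ ((d _).2 ⟨X, rfl⟩))⟩)

end CfsgH5.As
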