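import Cfsg.Agent.H5.As17

set_option autoImplicit false

/-! Extraspecial groups in the presence of a form. -/

namespace CfsgH5.As

open Matrix Module Cfsg.Geo
open scoped Kronecker commutatorElement

universe u

variable {ι : Type} [Fintype ι] [DecidableEq ι] {F : Type u} [Field F] {σ : F →+* F} {Γ : GL ι F}
  {ε : F} {H G N R : Subgroup (GL ι F)} {r : ℕ}

theorem norm_of_scalar [Nonempty ι] {x : GL ι F} {c l : F} (hc : x.1 = c • 1)
    (h : pull σ Γ.1 x.1 = l • Γ.1) : c * σ c = l := by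
  rw [hc, pull_smul, pull_one] at h
  exact smul_left_injective F Γ.ne_zero h

theorem norm_of_isoG [Nonempty ι] {x : GL ι F} {c : F} (hc : x.1 = c • 1) (h : x ∈ isoG (fm σ Γ.1)) :
    c * σ c = 1 := norm_of_scalar hc ((mem_isoG_iff.1 h).trans (one_smul _ _).symm)

theorem Ext.root (h : Ext G r R) (hn : 2 ≤ Fintype.card ι) (hG : G ≤ similarityGroup (fm σ Γ.1)) :
    ∃ c : F, c ≠ 1 ∧ c ^ r = 1 ∧ c * σ c = 1 := by
  have : Nonempty ι := Fintype.card_pos_iff.1 (by omega)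
  obtain ⟨x, -, c, a, b, d, e⟩ := h.heis.exists_root hn h.pow
  exact ⟨c, a, b, norm_of_isoG d (comm_sim_le _ (Subgroup.commutator_mono (h.le.trans hG) (h.le.trans hG) e))⟩

theorem Ext.inf_isoG [Finite F] (h : Ext G r R) (hn : 2 ≤ Fintype.card ι) (hP : Prim G)
    (hG : G ≤ similarityGroup (fm σ Γ.1)) : Ext G r (R ⊓ isoG (fm σ Γ.1)) := by
  have : Nonempty ι := Fintype.card_pos_iff.1 (by omega)
  obtain ⟨μ, hμ⟩ := exists_mult σ Γ
  have h1 := h.nm.inf ((nm_isoG _).mono hG)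
  refine ⟨h.prime, inf_le_left.trans h.le, h1, ⟨(hP _ (inf_le_left.trans h.le) h1).resolve_left fun e =>
    ker_not_le h.heis.span hn (μ.comp (Subgroup.inclusion (h.le.trans hG))) (le_trans ?_ e),
    (Subgroup.commutator_mono inf_le_left inf_le_left).trans h.heis.comm⟩, fun x hx => h.pow x hx.1,
    fun x hx => h.exp x hx.1⟩
  rintro _ ⟨x, hx, rfl⟩
  refine ⟨x.2, mem_isoG_iff.2 ((hμ ⟨x, hG (h.le x.2)⟩).trans ?_)⟩
  rw [show μ ⟨x, hG (h.le x.2)⟩ = 1 from hx, Units.val_one, one_smul]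

theorem mem_scalars_iff' [Nonempty ι] {g : GL ι F} : g ∈ scalars ι F ↔ ∃ c : F, g.1 = c • 1 :=
  ⟨fun h => let ⟨c, hc⟩ := (mem_scalars_iff g).1 h; ⟨c, hc⟩, fun ⟨_, h⟩ => mem_scalars_of_eq h⟩

theorem Ext.id_case [Fintype F] (h : Ext (H ⊔ scalars ι F) r R) (hn : 2 ≤ Fintype.card ι)
    (hP : Prim (H ⊔ scalars ι F)) (hH : H ≤ isoG (fm (RingHom.id F) Γ.1))
    (hZ : ∀ x ∈ scalars ι F, x ^ (r * Nat.gcd 2 r) = 1 → x ∈ R) : (2 : F) ≠ 0 ∧
      ((∃ N F₁ r P d, SubF (RingHom.id F) Γ H N F₁ r P d) ∨ ((Fintype.card F).Prime ∧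
        ∃ R₀ k, Ext (H ⊔ scalars ι F) 2 R₀ ∧ R₀ ≤ isoG (fm (RingHom.id F) Γ.1) ∧ Fintype.card ι = 2 ^ k ∧
          Nat.card R₀ = 2 ^ (1 + 2 * k) ∧ Nat.card (Subgroup.center R₀) = 2)) := by
  have : Nonempty ι := Fintype.card_pos_iff.1 (by omega)
  obtain ⟨c, a1, a2, a3⟩ := h.root hn (sup_le_sim hH)
  obtain rfl : c = -1 := (mul_self_eq_one_iff.1 a3).resolve_left a1
  have h2 : (2 : F) ≠ 0 := fun e => a1 (by linear_combination -e)
  obtain rfl : r = 2 := h.prime.even_iff.1 ((neg_one_pow_eq_one_iff_even a1).1 a2)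
  have h0 := h.inf_isoG hn hP (sup_le_sim hH)
  have hq : 2 ∣ Nat.card F - 1 := by have := card_odd_of_two_ne h2; omega
  refine ⟨h2, ?_⟩
  rcases minimal_or_subfield hq with ⟨p, e, hm⟩ | ⟨F₀, b1, b2⟩
  · obtain ⟨k, -, c1, c2⟩ := h0.card hn
    have c3 := h0.card_center (w := 2) fun x hx => by
      obtain ⟨c, hc⟩ := mem_scalars_iff'.1 hx
      rw [pow_eq_one_of_smul hc, sq]
      exact ⟨fun a => norm_of_isoG hc a.2, fun a => ⟨hZ x hx ((pow_eq_one_of_smul hc).2 (by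
        simp [pow_succ, mul_assoc, a])), mem_isoG_iff.2 (by rw [hc, pull_smul, pull_one, RingHom.id_apply,
          a, one_smul])⟩⟩
    rw [Nat.gcd_eq_left hq] at c3
    refine .inr ⟨?_, _, k, h0, inf_le_right, c1, by rw [c2, c3, pow_add, pow_one], c3⟩
    have hp : p ≠ 2 := by rintro rfl; have := hm.2.1; exact h2 (by simpa using CharP.cast_eq_zero F 2)
    have h3 := Nat.odd_iff.1 (hm.1.odd_of_ne_two hp)
    obtain rfl : e = 1 := by
      by_contra he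
      rcases e with _ | e
      · exact Fintype.one_lt_card.ne' (hm.2.2.1.trans (pow_zero _))
      · exact hm.2.2.2.2 1 one_pos (by omega) (by rw [pow_one]; omega)
    rw [hm.2.2.1, pow_one]; exact hm.1
  · obtain ⟨P, hP⟩ := Ext.exists_Ov h0.heis (F₀ := F₀) fun x hx c hc => b2 c (sq c ▸ norm_of_isoG hc hx.2)
    obtain ⟨F₁, r, d, -, e⟩ := exists_subF (σ := RingHom.id F) (Γ := Γ) (fun _ => rfl)
      (h0.nm.mono le_sup_left) h0.heis.span b1 hP fun x hx =>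
        ⟨1, one_mem _, (mem_isoG_iff.1 hx.2).trans (one_smul _ _).symm⟩
    exact .inl ⟨_, _, _, _, _, e⟩

theorem exists_cyclic_vec {B : Subalgebra F (Matrix ι ι F)} (hc : ∀ x ∈ B, ∀ y ∈ B, x * y = y * x)
    {q : ℕ} (hq : ∀ x ∈ B, x ^ (q + 2) = x) : ∃ v : ι → F, ∀ x ∈ B, x *ᵥ v = 0 → x = 0 := by
  let A : (ι → F) → Submodule F (Matrix ι ι F) := fun v =>
    B.toSubmodule ⊓ LinearMap.ker ((mulVecBilin F F).flip v)
  obtain ⟨v, hv⟩ := exists_minimalFor_of_wellFoundedLT (fun _ => True) A ⟨0, trivial⟩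
  refine ⟨v, fun x hx h => by_contra fun h0 => ?_⟩
  have he : x ^ (q + 1) *ᵥ v = 0 := by rw [pow_succ, ← mulVec_mulVec, h, mulVec_zero]
  have hi : x ^ (q + 1) * x ^ (q + 1) = x ^ (q + 1) := by
    rw [← pow_add, show q + 1 + (q + 1) = q + 2 + q by ring, pow_add, hq x hx, pow_succ']
  obtain ⟨w, hw⟩ : ∃ w, x ^ (q + 1) *ᵥ w ≠ 0 := by
    by_contra! a
    exact h0 (by rw [← hq x hx, pow_succ, show x ^ (q + 1) = 0 from mat_ext_mulVec (by simpa), zero_mul])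
  have := hv.2 (j := v + x ^ (q + 1) *ᵥ w) trivial (fun y ⟨h1, h2⟩ => ⟨h1, by
    have h3 : y *ᵥ v + y *ᵥ x ^ (q + 1) *ᵥ w = 0 := (mulVec_add _ _ _).symm.trans h2
    have h4 := congrArg (x ^ (q + 1) *ᵥ ·) h3
    simp only [mulVec_add, mulVec_mulVec, ← mul_assoc, hc _ (pow_mem hx _) y h1] at h4
    rw [mul_assoc, hi, ← mulVec_mulVec, he, mulVec_zero, zero_add, mulVec_zero, ← mulVec_mulVec] at h4
    exact (add_zero _).symm.trans (h4 ▸ h3)⟩) (⟨pow_mem hx (q + 1), he⟩ : _ ∈ A v)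
  refine hw ?_
  simpa [mulVec_add, he, hi] using (this.2 : x ^ (q + 1) *ᵥ _ = 0)

theorem Heis.card_le [Finite F] [Nonempty ι] (h : Heis R) (A : Subgroup R) : Nat.card A ≤
    Nat.card (Subgroup.center R) * finrank F (env F (A.map R.subtype)) := by
  let Z := (Subgroup.center R).subgroupOf A
  have := Fintype.ofFinite (A ⧸ Z)
  have h1 := h.linearIndependent (fun a : A ⧸ Z => a.out.1.1) (fun a => a.out.1.2) fun a b e => by
    rw [← a.out_eq', ← b.out_eq']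
    exact QuotientGroup.eq.2 (Subgroup.mem_subgroupOf.2 (h.center_eq.ge e))
  let v : A ⧸ Z → env F (A.map R.subtype) := fun a => ⟨a.out.1.1.1, mem_env ⟨_, a.out.2, rfl⟩⟩
  have h2 := (LinearIndependent.of_comp (env F (A.map R.subtype)).val.toLinearMap (v := v)
    h1).fintype_card_le_finrank
  rw [Z.card_eq_card_quotient_mul_card_subgroup, mul_comm]
  exact Nat.mul_le_mul (Nat.card_le_card_of_injective (fun x : Z => (⟨x.1.1, x.2⟩ : Subgroup.center R))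
    fun x y e => Subtype.ext (Subtype.ext (Subtype.mk.inj e))) (Nat.card_eq_fintype_card.le.trans h2)

theorem Heis.minus [Fintype F] [Nonempty ι] (h : Heis R) (h1 : HF (RingHom.id F) (-1) Γ) (h2 : (2 : F) ≠ 0)
    (h3 : R ≤ isoG (fm (RingHom.id F) Γ.1)) {k : ℕ} (h4 : Fintype.card ι = 2 ^ k)
    (h5 : Nat.card (Subgroup.center R) = 2) : IsOfMinusType k R := fun A hA hs => by
  by_contra! hc
  have h6 := hc.trans (h.card_le A)
  rw [h5, pow_succ', Nat.mul_le_mul_left_iff two_pos, ← h4] at h6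
  set B := env F (A.map R.subtype)
  have c1 : ∀ x ∈ B, ∀ y ∈ B, x * y = y * x := fun x hx y hy => comm_env (fun g hg => (comm_env (by
    rintro _ ⟨a, ha, rfl⟩
    obtain ⟨b, hb, rfl⟩ := hg
    exact congrArg (fun x : A => x.1.1.1) (hA.1.1 ⟨b, hb⟩ ⟨a, ha⟩)) hx).symm) hy
  obtain ⟨p, hp, n, hp', hn⟩ := FiniteField.card' F
  have := Fact.mk hp'
  have : CharP (Matrix ι ι F) p := charP_of_injective_algebraMap (algebraMap F _).injective p
  have c2 : ∀ x ∈ B, x ∈ B ∧ x ^ Fintype.card F = x ∧ ad (RingHom.id F) Γ x = x := fun x hx => by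
    refine env_induction (p := fun x => x ∈ B ∧ x ^ Fintype.card F = x ∧ ad (RingHom.id F) Γ x = x)
      (fun g hg => ⟨mem_env hg, ?_⟩) (by simp) (fun x y a b => ⟨add_mem a.1 b.1, ?_, ?_⟩)
      (fun c x a => ⟨B.smul_mem a.1 c, ?_, ?_⟩) hx
    · obtain ⟨a, ha, rfl⟩ := hg
      have e : a.1 * a.1 = 1 := congrArg Subtype.val (hs a ha)
      obtain ⟨m, hm⟩ := two_ne_zero_iff.1 h2
      exact ⟨by rw [hm, pow_succ, pow_mul, sq, ← Units.val_mul, Subgroup.subtype_apply, e]; simp,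
        by rw [Subgroup.subtype_apply, h1.ad_iso (h3 a.2), inv_eq_of_mul_eq_one_right e]⟩
    · rw [hn, add_pow_char_pow_of_commute _ _ (c1 _ a.1 _ b.1), ← hn, a.2.1, b.2.1]
    · rw [ad_add, a.2.2, b.2.2]
    · rw [smul_pow, FiniteField.pow_card, a.2.1]
    · rw [ad_smul, a.2.2]; rfl
  obtain ⟨v, hv⟩ := exists_cyclic_vec c1 (q := Fintype.card F - 2) fun x hx => by
    rw [Nat.sub_add_cancel Fintype.one_lt_card, (c2 x hx).2.1]
  let φ := ((mulVecBilin F F).flip v).comp B.toSubmodule.subtype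
  have h8 : Function.Injective φ := (injective_iff_map_eq_zero _).2 fun x hx => Subtype.ext (hv _ x.2 hx)
  have h7 := (LinearMap.injective_iff_surjective_of_finrank_eq_finrank (le_antisymm
    (LinearMap.finrank_le_finrank_of_injective h8) (by simpa using h6))).1 h8
  · obtain ⟨i⟩ := ‹Nonempty ι›
    refine absurd (fm_left_eq_zero (σ := RingHom.id F) Γ (v := Pi.single i 1) fun u => ?_) (by simp)
    obtain ⟨x, rfl⟩ := h7 u
    obtain ⟨y, hy⟩ := h7 (Pi.single i 1)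
    have e := h1.fm_symm ((y.1 * x.1) *ᵥ v) v
    rw [h1.fm_ad', (c2 _ (mul_mem y.2 x.2)).2.2] at e
    rw [← hy]
    change fm _ _ (x.1 *ᵥ v) (y.1 *ᵥ v) = 0
    rw [h1.fm_ad', (c2 _ y.2).2.2, mulVec_mulVec]
    simp only [RingHom.id_apply] at e
    exact mul_left_cancel₀ h2 (by linear_combination e)

theorem Ext.unit_case [Fintype F] {q : ℕ} (hσ : UF σ q) (hf : HF σ ε Γ) (h : Ext (H ⊔ scalars ι F) r R)
    (hn : 2 ≤ Fintype.card ι) (hH : H ≤ isoG (fm σ Γ.1))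
    (hZ : ∀ x ∈ scalars ι F, x ^ (r * Nat.gcd 2 r) = 1 → x ∈ R) :
    (∃ N F₁ r P d, SubF σ Γ H N F₁ r P d) ∨ ∃ p d k, r ≠ p ∧ 0 < d ∧ q = p ^ d ∧
      IsMinimalFieldFor (Nat.card (Subgroup.center R)) p (2 * d) F ∧ Fintype.card ι = r ^ k ∧ 1 ≤ k ∧
      ((Odd r ∧ Nat.card (Subgroup.center R) = r ∧ Nat.card R = r ^ (1 + 2 * k) ∧ r ∣ q + 1 ∧
        R ≤ isoG (fm σ Γ.1)) ∨ (r = 2 ∧ d = 1 ∧ Nat.card (Subgroup.center R) = 4 ∧
          Nat.card R = 2 ^ (2 + 2 * k) ∧ 4 ∣ q + 1)) := by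
  have : Nonempty ι := Fintype.card_pos_iff.1 (by omega)
  obtain ⟨μ, hμ⟩ := exists_mult σ Γ
  have hR := h.le.trans (sup_le_sim hH)
  have m1 : ∀ x (hx : x ∈ R), (μ ⟨x, hR hx⟩ : F) ^ (r * Nat.gcd 2 r) = 1 := fun x hx => by
    rw [← Units.val_pow_eq_pow_val, ← map_pow, show (⟨x, hR hx⟩ : similarityGroup _) ^ _ = 1 from
      Subtype.ext (h.exp x hx), map_one, Units.val_one]
  obtain ⟨h1, h2, ⟨p, e, h3, h4⟩ | ⟨F₀, P, h3, h4, h5⟩⟩ := h.field hn hZ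
  swap
  · obtain ⟨F₁, r, d, -, e⟩ := exists_subF (Γ := Γ) hσ.invol (h.nm.mono le_sup_left) h.heis.span h3 h5
      fun x hx => ⟨_, h4 _ (m1 x hx), hμ ⟨x, hR hx⟩⟩
    exact .inl ⟨_, _, _, _, _, e⟩
  have hq : p ^ e = q ^ 2 := h4.2.2.1.symm.trans (Nat.card_eq_fintype_card.symm.trans hσ.card)
  obtain ⟨d, -, hd⟩ := (Nat.dvd_prime_pow h4.1).1 (hq ▸ dvd_pow_self q two_ne_zero : q ∣ p ^ e)
  obtain rfl : e = 2 * d := Nat.pow_right_injective h4.1.two_le (by simp only [hq, hd, pow_mul'])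
  obtain ⟨k, a1, a2, a3⟩ := h.card hn
  have a4 : r = 2 → Nat.card (Subgroup.center R) = 4 := by
    rintro rfl
    rw [h.card_center (w := 4) fun x hx => ⟨h.exp x, hZ x hx⟩, hσ.card_units]
    have := (h4.1.odd_of_ne_two h3.symm).pow (n := d)
    rw [← hd, Nat.odd_iff] at this
    exact Nat.gcd_eq_left (Nat.mul_dvd_mul (show 2 ∣ q - 1 by omega) (show 2 ∣ q + 1 by omega))
  obtain ⟨d', b1, b2, b3, b4⟩ := minimal_even h4 (even_two_mul d) (by
    rcases h2 with ⟨-, h2⟩ | ⟨h2, -⟩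
    · exact .inl (h2.symm ▸ h.prime)
    · exact .inr ⟨a4 h2, h2 ▸ h3.symm⟩)
  obtain rfl : d = d' := by omega
  refine .inr ⟨p, d, k, h3, b1, hd, h4, a2, a1, ?_⟩
  rcases h2 with ⟨h2, h5⟩ | ⟨rfl, -⟩
  · refine .inl ⟨h2, h5, by rw [a3, h5, pow_add, pow_one], hd ▸ h5 ▸ b3, fun x hx => mem_isoG_iff.2 ?_⟩
    have c1 := m1 x hx
    have c2 := hμ ⟨x, hR hx⟩
    generalize μ ⟨x, hR hx⟩ = l at c1 c2
    obtain ⟨s, hs⟩ := h5 ▸ b3
    obtain ⟨m, hm⟩ := h2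
    rw [(Nat.coprime_two_left.2 ⟨m, hm⟩).gcd_eq_one, mul_one] at c1
    have c3 := hσ.norm_eq l
    rw [hf.map_mult c2, hd, hs, pow_mul, c1, one_pow] at c3
    rw [hm, pow_succ, pow_mul, sq, c3, one_pow, one_mul] at c1
    rw [c2, c1, one_smul]
  · exact .inr ⟨rfl, b4 (a4 rfl), a4 rfl, by rw [a3, a4 rfl, pow_add]; rfl, hd ▸ a4 rfl ▸ b3⟩

end CfsgH5.As
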