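import Cfsg.Agent.H5.As18
import Cfsg.Agent.H5.Orth7
import Cfsg.Agent.H3.Burnside

set_option autoImplicit false

/-! Bridge between classical forms and matrix groups. -/

namespace CfsgH5.As

open Matrix Module Cfsg.Geo CForm
open scoped Kronecker commutatorElement

universe u

variable {ι : Type} [Fintype ι] [DecidableEq ι] {F : Type u} [Field F] {σ : F →+* F} {Γ : GL ι F}
  {ε : F} {H G N : Subgroup (GL ι F)}

/-- matrices as linear automorphisms -/
noncomputable def linE : GL ι F ≃* ((ι → F) ≃ₗ[F] (ι → F)) :=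
  MulEquiv.ofBijective (toLinHom (Units.coeHom (Matrix ι ι F)))
    ⟨toLinHom_injective Units.val_injective, fun g => ⟨glOfLin g, LinearEquiv.ext (glOfLin_mulVec g)⟩⟩

@[simp] theorem linE_apply (g : GL ι F) (v : ι → F) : linE g v = g.1 *ᵥ v := rfl

theorem linE_coe (g : GL ι F) : (linE g : (ι → F) →ₗ[F] (ι → F)) = toLin' g.1 := rfl

/-- a group of linear automorphisms as a matrix group -/
noncomputable def glS (S : Subgroup ((ι → F) ≃ₗ[F] (ι → F))) : Subgroup (GL ι F) := S.comap linE.toMonoidHom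

theorem mem_glS {S : Subgroup ((ι → F) ≃ₗ[F] (ι → F))} {g : GL ι F} : g ∈ glS S ↔ linE g ∈ S := Iff.rfl

theorem symm_mem_glS {S : Subgroup ((ι → F) ≃ₗ[F] (ι → F))} {g} (h : g ∈ S) : linE.symm g ∈ glS S := by
  simpa [mem_glS]

@[simp] theorem symm_mulVec (g : (ι → F) ≃ₗ[F] (ι → F)) (v : ι → F) : (linE.symm g).1 *ᵥ v = g v := by
  rw [← linE_apply, MulEquiv.apply_symm_apply]

/-- the matrix group is isomorphic to the group of linear maps -/
noncomputable def glSEquiv (S : Subgroup ((ι → F) ≃ₗ[F] (ι → F))) : S ≃* glS S :=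
  (linE.symm.subgroupMap S).trans (MulEquiv.subgroupCongr (S.map_equiv_eq_comap_symm' _))

theorem card_glS (S : Subgroup ((ι → F) ≃ₗ[F] (ι → F))) : Nat.card (glS S) = Nat.card S :=
  Nat.card_congr (glSEquiv S).symm.toEquiv

theorem glS_comm (S T : Subgroup ((ι → F) ≃ₗ[F] (ι → F))) : glS ⁅S, T⁆ = ⁅glS S, glS T⁆ := by
  have h := fun S => Subgroup.map_equiv_eq_comap_symm' (linE (ι := ι) (F := F)).symm S
  exact (h _).symm.trans ((Subgroup.map_commutator _ _ _).trans (by rw [h, h]; rfl))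

theorem glS_SIsom {P : FP F} (f : CForm P (ι → F)) : glS f.SIsom = glS f.Isom ⊓ specialLinear ι F := by
  ext g
  rw [mem_glS, mem_SIsom, linE_coe, LinearMap.det_toLin', Subgroup.mem_inf, mem_SL]; rfl

section
variable {P : FP F} {f : CForm P (ι → F)}

theorem exists_sing_ne {V : Type*} [AddCommGroup V] [Module F V] {f : CForm P V} (hf : f.Nondeg) {x y : V}
    (h : f.IsHyp x y) {w : V} (hw : w ≠ 0) : ∃ z, f.Q z = 0 ∧ f.B z w ≠ 0 := by
  by_contra! a
  refine hw (hf w fun u => ?_)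
  obtain ⟨b, h1, h2, e⟩ := h.decomp u
  rw [e]
  obtain ⟨c, hc⟩ := f.exists_t b
  obtain ⟨g, hg⟩ := exists_eich h.hx h1 hc
  have := a (g y) ((f.Isom_Q hg.mem_Isom y).trans h.hy)
  simp only [hg.app, B_sub_left, f.B_add_left, f.B_smul_left, a x h.hx, a y h.hy, h.hyx, P.εε] at this
  simpa [f.B_add_left, f.B_smul_left, a x h.hx, a y h.hy] using this

theorem irr_E (hf : f.Nondeg) (hr : f.Rich) {x y : ι → F} (h : f.IsHyp x y) : Irr (glS f.E) := fun W hW => by
  refine or_iff_not_imp_left.2 fun h0 => ?_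
  have h1 : ∀ g z a c, f.IsEich g z a c → ∀ w ∈ W, g w - w ∈ W := fun g z a c hg w hw =>
    W.sub_mem (by simpa using hW _ (symm_mem_glS hg.mem_E) w hw) hw
  have h2 : ∀ z, f.Q z = 0 → z ∈ W := fun z hz => by
    by_cases z0 : z = 0
    · simp [z0]
    have k : ∀ w ∈ W, w ≠ 0 → f.B w z = 0 → z ∈ W := fun w hw w0 hwz => by
      by_cases e : ∀ g a c, f.IsEich g z a c → g w = w
      · obtain ⟨c, rfl⟩ := Submodule.mem_span_singleton.1 (mem_span_of_fixed hf hr hz z0 e)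
        exact (W.smul_mem_iff (left_ne_zero_of_smul w0)).1 hw
      · push Not at e
        obtain ⟨g, a, c, hg, e⟩ := e
        have := h1 g z a c hg w hw
        rw [hg.app_perp hwz] at this e
        rw [add_sub_cancel_left] at this
        exact (W.smul_mem_iff (by rintro e'; simp [e'] at e)).1 this
    obtain ⟨w, hw, w0⟩ := W.ne_bot_iff.1 h0
    by_cases e : ∀ g a c, f.IsEich g z a c → g w = w
    · obtain ⟨c, rfl⟩ := Submodule.mem_span_singleton.1 (mem_span_of_fixed hf hr hz z0 e)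
      exact k _ hw w0 (by rw [f.B_smul_left, f.B_self_of_Q_zero hz, mul_zero])
    · push Not at e
      obtain ⟨g, a, c, hg, e⟩ := e
      exact k _ (h1 g z a c hg w hw) (sub_ne_zero.2 e) (by
        rw [B_sub_left, ← f.Isom_B hg.mem_Isom w z, hg.fix_x, sub_self])
  rw [← hf.perp_perp W, eq_top_iff]
  intro u _ w hw
  by_contra e
  obtain ⟨z, a, b⟩ := exists_sing_ne hf h (w := w) (by rintro rfl; simp at e)
  exact b (f.B_zero_symm (hw z (h2 z a)))

theorem env_E [Finite F] (hf : f.Nondeg) (hr : f.Rich) {x y : ι → F} (h : f.IsHyp x y) :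
    env F (glS f.E) = ⊤ := by
  have : Nonempty ι := by by_contra! a; exact h.x_ne (Subsingleton.elim _ _)
  refine env_eq_top (irr_E hf hr h) fun z hz => ?_
  obtain ⟨c, hc⟩ := Submodule.mem_span_singleton.1 (mem_span_of_fixed hf hr h.hx h.x_ne (v := z *ᵥ x)
    fun g a c hg => by
      rw [← symm_mulVec, mulVec_mulVec, ← hz _ (symm_mem_glS hg.mem_E), ← mulVec_mulVec, symm_mulVec, hg.fix_x])
  refine ⟨c, mat_ext_mulVec fun v => ?_⟩
  have := (irr_E hf hr h (LinearMap.ker (toLin' (z - c • 1))) fun g hg w hw => by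
    rw [LinearMap.mem_ker, toLin'_apply] at *
    rw [mulVec_mulVec, sub_mul, hz g hg, smul_mul_assoc, one_mul, ← mul_one g.1, ← mul_smul_comm, mul_one,
      ← mul_sub, ← mulVec_mulVec, hw, mulVec_zero]).resolve_left fun e => h.x_ne
        (e.le (show toLin' _ x = 0 by simp [sub_mulVec, smul_mulVec, hc]))
  simpa [sub_mulVec, sub_eq_zero, smul_mulVec] using this.ge (Submodule.mem_top (x := v))

theorem exists_trace_E {x y a b : ι → F} (h : f.IsHyp x y) (ax : f.B a x = 0) (ay : f.B a y = 0)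
    (bx : f.B b x = 0) (by' : f.B b y = 0) (ab : f.B a b = 0) {c d : F} (hc : P.t c = f.Q a)
    (hd : P.t d = f.Q b) : ∃ g ∈ glS f.E, g.1.trace = Fintype.card ι + P.ε * c * d := by
  obtain ⟨g, hg⟩ := exists_eich h.hx ax hc
  obtain ⟨k, hk⟩ := exists_eich h.hy by' hd
  refine ⟨_, symm_mem_glS (mul_mem hg.mem_E hk.mem_E), ?_⟩
  rw [← trace_toLin'_eq, ← linE_coe, MulEquiv.apply_symm_apply, show ((g * k : _ ≃ₗ[F] _) : _ →ₗ[F] _) =
    f.eichL x a c + f.eichL y b d - LinearMap.id + (f.left b - (P.ε * d) • f.left y).smulRight (-a - c • x)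
      from LinearMap.ext fun v => ?_]
  · simp [eichL, LinearMap.trace_smulRight, ax, ay, bx, by', ab, h.hxx, h.hyy, h.hxy, f.B_zero_symm ax,
      f.B_zero_symm bx, f.B_zero_symm by', f.B_smul_left]
    ring
  · simp only [LinearEquiv.coe_coe, LinearEquiv.mul_apply, hk.app, map_sub, map_add, map_smul, hg.app,
      LinearMap.add_apply, LinearMap.sub_apply, eichL_apply, LinearMap.smulRight_apply, left_apply,
      LinearMap.smul_apply, LinearMap.id_apply, h.hyx, bx, f.B_zero_symm ay, f.B_zero_symm ab, smul_eq_mul]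
    match_scalars <;> (try simp only [B_sub_left, f.B_add_left, f.B_smul_left, h.hyx, bx,
      f.B_zero_symm ay, f.B_zero_symm ab]) <;>
      rcases P.hε with e | e <;> (try rw [e]) <;> ring

theorem qs_E [Finite F] (hf : f.Nondeg) (hr : f.Rich) (h2 : f.Rich2) {x y : ι → F} (h : f.IsHyp x y)
    (hp : commutator f.E = ⊤) {p e : ℕ} (h3 : p.Prime) (h4 : 0 < e) (h5 : Nat.card F ∣ p ^ (2 * e))
    (h6 : p ^ (e * Fintype.card ι) ∣ Nat.card f.E) : QS (glS f.E) p e := by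
  have : Nonempty ι := by by_contra! a; exact h.x_ne (Subsingleton.elim _ _)
  obtain ⟨a, b⟩ := normal_of_simple (glSEquiv f.E) hp (E_isSimple hf hr h2 h hp) (env_E hf hr h)
  exact ⟨a, b, env_E hf hr h, by simpa using h.finrank_perp.le.trans' le_add_self, h3, h4, h5,
    card_glS f.E ▸ h6⟩

end

/-- the hermitian form of a Gram matrix -/
def uniC (h : HF σ 1 Γ) (hσ : σ ≠ RingHom.id F) : CForm (FP.unit σ h.invol) (ι → F) :=
  CForm.ofHerm hσ h.invol (fm σ Γ.1) (fm_add_left _) (fm_smul_left _) fun u v => by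
    rw [h.fm_symm, one_mul]

theorem uniC_nondeg (h : HF σ 1 Γ) (hσ : σ ≠ RingHom.id F) : (uniC h hσ).Nondeg :=
  fun _ => fm_left_eq_zero Γ

theorem glS_uniC (h : HF σ 1 Γ) (hσ : σ ≠ RingHom.id F) : glS (uniC h hσ).Isom = isoG (fm σ Γ.1) :=
  Subgroup.ext fun _ => mem_Isom_unit

theorem glS_altC {Γ : Matrix ι ι F} (h : ∀ v, fm (RingHom.id F) Γ v v = 0) :
    glS (altC Γ h).Isom = isoG (fm (RingHom.id F) Γ) :=
  Subgroup.ext fun _ => mem_Isom_symp.trans (by simp only [altC_B]; rfl)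

/-- the quadratic form with a Gram matrix -/
def QF.cf {Γ : Matrix ι ι F} {Q : (ι → F) → F} (h : QF Γ Q) : CForm (FP.orth F) (ι → F) where
  B := fm (RingHom.id F) Γ
  Q := Q
  B_add_left := fm_add_left _
  B_smul_left := fm_smul_left _
  B_symm u v := by simp [← h.polar, QuadraticMap.polar_comm]
  Q_add := h.add
  Q_smul a v := by simp [h.smul, sq]
  Q_diag v := ⟨Q v, rfl, by simp [h.fm_self, two_mul]⟩

theorem QF.cf_nondeg {Q : (ι → F) → F} (h : QF Γ.1 Q) : h.cf.Nondeg := fun _ => fm_left_eq_zero Γ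

theorem QF.glS_cf {Γ : Matrix ι ι F} {Q : (ι → F) → F} (h : QF Γ Q) : glS h.cf.Isom = qiso Q :=
  Subgroup.ext fun _ => mem_Isom_orth.trans mem_qiso.symm

theorem HF.qf (h : HF (RingHom.id F) 1 Γ) (h2 : (2 : F) ≠ 0) :
    QF Γ.1 fun v => 2⁻¹ * fm (RingHom.id F) Γ.1 v v :=
  ⟨fun c v => by rw [fm_smul_left, fm_smul_right, RingHom.id_apply]; ring, fun u v => by
    simp only [QuadraticMap.polar, fm_add_left, fm_add_right, h.fm_symm u v, RingHom.id_apply]
    field_simp; ring⟩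

theorem QF.qiso_eq {Γ : Matrix ι ι F} {Q : (ι → F) → F} (h : QF Γ Q) (h2 : (2 : F) ≠ 0) :
    qiso Q = isoG (fm (RingHom.id F) Γ) :=
  h.le_isoG.antisymm fun g hg => mem_qiso.2 fun v => mul_left_cancel₀ h2 (by
    rw [← h.fm_self, ← h.fm_self, hg])

theorem omegaGL_eq (Q : (ι → F) → F) : omegaGL Q = ⁅qiso Q, qiso Q⁆ :=
  Subgroup.map_subtype_commutator _

theorem QF.omega_eq [Finite F] {Q : (ι → F) → F} (h : QF Γ.1 Q) (hn : 5 ≤ Fintype.card ι) :
    omegaGL Q = glS h.cf.E := by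
  rw [omegaGL_eq, ← h.glS_cf, ← glS_comm, comm_eq_E h.cf_nondeg (split_of_finrank h.cf_nondeg
    (by simp; omega)) (by simp; omega)]

theorem exists_pull_of_iso {κ : Type} [Fintype κ] [DecidableEq κ] {Γ Γ' : Matrix κ κ F} {d : F}
    (e : (κ → F) ≃ₗ[F] (κ → F)) (h : ∀ u v, fm σ Γ' (e u) (e v) = d * fm σ Γ u v) :
    ∃ b : GL κ F, pull σ Γ' b.1 = d • Γ :=
  ⟨linE.symm e, fm_ext (σ := σ) fun u v => by rw [fm_pull, symm_mulVec, symm_mulVec, h, fm_smul_gram]⟩

theorem herm_congr [Finite F] {Γ' : GL ι F} (h : HF σ 1 Γ) (h' : HF σ 1 Γ') (hσ : σ ≠ RingHom.id F) :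
    ∃ b : GL ι F, pull σ Γ'.1 b.1 = (1 : F) • Γ.1 := by
  obtain ⟨q, hq⟩ := exists_UF_of_invol hσ h.invol
  obtain ⟨e, he⟩ := unit_exists_isIso hq _ (uniC_nondeg h hσ) (uniC_nondeg h' hσ) rfl rfl
  exact exists_pull_of_iso e fun u v => (he.1 u v).trans (one_mul _).symm

theorem symm_congr [Finite F] {Γ' : GL ι F} (h : HF (RingHom.id F) 1 Γ) (h' : HF (RingHom.id F) 1 Γ')
    (h2 : (2 : F) ≠ 0) (hn : Odd (Fintype.card ι)) :
    ∃ (b : GL ι F) (d : F), d ≠ 0 ∧ pull (RingHom.id F) Γ'.1 b.1 = d • Γ.1 := by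
  obtain ⟨m, hm⟩ := hn
  obtain ⟨c, e, hc, he⟩ := orth_exists_similar_odd m (h.qf h2).cf_nondeg (h'.qf h2).cf_nondeg
    (by simpa) (by simpa)
  obtain ⟨b, hb⟩ := exists_pull_of_iso e he.1
  exact ⟨b, c, hc, hb⟩

theorem perfect_eq_bot {X : Type*} [Group X] [Finite X] {K L : Subgroup X} {a b : ℕ}
    (h : Nat.card K ∣ 2 ^ a * 3 ^ b) (h1 : L ≤ K) (h2 : ⁅L, L⁆ = L) : L = ⊥ := by
  have := CfsgH3.burnside_paqb (G := L) 2 3 a b Nat.prime_two Nat.prime_three
    ((Subgroup.card_dvd_of_le h1).trans h)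
  by_contra h0
  have := (Subgroup.nontrivial_iff_ne_bot L).2 h0
  exact (Group.IsSolvable.commutator_lt_top_of_nontrivial L).ne (commutator_eq_top_iff_subtype.2 h2)

end CfsgH5.As
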