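import Cfsg.Agent.H5.As19

set_option autoImplicit false

/-! Orthogonal decompositions forced by small factors; residual groups with a form. -/

namespace CfsgH5.As

open Matrix Module Cfsg.Geo CForm
open scoped Kronecker commutatorElement

universe u

variable {ι : Type} [Fintype ι] [DecidableEq ι] {F : Type u} [Field F] {σ : F →+* F} {Γ : GL ι F}
  {ε : F} {H G N : Subgroup (GL ι F)}

/-- a transitively permuted orthogonal decomposition with blocks of dimension `m` -/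
def OrthM (f : (ι → F) → (ι → F) → F) (H : Subgroup (GL ι F)) (m : ℕ) : Prop :=
  ∃ (t : ℕ) (D : Fin t → Submodule F (ι → F)), IsNondegenerateMDecomposition f m D ∧
    H ≤ decompositionStabilizer D ∧ ∀ i j, ∃ g ∈ H, (D i).map (toLin' (g : Matrix ι ι F)) = D j

theorem OrthM.orthD {f : (ι → F) → (ι → F) → F} {m : ℕ} (h : OrthM f H m) : OrthD f H :=
  let ⟨t, D, a⟩ := h; ⟨t, m, D, a⟩

theorem OrthD.orthM {f : (ι → F) → (ι → F) → F} (h : OrthD f H) : ∃ m, OrthM f H m :=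
  let ⟨t, m, D, a⟩ := h; ⟨m, t, D, a⟩

theorem HF.exists_proj (h : HF σ ε Γ) {W : Submodule F (ι → F)} (hW : IsNondegenerateOn (fm σ Γ.1) W) :
    ∃ e : Matrix ι ι F, e * e = e ∧ ad σ Γ e = e ∧ rg e = W ∧ ∀ g ∈ similarityGroup (fm σ Γ.1),
      W.map (toLin' g.1) ≤ W ∨ W.map (toLin' g.1) ≤ pp σ Γ.1 W → cj g e = e ∨ e * cj g e = 0 := by
  have hc : IsCompl W (pp σ Γ.1 W) := ⟨h.nondeg_iff.1 hW, codisjoint_iff.2
    (Submodule.eq_top_of_disjoint _ _ (by simpa using (h.finrank_pp W).ge) (h.nondeg_iff.1 hW))⟩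
  let e := LinearMap.toMatrix' (W.projection _ hc)
  have e1 : ∀ v, e *ᵥ v = W.projection _ hc v := fun v => by
    rw [← toLin'_apply, toLin'_toMatrix']
  have e2 : ∀ u v, fm σ Γ.1 (e *ᵥ u) v = fm σ Γ.1 (e *ᵥ u) (e *ᵥ v) := fun u v => by
    conv_lhs => rw [← Submodule.projection_add_projection_eq_self hc v, fm_add_right, ← e1,
      h.fm_eq_zero_comm (Submodule.projection_apply_mem hc.symm v _ (by simp [e1])), add_zero]
  have he : e * e = e := mat_ext_mulVec fun v => by simp [← mulVec_mulVec, e1]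
  have ha : ad σ Γ e = e := h.eq_ad fun u v => by rw [e2, h.fm_symm, ← e2, ← h.fm_symm]
  have hr : rg e = W := by rw [rg, toLin'_toMatrix', Submodule.range_projection]
  refine ⟨e, he, ha, hr, fun g hg => .imp (fun a => ?_) fun a => mat_ext_mulVec fun v => ?_⟩
  · rw [← hr] at a
    have a1 : e * cj g e = cj g e := mat_ext_mulVec fun v => by
      rw [← mulVec_mulVec, (mem_rg_of_idem he).1 (a (map_rg g e ▸ ⟨v, rfl⟩))]
    have a2 : cj g e * e = e := mat_ext_mulVec fun v => by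
      rw [← mulVec_mulVec, (mem_rg_of_idem (by rw [← map_mul, he])).1 (map_rg g e ▸
        (Submodule.eq_of_le_of_finrank_eq a (finrank_map_gl g _)).ge ⟨v, rfl⟩)]
    have a3 := congrArg (ad σ Γ) a2
    rw [ad_mul, h.cj_ad hg, ha] at a3
    exact a1.symm.trans a3
  · rw [← mulVec_mulVec, zero_mulVec, e1, Submodule.projection_apply_eq_zero_iff]
    exact a (hr ▸ map_rg g e ▸ ⟨v, rfl⟩)

theorem HF.orthM [Finite F] (h : HF σ ε Γ) (hI : Irr H) (hH : H ≤ similarityGroup (fm σ Γ.1))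
    {W : Submodule F (ι → F)} (h0 : W ≠ ⊥) (h1 : W ≠ ⊤) (hW : IsNondegenerateOn (fm σ Γ.1) W)
    (ho : ∀ g ∈ H, W.map (toLin' g.1) ≤ W ∨ W.map (toLin' g.1) ≤ pp σ Γ.1 W) :
    OrthM (fm σ Γ.1) H (finrank F W) := by
  obtain ⟨e, he, ha, rfl, h2⟩ := h.exists_proj hW
  obtain ⟨t, m, x, a, b, c, d⟩ := hI.orbit (e := e) (by rintro rfl; simp [rg] at h0)
    (by rintro rfl; simp [rg] at h1) he fun g hg => h2 g (hH hg) (ho g hg)
  have k : ∀ i, ad σ Γ (x i) = x i := fun i => by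
    obtain ⟨g, hg, e⟩ := c i; rw [← e, h.cj_ad (hH hg), ha]
  obtain rfl : finrank F (rg e) = m := by
    obtain ⟨g, -, e⟩ := c ⟨0, by have := a.two_le; omega⟩
    rw [← a.finrank_eq, ← e, ← map_rg, finrank_map_gl]
  refine ⟨t, _, ⟨a, fun i => h.nondeg_iff.2 (Submodule.disjoint_def.2 fun v h2 h3 => ?_), ?_⟩, b,
    fun i j => ?_⟩
  · obtain ⟨g, -, e⟩ := c i
    refine fm_right_eq_zero (σ := σ) Γ fun u => ?_
    rw [← (mem_rg_of_idem (by rw [← e, ← map_mul, he])).1 h2, h.fm_ad, k]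
    exact h3 _ ⟨u, rfl⟩
  · rintro i j hij _ ⟨u, rfl⟩ _ ⟨v, rfl⟩
    rw [toLin'_apply, toLin'_apply, h.fm_ad, k, mulVec_mulVec, d i j hij, zero_mulVec, fm_zero_right]
  · obtain ⟨g, hg, e⟩ := c i
    obtain ⟨g', hg', e'⟩ := c j
    exact ⟨g' * g⁻¹, mul_mem hg' (inv_mem hg), by rw [map_rg, ← e, ← e', cj_mul, cj_inv_cj]⟩

theorem nondeg_line {v : ι → F} (hv : fm σ Γ.1 v v ≠ 0) : IsNondegenerateOn (fm σ Γ.1) (F ∙ v) :=
  fun w hw w0 => by
    obtain ⟨c, rfl⟩ := Submodule.mem_span_singleton.1 hw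
    have c0 := left_ne_zero_of_smul w0
    exact ⟨⟨v, by simp, by simp [fm_smul_right, c0, hv]⟩, v, by simp, by simp [fm_smul_left, c0, hv]⟩

theorem line_cases {v : ι → F} {g : GL ι F} (h : g.1 *ᵥ v ∈ F ∙ v ∨ fm σ Γ.1 (g.1 *ᵥ v) v = 0) :
    (F ∙ v).map (toLin' g.1) ≤ F ∙ v ∨ (F ∙ v).map (toLin' g.1) ≤ pp σ Γ.1 (F ∙ v) := by
  rw [Submodule.map_span, Set.image_singleton, Submodule.span_singleton_le_iff_mem,
    Submodule.span_singleton_le_iff_mem]
  refine h.imp id fun a w hw => ?_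
  obtain ⟨c, rfl⟩ := Submodule.mem_span_singleton.1 hw
  rw [fm_smul_right, toLin'_apply, a, mul_zero]

theorem line_ne_top (hn : 2 ≤ Fintype.card ι) (v : ι → F) : F ∙ v ≠ ⊤ := fun e => by
  have := finrank_span_le_card (R := F) {v}
  rw [e] at this; simp at this; omega

/-- a vector of a small space whose orthogonal complement is anisotropic -/
def FrV (σ : F →+* F) (Γ : GL ι F) (W : Submodule F (ι → F)) (v : ι → F) : Prop :=
  v ∈ W ∧ fm σ Γ.1 v v ≠ 0 ∧ ∀ w ∈ W, fm σ Γ.1 w v = 0 → fm σ Γ.1 w w = 0 → w = 0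

theorem FrV.cases (h : HF σ ε Γ) (h1 : ∀ a : F, a ≠ 0 → a * σ a = 1) {W : Submodule F (ι → F)} {v u : ι → F}
    (hv : FrV σ Γ W v) (hu : u ∈ W) (e : fm σ Γ.1 u u = fm σ Γ.1 v v) : u ∈ F ∙ v ∨ fm σ Γ.1 u v = 0 := by
  refine or_iff_not_imp_right.2 fun a => ?_
  obtain ⟨c, hc⟩ : ∃ c, c * fm σ Γ.1 v v = fm σ Γ.1 u v := ⟨_, div_mul_cancel₀ _ hv.2.1⟩
  have h2 : fm σ Γ.1 (u + (-c) • v) v = 0 := by rw [fm_add_left, fm_smul_left, ← hc]; ring
  have h3 := h.fm_eq_zero_comm h2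
  have := hv.2.2 _ (W.add_mem hu (W.smul_mem _ hv.1)) h2 (by
    rw [fm_add_left, fm_smul_left, h3, fm_add_right, fm_smul_right, e, ← hc, map_neg]
    linear_combination (-fm σ Γ.1 v v) * h1 c (by rintro rfl; exact a (by simpa using hc.symm)))
  exact Submodule.mem_span_singleton.2 ⟨c, by rw [eq_neg_of_add_eq_zero_left this, neg_smul, neg_neg]⟩

theorem HF.exists_aniso (h : HF σ 1 Γ) (h2 : σ = RingHom.id F → (2 : F) ≠ 0) {W : Submodule F (ι → F)}
    (hW : IsNondegenerateOn (fm σ Γ.1) W) (h0 : W ≠ ⊥) : ∃ v ∈ W, fm σ Γ.1 v v ≠ 0 := by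
  by_contra! a
  obtain ⟨w, hw, w0⟩ := W.ne_bot_iff.1 h0
  obtain ⟨x, hx, e⟩ := (hW w hw w0).1
  obtain ⟨c, hc⟩ : ∃ c, c + σ c ≠ 0 := by
    by_cases e : σ = RingHom.id F
    · exact ⟨1, by rw [map_one, one_add_one_eq_two]; exact h2 e⟩
    · exact exists_trace_ne_zero e
  have := a _ (W.add_mem (W.smul_mem (c / fm σ Γ.1 x w) hx) hw)
  rw [fm_add_left, fm_add_right, fm_add_right, a w hw, a _ (W.smul_mem _ hx), h.fm_symm _ w, fm_smul_left,
    div_mul_cancel₀ _ e] at this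
  exact hc (by simpa using this)

theorem HF.frV_two (h : HF σ ε Γ) {W : Submodule F (ι → F)} (hW : IsNondegenerateOn (fm σ Γ.1) W)
    (h2 : finrank F W = 2) {v : ι → F} (hv : v ∈ W) (h1 : fm σ Γ.1 v v ≠ 0) : FrV σ Γ W v := by
  refine ⟨hv, h1, fun w hw a b => by_contra fun w0 => ?_⟩
  obtain ⟨x, hx, e⟩ := (hW w hw w0).2
  have h3 : LinearIndependent F ![v, w] := LinearIndependent.pair_iff.2 fun s t hst => by
    have := congrArg (fm σ Γ.1 · v) hst
    simp only [fm_add_left, fm_smul_left, a, fm_zero_left, mul_zero, add_zero, mul_eq_zero, h1, or_false] at this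
    simpa [this, w0] using hst
  have h4 := Submodule.eq_of_le_of_finrank_eq (Submodule.span_le.2 (by
    rintro _ ⟨i, rfl⟩; fin_cases i; exacts [hv, hw]) : Submodule.span F (Set.range ![v, w]) ≤ W) (by
      rw [finrank_span_eq_card h3, h2]; rfl)
  obtain ⟨s, t, rfl⟩ := Submodule.mem_span_pair.1 (by simpa using h4.ge hx)
  exact e (by rw [fm_add_right, fm_smul_right, fm_smul_right, a, b]; simp)

theorem HF.frV_three [Fintype F] (h : HF (RingHom.id F) 1 Γ) (hF : Fintype.card F = 3)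
    {W : Submodule F (ι → F)} (hW : IsNondegenerateOn (fm (RingHom.id F) Γ.1) W) (h3 : finrank F W = 3) :
    ∃ v, FrV (RingHom.id F) Γ W v := by
  have h2 := two_ne_zero_of_card_three hF
  have hS : ((toBilin' Γ.1).restrict W).IsSymm :=
    ⟨fun u v => by simpa [toBilin'_apply', fm] using (h.fm_symm u.1 v.1).symm⟩
  obtain ⟨b, b1, b2⟩ := exists_orth_basis (V := W) h2 hS
    (hS.isRefl.nondegenerate_iff_separatingLeft.2 fun u hu => by_contra fun u0 => by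
      obtain ⟨x, hx, e⟩ := (hW u u.2 (by simpa using u0)).2
      exact e (by simpa [toBilin'_apply', fm] using hu ⟨x, hx⟩))
  generalize finrank F W = n at b h3
  subst h3
  have key : ∀ n : Fin 3 → ZMod 3, (∀ i, n i ≠ 0) → ∃ k, ∀ c : Fin 3 → ZMod 3, c k * n k = 0 →
    ∑ i, c i * (c i * n i) = 0 → ∀ i, c i = 0 := by decide
  let φ := (ZMod.ringEquivOfPrime F Nat.prime_three hF).symm
  have e : ∀ u v : W, fm (RingHom.id F) Γ.1 u v = (toBilin' Γ.1).restrict W u v := fun u v => by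
    simp [toBilin'_apply', fm]
  generalize (toBilin' Γ.1).restrict W = B at *
  obtain ⟨k, hk⟩ := key (fun i => φ (B (b i) (b i))) fun i => by simpa using b2 i
  refine ⟨b k, (b k).2, e _ _ ▸ b2 k, fun w hw a c => ?_⟩
  lift w to W using hw
  have e1 : ∀ i, B w (b i) = b.repr w i * B (b i) (b i) := fun i => by
    conv_lhs => rw [← b.sum_repr w, LinearMap.BilinForm.sum_left, Finset.sum_eq_single i
      (fun j _ hj => by simp [b1 j i hj]) (by simp), LinearMap.BilinForm.smul_left]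
  have := hk (fun i => φ (b.repr w i)) (by rw [← map_mul, ← e1, ← e, a, map_zero]) (by
    simp only [← map_mul, ← e1]
    simp only [← map_sum, ← LinearMap.BilinForm.smul_right, b.sum_repr]
    rw [← e, c, map_zero])
  simpa using b.repr.map_eq_zero_iff.1 (Finsupp.ext fun i => by simpa using this i)

theorem HF.orthM_of_frV [Finite F] (h : HF σ ε Γ) (hI : Irr H) (hH : H ≤ isoG (fm σ Γ.1))
    (h1 : ∀ a : F, a ≠ 0 → a * σ a = 1) {t m : ℕ} {D : Fin t → Submodule F (ι → F)}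
    (hD : IsNondegenerateMDecomposition (fm σ Γ.1) m D) (h2 : H ≤ decompositionStabilizer D) {i : Fin t}
    {v : ι → F} (hv : FrV σ Γ (D i) v) (hn : 2 ≤ Fintype.card ι) : OrthM (fm σ Γ.1) H 1 := by
  have v0 : v ≠ 0 := by rintro rfl; simpa using hv.2.1
  refine finrank_span_singleton (K := F) v0 ▸ h.orthM hI (hH.trans (isoG_le_sim _)) (by simpa)
    (line_ne_top hn v) (nondeg_line hv.2.1) fun g hg => line_cases ?_
  obtain ⟨s, hs⟩ := h2 hg
  have : g.1 *ᵥ v ∈ D (s i) := hs i ▸ ⟨v, hv.1, rfl⟩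
  by_cases e : s i = i
  · exact hv.cases h h1 (e ▸ this) (hH hg v v)
  · exact .inr (hD.orthogonal _ _ e _ this _ hv.1)

namespace TensF

variable {k l : ℕ} {e : ι ≃ Fin k × Fin l} {P : GL ι F} {c ε₁ ε₂ : F} {Γ₁ : GL (Fin k) F}
  {Γ₂ : GL (Fin l) F}

theorem orthD [Finite F] (h : TensF σ Γ H e P c ε₁ ε₂ Γ₁ Γ₂) (h0 : HF σ ε Γ) (hI : Irr H)
    (hH : H ≤ similarityGroup (fm σ Γ.1)) (h1 : ∀ a : F, a ≠ 0 → a * σ a = 1) {v : Fin l → F}
    (hv : FrV σ Γ₂ ⊤ v) (h2 : similarityGroup (fm σ Γ₂.1) ≤ isoG (fm σ Γ₂.1)) : OrthD (fm σ Γ.1) H := by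
  have k0 : Fin k := ⟨0, by have := h.two_le_k; omega⟩
  obtain ⟨x, a1, a2, a3, a4⟩ := h.hf₂.exists_proj (nondeg_line hv.2.1)
  have e1 : ∀ d : F, tp e P (1 ⊗ₖ x) = d • 1 → x = d • 1 := fun d hd => by
    ext i j
    simpa [one_apply] using congrFun (congrFun (tp_eq_smul hd) (k0, i)) (k0, j)
  refine h0.orthD hI hH (e := tp e P (1 ⊗ₖ x)) (fun a => hv.2.1 ?_) (fun a => line_ne_top
    (by simpa using h.two_le_l) v ?_) (by rw [← map_mul, ← mul_kronecker_mul, a1, one_mul])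
    (by rw [h0.ad_tp (h.hf₁.kron h.hf₂) h.gram, ad_kron, ad_one, a2]) fun g hg => ?_
  · rw [e1 0 (by rwa [zero_smul]), zero_smul] at a3
    simp [show v = 0 by simpa [rg] using a3.symm]
  · rw [← a3, e1 1 (by rwa [one_smul])]; simp [rg]
  · obtain ⟨a, b, rfl⟩ := mem_tensor_iff.1 (h.le hg)
    have hb := (h.sim (hH hg)).2
    rw [cj_tpG, cj_kronG, map_one, ← map_mul, ← mul_kronecker_mul]
    exact (a4 b hb (line_cases (hv.cases h.hf₂ h1 trivial (h2 hb v v)))).imp (fun a => by rw [a])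
      fun a => by simp [a]

theorem change (h : TensF σ Γ H e P c ε₁ ε₂ Γ₁ Γ₂) {b Γ₃ : GL (Fin l) F} {d ε₃ : F} (hd : d ≠ 0)
    (hb : pull σ Γ₂.1 b.1 = d • Γ₃.1) (h3 : HF σ ε₃ Γ₃) (h4 : σ ≠ RingHom.id F → ε₃ = 1) :
    ∃ P', TensF σ Γ H e P' (c * d) ε₁ ε₃ Γ₁ Γ₃ ∧
      tensorProductSubgroup k l e P ≤ tensorProductSubgroup k l e P' := by
  have h1 : tensorProductSubgroup k l e P ≤ tensorProductSubgroup k l e (tpG e P (kronG _ _ F (1, b)) * P) :=
    fun g hg => by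
      obtain ⟨x, y, rfl⟩ := mem_tensor_iff.1 hg
      exact mem_tensor_iff.2 ⟨x, b⁻¹ * y * b, by rw [tpG_mul, ← map_inv, ← map_mul, ← map_mul]; simp [mul_assoc]⟩
  exact ⟨_, ⟨h.1, h.2, h.3, h3, fun a => ⟨(h.eps a).1, h4 a⟩, mul_ne_zero h.ne hd,
    fm_ext_tp (σ := σ) e _ fun x y => by
      rw [fm_tg, tpG_mulVec, tpG_mulVec, h.gram, fm_tg, ← fm_pull, pull_smul_gram, kronG_coe, pull_kron,
        hb, Units.val_one, pull_one, kronecker_smul, smul_smul], h.le.trans h1⟩, h1⟩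

end TensF

theorem det_pull (Γ x : Matrix ι ι F) : (pull σ Γ x).det = x.det * σ x.det * Γ.det := by
  rw [pull, det_mul, det_mul, det_transpose, σ.map_det, mul_right_comm]; rfl

theorem HF.sim_le_isoG [Nonempty ι] (h : HF σ ε Γ) (h1 : ∀ a : F, a ≠ 0 → a * σ a = 1)
    (h2 : Odd (Fintype.card ι) ∨ (2 : F) = 0) : similarityGroup (fm σ Γ.1) ≤ isoG (fm σ Γ.1) := fun g hg => by
  obtain ⟨l, hl⟩ := mem_sim_iff.1 hg
  have h3 := congrArg det hl
  rw [det_pull, h1 _ g.det_ne_zero, det_smul, mul_left_inj' Γ.det_ne_zero] at h3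
  have h4 := h1 l (by rintro rfl; simp at h3)
  rw [h.map_mult hl] at h4
  obtain rfl : l = 1 := by
    rcases h2 with ⟨m, hm⟩ | h2
    · rw [hm, pow_succ, pow_mul, sq, h4, one_pow, one_mul] at h3; exact h3.symm
    · rcases mul_self_eq_one_iff.1 h4 with e | e
      exacts [e, by linear_combination e - h2]
  exact mem_isoG_iff.2 (hl.trans (one_smul _ _))

theorem UF.norm_one (h : UF σ 2) (a : F) (ha : a ≠ 0) : a * σ a = 1 := by
  have := h.fin
  have := Fintype.ofFinite F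
  simpa [h.norm_eq, ← Nat.card_eq_fintype_card, h.card] using FiniteField.pow_card_sub_one_eq_one a ha

theorem UF.two_eq_zero {q : ℕ} (h : UF σ q) (hq : ¬ Odd q) : (2 : F) = 0 := by
  have := h.fin
  by_contra e
  have := card_odd_of_two_ne e
  rw [h.card, ← Nat.odd_iff, Nat.odd_pow_iff two_ne_zero] at this
  exact hq this

theorem UF.two_ne_zero {q : ℕ} (h : UF σ q) (hq : Odd q) : (2 : F) ≠ 0 := by
  have := h.fin
  have := Fintype.ofFinite F
  exact two_ne_zero_iff.2 (by rw [← Nat.card_eq_fintype_card, h.card]; exact hq.pow)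

theorem Core.cases [Fintype F] [Nonempty ι] {P : Subgroup (GL ι F)} (hP : Core H P) (h : ∀ a, σ (σ a) = a)
    (hH : H ≤ isoG (fm σ Γ.1)) : (∃ F₁ r B d, SubF σ Γ H P F₁ r B d) ∨ (IsResidualCore H P ∧
      ∀ (τ : F →+* F) (B : GL ι F), P ≤ isoG (fm τ B.1) → (σ = RingHom.id F → τ = RingHom.id F) ∧
        (τ = RingHom.id F → σ = RingHom.id F)) := by
  by_cases h1 : ∃ F₀ : Subfield F, F₀ ≠ ⊤ ∧ RealisableOver F₀ (matrixSet P)
  · obtain ⟨F₀, a, b⟩ := h1
    obtain ⟨B, hB⟩ := realisable_iff.1 b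
    obtain ⟨F₁, r, d, -, e⟩ := exists_subF (Γ := Γ) h hP.normal hP.span a hB fun x hx =>
      ⟨1, one_mem _, (mem_isoG_iff.1 (hH (hP.le hx))).trans (one_smul _ _).symm⟩
    exact .inl ⟨_, _, _, _, e⟩
  push Not at h1
  refine .inr ⟨hP.residual h1, fun τ B hB => ⟨?_, ?_⟩⟩
  · rintro rfl
    exact by_contra fun e => h1 _ (fixF_ne_top e) (realisable_iff.2
      (realisable_of_two hP.span hB (hP.le.trans hH)))
  · rintro rfl
    exact by_contra fun e => h1 _ (fixF_ne_top e) (realisable_iff.2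
      (realisable_of_two hP.span (hP.le.trans hH) hB))

theorem le_isoG_of_fixes {f : (ι → F) → (ι → F) → F} (h : FixesForm (matrixSet N) f) : N ≤ isoG f :=
  fun g hg => h _ ⟨g, hg, rfl⟩

theorem not_unitary (h : ∀ (τ : F →+* F) (B : GL ι F), N ≤ isoG (fm τ B.1) → τ = RingHom.id F) :
    ¬ ∃ (σ : F ≃+* F) (f : (ι → F) → (ι → F) → F), IsUnitaryForm σ f ∧ FixesForm (matrixSet N) f := by
  rintro ⟨τ, f, a, b⟩
  obtain ⟨B, -, rfl⟩ := exists_of_herm (σ := (τ : F →+* F)) a.involutive a.add_left a.smul_left a.herm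
    a.nondegenerate
  exact a.ne_refl (RingEquiv.ext (RingHom.congr_fun (h τ B (le_isoG_of_fixes b))))

theorem quad_fixes {Q : (ι → F) → F} (h : IsNondegenerateQuadraticForm Q) (h1 : FixesQuadForm (matrixSet N) Q) :
    ∃ B : GL ι F, QF B.1 Q ∧ N ≤ qiso Q := by
  obtain ⟨B, -, e⟩ := exists_of_quad h
  exact ⟨B, ⟨h.smul, fun u v => e ▸ rfl⟩, fun g hg => mem_qiso.2 (h1 _ ⟨g, hg, rfl⟩)⟩

theorem QF.smul' {Γ : Matrix ι ι F} {Q : (ι → F) → F} (h : QF Γ Q) (c : F) : QF (c • Γ) fun v => c * Q v :=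
  ⟨fun a v => by rw [h.smul]; ring, fun u v => by
    rw [fm_smul_gram, ← h.polar]; simp only [QuadraticMap.polar]; ring⟩

end CfsgH5.As
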