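import Cfsg.Agent.H5.As20

set_option autoImplicit false

/-! The subgroup structure theorem for symplectic groups. -/

namespace CfsgH5.As

open Matrix Module Cfsg.Geo CForm
open scoped Kronecker commutatorElement

universe u

variable {ι : Type} [Fintype ι] [DecidableEq ι] {F : Type u} [Field F] {σ : F →+* F} {Γ : GL ι F}
  {ε : F} {H G N : Subgroup (GL ι F)}

theorem exists_qf {Γ : Matrix ι ι F} (h2 : (2 : F) = 0) (h : ∀ v, fm (RingHom.id F) Γ v v = 0) {κ : Type}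
    [Fintype κ] [DecidableEq κ] (e : ι ≃ κ) (P : GL ι F) (c : κ → F) :
    ∃ Q, QF Γ Q ∧ ∀ a, Q (P.1 *ᵥ (Pi.single a 1 ∘ e)) = c a := by
  let s := Fintype.equivFin ι
  obtain ⟨U, hU⟩ := exists_half (Γ := Γ.submatrix s.symm s.symm) h2 fun v => by
    simpa [fm, submatrix_mulVec_equiv, dotProduct_comp_equiv_symm] using h (v ∘ s)
  let b := fun a => P.1 *ᵥ (Pi.single a 1 ∘ e)
  refine ⟨_, qf_of_gram (U := U.submatrix s s + tg (RingHom.id F) e P (diagonal fun a =>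
    c a - fm (RingHom.id F) (U.submatrix s s) (b a) (b a))) ?_, fun a => ?_⟩
  · rw [transpose_add, tg_transpose, diagonal_transpose, add_add_add_comm, ← two_smul F (tg _ _ _ _), h2,
      zero_smul, add_zero]
    ext i j
    simpa using congrFun (congrFun hU (s i)) (s j)
  · rw [fm_add_gram, fm_tg, fm_single]; simp [b]

theorem Fld.finrank_dvd_sub [Finite F] [Nonempty ι] {K : Subalgebra F (Matrix ι ι F)} (h : Fld K)
    {W : Submodule F (ι → F)} (hW : ∀ x ∈ K, ∀ w ∈ W, x *ᵥ w ∈ W) : finrank F K ∣ finrank F W := by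
  letI := h.isField.toField
  letI : Module K (ι → F) := Module.compHom _ ((toLinAlgEquiv' (R := F)).toRingEquiv.toRingHom.comp
    K.val.toRingHom)
  let W' : Submodule K (ι → F) := ⟨W.toAddSubmonoid, fun x w hw => hW x x.2 w hw⟩
  have := Module.natCard_eq_pow_finrank (K := K) (V := W')
  rw [Module.natCard_eq_pow_finrank (K := F) (V := K), ← pow_mul] at this
  exact ⟨_, Nat.pow_right_injective Finite.one_lt_card
    ((Module.natCard_eq_pow_finrank (K := F) (V := W)).symm.trans this)⟩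

theorem HF.two_mul_dvd [Finite F] [Nonempty ι] (h : HF σ ε Γ) {K : Subalgebra F (Matrix ι ι F)} (hK : Fld K)
    (ha : ∀ x ∈ K, ad σ Γ x ∈ K) (h1 : ∀ x ∈ K, ∀ v, fm σ Γ.1 (x *ᵥ v) v = 0) :
    2 * finrank F K ∣ Fintype.card ι := by
  obtain ⟨W, ⟨a, b⟩, hW⟩ := exists_maximal_of_wellFoundedGT (fun W : Submodule F (ι → F) =>
    (∀ x ∈ K, ∀ w ∈ W, x *ᵥ w ∈ W) ∧ W ≤ pp σ Γ.1 W) ⟨⊥, by simp, bot_le⟩
  have h2 : pp σ Γ.1 W ≤ W := fun v hv => by
    let φ : Matrix ι ι F →ₗ[F] (ι → F) := (mulVecBilin F F).flip v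
    have m : ∀ w, w ∈ W ⊔ K.toSubmodule.map φ ↔ ∃ u ∈ W, ∃ x ∈ K, u + x *ᵥ v = w := fun w => by
      simp [Submodule.mem_sup, φ]
    refine hW (y := W ⊔ K.toSubmodule.map φ) ⟨fun x hx w hw => ?_, fun w hw w' hw' => ?_⟩ le_sup_left
      ((m v).2 ⟨0, zero_mem _, 1, one_mem _, by simp⟩)
    · obtain ⟨u, hu, y, hy, rfl⟩ := (m w).1 hw
      exact (m _).2 ⟨_, a x hx u hu, _, mul_mem hx hy, by rw [mulVec_add, mulVec_mulVec]⟩
    · obtain ⟨u, hu, y, hy, rfl⟩ := (m w).1 hw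
      obtain ⟨u', hu', y', hy', rfl⟩ := (m w').1 hw'
      have e : ∀ y ∈ K, ∀ u ∈ W, fm σ Γ.1 (y *ᵥ v) u = 0 := fun y hy u hu => by
        rw [h.fm_ad]; exact hv _ (a _ (ha y hy) u hu)
      rw [fm_add_left, fm_add_right, fm_add_right, b hu _ hu', e y hy _ hu', h.fm_eq_zero_comm (e _ hy' _ hu),
        h.fm_ad', mulVec_mulVec, h1 _ (mul_mem (ha _ hy') hy)]; simp
  have h3 := h.finrank_pp W
  rw [h2.antisymm b, ← two_mul] at h3
  exact h3 ▸ Nat.mul_dvd_mul_left 2 (hK.finrank_dvd_sub a)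

theorem HF.quad_of_field [Fintype F] [Nonempty ι] (h : HF (RingHom.id F) ε Γ) (h2 : (2 : F) = 0)
    (hH : H ≤ similarityGroup (fm (RingHom.id F) Γ.1))
    {K : Subalgebra F (Matrix ι ι F)} (hK : IsFieldSubalgebra 2 K) (h1 : Nz H K)
    (h3 : ∀ x ∈ K, ad (RingHom.id F) Γ x ∈ K) (h4 : ¬ ∀ x ∈ K, ad (RingHom.id F) Γ x = x) :
    ∃ ω ∈ K, ad (RingHom.id F) Γ ω = 1 - ω ∧ ∀ g ∈ H, ∃ a : F, cj g ω = ω + a • 1 := by
  push Not at h4
  obtain ⟨x, hx, e⟩ := h4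
  have k : ∀ y ∈ K, ∃ a b : F, y = a • 1 + b • x := fun y hy => by
    have h5 : LinearIndependent F ![1, x] := (LinearIndependent.pair_iff' one_ne_zero).2 fun a ha =>
      e (by rw [← ha, ad_smul, ad_one]; rfl)
    have h6 := Submodule.eq_of_le_of_finrank_eq (Submodule.span_le.2 (by
      rintro _ ⟨i, rfl⟩; fin_cases i; exacts [K.one_mem, hx]) :
        Submodule.span F (Set.range ![1, x]) ≤ K.toSubmodule) (by
      rw [finrank_span_eq_card h5]; exact hK.finrank_eq.symm)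
    obtain ⟨s, t, rfl⟩ := Submodule.mem_span_pair.1 (by simpa using h6.ge hy)
    exact ⟨t, s, add_comm _ _⟩
  have z : ∀ y : Matrix ι ι F, y + y = 0 := fun y => by rw [← two_smul F, h2, zero_smul]
  obtain ⟨a, b, e1⟩ := k _ (add_mem hx (h3 x hx))
  have e2 := congrArg (ad (RingHom.id F) Γ) e1
  rw [ad_add, h.ad_ad, add_comm, e1, ad_add, ad_smul, ad_smul, ad_one, RingHom.id_apply, RingHom.id_apply,
    add_right_inj, ← sub_eq_zero, ← smul_sub, smul_eq_zero, sub_eq_zero] at e2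
  obtain rfl := e2.resolve_right (Ne.symm e)
  rw [zero_smul, add_zero] at e1
  have a0 : a ≠ 0 := by
    rintro rfl
    exact e (add_left_cancel (a := x) (by rw [e1, z, zero_smul]))
  have e3 : ad (RingHom.id F) Γ (a⁻¹ • x) = 1 - a⁻¹ • x := by
    rw [ad_smul, eq_sub_iff_add_eq', RingHom.id_apply, ← smul_add, e1, inv_smul_smul₀ a0]
  refine ⟨_, K.smul_mem hx _, e3, fun g hg => ?_⟩
  obtain ⟨s, t, e4⟩ := k _ (h1 g hg _ (K.smul_mem hx a⁻¹))
  have e5 := h.cj_ad (hH hg) (a⁻¹ • x)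
  have e6 : ad (RingHom.id F) Γ x = a • 1 - x := by rw [← e1, add_sub_cancel_left]
  rw [e3, map_sub, map_one, e4, ad_add, ad_smul, ad_smul, ad_one, e6, RingHom.id_apply, RingHom.id_apply,
    eq_sub_iff_add_eq, smul_sub, smul_smul] at e5
  have e7 : (t * a) • (1 : Matrix ι ι F) = (1 : F) • 1 := by
    rw [one_smul, ← zero_add ((t * a) • (1 : Matrix ι ι F)), ← z (s • 1)]
    exact Eq.trans (by abel) e5
  refine ⟨s, ?_⟩
  rw [e4, add_comm, eq_inv_of_mul_eq_one_left (smul_left_injective F one_ne_zero e7)]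

theorem qiso_of_two [Fintype F] (hF : Fintype.card F = 2) (h : ∀ v, fm (RingHom.id F) Γ.1 v v = 0) {t : ℕ}
    {D : Fin t → Submodule F (ι → F)} (hD : IsNondegenerateMDecomposition (fm (RingHom.id F) Γ.1) 2 D) :
    ∃ Q, QF Γ.1 Q ∧ (∀ i, ∀ v ∈ D i, v ≠ 0 → Q v = 1) ∧
      decompositionStabilizer D ⊓ isoG (fm (RingHom.id F) Γ.1) ≤ qiso Q := by
  have h2 : (2 : F) = 0 := by simpa [hF] using FiniteField.cast_card_eq_zero F
  obtain ⟨e, P, h1, -⟩ := exists_bm hD.decomp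
  obtain ⟨Q, hQ, h3⟩ := exists_qf h2 h e P fun _ => 1
  let b := fun a => P.1 *ᵥ (Pi.single a 1 ∘ e)
  have b1 : ∀ a i, b (a, i) ∈ D i := fun a i => (h1 _ _).2 fun c j hj => by simp [hj]
  have b0 : ∀ a, b a ≠ 0 := fun a h => by simpa [h, hQ.zero, b] using (h3 a).symm.trans (congrArg Q h)
  have k : ∀ i, ∀ v ∈ D i, ∃ x y : F, v = x • b (0, i) + y • b (1, i) := fun i v hv => by
    obtain ⟨x, rfl⟩ := exists_mulVec_comp e P v
    refine ⟨x (0, i), x (1, i), ?_⟩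
    simp only [b, ← mulVec_smul, ← mulVec_add]
    congr 1
    funext j
    rcases hj : e j with ⟨a, l⟩
    by_cases hl : l = i
    · subst hl; fin_cases a <;> simp [hj, Pi.single_apply]
    · simp [hj, hl, (h1 _ _).1 hv a l hl]
  have k2 : ∀ i, ∀ v ∈ D i, v ≠ 0 → Q v = 1 := fun i v hv h0 => by
    obtain ⟨w, hw, h4⟩ := (hD.nondegenerate i _ (b1 1 i) (b0 _)).1
    obtain ⟨x, y, rfl⟩ := k i w hw
    rw [fm_add_left, fm_smul_left, fm_smul_left, h, mul_zero, add_zero] at h4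
    have h5 := (eq_zero_or_one hF _).resolve_left (right_ne_zero_of_mul h4)
    obtain ⟨x, y, rfl⟩ := k i v hv
    rcases eq_zero_or_one hF x with rfl | rfl <;> rcases eq_zero_or_one hF y with rfl | rfl
    · simp at h0
    · simpa using h3 _
    · simpa using h3 _
    · rw [one_smul, one_smul, hQ.add, h3, h3, h5, one_add_one_eq_two, h2, zero_add]
  refine ⟨Q, hQ, k2, fun g hg => hQ.mem_of_basis e P hg.2 fun a => ?_⟩
  obtain ⟨s, hs⟩ := hg.1
  rw [h3]
  exact k2 (s a.2) _ (hs _ ▸ Submodule.mem_map_of_mem (b1 a.1 a.2)) (mt gl_mulVec_eq_zero.1 (b0 a))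

theorem HF.alt_of_selfAdj [Finite F] (h : HF (RingHom.id F) (-1) Γ) (ha : ∀ v, fm (RingHom.id F) Γ.1 v v = 0)
    {K : Subalgebra F (Matrix ι ι F)} (hK : Fld K) (h1 : ∀ x ∈ K, ad (RingHom.id F) Γ x = x) :
    ∀ x ∈ K, ∀ v, fm (RingHom.id F) Γ.1 (x *ᵥ v) v = 0 := fun x hx v => by
  by_cases h2 : (2 : F) = 0
  · rcases isEmpty_or_nonempty ι with _ | _
    · simp [fm]
    letI := hK.isField.toField
    haveI : CharP K 2 := (CharP.charP_iff_prime_eq_zero Nat.prime_two).2 (by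
      rw [Nat.cast_ofNat, ← map_ofNat (algebraMap F K), h2, map_zero])
    obtain ⟨y, hy⟩ := Finite.surjective_of_injective (frobenius K 2).injective ⟨x, hx⟩
    obtain rfl : y.1 * y.1 = x := by simpa [frobenius_def, sq] using congrArg Subtype.val hy
    rw [← mulVec_mulVec, h.fm_ad, h1 _ y.2, ha]
  · have e := h.fm_symm (x *ᵥ v) v
    rw [h.fm_ad', h1 x hx, RingHom.id_apply, neg_one_mul, eq_neg_iff_add_eq_zero, ← two_mul] at e
    exact (mul_eq_zero.1 e).resolve_left h2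

theorem not_perfect_GL2 [Fintype F] (hF : Fintype.card F ≤ 3) {L : Subgroup (GL (Fin 2) F)} (h1 : env F L = ⊤)
    (h2 : ⁅L, L⁆ = L) : False := by
  have h3 : L = ⊥ := perfect_eq_bot (K := ⊤) (a := 4) (b := 1) (by
    rw [Subgroup.card_top, Matrix.card_GL_field]
    have := (card_cases F).2
    interval_cases Fintype.card F <;> decide) le_top h2
  exact not_comm_of_span h1 (by simp) (by simp [h3])

/-- The conclusion of the structure theorem for symplectic groups; `R M` relates the subgroup with the member `M`. -/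
def SpC [Fintype F] (f : (ι → F) → (ι → F) → F) (H : Subgroup (GL ι F)) (R : Subgroup (GL ι F) → Prop) : Prop :=
  (∃ W, W ≠ ⊥ ∧ IsTotallySingularFor f W ∧ R (subspaceStabilizer W)) ∨
  (∃ W, W ≠ ⊥ ∧ IsNondegenerateOn f W ∧ 2 * finrank F W < Fintype.card ι ∧ R (subspaceStabilizer W)) ∨
  (∃ (t k : ℕ) (D : Fin t → Submodule F (ι → F)), IsNondegenerateMDecomposition f k D ∧ Even k ∧
    (k = 2 → 3 ≤ Fintype.card F) ∧ R (decompositionStabilizer D)) ∨
  (Odd (Fintype.card F) ∧ ∃ (k : ℕ) (D : Fin 2 → Submodule F (ι → F)), 2 * k = Fintype.card ι ∧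
    IsMDecomposition k D ∧ (∀ i, IsTotallySingularFor f (D i)) ∧ R (decompositionStabilizer D)) ∨
  (∃ r K, r.Prime ∧ 2 * r ∣ Fintype.card ι ∧ IsFieldSubalgebra r K ∧ IsSelfAdjointFor f K ∧
    (∀ k ∈ K, ∀ v, f (k *ᵥ v) v = 0) ∧ R (subalgebraNormalizer K)) ∨
  (Odd (Fintype.card F) ∧ ∃ K, IsFieldSubalgebra 2 K ∧ IsAdjointClosedFor f K ∧ ¬ IsSelfAdjointFor f K ∧
    R (subalgebraNormalizer K)) ∨
  (Odd (Fintype.card F) ∧ ∃ (k l : ℕ) (e : ι ≃ Fin k × Fin l) (P : GL ι F) (f₁ f₂ : _), 2 ≤ k ∧ Even k ∧ 3 ≤ l ∧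
    (l = 3 → 5 ≤ Fintype.card F) ∧ IsSymplecticForm f₁ ∧ IsSymmetricForm f₂ ∧
    IsTensorFormStructure id f f₁ f₂ e P ∧ R (tensorProductSubgroup k l e P)) ∨
  (∃ (F₀ : Subfield F) (r : ℕ) (P : GL ι F) (ζ : F), r.Prime ∧ Fintype.card F = Nat.card F₀ ^ r ∧ ζ ≠ 0 ∧
    IsFormRationalStructure f F₀ ζ P ∧ R (subfieldSubgroup F₀ P)) ∨
  (Odd (Fintype.card F) ∧ (Fintype.card F).Prime ∧ ∃ T k, IsSymplecticTypeGroup 2 T ∧
    ActsAbsolutelyIrreducibly (matrixSet T) ∧ T ≤ isoG f ∧ Fintype.card ι = 2 ^ k ∧ Nat.card T = 2 ^ (1 + 2 * k) ∧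
    Nat.card (Subgroup.center T) = 2 ∧ IsOfMinusType k T ∧ R (subgroupNormalizer T)) ∨
  (Odd (Fintype.card F) ∧ ∃ (k t : ℕ) (e : ι ≃ (Fin t → Fin k)) (P : GL ι F) (f₁ : _), 2 ≤ k ∧ Odd t ∧ 3 ≤ t ∧
    ¬ (Fintype.card F = 3 ∧ k = 2) ∧ IsSymplecticForm f₁ ∧ IsTensorPowerFormStructure id f f₁ e P ∧
    R (tensorWreathSubgroup k t e P)) ∨
  (¬ Odd (Fintype.card F) ∧ ∃ Q, IsNondegenerateQuadraticForm Q ∧ (∀ u v, QuadraticMap.polar Q u v = f u v) ∧
    R (quadSimilarityGroup Q)) ∨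
  InSymplecticResidualClass H

theorem even_of_nondeg (ha : ∀ v, fm (RingHom.id F) Γ.1 v v = 0) {W : Submodule F (ι → F)}
    (h : IsNondegenerateOn (fm (RingHom.id F) Γ.1) W) : Even (finrank F W) :=
  symp_even _ (f := (altC _ ha).res W) (fun v hv => by_contra fun h0 => by
    obtain ⟨x, hx, e⟩ := (h v v.2 fun e => h0 (Subtype.ext e)).1
    exact e ((altC_B _ ha _ _).symm.trans (hv ⟨x, hx⟩))) rfl

theorem qiso_le_sim (Q : (ι → F) → F) : qiso Q ≤ quadSimilarityGroup Q := quadSim_eq Q ▸ isoG_le_sim _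

theorem sp_main [Fintype F] (h : HF (RingHom.id F) (-1) Γ) (ha : ∀ v, fm (RingHom.id F) Γ.1 v v = 0)
    (hn : 2 ≤ Fintype.card ι) (hH : H ≤ isoG (fm (RingHom.id F) Γ.1)) :
    SpC (fm (RingHom.id F) Γ.1) H (H ≤ ·) := by
  have : Nonempty ι := Fintype.card_pos_iff.1 (by omega)
  have hS := hH.trans (isoG_le_sim _)
  by_contra hc
  simp only [SpC, not_or] at hc
  obtain ⟨c1, c2, c3, c4, c5, c6, c7, c8, c9, c10, c11, c12⟩ := hc
  have k8 : (2 : F) = 0 → ∀ Q, QF Γ.1 Q → ¬ H ≤ qiso Q := fun h2 Q a b =>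
    c11 ⟨fun e => two_ne_zero_iff.2 e h2, Q, a.nondeg, a.polar, b.trans (qiso_le_sim Q)⟩
  have k3 : ∀ t k (D : Fin t → _), IsNondegenerateMDecomposition (fm (RingHom.id F) Γ.1) k D →
      ¬ H ≤ decompositionStabilizer D := fun t k D a b => by
    refine c3 ⟨t, k, D, a, ?_, ?_, b⟩
    · have i : Fin t := ⟨0, by have := a.decomp.two_le; omega⟩
      exact a.decomp.finrank_eq i ▸ even_of_nondeg ha (a.nondegenerate i)
    · rintro rfl
      by_contra h3
      have h4 : Fintype.card F = 2 := by have := (card_cases F).2; omega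
      obtain ⟨Q, d, -, e⟩ := qiso_of_two h4 ha a
      exact k8 (by simpa [h4] using FiniteField.cast_card_eq_zero F) Q d ((le_inf b hH).trans e)
  by_cases hI : Irr H
  swap
  · obtain ⟨W, a, b, c, -, d | d⟩ := h.reducible hS hI
    · exact c1 ⟨W, a, d, c⟩
    · have e := h.finrank_pp W
      rcases lt_trichotomy (2 * finrank F W) (Fintype.card ι) with g | g | g
      · exact c2 ⟨W, a, d, g, c⟩
      · exact k3 _ _ _ (h.decomp_pair a d g).1 ((le_inf c hS).trans (h.decomp_pair a d g).2)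
      · refine c2 ⟨_, fun e' => b ?_, h.nondeg_pp d, by omega, (le_inf c hS).trans (stab_le_stab_pp W)⟩
        rw [← h.pp_pp W, e']
        exact top_unique fun v _ w hw => by rw [(Submodule.mem_bot F).1 hw, fm_zero_right]
  have k5 : ∀ N F₁ r P d, ¬ SubF (RingHom.id F) Γ H N F₁ r P d := fun N F₁ r P d a =>
    c8 ⟨F₁, r, P, d, a.prime, a.card, a.ne, rational_of_Ov (fun _ => id) a.rat, a.le⟩
  have kc : ¬ CommC (RingHom.id F) Γ H := by
    rintro (⟨t, k, D, a, b, -⟩ | ⟨e, a⟩ | ⟨r, K, a, b, c, d⟩)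
    · exact k3 t k D a b
    · by_cases h2 : (2 : F) = 0
      · obtain ⟨b, c⟩ := h.exists_quad h2 ha hH a.2.1 fun g hg => (a.2.2 g hg).elim (fun e => ⟨0, by simp [e]⟩)
          fun e' => ⟨1, by rw [e', one_smul, sub_eq_add_neg, add_comm, neg_eq_of_add_eq_zero_left
            (by rw [← two_smul F, h2, zero_smul] : e + e = 0)]⟩
        exact k8 h2 _ b c
      · obtain ⟨k, b⟩ := a.decomp h hI
        exact c4 ⟨two_ne_zero_iff.1 h2, k, _, b⟩
    · by_cases e : ∀ x ∈ K, ad (RingHom.id F) Γ x = x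
      · have g := h.alt_of_selfAdj ha (fld_of_fs b) e
        exact c5 ⟨r, K, a, b.finrank_eq ▸ h.two_mul_dvd (fld_of_fs b) d g, b, h.selfAdj_iff.2 e, g,
          c.le_normalizer⟩
      · obtain rfl := ((h.fs_cases a b d).1 rfl).resolve_left e
        by_cases h2 : (2 : F) = 0
        · obtain ⟨ω, -, g1, g2⟩ := h.quad_of_field h2 hS b c d e
          obtain ⟨g3, g4⟩ := h.exists_quad h2 ha hH g1 g2
          exact k8 h2 _ g3 g4
        · exact c6 ⟨two_ne_zero_iff.1 h2, K, b, h.adClosed d, mt h.selfAdj_iff.1 e, c.le_normalizer⟩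
  have kt : ∀ (k l : ℕ) (e : ι ≃ Fin k × Fin l) (P : GL ι F) c Γ₁ Γ₂, (2 : F) ≠ 0 →
      ¬ TensF (RingHom.id F) Γ H e P c (-1) 1 Γ₁ Γ₂ := fun k l e P c Γ₁ Γ₂ h2 a => by
    have b := a.hf₁.alt_of_neg h2
    have h3 : 3 ≤ l := by
      by_contra h3
      obtain rfl : l = 2 := by have := a.two_le_l; omega
      obtain ⟨x, g1, g2, g3⟩ := a.two h h2 hS
      have g4 := Algebra.self_mem_adjoin_singleton F x
      exact kc (h.commC_adjoin hI hS g1 (fun g hg => by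
        obtain ⟨d, hd⟩ := g3 g hg; exact hd ▸ Subalgebra.smul_mem _ g4 d) (g2 ▸ neg_mem g4))
    refine c7 ⟨two_ne_zero_iff.1 h2, k, l, e, P, _, _, a.two_le_k, by simpa using even_of_alt b, h3, ?_,
      HF.symplectic b, a.hf₂.symmetric, a.struct, a.le⟩
    rintro rfl
    by_contra h4
    have h5 : Fintype.card F = 3 := by
      have := (card_cases F).2
      obtain ⟨s, hs⟩ := two_ne_zero_iff.1 h2
      omega
    have h6 : ∀ a : F, a ≠ 0 → a * RingHom.id F a = 1 := fun a => mul_self_of_card h5.le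
    obtain ⟨v, hv⟩ := a.hf₂.frV_three h5 (W := ⊤) (fun w _ hw => by simpa using fm_nondeg Γ₂ w hw) (by simp)
    exact kc (.inl (a.orthD h hI hS h6 hv (a.hf₂.sim_le_isoG h6 (.inl (by decide)))))
  rcases h.form_raw hn hI hH with a | ⟨k, l, e, P, c, ε₁, ε₂, Γ₁, Γ₂, a⟩ |
    ⟨k, t, e, P, c, ε₀, Γ₀, a, ⟨L, b1, b2, b3⟩, -⟩ | ⟨a, r, R, b, c⟩ | ⟨P, a⟩
  · exact kc a
  · by_cases h2 : (2 : F) = 0
    · obtain ⟨Q, b, -, d⟩ := a.exists_quad h2 (a.swap.alt h2 hI hS) (a.alt h2 hI hS)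
      exact k8 h2 Q b ((le_inf a.le hH).trans d)
    · have b := a.eps_eq h
      rw [RingHom.id_apply, mul_comm _ c, mul_right_inj' a.ne] at b
      have n1 : (1 : F) ≠ -1 := fun e => h2 (by linear_combination e)
      rcases a.hf₁.eps with rfl | rfl <;> rcases a.hf₂.eps with rfl | rfl
      · exact n1 (by simpa using b)
      · exact kt _ _ _ _ _ _ _ h2 a.swap
      · exact kt _ _ _ _ _ _ _ h2 a
      · exact n1 (by simpa using b)
  · by_cases h2 : (2 : F) = 0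
    · obtain ⟨Q, b, -, d⟩ := a.exists_quad h2 (alt_of_irr h2 a.hf (irr_of_env b1) (by simpa using a.two_le_k)
        (b3.trans (isoG_le_sim _)))
      exact k8 h2 Q b ((le_inf a.le hH).trans d)
    · have b := a.eps_eq h
      rw [RingHom.id_apply, mul_comm _ c, mul_right_inj' a.ne] at b
      have n1 : (1 : F) ≠ -1 := fun e => h2 (by linear_combination e)
      obtain rfl := a.hf.eps.resolve_left (by rintro rfl; exact n1 (by simpa using b))
      have ht : Odd t := Nat.not_even_iff_odd.1 fun e => n1 (e.neg_one_pow.symm.trans b)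
      refine c10 ⟨two_ne_zero_iff.1 h2, k, t, e, P, _, a.two_le_k, ht, ?_, ?_,
        HF.symplectic (a.hf.alt_of_neg h2), a.struct, a.le⟩
      · have := a.two_le_t; obtain ⟨s, rfl⟩ := ht; omega
      · rintro ⟨h3, rfl⟩
        exact not_perfect_GL2 h3.le b1 b2
  · obtain ⟨h2, ⟨N, F₁, r, P, d, e⟩ | ⟨d, T, k, e1, e2, e3, e4, e5⟩⟩ := b.id_case hn a hH c
    · exact k5 _ _ _ _ _ e
    · exact c9 ⟨two_ne_zero_iff.1 h2, d, T, k, e1.sympType a hn, absIrr_of_env e1.heis.span, e2, e3, e4, e5,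
        e1.heis.minus h h2 e2 e3 e5, le_sup_left.trans e1.nm.le_normalizer⟩
  · obtain ⟨F₁, r, B, d, e⟩ | ⟨b, c⟩ := a.cases h.invol hH
    · exact k5 _ _ _ _ _ e
    refine c12 ⟨P, b, fun ⟨Q, d, e⟩ => ?_, not_unitary fun τ B e => (c τ B e).1 rfl⟩
    obtain ⟨B, d1, d2⟩ := quad_fixes d e
    obtain ⟨s, hs⟩ := gram_unique (σ := RingHom.id F) a.span (Γ := B) (Γ' := Γ.1) fun x hx =>
      ⟨1, by rw [one_smul, mem_isoG_iff.1 (d1.le_isoG (d2 hx))], by rw [one_smul, mem_isoG_iff.1 (hH (a.le hx))]⟩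
    have d3 := d1.smul' s
    rw [← hs] at d3
    by_cases h2 : (2 : F) = 0
    · exact k8 h2 _ d3 (d3.nm (irr_of_env a.span) hn a.normal hH fun x hx => mem_qiso.2 fun v => by
        rw [mem_qiso.1 (d2 hx)])
    · have d4 := d3.hf.symm.symm.trans h.symm
      rw [one_smul, neg_one_smul, eq_neg_iff_add_eq_zero, ← two_smul F, smul_eq_zero] at d4
      exact Γ.ne_zero (d4.resolve_left h2)

theorem trace_of_forall {G : Subgroup (GL ι F)} (h : ∀ c : F, ∃ g ∈ G, g.1.trace = c) {F₀ : Subfield F}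
    (h0 : F₀ ≠ ⊤) : ∃ g ∈ G, g.1.trace ∉ F₀ := by
  by_contra! e
  exact h0 (top_unique fun c _ => by obtain ⟨g, a, rfl⟩ := h c; exact e g a)

theorem sp_qs [Fintype F] (ha : ∀ v, fm (RingHom.id F) Γ.1 v v = 0) (hn : 4 ≤ Fintype.card ι)
    (h4 : Fintype.card ι = 4 → Fintype.card F ≠ 2) : (∃ p e, QS (isoG (fm (RingHom.id F) Γ.1)) p e) ∧
      (∀ c : F, ∃ g ∈ isoG (fm (RingHom.id F) Γ.1), g.1.trace = c) ∧
      ∀ Q, QF Γ.1 Q → ¬ isoG (fm (RingHom.id F) Γ.1) ≤ qiso Q := by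
  have hf := altC_nondeg Γ ha
  obtain ⟨m, hm⟩ := even_of_alt ha
  obtain ⟨x, y, h⟩ := symp_exists_hyp hf (by simp; omega)
  have hE := symp_Isom_eq_E hf
  rw [← glS_altC ha, hE]
  refine ⟨?_, fun c => ?_, fun Q hQ e => ?_⟩
  · obtain ⟨p, hp, e, h1, h2⟩ := FiniteField.card' F
    refine ⟨p, e, qs_E hf (rich_of_ker symp_ker) (rich2_of_ker symp_ker) h ?_ h1 e.pos ?_ ?_⟩
    · rw [← hE, commutator_eq_top_iff_subtype]
      refine symp_perfect hf ?_
      have := (card_cases F).2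
      by_cases h6 : Fintype.card ι = 4
      · by_cases h3 : Fintype.card F = 3
        · exact .inr (.inl ⟨by simpa, two_ne_zero_of_card_three h3⟩)
        · exact .inr (.inr (exists_sq_ne_one (by have := h4 h6; omega)))
      · exact .inl (by simp; omega)
    · rw [Nat.card_eq_fintype_card, h2]; exact pow_dvd_pow _ (by omega)
    · rw [← hE, symp_card_Isom m hf (by simp; omega), pow_mul, Nat.card_eq_fintype_card, h2]
      exact (pow_dvd_pow _ (by nlinarith)).mul_right _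
  · obtain ⟨g, a, b⟩ := exists_trace_E (a := 0) (b := 0) (c := 1) (d := Fintype.card ι - c) h (by simp) (by simp)
      (by simp) (by simp) (by simp) rfl rfl
    exact ⟨g, a, by simpa using b⟩
  · have k : ∀ v, v ≠ 0 → Q v = Q x := fun v hv => by
      obtain ⟨g, a, rfl⟩ := witt_one hf h.x_ne hv rfl
      simpa using mem_qiso.1 (e (symm_mem_glS (hE ▸ a))) x
    have h1 := h.finrank_perp
    obtain ⟨z, hz, z0⟩ := Submodule.exists_mem_ne_zero_of_ne_bot (p := (altC _ ha).perp (Submodule.span F {x, y}))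
      (by rintro e; rw [e, finrank_bot, finrank_fintype_fun_eq_card] at h1; omega)
    obtain ⟨z1, z2⟩ := IsHyp.mem_perp.1 hz
    have h2 := hQ.add z x
    have h3 := hQ.add x y
    have n1 : ∀ v, (altC _ ha).B v y = 1 → v ≠ 0 := by rintro _ a rfl; simp at a
    rw [k _ (n1 _ (by rw [B_add_left, z2, h.hxy, zero_add])), k z z0, ← altC_B _ ha, z1, add_zero,
      left_eq_add] at h2
    rw [k _ (n1 _ (by rw [B_add_left, h.hyy, h.hxy, add_zero])), k y h.y_ne, ← altC_B _ ha, h.hxy, h2] at h3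
    simp at h3

theorem sp_max [Fintype F] (h : HF (RingHom.id F) (-1) Γ) (ha : ∀ v, fm (RingHom.id F) Γ.1 v v = 0)
    (hn : 4 ≤ Fintype.card ι) (h4 : Fintype.card ι = 4 → Fintype.card F ≠ 2)
    (hH : IsMaximalIn (isoG (fm (RingHom.id F) Γ.1)) H) :
    SpC (fm (RingHom.id F) Γ.1) H fun M => H = M ⊓ isoG (fm (RingHom.id F) Γ.1) := by
  obtain ⟨⟨p, e, hQ⟩, h1, h2⟩ := sp_qs ha hn h4
  have k := fun {M} => eq_inf_of_max (M := M) hH
  rcases sp_main h ha (by omega) hH.1.le with ⟨W, a, b, c⟩ | ⟨W, a, b, c, d⟩ | ⟨t, l, D, a, b, c, d⟩ |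
    ⟨o, l, D, a, b, c, d⟩ | ⟨r, K, a, b, c, d, e, g⟩ | ⟨o, K, a, b, c, d⟩ |
    ⟨o, l, l', e, P, f₁, f₂, a1, a2, a3, a4, a5, a6, a7, a⟩ | ⟨F₀, r, P, ζ, a, b, c, d, e⟩ |
    ⟨o, o', T, l, a1, a2, a3, a4, a5, a6, a7, a⟩ | ⟨o, l, t, e, P, f₁, a1, a2, a3, a4, a5, a6, a⟩ |
    ⟨o, Q, a, b, c⟩ | a
  · refine .inl ⟨W, a, b, k c (hQ.irr.not_le_stab a ?_)⟩
    rintro rfl
    have := hQ.nonempty
    exact Γ.ne_zero (fm_ext (σ := RingHom.id F) fun u v => (b u trivial v trivial).trans (by simp [fm]))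
  · refine .inr (.inl ⟨W, a, b, c, k d (hQ.irr.not_le_stab a ?_)⟩)
    rintro rfl
    simp at c; omega
  · exact .inr (.inr (.inl ⟨t, l, D, a, b, c, k d (hQ.not_le_decomp a.decomp)⟩))
  · exact .inr (.inr (.inr (.inl ⟨o, l, D, a, b, c, k d (hQ.not_le_decomp b)⟩)))
  · exact .inr (.inr (.inr (.inr (.inl ⟨r, K, a, b, c, d, e, k g (hQ.not_le_fs a c)⟩))))
  · exact .inr (.inr (.inr (.inr (.inr (.inl ⟨o, K, a, b, c, k d (hQ.not_le_fs Nat.prime_two a)⟩)))))
  · exact .inr (.inr (.inr (.inr (.inr (.inr (.inl ⟨o, l, l', e, P, f₁, f₂, a1, a2, a3, a4, a5, a6, a7,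
      k a (hQ.not_le_tensor a1 (by omega) e P)⟩))))))
  · exact .inr (.inr (.inr (.inr (.inr (.inr (.inr (.inl ⟨F₀, r, P, ζ, a, b, c, d,
      k e (hQ.not_le_subfield P (trace_of_forall h1 (ne_top_of_card a b)))⟩)))))))
  · have := Fact.mk Nat.prime_two
    have := a1.pGroup.isNilpotent
    have := hQ.nonempty
    exact .inr (.inr (.inr (.inr (.inr (.inr (.inr (.inr (.inl ⟨o, o', T, l, a1, a2, a3, a4, a5, a6, a7,
      k a fun e => hQ.not_le_normalizer ((Nm.self _).mono a3) (fun g hg x hx => (e hg x).1 hx)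
        (env_of_absIrr a2) inferInstance⟩))))))))
  · exact .inr (.inr (.inr (.inr (.inr (.inr (.inr (.inr (.inr (.inl ⟨o, l, t, e, P, f₁, a1, a2, a3, a4, a5, a6,
      k a (hQ.not_le_wreath a1 (by omega) e P)⟩)))))))))
  · exact .inr (.inr (.inr (.inr (.inr (.inr (.inr (.inr (.inr (.inr (.inl ⟨o, Q, a, b,
      k c fun e => h2 Q ⟨a.smul, b⟩ (le_isoG_of_perfect hQ.perfect (quadSim_eq Q ▸ e))⟩))))))))))
  · exact .inr (.inr (.inr (.inr (.inr (.inr (.inr (.inr (.inr (.inr (.inr a))))))))))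

theorem sp_bridge (m : ℕ) (F : Type u) [Field F] : ∃ Γ : GL (Fin m ⊕ Fin m) F, HF (RingHom.id F) (-1) Γ ∧
    (∀ v, fm (RingHom.id F) Γ.1 v v = 0) ∧ Cfsg.sympForm m F = fm (RingHom.id F) Γ.1 ∧
    Cfsg.spGL m F = isoG (fm (RingHom.id F) Γ.1) := by
  have h : IsSymplecticForm (Cfsg.sympForm m F) := ⟨HF.bilin (J (Fin m) F), (spForm F m).symp_B_symm |> fun h v w =>
    h w v, (spForm F m).symp_B_self, fun v hv => ⟨by_contra fun e => hv (spForm_nondeg m v (by simpa [spForm_B] using e)),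
      by_contra fun e => hv ((spForm_nondeg m).left (by simpa [spForm_B] using e))⟩⟩
  obtain ⟨Γ, a, b⟩ := exists_of_symp h
  exact ⟨Γ, a, b ▸ h.alternating, b, b ▸ rfl⟩

end CfsgH5.As
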