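import Cfsg.Agent.H5.As21

set_option autoImplicit false

/-! The subgroup structure theorem for unitary groups. -/

namespace CfsgH5.As

open Matrix Module Cfsg.Geo CForm
open scoped Kronecker commutatorElement

universe u

variable {ι : Type} [Fintype ι] [DecidableEq ι] {F : Type u} [Field F] {σ : F →+* F} {Γ : GL ι F}
  {ε : F} {H G N : Subgroup (GL ι F)} {q : ℕ}

theorem WrF.mem_isoG {k t : ℕ} {e : ι ≃ (Fin t → Fin k)} {P : GL ι F} {c ε₀ : F} {Γ₀ : GL (Fin k) F}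
    (h : WrF σ Γ H e P c ε₀ Γ₀) (s : Equiv.Perm (Fin t)) {a : Fin t → GL (Fin k) F}
    (ha : ∀ i, a i ∈ isoG (fm σ Γ₀.1)) : tpG e P (fpermG s * ptensG a) ∈ isoG (fm σ Γ.1) := by
  rw [mem_isoG_iff, h.gram, tpG_coe, pull_tg, pull_smul_gram, Units.val_mul, pull_mul]
  congr 2
  exact (congrArg (pull _ · _) (pull_fperm _ s)).trans ((pull_ptens _ _).trans (by
    simp only [mem_isoG_iff.1 (ha _)]))

theorem fpermG_one {t : ℕ} {κ : Type} [Fintype κ] [DecidableEq κ] : fpermG (F := F) (κ := κ) (1 : Equiv.Perm (Fin t)) = 1 :=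
  Units.ext (by ext x y; simp [fpermG, fperm, one_apply, eq_comm])

theorem env_of_fac {t : ℕ} {κ : Type} [Fintype κ] [DecidableEq κ] {e : ι ≃ (Fin t → κ)} {P : GL ι F}
    {L : Subgroup (GL κ F)} (hL : env F L = ⊤)
    (h : ∀ i, ∀ a ∈ L, tpG e P (ptensG (Pi.mulSingle i a)) ∈ N) : env F N = ⊤ := by
  have := eq_top_of_fac (A := (env F N).comap (tp e P).toAlgHom) fun i X =>
    env_le (A := ((env F N).comap (tp e P).toAlgHom).comap (fac i)) (fun a ha => by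
      have := mem_env (k := F) (h i a ha)
      rwa [tpG_coe, show (ptensG (Pi.mulSingle i a)).1 = fac i a.1 from congrArg ptens (funext fun j => by
        by_cases e : j = i
        · subst e; simp
        · simp [e])] at this) (hL.ge Algebra.mem_top)
  refine top_unique fun x _ => ?_
  obtain ⟨y, rfl⟩ := (tp e P).surjective x
  exact this.ge Algebra.mem_top

theorem glS_SU (hσ : UF σ q) (h : HF σ 1 Γ) (hn : 2 ≤ Fintype.card ι) :
    glS (uniC h hσ.ne_id).E = isoG (fm σ Γ.1) ⊓ specialLinear ι F := by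
  obtain ⟨x, y, a⟩ := unit_exists_hyp hσ (uniC_nondeg h hσ.ne_id) (by simpa)
  rw [← a.SIsom_eq_E (uniC_nondeg h hσ.ne_id) (unit_ker hσ.ne_id), glS_SIsom, glS_uniC]

theorem env_SU (hσ : UF σ q) (h : HF σ 1 Γ) (hn : 2 ≤ Fintype.card ι) :
    env F (isoG (fm σ Γ.1) ⊓ specialLinear ι F) = ⊤ := by
  have := hσ.fin
  obtain ⟨x, y, a⟩ := unit_exists_hyp hσ (uniC_nondeg h hσ.ne_id) (by simpa)
  exact glS_SU hσ h hn ▸ env_E (uniC_nondeg h hσ.ne_id) (rich_of_ker (unit_ker hσ.ne_id)) a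

theorem card_isoG_unit (hσ : UF σ q) (h : HF σ 1 Γ) : Nat.card (isoG (fm σ Γ.1)) = uOrd q (Fintype.card ι) := by
  rw [← glS_uniC h hσ.ne_id, card_glS, unit_card_Isom hσ _ (uniC_nondeg h hσ.ne_id) rfl,
    finrank_fintype_fun_eq_card]

theorem subF_of_two [Fintype F] [Nonempty ι] (h : ∀ a, σ (σ a) = a) (hσ : σ ≠ RingHom.id F) {B : GL ι F}
    (h1 : H ≤ similarityGroup (fm σ Γ.1)) (h2 : H ≤ similarityGroup (fm (RingHom.id F) B.1))
    (h3 : env F (isoG (fm σ Γ.1) ⊓ isoG (fm (RingHom.id F) B.1)) = ⊤) :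
    ∃ N F₁ r P d, fixF σ ≤ F₁ ∧ SubF σ Γ H N F₁ r P d := by
  obtain ⟨P, hP⟩ := realisable_of_two h3 inf_le_left inf_le_right
  obtain ⟨F₁, r, d, a⟩ := exists_subF (Γ := Γ) h (((nm_isoG _).mono h1).inf ((nm_isoG _).mono h2)) h3
    (fixF_ne_top hσ) hP fun x hx => ⟨1, one_mem _, by rw [one_smul, mem_isoG_iff.1 hx.1]⟩
  exact ⟨_, F₁, r, P, d, a⟩

theorem WrF.subF_two [Fintype F] [Nonempty ι] {t : ℕ} {e : ι ≃ (Fin t → Fin 2)} {P : GL ι F} {c : F}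
    {Γ₀ : GL (Fin 2) F} (h : WrF σ Γ H e P c 1 Γ₀) (hσ : UF σ q) (hH : H ≤ similarityGroup (fm σ Γ.1)) :
    ∃ N F₁ r P d, fixF σ ≤ F₁ ∧ SubF σ Γ H N F₁ r P d := by
  obtain ⟨B, h1, h2⟩ := exists_tg e P (hf_J2 (F := F)).ptens
  have h3 : WrF (RingHom.id F) B H e P 1 (-1) (J2 F) :=
    ⟨le_rfl, h.2, hf_J2, fun a => absurd rfl a, one_ne_zero, by rw [one_smul]; exact h2, h.le⟩
  refine subF_of_two hσ.invol hσ.ne_id (B := B) hH (fun g hg => mem_sim_iff.2 ?_)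
    (env_of_fac (env_SU hσ h.hf (by simp)) (e := e) (P := P) fun i a ha => ?_)
  · obtain ⟨s, a, rfl⟩ := mem_wreath_iff (h.le hg)
    refine ⟨∏ i, (a i : Matrix (Fin 2) (Fin 2) F).det, ?_⟩
    rw [h2, tpG_coe, pull_tg, ← tg_smul, Units.val_mul, pull_mul]
    congr 1
    exact (congrArg (pull _ · _) (pull_fperm _ s)).trans ((pull_ptens _ _).trans (by
      simp only [pull_J2]; exact ptens_smul _ _))
  · have k : ∀ {S : Subgroup (GL (Fin 2) F)}, a ∈ S → ∀ j, (Pi.mulSingle i a : Fin t → _) j ∈ S := fun h j => by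
      by_cases e : j = i
      · subst e; simpa
      · simp [e]
    rw [← one_mul (ptensG _), ← fpermG_one]
    exact ⟨h.mem_isoG 1 (k ha.1), h3.mem_isoG 1 (k (mem_isoG_iff.2 (by rw [pull_J2, mem_SL.1 ha.2, one_smul])))⟩

theorem tpG_kron_eq {k : ℕ} (e : ι ≃ Fin k × Fin k) (P : GL ι F) (a : Fin 2 → GL (Fin k) F) :
    tpG (e.trans (finTwoArrowEquiv _).symm) P (ptensG a) = tpG e P (kronG _ _ F (a 0, a 1)) := by
  refine Units.ext (congrArg (cj P) ?_)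
  ext x y
  simp [ptensG, ptens_apply, kronG_coe]

theorem TensF.wr_step [Finite F] {k : ℕ} {e : ι ≃ Fin k × Fin k} {P : GL ι F} {c ε₁ : F} {Γ₁ : GL (Fin k) F}
    (h : TensF σ Γ H e P c ε₁ ε₁ Γ₁ Γ₁) (hw : WrF σ Γ H (e.trans (finTwoArrowEquiv _).symm) P c ε₁ Γ₁)
    (hH : H ≤ isoG (fm σ Γ.1)) (hs : similarityGroup (fm σ Γ₁.1) ≤ isoG (fm σ Γ₁.1)) :
    ∃ M, H < M ∧ M ≤ isoG (fm σ Γ.1) ∧ Nat.card M ∣ Nat.card (isoG (fm σ Γ₁.1)) ^ 2 * 2 := by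
  let w := tpG (e.trans (finTwoArrowEquiv _).symm) P (fpermG (Equiv.swap 0 1))
  have w1 : w ∈ isoG (fm σ Γ.1) := by
    simpa [show ptensG (1 : Fin 2 → GL (Fin k) F) = 1 from Units.ext ptens_one] using
      hw.mem_isoG (Equiv.swap 0 1) (a := 1) fun _ => one_mem _
  have w2 : w ∈ tensorWreathSubgroup k 2 _ P :=
    (tpG_mem_map _ P).2 (Subgroup.subset_closure (.inr ⟨_, fun _ _ => rfl⟩))
  refine ⟨_ ⊓ _, lt_of_le_of_ne (le_inf hw.le hH) fun e' => ?_, inf_le_right, ?_⟩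
  · obtain ⟨a, b, hab⟩ := mem_tensor_iff.1 (h.le (e'.ge ⟨w2, w1⟩))
    have e1 := congrArg Units.val ((tpG _ P).injective (hab.trans (tpG_kron_eq e P ![a, b]).symm))
    have := h.two_le_k
    let i : Fin k := ⟨0, by omega⟩
    let j : Fin k := ⟨1, by omega⟩
    have e2 := congrFun (congrFun e1 ![i, i]) ![i, i]
    have e3 := congrFun (congrFun e1 ![j, j]) ![j, j]
    have e4 := congrFun (congrFun e1 ![i, j]) ![i, j]
    simp [fpermG, fperm, ptensG, ptens_apply, funext_iff, Fin.forall_fin_two, i, j] at e2 e3 e4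
    rcases e4 with e4 | e4
    · simp [e4] at e2
    · simp [e4] at e3
  · let T := ((isoG (fm σ Γ₁.1)).prod (isoG (fm σ Γ₁.1))).map ((tpG e P).toMonoidHom.comp (kronG _ _ F))
    have k1 : ∀ a : Fin 2 → GL (Fin k) F, tpG (e.trans (finTwoArrowEquiv _).symm) P (ptensG a) ∈
        isoG (fm σ Γ.1) → tpG (e.trans (finTwoArrowEquiv _).symm) P (ptensG a) ∈ T := fun a ha => by
      rw [tpG_kron_eq] at ha ⊢
      have := h.sim (isoG_le_sim _ ha)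
      exact ⟨(a 0, a 1), ⟨hs this.1, hs this.2⟩, rfl⟩
    rw [← Subgroup.card_mul_index (T.subgroupOf _)]
    refine Nat.mul_dvd_mul ((Subgroup.card_comap_dvd_of_injective _ _ Subtype.val_injective).trans
      ((Subgroup.card_map_dvd _ _).trans (by rw [Nat.card_congr (Subgroup.prodEquiv _ _).toEquiv,
        Nat.card_prod, sq]))) (Subgroup.relIindex_dvd_two_iff'.2 ⟨w⁻¹, inv_mem ⟨w2, w1⟩, fun g hg => ?_⟩)
    obtain ⟨s, a, rfl⟩ := mem_wreath_iff hg.1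
    obtain rfl | rfl : s = 1 ∨ s = Equiv.swap 0 1 := by clear hg; revert s; decide
    · rw [fpermG_one, one_mul] at hg ⊢
      exact .inr (k1 a hg.2)
    · have := mul_mem (inv_mem w1) hg.2
      rw [map_mul, inv_mul_cancel_left] at this ⊢
      exact .inl (k1 a this)

theorem UF.card_fixF (h : UF σ q) : Nat.card (fixF σ) = q := h.card_fix

theorem SubF.unit_cases [Fintype F] (hσ : UF σ q) (h : HF σ 1 Γ) (hn : 2 ≤ Fintype.card ι) {F₁ : Subfield F}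
    {r : ℕ} {P : GL ι F} {d : F} (a : SubF σ Γ H N F₁ r P d) :
    (Odd r ∧ ∃ P', SubF σ Γ H N F₁ r P' 1) ∨ (r = 2 ∧ ((Odd q ∧ ∃ P', SubF σ Γ H N F₁ r P' 1) ∨
      (Even (Fintype.card ι) ∧ d + σ d = 0 ∧
        ∀ u : ι → F, (∀ i, u i ∈ F₁) → fm σ Γ.1 (P.1 *ᵥ u) (P.1 *ᵥ u) = 0))) := by
  have : Nonempty ι := Fintype.card_pos_iff.1 (by omega)
  obtain ⟨Γ', hΓ⟩ := exists_pull_gl σ Γ P
  have h1 := h.pull hΓ
  obtain ⟨i, j, hij⟩ : ∃ i j, Γ'.1 i j ≠ 0 := by by_contra! a; exact Γ'.ne_zero (Matrix.ext a)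
  have e1 : ∀ i j, σ (Γ'.1 j i) = Γ'.1 i j := fun i j => by simpa using congrFun (congrFun h1.symm i) j
  have m : ∀ i j, d * Γ'.1 i j ∈ F₁ := fun i j => by simpa [hΓ] using a.rat i j
  have d0 := a.ne
  have hμ : σ d / d ∈ F₁ := by
    have := div_mem (UF.map_mem hσ (m j i)) (m i j)
    rwa [map_mul, e1, mul_div_mul_right _ _ hij] at this
  have k : ∀ ν ∈ F₁, ν ≠ 0 → σ (ν * d) = ν * d → ∃ P', SubF σ Γ H N F₁ r P' 1 := fun ν b c e => by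
    obtain ⟨s, hs⟩ := hσ.exists_norm e
    exact a.rescale (s := s) (by rintro rfl; simp [c, d0] at hs) one_ne_zero (by simpa [hs, d0])
  have hc : Nat.card F₁ ^ r = q ^ 2 := by rw [← a.card, ← hσ.card, Nat.card_eq_fintype_card]
  rcases a.prime.eq_two_or_odd' with rfl | hr
  · have h2 : ∀ x ∈ F₁, σ x = x := fun x hx => by
      rw [hσ.pow, ← Nat.pow_left_injective two_ne_zero hc]
      have := Fintype.ofFinite F₁
      simpa using congrArg Subtype.val (FiniteField.pow_card (⟨x, hx⟩ : F₁))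
    have h3 : σ d = d ∨ σ d = -d := by
      have := h2 _ hμ
      rw [map_div₀, hσ.invol, div_eq_div_iff (by simpa) d0] at this
      exact mul_self_eq_mul_self_iff.1 this.symm
    by_cases h4 : Odd q ∧ σ d = d
    · exact .inr ⟨rfl, .inl ⟨h4.1, k 1 (one_mem _) one_ne_zero (by simpa using h4.2)⟩⟩
    have h5 : σ d = -d := h3.elim (fun e => by
      rw [e, eq_neg_iff_add_eq_zero, ← two_mul, UF.two_eq_zero hσ fun o => h4 ⟨o, e⟩, zero_mul]) id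
    let X := GeneralLinearGroup.scalar ι (Units.mk0 d d0) * Γ'
    have hX : X.1 = d • Γ'.1 := by simp [X, scalar_apply, ← smul_one_eq_diagonal]
    have h6 : HF (RingHom.id F) (-1) X := ⟨fun _ => rfl, .inr rfl, by
      ext i j; simpa [hX, h5, e1] using (h2 _ (m j i)).symm⟩
    have h7 : ∀ v, fm (RingHom.id F) X.1 v v = 0 := by
      by_cases h8 : (2 : F) = 0
      · refine alt_of_irr h8 h6 (irr_of_env (env_cs a.span P⁻¹)) hn ?_
        rintro _ ⟨x, hx, rfl⟩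
        obtain ⟨l, hl⟩ := mem_sim_iff.1 (a.sim hx)
        refine mem_sim_iff.2 ⟨l, (congrArg _ (cj_coe P⁻¹ x).symm).trans ?_⟩
        have e2 : (cj P⁻¹ x.1).map σ = (cj P⁻¹ x.1).map (RingHom.id F) := by
          ext i j; exact h2 _ (a.ov x hx i j)
        rw [pull, ← e2, ← pull, hX, pull_smul_gram, hΓ, pull_cj, hl, pull_smul_gram, smul_comm]
      · exact h6.alt_of_neg h8
    refine .inr ⟨rfl, .inr ⟨even_of_alt h7, by simp [h5], fun u hu => mul_left_cancel₀ d0 ?_⟩⟩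
    rw [← fm_pull, ← hΓ, ← fm_smul_gram, ← hX, mul_zero, ← h7 u, fm, fm]
    congr 2
    exact funext fun i => h2 _ (hu i)
  · refine .inl ⟨hr, ?_⟩
    by_contra h2
    have h3 : ∀ x ∈ F₁, x + σ d / d * σ x = 0 := fun x hx => by_contra fun e =>
      h2 (k _ (add_mem hx (mul_mem hμ (UF.map_mem hσ hx))) e (by
        simp only [map_mul, map_add, map_div₀, hσ.invol]
        field_simp [(map_ne_zero σ).2 d0]
        ring))
    have h4 : F₁ ≤ fixF σ := fun x hx => by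
      have := h3 1 (one_mem _)
      rw [map_one, mul_one] at this
      show σ x = x
      linear_combination σ x * this - h3 x hx
    letI := (Subfield.inclusion h4).toAlgebra
    rw [← UF.card_fixF hσ, Module.natCard_eq_pow_finrank (K := F₁) (V := fixF σ), ← pow_mul] at hc
    obtain rfl := Nat.pow_right_injective Finite.one_lt_card hc
    exact Nat.not_even_iff_odd.2 hr (even_two.mul_left _)

/-- The conclusion of the structure theorem for unitary groups. -/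
def SuC [Fintype F] (q : ℕ) (f : (ι → F) → (ι → F) → F) (H : Subgroup (GL ι F)) (R : Subgroup (GL ι F) → Prop) :
    Prop :=
  (∃ W, W ≠ ⊥ ∧ IsTotallySingularFor f W ∧ R (subspaceStabilizer W)) ∨
  (∃ W, W ≠ ⊥ ∧ IsNondegenerateOn f W ∧ 2 * finrank F W < Fintype.card ι ∧ R (subspaceStabilizer W)) ∨
  (∃ (t k : ℕ) (D : Fin t → Submodule F (ι → F)), IsNondegenerateMDecomposition f k D ∧
    (k = 2 → q = 2 → Fintype.card ι = 4 ∧ ¬ Irr H) ∧ R (decompositionStabilizer D)) ∨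
  (∃ (k : ℕ) (D : Fin 2 → Submodule F (ι → F)), 2 * k = Fintype.card ι ∧
    IsMDecomposition k D ∧ (∀ i, IsTotallySingularFor f (D i)) ∧ R (decompositionStabilizer D)) ∨
  (∃ r K, r.Prime ∧ Odd r ∧ r ∣ Fintype.card ι ∧ IsFieldSubalgebra r K ∧ IsAdjointClosedFor f K ∧
    R (subalgebraNormalizer K)) ∨
  (∃ (k l : ℕ) (e : ι ≃ Fin k × Fin l) (P : GL ι F) (f₁ f₂ : _), 2 ≤ k ∧ k < l ∧ (k = 2 → 3 ≤ q) ∧
    IsUnitaryFormPow q f₁ ∧ IsUnitaryFormPow q f₂ ∧ IsTensorFormStructure (fun x : F => x ^ q) f f₁ f₂ e P ∧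
    R (tensorProductSubgroup k l e P)) ∨
  (∃ (F₀ : Subfield F) (r : ℕ) (P : GL ι F), r.Prime ∧ Odd r ∧ Fintype.card F = Nat.card F₀ ^ r ∧
    IsFormRationalStructure f F₀ 1 P ∧ R (subfieldSubgroup F₀ P)) ∨
  (Even (Fintype.card ι) ∧ ∃ (F₀ : Subfield F) (P : GL ι F) (ζ : F), Fintype.card F = Nat.card F₀ ^ 2 ∧ ζ ≠ 0 ∧
    ζ + ζ ^ q = 0 ∧ IsFormRationalStructure f F₀ ζ P ∧
    (∀ u : ι → F, (∀ i, u i ∈ F₀) → f (P.1 *ᵥ u) (P.1 *ᵥ u) = 0) ∧ R (subfieldSubgroup F₀ P)) ∨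
  (Odd q ∧ ∃ (F₀ : Subfield F) (P : GL ι F), Fintype.card F = Nat.card F₀ ^ 2 ∧
    IsFormRationalStructure f F₀ 1 P ∧ R (subfieldSubgroup F₀ P)) ∨
  (∃ r T p d k, IsSymplecticTypeGroup r T ∧ ActsAbsolutelyIrreducibly (matrixSet T) ∧ T ≤ similarityGroup f ∧
    r ≠ p ∧ 0 < d ∧ q = p ^ d ∧ IsMinimalFieldFor (Nat.card (Subgroup.center T)) p (2 * d) F ∧
    Fintype.card ι = r ^ k ∧ 1 ≤ k ∧ ((Odd r ∧ Nat.card (Subgroup.center T) = r ∧ Nat.card T = r ^ (1 + 2 * k) ∧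
      r ∣ q + 1 ∧ T ≤ isoG f) ∨ (r = 2 ∧ d = 1 ∧ Nat.card (Subgroup.center T) = 4 ∧ Nat.card T = 2 ^ (2 + 2 * k) ∧
      4 ∣ q + 1)) ∧ R (subgroupNormalizer T)) ∨
  (∃ (k t : ℕ) (e : ι ≃ (Fin t → Fin k)) (P : GL ι F) (f₁ : _), 3 ≤ k ∧ 2 ≤ t ∧ ¬ (q = 2 ∧ k = 3) ∧
    IsUnitaryFormPow q f₁ ∧ IsTensorPowerFormStructure (fun x : F => x ^ q) f f₁ e P ∧
    R (tensorWreathSubgroup k t e P)) ∨
  InUnitaryResidualClass H

theorem HF.unitPow (h : HF σ 1 Γ) (hσ : UF σ q) : IsUnitaryFormPow q (fm σ Γ.1) :=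
  ⟨fm_add_left _, fm_smul_left _, fun v w => by rw [h.fm_symm, one_mul, hσ.pow], fm_nondeg Γ⟩

theorem IsResidualCore.not_dvd [Finite F] {P : Subgroup (GL ι F)} (h : IsResidualCore H P) {a b : ℕ} :
    ¬ Nat.card H ∣ 2 ^ a * 3 ^ b := fun e => by
  obtain rfl := perfect_eq_bot e h.le h.perfect
  exact h.nonabelian ⟨⟨fun _ _ => Subsingleton.elim _ _⟩⟩

theorem su_main [Fintype F] (hσ : UF σ q) (h : HF σ 1 Γ) (hn : 3 ≤ Fintype.card ι) (H : Subgroup (GL ι F))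
    (hH : H ≤ isoG (fm σ Γ.1)) : SuC q (fm σ Γ.1) H (H ≤ ·) := by
  have : Nonempty ι := Fintype.card_pos_iff.1 (by omega)
  have hn' : 2 ≤ Fintype.card ι := by omega
  have hq := hσ.two_le
  have hs : (σ : F → F) = fun x => x ^ q := funext hσ.pow
  induction H using WellFoundedGT.induction with | ind H ih
  have hS := hH.trans (isoG_le_sim _)
  by_contra hc
  have hc' := hc
  simp only [SuC, not_or] at hc
  obtain ⟨c1, c2, c3, c4, c5, c6, c7, c8, c9, c10, c11, c12⟩ := hc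
  by_cases hI : Irr H
  swap
  · obtain ⟨W, a, b, c, -, d | d⟩ := h.reducible hS hI
    · exact c1 ⟨W, a, d, c⟩
    · have e := h.finrank_pp W
      rcases lt_trichotomy (2 * finrank F W) (Fintype.card ι) with g | g | g
      · exact c2 ⟨W, a, d, g, c⟩
      · exact c3 ⟨_, _, _, (h.decomp_pair a d g).1, fun _ _ => ⟨by omega, hI⟩,
          (le_inf c hS).trans (h.decomp_pair a d g).2⟩
      · refine c2 ⟨_, fun e' => b ?_, h.nondeg_pp d, by omega, (le_inf c hS).trans (stab_le_stab_pp W)⟩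
        rw [← h.pp_pp W, e']
        exact top_unique fun v _ w hw => by rw [(Submodule.mem_bot F).1 hw, fm_zero_right]
  have k3 : ¬ OrthD (fm σ Γ.1) H := by
    rintro ⟨t, k, D, a, b, -⟩
    refine c3 ⟨t, k, D, a, ?_, b⟩
    rintro rfl rfl
    have i : Fin t := ⟨0, by have := a.decomp.two_le; omega⟩
    obtain ⟨v, v1, v2⟩ := h.exists_aniso (absurd · hσ.ne_id) (a.nondegenerate i) fun e => by
      have := a.decomp.finrank_eq i; rw [e] at this; simp at this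
    obtain ⟨t, D, c, d, -⟩ := h.orthM_of_frV hI hH (UF.norm_one hσ) a b
      (h.frV_two (a.nondegenerate i) (a.decomp.finrank_eq i) v1 v2) hn'
    exact absurd ⟨t, 1, D, c, by simp, d⟩ c3
  have k5 : ¬ ∃ N F₁ r P d, SubF σ Γ H N F₁ r P d := fun ⟨N, F₁, r, P, d, a⟩ => by
    have m := fun x => UF.map_mem hσ (F₀ := F₁) (x := x)
    obtain ⟨b, P, c⟩ | ⟨rfl, ⟨b, P, c⟩ | ⟨b, c, e⟩⟩ := a.unit_cases hσ h hn'
    · exact c7 ⟨F₁, r, P, a.prime, b, a.card, rational_of_Ov m c.rat, c.le⟩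
    · exact c9 ⟨b, F₁, P, a.card, rational_of_Ov m c.rat, c.le⟩
    · exact c8 ⟨b, F₁, P, d, a.card, a.ne, hσ.pow d ▸ c, rational_of_Ov m a.rat, e, a.le⟩
  have kw : ∀ (k t : ℕ) (e : ι ≃ (Fin t → Fin k)) P c Γ₀, WrF σ Γ H e P c 1 Γ₀ → q = 2 ∧ k = 3 :=
    fun k t e P c Γ₀ a => by_contra fun b => by
      refine c11 ⟨k, t, e, P, _, a.two_le_k.lt_of_ne ?_, a.two_le_t, b, a.hf.unitPow hσ, hs ▸ a.struct, a.le⟩
      rintro rfl
      obtain ⟨N, F₁, r, P, d, -, b⟩ := a.subF_two hσ hS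
      exact k5 ⟨N, F₁, r, P, d, b⟩
  have k2 : ∀ (k : ℕ) (e : ι ≃ Fin k × Fin 2) P c Γ₁ Γ₂, TensF σ Γ H e P c 1 1 Γ₁ Γ₂ → 3 ≤ q :=
    fun k e P c Γ₁ Γ₂ a => hq.lt_of_ne <| by
      rintro rfl
      have b : IsNondegenerateOn (fm σ Γ₂.1) ⊤ := fun w _ hw => by simpa using fm_nondeg Γ₂ w hw
      obtain ⟨v, v1, v2⟩ := a.hf₂.exists_aniso (absurd · hσ.ne_id) b top_ne_bot
      exact k3 (a.orthD h hI hS (UF.norm_one hσ) (a.hf₂.frV_two b (by simp) v1 v2)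
        (a.hf₂.sim_le_isoG (UF.norm_one hσ) (.inr (UF.two_eq_zero hσ (by decide)))))
  have kt : ∀ (k l : ℕ) (e : ι ≃ Fin k × Fin l) P c Γ₁ Γ₂, k < l → ¬ TensF σ Γ H e P c 1 1 Γ₁ Γ₂ :=
    fun k l e P c Γ₁ Γ₂ b a => c6 ⟨k, l, e, P, _, _, a.two_le_k, b, by rintro rfl; exact k2 _ _ _ _ _ _ a.swap,
      a.hf₁.unitPow hσ, a.hf₂.unitPow hσ, hs ▸ a.struct, a.le⟩
  have k648 : ∀ {Γ₀ : GL (Fin 3) F}, q = 2 → HF σ 1 Γ₀ → Nat.card (isoG (fm σ Γ₀.1)) = 648 := by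
    rintro _ rfl a; rw [card_isoG_unit hσ a]; decide
  rcases h.form_raw hn' hI hH with (a | ⟨e, a⟩ | ⟨r, K, a, b, c, d⟩) | ⟨k, l, e, P, c, ε₁, ε₂, Γ₁, Γ₂, a⟩ |
    ⟨k, t, e, P, c, ε₀, Γ₀, a, ⟨L, b1, b2, b3⟩, -⟩ | ⟨a, r, R, b, c⟩ | ⟨P, a⟩
  · exact k3 a
  · obtain ⟨k, b⟩ := a.decomp h hI
    exact c4 ⟨k, _, b⟩
  · exact c5 ⟨r, K, a, a.odd_of_ne_two ((h.fs_cases a b d).2 hσ.ne_id), b.finrank_eq ▸ (fld_of_fs b).finrank_dvd,
      b, h.adClosed d, c.le_normalizer⟩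
  · obtain ⟨rfl, rfl⟩ := a.eps hσ.ne_id
    rcases lt_trichotomy k l with b | rfl | b
    · exact kt _ _ _ _ _ _ _ b a
    · obtain ⟨b, hb⟩ := herm_congr a.hf₁ a.hf₂ hσ.ne_id
      obtain ⟨P', d1, d2⟩ := a.wrF one_ne_zero hb
      obtain ⟨h2, rfl⟩ := kw _ _ _ _ _ _ d2
      subst h2
      obtain ⟨M, m1, m2, m3⟩ := d1.wr_step d2 hH
        (a.hf₁.sim_le_isoG (UF.norm_one hσ) (.inr (UF.two_eq_zero hσ (by decide))))
      rw [k648 rfl a.hf₁] at m3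
      have k : ∀ {S}, M ≤ S → H ≤ S := m1.le.trans
      rcases ih M m1 m2 with ⟨W, a, b, c⟩ | ⟨W, a, b, c, d⟩ | ⟨t, k, D, a, b, c⟩ | ⟨_, D, a, b, c, d⟩ |
        ⟨r, K, a, b, c, d, e, g⟩ | ⟨_, _, e, P, f₁, f₂, a1, a2, a3, a4, a5, a6, a⟩ | ⟨F₀, r, P, a, b, c, d, e⟩ |
        ⟨o, F₀, P, ζ, a, b, c, d, e, g⟩ | ⟨o, F₀, P, a, b, c⟩ | ⟨r, T, p, d, l, a1, a2, a3, a4, a5, a6, a7, a8, a9,
          a10, a⟩ | ⟨_, t, e, P, f₁, a1, a2, a3, a4, a5, a⟩ | ⟨P, a, -⟩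
      · exact c1 ⟨W, a, b, k c⟩
      · exact c2 ⟨W, a, b, c, k d⟩
      · exact c3 ⟨t, k, D, a, fun x y => absurd (hI.mono m1.le) (b x y).2, m1.le.trans c⟩
      · exact c4 ⟨_, D, a, b, c, k d⟩
      · exact c5 ⟨r, K, a, b, c, d, e, k g⟩
      · exact c6 ⟨_, _, e, P, f₁, f₂, a1, a2, a3, a4, a5, a6, k a⟩
      · exact c7 ⟨F₀, r, P, a, b, c, d, k e⟩
      · exact c8 ⟨o, F₀, P, ζ, a, b, c, d, e, k g⟩
      · exact c9 ⟨o, F₀, P, a, b, k c⟩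
      · exact c10 ⟨r, T, p, d, l, a1, a2, a3, a4, a5, a6, a7, a8, a9, a10, k a⟩
      · exact c11 ⟨_, t, e, P, f₁, a1, a2, a3, a4, a5, k a⟩
      · exact IsResidualCore.not_dvd (a := 7) (b := 8) a m3
    · exact kt _ _ _ _ _ _ _ b a.swap
  · obtain rfl := a.eps hσ.ne_id
    obtain ⟨h2, rfl⟩ := kw _ _ _ _ _ _ a
    obtain rfl := perfect_eq_bot (a := 3) (b := 4) (k648 h2 a.hf).dvd b3 b2
    exact not_comm_of_span b1 (by simp) (by simp)
  · obtain e | ⟨p, d, k, e1, e2, e3, e4, e5, e6, e7⟩ := b.unit_case hσ h hn' hH c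
    · exact k5 e
    · exact c10 ⟨r, R, p, d, k, b.sympType a hn', absIrr_of_env b.heis.span, b.le.trans (sup_le_sim hH), e1, e2, e3,
        e4, e5, e6, e7, le_sup_left.trans b.nm.le_normalizer⟩
  · obtain ⟨F₁, r, B, d, e⟩ | ⟨b, c⟩ := a.cases h.invol hH
    · exact k5 ⟨_, _, _, _, _, e⟩
    refine c12 ⟨P, b, fun ⟨Q, d, e⟩ => ?_, fun ⟨f, d, e⟩ => ?_⟩
    · obtain ⟨B, d1, d2⟩ := quad_fixes d e
      exact hσ.ne_id ((c _ B (d2.trans d1.le_isoG)).2 rfl)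
    · obtain ⟨B, -, rfl⟩ := exists_of_symp d
      exact hσ.ne_id ((c _ B (le_isoG_of_fixes e)).2 rfl)

theorem su_qs [Fintype F] (hσ : UF σ q) (h : HF σ 1 Γ) (hn : 3 ≤ Fintype.card ι)
    (h3 : ¬ (Fintype.card ι = 3 ∧ q = 2)) : (∃ p e, QS (isoG (fm σ Γ.1) ⊓ specialLinear ι F) p e) ∧
      ∀ c : F, ∃ g ∈ isoG (fm σ Γ.1) ⊓ specialLinear ι F, g.1.trace = c := by
  have hf := uniC_nondeg h hσ.ne_id
  obtain ⟨x, y, a⟩ := unit_exists_hyp hσ hf (by simp; omega)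
  have hk := unit_ker (h := h.invol) hσ.ne_id
  obtain ⟨b1, b2, -⟩ := unit_isSimple hσ hf (by simpa) (by simpa using h3)
  rw [← glS_SU hσ h (by omega)]
  refine ⟨?_, fun c => ?_⟩
  · obtain ⟨p, hp, e, h1, h2⟩ := FiniteField.card' F
    have h4 : q ^ 2 = p ^ (e : ℕ) := by rw [← hσ.card, ← h2, Nat.card_eq_fintype_card]
    obtain ⟨d, -, rfl⟩ := (Nat.dvd_prime_pow h1).1 (h4 ▸ dvd_pow_self q two_ne_zero)
    have h5 := hσ.two_le
    refine ⟨p, d, qs_E hf (rich_of_ker hk) (rich2_of_ker hk) a (b2 ▸ b1) h1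
      (Nat.pos_of_ne_zero (by rintro rfl; simp at h5)) (by rw [hσ.card, ← pow_mul, mul_comm]) ?_⟩
    rw [← b2, pow_mul]
    refine Nat.Coprime.dvd_of_dvd_mul_left (m := p ^ d + 1) (Nat.Coprime.pow_left _ (Nat.coprime_self_add_right.2 (Nat.coprime_one_right _))) ?_
    rw [unit_card_SIsom hσ hf (by simp; omega), unit_card_Isom hσ _ hf rfl, finrank_fintype_fun_eq_card]
    refine (pow_dvd_pow _ ?_).mul_right _
    obtain ⟨k, hk⟩ := Nat.exists_eq_add_of_le' hn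
    rw [hk, Nat.le_div_iff_mul_le two_pos]
    exact Nat.mul_le_mul_left _ (by omega)
  · have h1 := a.finrank_perp
    obtain ⟨⟨v, hv⟩, v0⟩ := unit_exists_Q_ne hσ.ne_id (a.nondeg_perp hf) (by
      rw [finrank_fintype_fun_eq_card] at h1; omega)
    obtain ⟨d, d0, hd⟩ := hk
    obtain ⟨l, hl⟩ := unit_exists_Q_eq hσ (f := uniC h hσ.ne_id) v0
      (c := (c - Fintype.card ι) / d + σ ((c - Fintype.card ι) / d)) (by rw [map_add, hσ.invol, add_comm])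
    obtain ⟨v1, v2⟩ := IsHyp.mem_perp.1 (Submodule.smul_mem _ l hv)
    obtain ⟨g, g1, g2⟩ := exists_trace_E (b := 0) a v1 v2 (by simp) (by simp) (by simp) hl.symm (by simpa using hd)
    exact ⟨g, g1, g2.trans (by
      change _ + 1 * ((c - _) / d) * d = _
      rw [one_mul, div_mul_cancel₀ _ d0, add_sub_cancel])⟩

theorem su_max [Fintype F] (hσ : UF σ q) (h : HF σ 1 Γ) (hn : 3 ≤ Fintype.card ι)
    (h3 : ¬ (Fintype.card ι = 3 ∧ q = 2)) (hH : IsMaximalIn (isoG (fm σ Γ.1) ⊓ specialLinear ι F) H) :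
    SuC q (fm σ Γ.1) H fun M => H = M ⊓ (isoG (fm σ Γ.1) ⊓ specialLinear ι F) := by
  obtain ⟨⟨p, e, hQ⟩, h1⟩ := su_qs hσ h hn h3
  have k := fun {M} => eq_inf_of_max (M := M) hH
  have k5 := fun {F₀ : Subfield F} {r : ℕ} P (a : r.Prime) (b : Fintype.card F = Nat.card F₀ ^ r) =>
    hQ.not_le_subfield P (trace_of_forall h1 (ne_top_of_card a b))
  have := hQ.nonempty
  rcases su_main hσ h hn H (hH.1.le.trans inf_le_left) with ⟨W, a, b, c⟩ | ⟨W, a, b, c, d⟩ | ⟨t, _, D, a, b, c⟩ |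
    ⟨_, D, a, b, c, d⟩ | ⟨r, K, a, b, c, d, e, g⟩ | ⟨_, _, e, P, f₁, f₂, a1, a2, a3, a4, a5, a6, a⟩ |
    ⟨F₀, r, P, a, b, c, d, e⟩ | ⟨o, F₀, P, ζ, a, b, c, d, e, g⟩ | ⟨o, F₀, P, a, b, c⟩ |
    ⟨r, T, p, d, l, a1, a2, a3, a4, a5, a6, a7, a8, a9, a10, a⟩ | ⟨_, t, e, P, f₁, a1, a2, a3, a4, a5, a⟩ | a
  · refine .inl ⟨W, a, b, k c (hQ.irr.not_le_stab a ?_)⟩
    rintro rfl
    exact Γ.ne_zero (fm_ext (σ := σ) fun u v => (b u trivial v trivial).trans (by simp [fm]))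
  · refine .inr (.inl ⟨W, a, b, c, k d (hQ.irr.not_le_stab a ?_)⟩)
    rintro rfl
    simp at c; omega
  · exact .inr (.inr (.inl ⟨t, _, D, a, b, k c (hQ.not_le_decomp a.decomp)⟩))
  · exact .inr (.inr (.inr (.inl ⟨_, D, a, b, c, k d (hQ.not_le_decomp b)⟩)))
  · exact .inr (.inr (.inr (.inr (.inl ⟨r, K, a, b, c, d, e, k g (hQ.not_le_fs a d)⟩))))
  · exact .inr (.inr (.inr (.inr (.inr (.inl ⟨_, _, e, P, f₁, f₂, a1, a2, a3, a4, a5, a6,
      k a (hQ.not_le_tensor a1 (by omega) e P)⟩)))))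
  · exact .inr (.inr (.inr (.inr (.inr (.inr (.inl ⟨F₀, r, P, a, b, c, d, k e (k5 P a c)⟩))))))
  · exact .inr (.inr (.inr (.inr (.inr (.inr (.inr (.inl ⟨o, F₀, P, ζ, a, b, c, d, e,
      k g (k5 P Nat.prime_two a)⟩)))))))
  · exact .inr (.inr (.inr (.inr (.inr (.inr (.inr (.inr (.inl ⟨o, F₀, P, a, b, k c (k5 P Nat.prime_two a)⟩))))))))
  · have := Fact.mk a1.prime
    have := a1.pGroup.isNilpotent
    exact .inr (.inr (.inr (.inr (.inr (.inr (.inr (.inr (.inr (.inl ⟨r, T, p, d, l, a1, a2, a3, a4, a5, a6, a7, a8,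
      a9, a10, k a fun e => hQ.not_le_normalizer (((nm_isoG _).mono a3).inf fun g _ x hx =>
        Subgroup.Normal.conj_mem (MonoidHom.normal_ker _) x hx g) (fun g hg x hx => (e hg x).1 hx)
        (env_of_absIrr a2) inferInstance⟩)))))))))
  · exact .inr (.inr (.inr (.inr (.inr (.inr (.inr (.inr (.inr (.inr (.inl ⟨_, t, e, P, f₁, a1, a2, a3, a4, a5,
      k a (hQ.not_le_wreath (by omega) a2 e P)⟩))))))))))
  · exact .inr (.inr (.inr (.inr (.inr (.inr (.inr (.inr (.inr (.inr (.inr a))))))))))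

theorem su_bridge (hσ : UF σ q) (n : ℕ) : Cfsg.hermForm n F q = fm σ (1 : GL (Fin n) F).1 ∧
    Cfsg.GU n F q = isoG (fm σ (1 : GL (Fin n) F).1) := by
  have : Cfsg.hermForm n F q = fm σ (1 : GL (Fin n) F).1 := by
    ext u v; simp [Cfsg.hermForm, fm, dotProduct, hσ.pow]
  exact ⟨this, this ▸ rfl⟩

end CfsgH5.As
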