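import Cfsg.Agent.H5.As22

set_option autoImplicit false

/-! The subgroup structure theorem for orthogonal groups: common part and odd dimension. -/

namespace CfsgH5.As

open Matrix Module Cfsg.Geo CForm
open scoped Kronecker commutatorElement

universe u

variable {ι : Type} [Fintype ι] [DecidableEq ι] {F : Type u} [Field F] {σ : F →+* F} {Γ : GL ι F}
  {ε : F} {H G N : Subgroup (GL ι F)} {Q : (ι → F) → F}

theorem QF.polar_eq {Γ : Matrix ι ι F} (h : QF Γ Q) : QuadraticMap.polar Q = fm (RingHom.id F) Γ :=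
  funext₂ h.polar

theorem QF.eq_half {Γ : Matrix ι ι F} (h : QF Γ Q) (h2 : (2 : F) ≠ 0) (v : ι → F) :
    Q v = 2⁻¹ * fm (RingHom.id F) Γ v v := by rw [h.fm_self, inv_mul_cancel_left₀ h2]

theorem QF.reducible [Finite F] (h : QF Γ.1 Q) (hH : H ≤ qiso Q) (hI : ¬ Irr H) :
    (∃ W, W ≠ ⊥ ∧ IsTotallySingularQuad Q W ∧ H ≤ subspaceStabilizer W) ∨
    (∃ W, W ≠ ⊥ ∧ W ≠ ⊤ ∧ IsNondegenerateOn (fm (RingHom.id F) Γ.1) W ∧ H ≤ subspaceStabilizer W) ∨
    ((2 : F) = 0 ∧ ∃ v, Q v ≠ 0 ∧ H ≤ subspaceStabilizer (F ∙ v)) := by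
  obtain ⟨W, a, b, c, d, e | e⟩ := h.hf.reducible (hH.trans (h.le_isoG.trans (isoG_le_sim _))) hI
  swap
  · exact .inr (.inl ⟨W, a, b, e, c⟩)
  by_cases h2 : (2 : F) = 0
  swap
  · exact .inl ⟨W, a, fun w hw => by rw [h.eq_half h2, e w hw w hw, mul_zero], c⟩
  let U : Submodule F (ι → F) := ⟨⟨⟨{w | w ∈ W ∧ Q w = 0}, fun {x y} p q => ⟨add_mem p.1 q.1, by
    rw [h.add, p.2, q.2, e _ p.1 _ q.1]; simp⟩⟩, zero_mem _, h.zero⟩, fun s x p =>
      ⟨W.smul_mem s p.1, by rw [h.smul, p.2, mul_zero]⟩⟩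
  rcases d U (fun _ p => p.1) (le_stab fun g hg w p => ⟨(mem_stab.1 (c hg) w).1 p.1,
    (mem_qiso.1 (hH hg) w).trans p.2⟩) with k | k
  · obtain ⟨v, v1, v0⟩ := Submodule.exists_mem_ne_zero_of_ne_bot a
    have hv : Q v ≠ 0 := fun p => v0 (k.le (show v ∈ U from ⟨v1, p⟩))
    refine .inr (.inr ⟨h2, v, hv, le_stab fun g hg w hw => ?_⟩)
    obtain ⟨s, rfl⟩ := Submodule.mem_span_singleton.1 hw
    have h3 := (mem_stab.1 (c hg) v).1 v1
    have h4 : g.1 *ᵥ v - v ∈ U := ⟨sub_mem h3 v1, by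
      rw [sub_eq_add_neg, h.add, e _ h3 _ (neg_mem v1), ← neg_one_smul F, h.smul, mem_qiso.1 (hH hg)]
      linear_combination Q v * h2⟩
    rw [mulVec_smul, sub_eq_zero.1 (k.le h4)]
    exact hw
  · exact .inl ⟨W, a, fun w hw => (k.ge hw).2, c⟩

theorem QF.plus_plane [Fintype F] (h : QF Γ.1 Q) (hF : Fintype.card F ≤ 3) {W : Submodule F (ι → F)}
    (h1 : IsNondegenerateOn (fm (RingHom.id F) Γ.1) W) (h2 : finrank F W = 2) (h3 : IsPlusTypeOn Q W) :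
    ∃ v ∈ W, Q v = 1 ∧ subspaceStabilizer W ⊓ qiso Q ≤ subspaceStabilizer (F ∙ v) := by
  obtain ⟨U, a, b, c⟩ := h3
  obtain ⟨x, x1, x0⟩ := Submodule.exists_mem_ne_zero_of_ne_bot (p := U) (by rintro rfl; simp [h2] at c)
  have hf : (h.cf.res W).Nondeg := fun v hv => by_contra fun h0 => by
    obtain ⟨x, hx, e⟩ := (h1 v v.2 fun e => h0 (Subtype.ext e)).1
    exact e (hv ⟨x, hx⟩)
  obtain ⟨y, hy⟩ := hf.exists_hyp' (x := ⟨x, a x1⟩) (b x x1) (fun e => x0 (congrArg Subtype.val e))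
  have h4 := hy.finrank_perp
  have h5 : ∀ w : W, ∃ s t : F, w = s • ⟨x, a x1⟩ + t • y := fun w => by
    obtain ⟨z, z1, z2, e⟩ := hy.decomp w
    obtain rfl : z = 0 := (Submodule.finrank_eq_zero.1 (by omega)).le (IsHyp.mem_perp.2 ⟨z1, z2⟩)
    exact ⟨_, _, e.trans (add_zero _)⟩
  have h6 : h.cf.Q (x + y) = 1 := by simpa using hy.Q_comb₀ 1 1
  refine ⟨_, add_mem (a x1) y.2, h6, le_stab fun g hg w hw => ?_⟩
  obtain ⟨s, rfl⟩ := Submodule.mem_span_singleton.1 hw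
  obtain ⟨s', t, e⟩ := h5 ⟨_, (mem_stab.1 hg.1 _).1 (add_mem (a x1) y.2)⟩
  have h7 := hy.Q_comb₀ s' t
  rw [← e] at h7
  have h8 : s' * t = 1 := h7.symm.trans ((mem_qiso.1 hg.2 _).trans h6)
  obtain rfl : s' = t := mul_left_cancel₀ (left_ne_zero_of_mul_eq_one h8)
    ((mul_self_of_card hF (left_ne_zero_of_mul_eq_one h8)).trans h8.symm)
  rw [mulVec_smul, show g.1 *ᵥ (x + y) = s' • (x + y) by simpa using congrArg Subtype.val e]
  exact Submodule.smul_mem _ _ (Submodule.smul_mem _ _ (Submodule.mem_span_singleton_self _))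

theorem OrthM.orth {f : (ι → F) → (ι → F) → F} {m : ℕ} (h : OrthM f H m) (e : QuadraticMap.polar Q = f)
    (hH : H ≤ qiso Q) : ∃ (t : ℕ) (D : Fin t → Submodule F (ι → F)), IsOrthogonalMDecomposition Q m D ∧
      H ≤ decompositionStabilizer D := by
  obtain ⟨t, D, a, b, c⟩ := h
  refine ⟨t, D, ⟨e ▸ a, fun i j => ?_⟩, b⟩
  obtain ⟨g, g1, g2⟩ := c i j
  exact ⟨(linE g).ofSubmodules _ _ g2, fun w => mem_qiso.1 (hH g1) w⟩

/-- a rational structure for the form, normalised by `H` -/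
structure SubW [Fintype F] (σ : F →+* F) (Γ : GL ι F) (H : Subgroup (GL ι F)) (F₁ : Subfield F) (r : ℕ) (P : GL ι F)
    (d : F) : Prop where
  prime : r.Prime
  card : Fintype.card F = Nat.card F₁ ^ r
  ne : d ≠ 0
  rat : d • pull σ Γ.1 P.1 ∈ Ov F₁
  le : H ≤ subfieldSubgroup F₁ P

theorem SubF.subW [Fintype F] {F₁ : Subfield F} {r : ℕ} {P : GL ι F} {d : F} (h : SubF σ Γ H N F₁ r P d) :
    SubW σ Γ H F₁ r P d := ⟨h.1, h.2, h.3, h.4, h.5⟩

theorem SubW.rescale [Fintype F] {F₁ : Subfield F} {r : ℕ} {P : GL ι F} {d : F}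
    (h : SubW σ Γ H F₁ r P d) {s : F} (hs : s ≠ 0) {d' : F} (hd : d' ≠ 0) (e : d' * (s * σ s) / d ∈ F₁) :
    ∃ P', SubW σ Γ H F₁ r P' d' := by
  let z := GeneralLinearGroup.scalar ι (Units.mk0 s hs)
  have hz : z ∈ scalars ι F := ⟨_, rfl⟩
  have e1 : ∀ x, cj (P * z)⁻¹ x = cj P⁻¹ x := fun x => by
    rw [_root_.mul_inv_rev, cj_mul, cj_of_scalar (inv_mem hz)]
  refine ⟨P * z, h.1, h.2, hd, ?_, fun g hg => ?_⟩
  · have := smul_mem_Ov e h.rat
    rwa [smul_smul, div_mul_cancel₀ _ h.ne, mul_smul, ← pull_smul, show s • P.1 = (P * z).1 by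
      simp [z, scalar_apply, ← smul_one_eq_diagonal]] at this
  · simpa only [mem_subfieldSubgroup, e1] using h.le hg

theorem SubW.quad [Fintype F] {F₁ : Subfield F} {r : ℕ} {P : GL ι F} {d : F} (h : SubW (RingHom.id F) Γ H F₁ r P d)
    (hQ : QF Γ.1 Q) (h2 : (2 : F) ≠ 0) : IsQuadFormRationalStructure (fun v => d * Q v) F₁ P := fun u hu => by
  beta_reduce
  rw [hQ.eq_half h2, mul_left_comm]
  exact mul_mem (inv_mem (by simp)) (rational_of_Ov (fun _ => id) h.rat u u hu hu)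

theorem SubW.odd [Fintype F] {F₁ : Subfield F} {r : ℕ} {P : GL ι F} {d : F} (h : SubW (RingHom.id F) Γ H F₁ r P d)
    (hn : Odd (Fintype.card ι)) (h1 : Γ.1 ∈ Ov F₁) : ∃ P', SubW (RingHom.id F) Γ H F₁ r P' 1 := by
  obtain ⟨m, hm⟩ := hn
  have a := det_mem_of_Ov h.rat
  rw [det_smul, det_pull, hm] at a
  have b := (isUnit_iff_isUnit_det _).1 P.isUnit |>.ne_zero
  have c := (isUnit_iff_isUnit_det _).1 Γ.isUnit |>.ne_zero
  have d0 := h.ne
  refine h.rescale (s := (d ^ m * P.1.det)⁻¹) (by simp [b, d0]) one_ne_zero ?_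
  convert div_mem (det_mem_of_Ov h1) a using 1
  simp only [RingHom.id_apply]
  field_simp
  ring

theorem OrthM.frame [Fintype F] (h : OrthM (fm (RingHom.id F) Γ.1) H 1) (hH : H ≤ isoG (fm (RingHom.id F) Γ.1)) :
    (Fintype.card F).Prime ∨ ∃ F₁ r P d, SubW (RingHom.id F) Γ H F₁ r P d ∧ d • pull (RingHom.id F) Γ.1 P.1 = 1 := by
  obtain ⟨t, D, a, b, c⟩ := h
  by_cases h0 : (⊥ : Subfield F) = ⊤
  · obtain ⟨p, hp, n, h1, h2⟩ := FiniteField.card' F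
    have := Fact.mk h1
    left
    rwa [← Nat.card_eq_fintype_card, ← Nat.card_congr (Subfield.topEquiv (K := F)).toEquiv, ← h0,
      Subfield.card_bot F p]
  obtain ⟨F₁, r, -, h1, h2⟩ := exists_prime_index_subfield h0
  have i : Fin t := ⟨0, by have := a.decomp.two_le; omega⟩
  obtain ⟨v, v0, hv⟩ := finrank_eq_one_iff'.1 (a.decomp.finrank_eq i)
  choose g g1 g2 using c i
  let w := fun j => (g j).1 *ᵥ v.1
  have w1 : ∀ j, w j ∈ D j := fun j => g2 j ▸ Submodule.mem_map_of_mem v.2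
  have w2 : ∀ j, ∀ x ∈ D j, ∃ s : F, x = s • w j := fun j x hx => by
    obtain ⟨y, hy, rfl⟩ := (g2 j).ge hx
    obtain ⟨s, hs⟩ := hv ⟨y, hy⟩
    exact ⟨s, by simp [w, ← mulVec_smul, ← show s • v.1 = y from congrArg Subtype.val hs]⟩
  have w3 : ∀ j, fm (RingHom.id F) Γ.1 (w j) (w j) = fm (RingHom.id F) Γ.1 v v := fun j => hH (g1 j) _ _
  have d0 : fm (RingHom.id F) Γ.1 v v ≠ 0 := by
    obtain ⟨x, hx, e⟩ := (a.nondegenerate i v v.2 fun e => v0 (Subtype.ext e)).1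
    obtain ⟨s, hs⟩ := hv ⟨x, hx⟩
    rw [← show s • v.1 = x from congrArg Subtype.val hs, fm_smul_left] at e
    exact right_ne_zero_of_mul e
  let e : ι ≃ Fin t := Fintype.equivFinOfCardEq (by simpa using (IsMDecomposition.card a.decomp).symm)
  obtain ⟨M, hM⟩ : ∃ M : Matrix ι ι F, ∀ y, M *ᵥ Pi.single y 1 = w (e y) :=
    ⟨of fun x y => w (e y) x, fun y => by ext; simp⟩
  have h3 : (fm (RingHom.id F) Γ.1 v v)⁻¹ • pull (RingHom.id F) Γ.1 M = 1 := by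
    ext x y
    rw [Matrix.smul_apply, ← fm_single (σ := RingHom.id F) (pull _ _ _), fm_pull, hM, hM, one_apply]
    split_ifs with h
    · rw [h, w3, smul_eq_mul, inv_mul_cancel₀ d0]
    · rw [a.orthogonal _ _ (e.injective.ne h) _ (w1 _) _ (w1 _), smul_zero]
  obtain ⟨P, rfl⟩ : IsUnit M := (isUnit_iff_isUnit_det _).2 (Ne.isUnit fun e => by
    simpa [det_pull, e] using congrArg det h3)
  refine .inr ⟨F₁, r, P, _, ⟨h1, h2, inv_ne_zero d0, h3 ▸ one_mem _, fun x hx =>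
    mem_subfieldSubgroup.2 ⟨1, one_ne_zero, fun i j => ?_⟩⟩, h3⟩
  obtain ⟨s, hs⟩ := b hx
  obtain ⟨l, hl⟩ := w2 (s (e j)) _ (hs _ ▸ Submodule.mem_map_of_mem (w1 (e j)))
  have h4 := hH hx (w (e j)) (w (e j))
  have h5 : cj P⁻¹ x.1 *ᵥ Pi.single j 1 = l • Pi.single (e.symm (s (e j))) 1 := by
    rw [← inv_mulVec_mulVec P (Pi.single j 1), cj_mulVec, hM, ← toLin'_apply x.1, hl, ← e.apply_symm_apply (s _),
      ← hM, mulVec_smul, inv_mulVec_mulVec, e.apply_symm_apply]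
  rw [← toLin'_apply, hl, fm_smul_left, fm_smul_right, w3, w3, ← mul_assoc, mul_eq_right₀ d0] at h4
  have h6 : l ∈ F₁ := by rcases mul_self_eq_one_iff.1 h4 with rfl | rfl <;> simp
  rw [one_smul, show cj P⁻¹ x.1 i j = l * Pi.single (M := fun _ => F) (e.symm (s (e j))) 1 i by
    simpa using congrFun h5 i]
  exact mul_mem h6 (by rw [Pi.single_apply]; split_ifs <;> simp)

theorem Fld.cj_comm [Fintype F] [Nonempty ι] {K : Subalgebra F (Matrix ι ι F)} (h : Fld K) (h1 : Nz H K)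
    {a b : GL ι F} (ha : a ∈ H) (hb : b ∈ H) {x : Matrix ι ι F} (hx : x ∈ K) : cj ⁅a, b⁆ x = x := by
  letI := h.isField.toField
  let φ : H →* (K ≃ₐ[F] K) := MonoidHom.mk' (fun g => AlgEquiv.ofBijective
    (((cj g.1).toAlgHom.comp K.val).codRestrict K fun y => h1 g g.2 y y.2)
    (Finite.injective_iff_bijective.1 fun y z e => Subtype.ext ((cj g.1).injective (congrArg Subtype.val e))))
    fun g k => AlgEquiv.ext fun y => Subtype.ext (cj_mul _ _ _)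
  letI := IsCyclic.commGroup (α := K ≃ₐ[F] K)
  have : φ ⁅(⟨a, ha⟩ : H), ⟨b, hb⟩⁆ = 1 := by
    rw [map_commutatorElement, commutatorElement_eq_one_iff_mul_comm, mul_comm]
  exact congrArg Subtype.val (AlgEquiv.congr_fun this ⟨x, hx⟩)

theorem HF.field_ne [Fintype F] (h : HF (RingHom.id F) ε Γ) (hI : Irr H) (hH : H ≤ isoG (fm (RingHom.id F) Γ.1))
    {K : Subalgebra F (Matrix ι ι F)} (hr : (Fintype.card ι).Prime) (ho : Odd (Fintype.card ι))
    (hK : IsFieldSubalgebra (Fintype.card ι) K) (h1 : Nz H K) (h2 : ∀ x ∈ K, ad (RingHom.id F) Γ x = x) :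
    False := by
  have : Nonempty ι := Fintype.card_pos_iff.1 hr.pos
  have k : ∀ {L : Subalgebra F (Matrix ι ι F)}, Fld L → ∀ g ∈ H, g.1 ∈ L → ad (RingHom.id F) Γ g.1 = g →
      g.1 = 1 ∨ g.1 = -1 := fun {L} hL g hg a b => by
    letI := hL.isField.toField
    have e : (⟨g, a⟩ : L) * ⟨g, a⟩ = 1 := Subtype.ext (by
      change g.1 * g.1 = 1
      nth_rw 1 [← b]
      rw [h.ad_iso (hH hg), Units.inv_mul])
    exact (mul_self_eq_one_iff.1 e).imp (congrArg Subtype.val) (congrArg Subtype.val)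
  have c : ∀ a ∈ H, ∀ b ∈ H, a * b = b * a := fun a ha b hb => by
    have m : ⁅a, b⁆ ∈ H := mul_mem (mul_mem (mul_mem ha hb) (inv_mem ha)) (inv_mem hb)
    have e := (fld_of_fs hK).mem_of_comm hK.finrank_eq (x := (⁅a, b⁆ : GL ι F).1) fun y hy =>
      cj_eq_self_iff.1 ((fld_of_fs hK).cj_comm h1 ha hb hy)
    have d : (⁅a, b⁆ : GL ι F).1.det = 1 := congrArg Units.val (show GeneralLinearGroup.det ⁅a, b⁆ = 1 by
      rw [map_commutatorElement, commutatorElement_eq_one_iff_mul_comm, mul_comm])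
    refine commutatorElement_eq_one_iff_mul_comm.1 (Units.ext ((k (fld_of_fs hK) _ m e (h2 _ e)).elim id fun e => ?_))
    rw [e, det_neg, ho.neg_one_pow, det_one, mul_one] at d
    rw [e, ← neg_one_smul F, d, one_smul, Units.val_one]
  have c' : ∀ x ∈ env F H, ∀ y ∈ env F H, x * y = y * x := fun x hx y hy => comm_env (fun g hg =>
    (comm_env (fun k hk => congrArg Units.val (c g hg k hk)) hx).symm) hy
  have h0 := mt env_eq_bot_iff.1 (not_le_scalars hI hr.two_le)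
  rcases hI.fld_or_idem (Nm.self H).nz c' with a | ⟨t, e, a⟩
  · have b := (hr.eq_one_or_self_of_dvd _ a.finrank_dvd).resolve_left (finrank_ne_one_of_ne_bot h0)
    have d := ((h.fs_cases hr (b ▸ a.fs) fun x => h.ad_mem_env (hH.trans (isoG_le_sim _))).1 rfl).resolve_right
      fun e => by simp [e] at ho; exact absurd ho (by decide)
    exact not_le_scalars hI hr.two_le fun g hg => (k a g hg (mem_env hg) (d _ (mem_env hg))).elim
      (fun e => mem_scalars_of_eq (e.trans (one_smul _ _).symm)) fun e =>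
        mem_scalars_of_eq (e.trans (neg_one_smul F _).symm)
  · have := a.two_le
    obtain ⟨g, hg, e⟩ := a.trans ⟨0, by omega⟩ ⟨1, by omega⟩
    rw [cj_eq_self_iff.2 (c' _ (mem_env hg) _ (a.mem _))] at e
    exact a.ne _ ((a.idem _).symm.trans ((congrArg (_ * ·) e).trans (a.orth _ _ (by simp))))

theorem card_isoG_three [Fintype F] {Γ : GL (Fin 3) F} (h : HF (RingHom.id F) 1 Γ) (hF : Fintype.card F = 3) :
    Nat.card (isoG (fm (RingHom.id F) Γ.1)) = 48 := by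
  have h2 := two_ne_zero_of_card_three hF
  have a := h.qf h2
  rw [← a.qiso_eq h2, ← a.glS_cf, card_glS, orth_card_odd 1 a.cf_nondeg (by simp), Nat.card_eq_fintype_card, hF]
  decide

theorem QF.residual {P : Subgroup (GL ι F)} (b : IsResidualCore H P) (c : ∀ (τ : F →+* F) (B : GL ι F),
    P ≤ isoG (fm τ B.1) → (RingHom.id F = RingHom.id F → τ = RingHom.id F) ∧
      (τ = RingHom.id F → RingHom.id F = RingHom.id F)) : InOrthogonalResidualClass H :=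
  ⟨P, b, not_unitary fun τ B e => (c τ B e).1 rfl⟩

/-- The conclusion of the structure theorem for orthogonal groups in odd dimension. -/
def OoC [Fintype F] (Q : (ι → F) → F) (H : Subgroup (GL ι F)) (R : Subgroup (GL ι F) → Prop) : Prop :=
  (∃ W, W ≠ ⊥ ∧ IsTotallySingularQuad Q W ∧ R (subspaceStabilizer W)) ∨
  (∃ W : Submodule F (ι → F), W ≠ ⊥ ∧ Even (finrank F W) ∧ IsNondegenerateOn (QuadraticMap.polar Q) W ∧
    ¬ (Fintype.card F = 3 ∧ finrank F W = 2 ∧ IsPlusTypeOn Q W) ∧ R (subspaceStabilizer W)) ∨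
  ((Fintype.card F).Prime ∧ ∃ (t : ℕ) (D : Fin t → Submodule F (ι → F)), IsOrthogonalMDecomposition Q 1 D ∧
    R (decompositionStabilizer D)) ∨
  (∃ (t k : ℕ) (D : Fin t → Submodule F (ι → F)), 1 < k ∧ (k = 3 → 5 ≤ Fintype.card F) ∧
    IsOrthogonalMDecomposition Q k D ∧ R (decompositionStabilizer D)) ∨
  (∃ r K, r.Prime ∧ r ∣ Fintype.card ι ∧ Fintype.card ι ≠ r ∧ IsFieldSubalgebra r K ∧
    IsSelfAdjointFor (QuadraticMap.polar Q) K ∧ R (subalgebraNormalizer K)) ∨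
  (∃ (k l : ℕ) (e : ι ≃ Fin k × Fin l) (P : GL ι F) (f₁ f₂ : _), 3 ≤ k ∧ k < l ∧ IsSymmetricForm f₁ ∧
    IsSymmetricForm f₂ ∧ IsTensorFormStructure id (QuadraticMap.polar Q) f₁ f₂ e P ∧
    R (tensorProductSubgroup k l e P)) ∨
  (∃ (F₀ : Subfield F) (r : ℕ) (P : GL ι F), r.Prime ∧ Fintype.card F = Nat.card F₀ ^ r ∧
    IsQuadFormRationalStructure Q F₀ P ∧ R (subfieldSubgroup F₀ P)) ∨
  (∃ (k t : ℕ) (e : ι ≃ (Fin t → Fin k)) (P : GL ι F) (f₁ : _), 3 ≤ k ∧ 2 ≤ t ∧ (k = 3 → 5 ≤ Fintype.card F) ∧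
    IsSymmetricForm f₁ ∧ IsTensorPowerFormStructure id (QuadraticMap.polar Q) f₁ e P ∧
    R (tensorWreathSubgroup k t e P)) ∨
  InOrthogonalResidualClass H

theorem five_le [Fintype F] (h2 : (2 : F) ≠ 0) (h3 : Fintype.card F ≠ 3) : 5 ≤ Fintype.card F := by
  have := (card_cases F).2
  obtain ⟨s, hs⟩ := two_ne_zero_iff.1 h2
  omega

theorem HF.eq_one_of_odd (h : HF (RingHom.id F) ε Γ) (h2 : (2 : F) ≠ 0) (ho : Odd (Fintype.card ι)) : ε = 1 :=
  h.eps.resolve_right fun e => Nat.not_even_iff_odd.2 ho (even_of_alt ((e ▸ h).alt_of_neg h2))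

theorem oo_main [Fintype F] (hQ : QF Γ.1 Q) (hn : 5 ≤ Fintype.card ι) (ho : Odd (Fintype.card ι))
    (hΓ : ∀ F₀, Γ.1 ∈ Ov F₀) (hH : H ≤ qiso Q) : OoC Q H (H ≤ ·) := by
  have : Nonempty ι := Fintype.card_pos_iff.1 (by omega)
  have hn' : 2 ≤ Fintype.card ι := by omega
  have h := hQ.hf
  have h2 : (2 : F) ≠ 0 := orth_two_ne_of_odd hQ.cf_nondeg (by simpa)
  have hH' := hH.trans hQ.le_isoG
  have hS := hH'.trans (isoG_le_sim _)
  obtain ⟨m, hm⟩ := id ho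
  by_contra hc
  simp only [OoC, not_or, hQ.polar_eq] at hc
  obtain ⟨c1, c2, c3, c4, c5, c6, c7, c8, c9⟩ := hc
  by_cases hI : Irr H
  swap
  · have k0 : ∀ W, W ≠ ⊤ → IsNondegenerateOn (fm (RingHom.id F) Γ.1) W → H ≤ subspaceStabilizer W →
        Odd (finrank F W) → finrank F (pp (RingHom.id F) Γ.1 W) = 2 ∧ Fintype.card F = 3 ∧
          IsPlusTypeOn Q (pp (RingHom.id F) Γ.1 W) := fun W a b c ⟨s, hs⟩ => by
      have e := h.finrank_pp W
      by_contra d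
      refine c2 ⟨_, fun e' => a ?_, ⟨m - s, by omega⟩, h.nondeg_pp b, fun x => d ⟨x.2.1, x.1, x.2.2⟩,
        (le_inf c hS).trans (stab_le_stab_pp W)⟩
      rw [← h.pp_pp W, e']
      exact top_unique fun v _ w hw => by rw [(Submodule.mem_bot F).1 hw, fm_zero_right]
    have k1 : ∀ W, IsNondegenerateOn (fm (RingHom.id F) Γ.1) W → H ≤ subspaceStabilizer W →
        ¬ (Fintype.card F = 3 ∧ finrank F W = 2 ∧ IsPlusTypeOn Q W) := fun W a b ⟨c, d, e⟩ => by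
      obtain ⟨v, -, v1, v2⟩ := hQ.plus_plane c.le a d e
      have v0 : v ≠ 0 := by rintro rfl; simp [hQ.zero] at v1
      have := (k0 _ (line_ne_top hn' v) (nondeg_line (by simp [hQ.fm_self, v1, h2])) ((le_inf b hH).trans v2)
        (by simp [finrank_span_singleton v0])).1
      have := h.finrank_pp (F ∙ v)
      rw [finrank_span_singleton v0] at this
      omega
    obtain a | ⟨W, a, b, c, d⟩ | a := hQ.reducible hH hI
    · exact c1 a
    · rcases Nat.even_or_odd (finrank F W) with e | e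
      · exact c2 ⟨W, a, e, c, k1 W c d, d⟩
      · obtain ⟨x, y, z⟩ := k0 W b c d e
        exact k1 _ (h.nondeg_pp c) ((le_inf d hS).trans (stab_le_stab_pp W)) ⟨y, x, z⟩
    · exact h2 a.1
  have k5 : ∀ F₁ r P d, ¬ SubW (RingHom.id F) Γ H F₁ r P d := fun F₁ r P d a => by
    obtain ⟨P', b⟩ := a.odd ho (hΓ _)
    exact c7 ⟨F₁, r, P', b.prime, b.card, by simpa using b.quad hQ h2, b.le⟩
  have k1 : ¬ OrthM (fm (RingHom.id F) Γ.1) H 1 := fun a => (a.frame hH').elim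
    (fun b => c3 ⟨b, a.orth hQ.polar_eq hH⟩) fun ⟨_, _, _, _, b, _⟩ => k5 _ _ _ _ b
  have h6 : Fintype.card F = 3 → ∀ a : F, a ≠ 0 → a * RingHom.id F a = 1 := fun h a => mul_self_of_card h.le
  have k3 : ¬ OrthD (fm (RingHom.id F) Γ.1) H := fun a => by
    obtain ⟨k, a⟩ := a.orthM
    obtain ⟨t, D, b, c⟩ := a.orth hQ.polar_eq hH
    refine c4 ⟨t, k, D, lt_of_le_of_ne b.decomp.decomp.pos (by rintro rfl; exact k1 a), ?_, b, c⟩
    rintro rfl
    refine five_le h2 fun h3 => ?_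
    have i : Fin t := ⟨0, by have := b.decomp.decomp.two_le; omega⟩
    have d := hQ.polar_eq ▸ b.decomp
    obtain ⟨v, hv⟩ := h.frV_three h3 (d.nondegenerate i) (d.decomp.finrank_eq i)
    exact k1 (h.orthM_of_frV hI hH' (h6 h3) d c hv hn')
  have kt : ∀ (k l : ℕ) (e : ι ≃ Fin k × Fin l) P c ε₁ ε₂ Γ₁ Γ₂, TensF (RingHom.id F) Γ H e P c ε₁ ε₂ Γ₁ Γ₂ →
      Odd k ∧ ε₁ = 1 := fun k l e P c ε₁ ε₂ Γ₁ Γ₂ a => by
    have b := (Nat.odd_mul.1 (a.card ▸ ho)).1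
    exact ⟨b, a.hf₁.eq_one_of_odd h2 (by simpa)⟩
  have kt' : ∀ (k l : ℕ) (e : ι ≃ Fin k × Fin l) P c Γ₁ Γ₂, k < l →
      ¬ TensF (RingHom.id F) Γ H e P c 1 1 Γ₁ Γ₂ := fun k l e P c Γ₁ Γ₂ b a =>
    c6 ⟨k, l, e, P, _, _, by have := a.two_le_k; obtain ⟨s, rfl⟩ := (kt _ _ _ _ _ _ _ _ _ a).1; omega, b,
      a.hf₁.symmetric, a.hf₂.symmetric, a.struct, a.le⟩
  have kw : ∀ (k t : ℕ) (e : ι ≃ (Fin t → Fin k)) P c Γ₀, WrF (RingHom.id F) Γ H e P c 1 Γ₀ →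
      k = 3 ∧ Fintype.card F = 3 := fun k t e P c Γ₀ a => by_contra fun b => by
    refine c8 ⟨k, t, e, P, _, a.two_le_k.lt_of_ne ?_, a.two_le_t, fun x => five_le h2 fun y => b ⟨x, y⟩,
      a.hf.symmetric, a.struct, a.le⟩
    rintro rfl
    have := a.two_le_t
    exact Nat.not_even_iff_odd.2 ho (a.card ▸ even_two.pow_of_ne_zero (by omega))
  rcases h.form_raw hn' hI hH' with (a | ⟨e, a⟩ | ⟨r, K, a, b, c, d⟩) | ⟨k, l, e, P, c, ε₁, ε₂, Γ₁, Γ₂, a⟩ |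
    ⟨k, t, e, P, c, ε₀, Γ₀, a, ⟨L, b1, b2, b3⟩, -⟩ | ⟨a, r, R, b, c⟩ | ⟨P, a⟩
  · exact k3 a
  · obtain ⟨k, b, -⟩ := a.decomp h hI
    omega
  · have e := b.finrank_eq ▸ (fld_of_fs b).finrank_dvd
    have g := ((h.fs_cases a b d).1 rfl).resolve_right (by rintro rfl; omega)
    refine c5 ⟨r, K, a, e, ?_, b, h.selfAdj_iff.2 g, c.le_normalizer⟩
    rintro rfl
    exact h.field_ne hI hH' a ho b c g
  · obtain ⟨o, rfl⟩ := kt _ _ _ _ _ _ _ _ _ a
    obtain ⟨-, rfl⟩ := kt _ _ _ _ _ _ _ _ _ a.swap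
    rcases lt_trichotomy k l with b | rfl | b
    · exact kt' _ _ _ _ _ _ _ b a
    · obtain ⟨b, d, d0, hb⟩ := symm_congr a.hf₁ a.hf₂ h2 (by simpa)
      obtain ⟨P', -, d2⟩ := a.wrF d0 hb
      obtain ⟨rfl, h3⟩ := kw _ _ _ _ _ _ d2
      obtain ⟨v, hv⟩ := a.hf₂.frV_three h3 (W := ⊤) (fun w _ hw => by simpa using fm_nondeg Γ₂ w hw) (by simp)
      exact k3 (a.orthD h hI hS (h6 h3) hv (a.hf₂.sim_le_isoG (h6 h3) (.inl (by decide))))
    · exact kt' _ _ _ _ _ _ _ b a.swap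
  · have := a.two_le_t
    obtain rfl := a.hf.eq_one_of_odd h2 (by simpa using (Nat.odd_pow_iff (by omega)).1 (a.card ▸ ho))
    obtain ⟨rfl, h3⟩ := kw _ _ _ _ _ _ a
    obtain rfl := perfect_eq_bot (a := 4) (b := 1) (card_isoG_three a.hf h3).dvd b3 b2
    exact not_comm_of_span b1 (by simp) (by simp)
  · obtain ⟨-, ⟨N, F₁, r, P, d, e⟩ | ⟨-, T, k, -, -, e3, -⟩⟩ := b.id_case hn' a hH' c
    · exact k5 _ _ _ _ e.subW
    · exact Nat.not_even_iff_odd.2 ho (e3 ▸ even_two.pow_of_ne_zero (by rintro rfl; omega))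
  · obtain ⟨F₁, r, B, d, e⟩ | ⟨b, c⟩ := a.cases h.invol hH'
    · exact k5 _ _ _ _ e.subW
    · exact c9 (QF.residual b c)

theorem o_qs [Fintype F] (hQ : QF Γ.1 Q) (hn : 6 ≤ Fintype.card ι) :
    (∃ p e, QS (omegaGL Q) p e) ∧ ∀ c : F, ∃ g ∈ omegaGL Q, g.1.trace = c := by
  have hf := hQ.cf_nondeg
  have h0 : finrank F (ι → F) = Fintype.card ι := finrank_fintype_fun_eq_card F
  obtain ⟨x, y, a⟩ := orth_exists_hyp hf (by omega)
  rw [hQ.omega_eq (by omega)]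
  refine ⟨?_, fun c => ?_⟩
  · obtain ⟨p, hp, e, h1, h2⟩ := FiniteField.card' F
    have hs := split_of_finrank hf (by omega)
    refine ⟨p, e, qs_E hf (rich_of_finrank hf (by omega)) (rich2_of_finrank hf (by omega)) a
      (orth_perfect hf (by omega)) h1 e.pos ?_ ?_⟩
    · rw [Nat.card_eq_fintype_card, h2]; exact pow_dvd_pow _ (by omega)
    have h3 : 2 * Nat.card F ^ Fintype.card ι ∣ Nat.card hQ.cf.Isom := by
      rcases Nat.even_or_odd' (Fintype.card ι) with ⟨m, hm | hm⟩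
      · obtain ⟨m, rfl⟩ : ∃ k, m = k + 1 := ⟨m - 1, by omega⟩
        rw [← Int.natCast_dvd_natCast, orth_card_even m hf (h0.trans hm), oOrd, mul_assoc, hm]
        push_cast
        exact mul_dvd_mul_left _ ((pow_dvd_pow _ (by nlinarith)).mul_right _)
      · rw [orth_card_odd m hf (h0.trans hm), hm]
        exact mul_dvd_mul_left _ ((pow_dvd_pow _ (by nlinarith)).mul_right _)
    rw [pow_mul, ← h2, ← Nat.card_eq_fintype_card, ← comm_eq_E hf hs (by omega),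
      ← Nat.card_congr (commutatorSubtypeEquiv _).toEquiv]
    rw [← (commutator hQ.cf.Isom).index_mul_card] at h3
    by_cases h4 : (2 : F) = 0
    · rw [index_commutator_two hf hs h4 (by omega)] at h3
      exact Nat.dvd_of_mul_dvd_mul_left two_pos h3
    · rw [index_commutator_four hf h4 (by omega)] at h3
      refine Nat.Coprime.dvd_of_dvd_mul_left (m := 2 ^ 2) (Nat.Coprime.pow _ 2 ?_) ((dvd_mul_left _ _).trans h3)
      simpa using two_ne_zero_iff.1 h4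
  · have h1 := a.finrank_perp
    obtain ⟨x', y', a'⟩ := orth_exists_hyp (a.nondeg_perp hf) (by omega)
    have h2 := a'.finrank_perp
    obtain ⟨⟨b, hb⟩, b0⟩ := orth_exists_Q_ne (a'.nondeg_perp (a.nondeg_perp hf)) (by omega)
    obtain ⟨b1, b2⟩ := IsHyp.mem_perp.1 hb
    let u := ((c - Fintype.card ι) / Q b) • x' + (1 : F) • y'
    obtain ⟨g, g1, g2⟩ := exists_trace_E (a := u.1) (b := b.1) (d := Q b) a (IsHyp.mem_perp.1 u.2).1
      (IsHyp.mem_perp.1 u.2).2 (IsHyp.mem_perp.1 b.2).1 (IsHyp.mem_perp.1 b.2).2 ((hQ.cf.res _).B_zero_symm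
        (u := b) (v := u) (by simp only [u, B_add_right, B_smul_right, b1, b2]; simp))
      (a'.Q_comb₀ _ 1).symm rfl
    exact ⟨g, g1, g2.trans (by
      change _ + 1 * ((c - _) / _ * 1) * _ = _
      rw [one_mul, mul_one, div_mul_cancel₀ _ (show Q b ≠ 0 from b0), add_sub_cancel])⟩

theorem omega_le (Q : (ι → F) → F) : omegaGL Q ≤ qiso Q := omegaGL_eq Q ▸ comm_le_left (Nm.self _)

theorem QF.ne_top [Nonempty ι] (hQ : QF Γ.1 Q) {W : Submodule F (ι → F)} (h : IsTotallySingularQuad Q W) :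
    W ≠ ⊤ := by
  rintro rfl
  exact Γ.ne_zero (fm_ext (σ := RingHom.id F) fun u v => by
    rw [← hQ.polar]; simp [QuadraticMap.polar, h _ trivial, fm])

theorem oo_max [Fintype F] (hQ : QF Γ.1 Q) (hn : 6 ≤ Fintype.card ι) (ho : Odd (Fintype.card ι))
    (hΓ : ∀ F₀, Γ.1 ∈ Ov F₀) (hH : IsMaximalIn (omegaGL Q) H) : OoC Q H fun M => H = M ⊓ omegaGL Q := by
  obtain ⟨⟨p, e, hq⟩, h1⟩ := o_qs hQ hn
  have k := fun {M} => eq_inf_of_max (M := M) hH
  have := hq.nonempty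
  rcases oo_main hQ (by omega) ho hΓ (hH.1.le.trans (omega_le Q)) with ⟨W, a, b, c⟩ | ⟨W, a, b, c, d, e⟩ |
    ⟨o, t, D, a, b⟩ | ⟨t, l, D, a, b, c, d⟩ | ⟨r, K, a, b, c, d, e, g⟩ |
    ⟨_, _, e, P, f₁, f₂, a1, a2, a3, a4, a5, a⟩ | ⟨F₀, r, P, a, b, c, d⟩ | ⟨_, t, e, P, f₁, a1, a2, a3, a4, a5, a⟩ | a
  · exact .inl ⟨W, a, b, k c (hq.irr.not_le_stab a (hQ.ne_top b))⟩
  · refine .inr (.inl ⟨W, a, b, c, d, k e (hq.irr.not_le_stab a ?_)⟩)
    rintro rfl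
    exact Nat.not_even_iff_odd.2 ho (by simpa using b)
  · exact .inr (.inr (.inl ⟨o, t, D, a, k b (hq.not_le_decomp a.decomp.decomp)⟩))
  · exact .inr (.inr (.inr (.inl ⟨t, l, D, a, b, c, k d (hq.not_le_decomp c.decomp.decomp)⟩)))
  · exact .inr (.inr (.inr (.inr (.inl ⟨r, K, a, b, c, d, e, k g (hq.not_le_fs a d)⟩))))
  · exact .inr (.inr (.inr (.inr (.inr (.inl ⟨_, _, e, P, f₁, f₂, a1, a2, a3, a4, a5,
      k a (hq.not_le_tensor (by omega) (by omega) e P)⟩)))))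
  · exact .inr (.inr (.inr (.inr (.inr (.inr (.inl ⟨F₀, r, P, a, b, c,
      k d (hq.not_le_subfield P (trace_of_forall h1 (ne_top_of_card a b)))⟩))))))
  · exact .inr (.inr (.inr (.inr (.inr (.inr (.inr (.inl ⟨_, t, e, P, f₁, a1, a2, a3, a4, a5,
      k a (hq.not_le_wreath (by omega) a2 e P)⟩)))))))
  · exact .inr (.inr (.inr (.inr (.inr (.inr (.inr (.inr a)))))))

theorem qf_of_nondeg (h : IsNondegenerateQuadraticForm Q) : ∃ Γ : GL ι F, QF Γ.1 Q := by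
  obtain ⟨Γ, -, e⟩ := exists_of_quad h
  exact ⟨Γ, h.smul, fun u v => by rw [e]⟩

theorem qf_of_cf {Q : QuadraticForm F (ι → F)} (h : (ofQuad Q).Nondeg) : ∃ Γ : GL ι F, QF Γ.1 Q :=
  qf_of_nondeg ⟨fun c v => by simp [Q.map_smul, sq], ⟨by simp, by simp, by simp, by simp⟩, fun v hv =>
    ⟨by_contra fun e => hv (h v (by simpa [ofQuad_B] using e)),
      by_contra fun e => hv (h.left (by simpa [ofQuad_B] using e))⟩⟩

theorem oo_bridge [Fintype F] (h : Odd (Fintype.card F)) (m : ℕ) : ∃ Γ : GL (Unit ⊕ (Fin m ⊕ Fin m)) F,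
    QF Γ.1 (Cfsg.quadFormOdd m F) ∧ ∀ F₀, Γ.1 ∈ Ov F₀ := by
  obtain ⟨Γ, a⟩ := qf_of_cf (oddQ_nondeg (two_ne_of_odd h) m)
  refine ⟨Γ, a, fun F₀ i j => ?_⟩
  have k : ∀ (i j : Unit ⊕ (Fin m ⊕ Fin m)), (Pi.single i 1 : _ → F) j ∈ F₀ := fun i j => by
    rw [Pi.single_apply]; split_ifs <;> simp
  rw [← fm_single (σ := RingHom.id F) Γ.1, ← a.polar, oddQ_coe, polar_odd]
  exact add_mem (mul_mem (mul_mem (by simp) (k _ _)) (k _ _))
    (sum_mem fun _ _ => add_mem (mul_mem (k _ _) (k _ _)) (mul_mem (k _ _) (k _ _)))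

end CfsgH5.As
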