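import Cfsg.Agent.H5.As4

set_option autoImplicit false

/-! The group-theoretic part of the subgroup structure theorem. -/

namespace CfsgH5.As

open Matrix Module Cfsg.Geo
open scoped Kronecker commutatorElement

universe u

variable {ι : Type} [Fintype ι] [DecidableEq ι] {F : Type u} [Field F]

theorem scalar_comm {z : GL ι F} (hz : z ∈ scalars ι F) (x : GL ι F) : z * x = x * z :=
  Units.ext (cj_eq_self_iff.1 (cj_of_scalar hz _))

theorem scalars_le_center : scalars ι F ≤ Subgroup.center (GL ι F) := fun _ hz =>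
  Subgroup.mem_center_iff.2 fun x => (scalar_comm hz x).symm

theorem comm_comm_eq_bot {A B : Subgroup (GL ι F)} (h : ⁅A, B⁆ ≤ scalars ι F) : ⁅⁅A, A⁆, B⁆ = ⊥ := by
  have : ⁅⁅A, B⁆, A⁆ = ⊥ := Subgroup.commutator_eq_bot_iff_le_centralizer.2
    (h.trans (scalars_le_center.trans (Subgroup.center_le_centralizer _)))
  exact Subgroup.commutator_commutator_eq_bot_of_rotate this (Subgroup.commutator_comm A B ▸ this)

/-- centraliser modulo scalars -/
def cz (A : Subgroup (GL ι F)) : Subgroup (GL ι F) :=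
  (Subgroup.centralizer (A.map (QuotientGroup.mk' (scalars ι F)) : Set _)).comap
    (QuotientGroup.mk' (scalars ι F))

theorem mem_cz {A : Subgroup (GL ι F)} {y : GL ι F} : y ∈ cz A ↔ ∀ x ∈ A, ⁅x, y⁆ ∈ scalars ι F := by
  simp only [cz, Subgroup.mem_comap, Subgroup.mem_centralizer_iff, SetLike.mem_coe,
    ← QuotientGroup.eq_one_iff, ← commutatorElement_eq_one_iff_mul_comm]
  exact ⟨fun h x hx => h _ ⟨x, hx, rfl⟩, fun h => by rintro _ ⟨x, hx, rfl⟩; exact h x hx⟩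

theorem le_cz {A B : Subgroup (GL ι F)} : B ≤ cz A ↔ ⁅A, B⁆ ≤ scalars ι F := by
  rw [Subgroup.commutator_le]
  exact ⟨fun h x hx y hy => mem_cz.1 (h hy) x hx, fun h y hy => mem_cz.2 fun x hx => h x hx y hy⟩

theorem comm_sup (A B : Subgroup (GL ι F)) : ⁅A ⊔ scalars ι F, B ⊔ scalars ι F⁆ = ⁅A, B⁆ := by
  refine le_antisymm (Subgroup.commutator_le.2 fun x hx y hy => ?_)
    (Subgroup.commutator_mono le_sup_left le_sup_left)
  obtain ⟨a, ha, z, hz, rfl⟩ := Subgroup.mem_sup_of_normal_right.1 hx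
  obtain ⟨b, hb, w, hw, rfl⟩ := Subgroup.mem_sup_of_normal_right.1 hy
  have : ⁅a * z, b * w⁆ = ⁅a, b⁆ := by
    rw [commutatorElement_def, commutatorElement_def, mul_assoc a z, scalar_comm hz,
      _root_.mul_inv_rev a z, ← scalar_comm hw b, _root_.mul_inv_rev w b, scalar_comm hw b]
    simp only [mul_assoc, mul_inv_cancel_left]
    rw [← mul_assoc a⁻¹, scalar_comm hw, inv_mul_cancel_right]
  exact this ▸ Subgroup.commutator_mem_commutator ha hb

/-- conjugate subgroup -/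
def cs (g : GL ι F) (A : Subgroup (GL ι F)) : Subgroup (GL ι F) := A.map (MulAut.conj g).toMonoidHom

theorem mem_cs {g x : GL ι F} {A : Subgroup (GL ι F)} : x ∈ cs g A ↔ g⁻¹ * x * g ∈ A :=
  Subgroup.mem_map_equiv

theorem cs_mul (g h : GL ι F) (A : Subgroup (GL ι F)) : cs (g * h) A = cs g (cs h A) := by
  ext x; simp [mem_cs, mul_assoc]

@[simp] theorem cs_inv_cs (g : GL ι F) (A : Subgroup (GL ι F)) : cs g⁻¹ (cs g A) = A := by
  ext x; simp [mem_cs, mul_assoc]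

@[simp] theorem cs_cs_inv (g : GL ι F) (A : Subgroup (GL ι F)) : cs g (cs g⁻¹ A) = A := by
  ext x; simp [mem_cs, mul_assoc]

@[simp] theorem cs_one (A : Subgroup (GL ι F)) : cs 1 A = A := by ext x; simp [mem_cs]

theorem cs_mono (g : GL ι F) {A B : Subgroup (GL ι F)} (h : A ≤ B) : cs g A ≤ cs g B :=
  Subgroup.map_mono h

theorem cs_le_iff {g : GL ι F} {A B : Subgroup (GL ι F)} : cs g A ≤ B ↔ A ≤ cs g⁻¹ B :=
  ⟨fun h => cs_inv_cs g A ▸ cs_mono _ h, fun h => cs_cs_inv g B ▸ cs_mono _ h⟩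

theorem cs_comm (g : GL ι F) (A B : Subgroup (GL ι F)) : cs g ⁅A, B⁆ = ⁅cs g A, cs g B⁆ :=
  Subgroup.map_commutator _ _ _

theorem nm_iff {G A : Subgroup (GL ι F)} : Nm G A ↔ ∀ g ∈ G, cs g A ≤ A :=
  ⟨fun h g hg => by rintro _ ⟨x, hx, rfl⟩; exact h g hg x hx,
    fun h g hg x hx => h g hg ⟨x, hx, rfl⟩⟩

theorem Nm.cs_eq {G A : Subgroup (GL ι F)} (h : Nm G A) {g : GL ι F} (hg : g ∈ G) : cs g A = A :=
  le_antisymm (nm_iff.1 h g hg) (by simpa using cs_le_iff.1 (nm_iff.1 h _ (inv_mem hg)))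

theorem nm_scalars (G : Subgroup (GL ι F)) : Nm G (scalars ι F) := fun g _ x hx =>
  scalars_normal.conj_mem x hx g

@[simp] theorem cs_scalars (g : GL ι F) : cs g (scalars ι F) = scalars ι F :=
  (nm_scalars ⊤).cs_eq trivial

theorem Nm.comm {G A B : Subgroup (GL ι F)} (hA : Nm G A) (hB : Nm G B) : Nm G ⁅A, B⁆ :=
  nm_iff.2 fun g hg => by rw [cs_comm, hA.cs_eq hg, hB.cs_eq hg]

theorem Nm.sup {G A B : Subgroup (GL ι F)} (hA : Nm G A) (hB : Nm G B) : Nm G (A ⊔ B) :=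
  nm_iff.2 fun g hg => (Subgroup.map_sup _ _ _).trans_le
    (sup_le_sup (nm_iff.1 hA g hg) (nm_iff.1 hB g hg))

theorem Nm.inf {G A B : Subgroup (GL ι F)} (hA : Nm G A) (hB : Nm G B) : Nm G (A ⊓ B) :=
  fun g hg x hx => ⟨hA g hg x hx.1, hB g hg x hx.2⟩

theorem Nm.sup_scalars {G A : Subgroup (GL ι F)} (h : Nm G A) : Nm (G ⊔ scalars ι F) A := by
  intro g hg x hx
  obtain ⟨a, ha, z, hz, rfl⟩ := Subgroup.mem_sup_of_normal_right.1 hg
  rw [mul_assoc a z, scalar_comm hz, _root_.mul_inv_rev, mul_assoc, mul_assoc, mul_inv_cancel_left,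
    ← mul_assoc]
  exact h a ha x hx

theorem Nm.le_normalizer {G A : Subgroup (GL ι F)} (h : Nm G A) : G ≤ subgroupNormalizer A :=
  fun g hg => Subgroup.mem_set_normalizer_iff.2 fun x => ⟨h g hg x, fun hx => by
    simpa [mul_assoc] using h _ (inv_mem hg) _ hx⟩

theorem comm_le_left {A B : Subgroup (GL ι F)} (h : Nm B A) : ⁅A, B⁆ ≤ A :=
  Subgroup.commutator_le.2 fun a ha b hb => by
    simpa [commutatorElement_def, mul_assoc] using mul_mem ha (h b hb _ (inv_mem ha))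

theorem Nz.sup_scalars {H : Subgroup (GL ι F)} {S : Set (Matrix ι ι F)} (h : Nz H S) :
    Nz (H ⊔ scalars ι F) S := by
  intro g hg x hx
  obtain ⟨a, ha, z, hz, rfl⟩ := Subgroup.mem_sup_of_normal_right.1 hg
  rw [cj_mul, cj_of_scalar hz]; exact h a ha x hx

/-- the centraliser of a matrix in the general linear group -/
def stabM (z : Matrix ι ι F) : Subgroup (GL ι F) where
  carrier := {g | cj g z = z}
  mul_mem' {a b} ha hb := by rw [Set.mem_setOf_eq, cj_mul, hb, ha]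
  one_mem' := cj_one z
  inv_mem' {a} ha := by rw [Set.mem_setOf_eq] at *; rw [← ha, cj_inv_cj, ha]

theorem mem_stabM {z : Matrix ι ι F} {g : GL ι F} : g ∈ stabM z ↔ z * g = g * z :=
  cj_eq_self_iff.trans eq_comm

/-- normal subgroups are scalar or span the matrix algebra -/
def Prim (G : Subgroup (GL ι F)) : Prop := ∀ N ≤ G, Nm G N → N ≤ scalars ι F ∨ env F N = ⊤

/-- non-scalar normal subgroups containing the scalars -/
def Cand (G T : Subgroup (GL ι F)) : Prop := scalars ι F ≤ T ∧ ¬ T ≤ scalars ι F ∧ T ≤ G ∧ Nm G T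

theorem min_eq {N T S : Subgroup (GL ι F)} (hT : Minimal (Cand N) T) (h1 : S ≤ T) (h2 : Nm N S) :
    S ≤ scalars ι F ∨ S ⊔ scalars ι F = T := or_iff_not_imp_left.2 fun h =>
  (hT.eq_of_le ⟨le_sup_right, fun e => h (le_sup_left.trans e), (sup_le h1 hT.1.1).trans hT.1.2.2.1,
    h2.sup (nm_scalars _)⟩ (sup_le h1 hT.1.1))

theorem Cand.cs {N T : Subgroup (GL ι F)} (h : Cand N T) {g : GL ι F} (hg : cs g N = N) :
    Cand N (cs g T) :=
  ⟨(cs_scalars g).ge.trans (cs_mono g h.1), fun e => h.2.1 (by simpa using cs_le_iff.1 e),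
    (cs_mono g h.2.2.1).trans hg.le, fun x hx y hy => mem_cs.2 (by
      have := h.2.2.2 _ (mem_cs.1 (hg.ge hx)) _ (mem_cs.1 hy)
      simpa only [mul_assoc, _root_.mul_inv_rev, inv_inv, mul_inv_cancel_left] using this)⟩

theorem min_cs {N T : Subgroup (GL ι F)} (h : Minimal (Cand N) T) {g : GL ι F} (hg : cs g N = N) :
    Minimal (Cand N) (cs g T) := ⟨h.1.cs hg, fun S hS hle => cs_le_iff.2
      (h.2 (hS.cs (by rw [← hg, cs_inv_cs, hg])) (cs_le_iff.2 (by rwa [inv_inv])))⟩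

theorem min_comm {N T T' : Subgroup (GL ι F)} (h : Minimal (Cand N) T) (h' : Minimal (Cand N) T')
    (hne : T ≠ T') : ⁅T, T'⁆ ≤ scalars ι F := by
  rcases min_eq h inf_le_left (h.1.2.2.2.inf h'.1.2.2.2) with e | e
  · exact (le_inf (comm_le_left (h.1.2.2.2.mono h'.1.2.2.1)) (Subgroup.commutator_comm T T' ▸
      comm_le_left (h'.1.2.2.2.mono h.1.2.2.1))).trans e
  · exact absurd (h'.eq_of_le h.1 (e ▸ sup_le inf_le_right h'.1.1)) hne

/-- the almost simple case -/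
structure Core (H P : Subgroup (GL ι F)) : Prop where
  le : P ≤ H
  normal : Nm H P
  perfect : ⁅P, P⁆ = P
  simple : IsSimpleGroup (P ⧸ (scalars ι F).subgroupOf P)
  span : env F P = ⊤

theorem Core.residual [Nonempty ι] {H P : Subgroup (GL ι F)} (h : Core H P)
    (h1 : ∀ F₀ : Subfield F, F₀ ≠ ⊤ → ¬ RealisableOver F₀ (matrixSet P)) : IsResidualCore H P := by
  refine ⟨h.le, h.normal, h.perfect, h.simple, fun hc => ?_, fun g _ hg => ?_, absIrr_of_env h.span, h1⟩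
  · have h2 : ⁅P, P⁆ ≤ scalars ι F := Subgroup.commutator_le.2 fun x hx y hy => by
      have := commutatorElement_eq_one_iff_mul_comm.2 (hc.is_comm.comm
        (QuotientGroup.mk' _ ⟨x, hx⟩) (QuotientGroup.mk' _ ⟨y, hy⟩))
      rw [← map_commutatorElement] at this
      exact (QuotientGroup.eq_one_iff (N := (scalars ι F).subgroupOf P) _).1 this
    have := h.simple.toNontrivial
    rw [QuotientGroup.nontrivial_iff, Ne, Subgroup.subgroupOf_eq_top] at this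
    exact this (h.perfect ▸ h2)
  · have h2 : g ∈ cz P := mem_cz.2 fun x hx => by
      rw [← commutatorElement_inv]; exact inv_mem (hg x hx)
    have h3 := comm_comm_eq_bot (le_cz.1 (le_refl (cz P)))
    rw [h.perfect, Subgroup.commutator_comm, Subgroup.commutator_eq_bot_iff_le_centralizer] at h3
    obtain ⟨c, hc⟩ := scalar_of_env h.span (z := g) fun x hx =>
      congrArg Units.val (Subgroup.mem_centralizer_iff.1 (h3 h2) x hx).symm
    exact mem_scalars_of_eq hc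

theorem core_of_min {H T : Subgroup (GL ι F)} (hP : Prim (H ⊔ scalars ι F))
    (h1 : Cand (H ⊔ scalars ι F) T) (h2 : Minimal (Cand T) T) (h3 : ¬ ⁅T, T⁆ ≤ scalars ι F) :
    Core H ⁅T, T⁆ := by
  have hle : ⁅T, T⁆ ≤ T := comm_le_left (Nm.self T)
  have e := (min_eq h2 hle ((Nm.self T).comm (Nm.self T))).resolve_left h3
  have hn := h1.2.2.2.comm h1.2.2.2
  refine ⟨(Subgroup.commutator_mono h1.2.2.1 h1.2.2.1).trans ((comm_sup H H).trans_le
    (comm_le_left (Nm.self H))), hn.mono le_sup_left, by rw [← comm_sup, e], ?_,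
    (hP _ (hle.trans h1.2.2.1) hn).resolve_left h3⟩
  generalize ⁅T, T⁆ = P at *
  have : Nontrivial (P ⧸ (scalars ι F).subgroupOf P) := by
    rwa [QuotientGroup.nontrivial_iff, Ne, Subgroup.subgroupOf_eq_top]
  refine ⟨fun M hM => ?_⟩
  have hS : Nm P ((M.comap (QuotientGroup.mk' _)).map P.subtype) := by
    rintro g hg _ ⟨x, hx, rfl⟩
    exact ⟨_, (hM.comap _).conj_mem x hx ⟨g, hg⟩, rfl⟩
  refine (min_eq h2 ((Subgroup.map_subtype_le _).trans hle) (e ▸ hS.sup_scalars)).imp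
    (fun h => eq_bot_iff.2 fun x hx => ?_) fun h => eq_top_iff.2 fun x _ => ?_
  · obtain ⟨x, rfl⟩ := QuotientGroup.mk'_surjective _ x
    exact (QuotientGroup.eq_one_iff _).2 (h ⟨x, hx, rfl⟩)
  · obtain ⟨x, rfl⟩ := QuotientGroup.mk'_surjective _ x
    obtain ⟨_, ⟨s, hs, rfl⟩, z, hz, e1⟩ := Subgroup.mem_sup_of_normal_right.1 (h ▸ hle x.2)
    have : QuotientGroup.mk' ((scalars ι F).subgroupOf P) s = QuotientGroup.mk' _ x :=
      QuotientGroup.eq.2 (show (s : GL ι F)⁻¹ * x ∈ scalars ι F by rw [← e1]; simpa using hz)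
    exact this ▸ hs

/-- a tensor power structure coming from components -/
structure TensSys (G : Subgroup (GL ι F)) (k t : ℕ) (e : ι ≃ (Fin t → Fin k)) (P : GL ι F) : Prop where
  two_le_k : 2 ≤ k
  two_le_t : 2 ≤ t
  le : G ≤ tensorWreathSubgroup k t e P
  trans : ∀ i j, ∃ g ∈ G, ∀ X, cj g (tp e P (ptens (Pi.mulSingle i X))) =
    tp e P (ptens (Pi.mulSingle j X))
  comp : ∃ L : Subgroup (GL (Fin k) F), env F L = ⊤ ∧ ⁅L, L⁆ = L ∧ ∀ i, ∀ a ∈ L, ∃ x ∈ G,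
    (x : Matrix ι ι F) = tp e P (ptens (Pi.mulSingle i (a : Matrix (Fin k) (Fin k) F)))
  span : ∃ D ≤ G, Nm G D ∧ ⁅D, D⁆ = D ∧ env F D = ⊤

theorem mem_wreath_of_perm [Nonempty ι] {k t : ℕ} (ht : 0 < t) (hk : 0 < k)
    {e : ι ≃ (Fin t → Fin k)} {P g : GL ι F} {φ : Fin t → Matrix (Fin k) (Fin k) F →ₐ[F] Matrix ι ι F}
    (h : ∀ i X, φ i X = tp e P (ptens (Pi.mulSingle i X))) (σ : Equiv.Perm (Fin t))
    (hσ : ∀ i X, cj g (φ i X) ∈ (φ (σ i)).range) : g ∈ tensorWreathSubgroup k t e P := by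
  have : Nonempty (Fin k) := ⟨⟨0, hk⟩⟩
  choose a ha using fun i => exists_cj_of_range_le ((cj g).toAlgHom.comp (φ i)) (φ (σ i)) (hσ i)
  obtain ⟨g, rfl⟩ := (tpG e P).surjective g
  refine (tpG_mem_map e P).2 (mem_wreath_of_nz ht hk σ a fun i X => (tp e P).injective ?_)
  rw [← cj_tpG, ← h, ← h]; exact ha i X

theorem tens_of_min [Finite F] [Nonempty ι] {G N T : Subgroup (GL ι F)} (hP : Prim G)
    (hN : Minimal (Cand G) N) (hT : Minimal (Cand N) T) (h3 : ¬ ⁅T, T⁆ ≤ scalars ι F)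
    (h4 : N = ⨆ g : G, cs g T) (h5 : ¬ Nm G T) : ∃ k t e P, TensSys G k t e P := by
  classical
  have hNs := (hP N hN.1.2.2.1 hN.1.2.2.2).resolve_left hN.1.2.1
  have hm : ∀ g ∈ G, Minimal (Cand N) (cs g T) := fun g hg => min_cs hT (hN.1.2.2.2.cs_eq hg)
  have hL := hT.1.2.2.2.comm hT.1.2.2.2
  have hle : ⁅T, T⁆ ≤ T := comm_le_left (Nm.self T)
  have eL := (min_eq hT hle hL).resolve_left h3
  have pL : ⁅⁅T, T⁆, ⁅T, T⁆⁆ = ⁅T, T⁆ := by rw [← comm_sup, eL]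
  have hc : ∀ g ∈ G, ∀ g' ∈ G, cs g T ≠ cs g' T → ∀ x ∈ env F (cs g ⁅T, T⁆),
      ∀ y ∈ env F (cs g' ⁅T, T⁆), x * y = y * x := fun g hg g' hg' hne x hx y hy => by
    have := Subgroup.commutator_eq_bot_iff_le_centralizer.1
      (comm_comm_eq_bot (min_comm (hm g hg) (hm g' hg') hne))
    rw [← cs_comm] at this
    exact comm_env (fun b hb => (comm_env (fun a ha => congrArg Units.val
      (Subgroup.mem_centralizer_iff.1 (this ha) b (cs_mono _ hle hb))) hx).symm) hy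
  have hg : ∀ S : Subgroup (GL ι F), scalars ι F ≤ S → (∀ g ∈ G, cs g ⁅T, T⁆ ≤ S) → N ≤ S :=
    fun S a b => h4 ▸ iSup_le fun g => by
      rw [← eL, cs, Subgroup.map_sup]; exact sup_le (b g g.2) ((cs_scalars _).trans_le a)
  obtain ⟨k, φ, hk, h1, h2⟩ := (irr_of_env hNs).exists_hom (B := (env F ⁅T, T⁆).toSubring) hL.nz
    fun z hz h => scalar_of_env hNs fun g hg' => mem_stabM.1 (hg (stabM z)
      (fun _ hx => cj_of_scalar hx z) (fun g hg x hx => mem_stabM.2 (by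
        by_cases e : cs 1 T = cs g T
        · rw [cs_comm, ← e, cs_one] at hx; exact h x (mem_env hx)
        · exact hc 1 (one_mem _) g hg e z (by rwa [cs_one]) x (mem_env hx))) hg')
  have : Nonempty (Fin k) := ⟨⟨0, hk⟩⟩
  have r1 : ∀ X, φ X ∈ env F ⁅T, T⁆ := fun X => by
    rw [algHom_eq_sum]
    exact sum_mem fun a _ => sum_mem fun b _ => Subalgebra.smul_mem _ (h1 a b) _
  have r2 : ∀ x ∈ env F ⁅T, T⁆, ∃ X, φ X = x := fun x hx => (h2 x hx).imp fun _ h => h.2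
  have r3 : ∀ (g : GL ι F) x, x ∈ env F (cs g ⁅T, T⁆) ↔ ∃ X, cj g (φ X) = x := fun g x =>
    ⟨fun hx => (r2 (cj g⁻¹ x) (cj_mem_env (fun y hy => by simpa using mem_cs.1 hy) hx)).imp
      fun X h => by rw [h, cj_cj_inv], fun ⟨X, h⟩ => h ▸ cj_mem_env (fun y hy => mem_cs.2 (by
        simpa [mul_assoc] using hy)) (r1 X)⟩
  have := Fintype.ofFinite (Subgroup (GL ι F))
  let O : Finset (Subgroup (GL ι F)) := {S | ∃ g ∈ G, cs g T = S}
  have mO : ∀ {S}, S ∈ O ↔ ∃ g ∈ G, cs g T = S := by simp [O]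
  choose g g1 g2 using fun i => mO.1 (O.equivFin.symm i).2
  have inj : ∀ i j, cs (g i) T = cs (g j) T → i = j := fun i j h =>
    O.equivFin.symm.injective (Subtype.ext ((g2 i).symm.trans (h.trans (g2 j))))
  have sur : ∀ x ∈ G, ∃ i, cs x T = cs (g i) T := fun x hx =>
    ⟨O.equivFin ⟨_, mO.2 ⟨x, hx, rfl⟩⟩, by rw [g2]; simp⟩
  have ht : 2 ≤ O.card := by
    obtain ⟨x, hx, hne⟩ : ∃ x ∈ G, ¬ cs x T ≤ T := by simpa [nm_iff] using h5
    exact Finset.one_lt_card.2 ⟨_, mO.2 ⟨x, hx, rfl⟩, _, mO.2 ⟨1, one_mem _, cs_one _⟩,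
      fun e => hne e.le⟩
  obtain ⟨e, P, hP'⟩ := exists_tp_ptens (fun i => (cj (g i)).toAlgHom.comp φ)
    (fun i j hij X Y => hc _ (g1 i) _ (g1 j) (fun h => hij (inj i j h)) _ ((r3 _ _).2 ⟨X, rfl⟩) _
      ((r3 _ _).2 ⟨Y, rfl⟩)) fun A hA => eq_top_iff.2 (hNs ▸ env_le fun x hx =>
        (hg A.toSubmonoid.units (fun z hz => ⟨(env_eq_bot_iff.2 le_rfl).trans_le bot_le (mem_env hz),
          (env_eq_bot_iff.2 le_rfl).trans_le bot_le (mem_env (inv_mem hz))⟩) (fun y hy => by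
            obtain ⟨i, hi⟩ := sur y hy
            have : ∀ x ∈ cs y ⁅T, T⁆, (x : Matrix ι ι F) ∈ A := fun x hx => by
              rw [cs_comm, hi, ← cs_comm] at hx
              obtain ⟨X, hX⟩ := (r3 _ _).1 (mem_env hx)
              exact hX ▸ hA i X
            exact fun x hx => ⟨this x hx, this _ (inv_mem hx)⟩) hx).1)
  let ψ : GL (Fin k) F →* GL ι F := Units.map (φ : Matrix (Fin k) (Fin k) F →* Matrix ι ι F)
  have ψi : Function.Injective ψ := Units.map_injective φ.toRingHom.injective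
  have mL : (Subgroup.comap ψ ⁅T, T⁆).map ψ = ⁅T, T⁆ := Subgroup.map_comap_eq_self fun x hx => by
    obtain ⟨X, hX⟩ := r2 _ (mem_env hx)
    obtain ⟨Y, hY⟩ := r2 _ (mem_env (inv_mem hx))
    exact ⟨⟨X, Y, φ.toRingHom.injective (by simp [hX, hY]), φ.toRingHom.injective (by simp [hX, hY])⟩,
      Units.ext hX⟩
  have eD := (min_eq hN (comm_le_left (Nm.self N)) (hN.1.2.2.2.comm hN.1.2.2.2)).resolve_left
    fun h => h3 ((Subgroup.commutator_mono hT.1.2.2.1 hT.1.2.2.1).trans h)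
  refine ⟨k, _, e, P, ?_, ht, fun x hx => ?_, fun i j => ⟨g j * (g i)⁻¹, mul_mem (g1 j)
    (inv_mem (g1 i)), fun X => ?_⟩, ⟨Subgroup.comap ψ ⁅T, T⁆, eq_top_iff.2 fun X _ => ?_,
      Subgroup.map_injective ψi (by rw [Subgroup.map_commutator, mL, pL]), fun i a ha =>
        ⟨g i * ψ a * (g i)⁻¹, Nm.self G _ (g1 i) _ (hN.1.2.2.1 (hT.1.2.2.1 (hle ha))), hP' i a⟩⟩,
    ⁅N, N⁆, (comm_le_left (Nm.self N)).trans hN.1.2.2.1, hN.1.2.2.2.comm hN.1.2.2.2,
      by rw [← comm_sup, eD], (hP _ ((comm_le_left (Nm.self N)).trans hN.1.2.2.1)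
        (hN.1.2.2.2.comm hN.1.2.2.2)).resolve_left fun h =>
          h3 ((Subgroup.commutator_mono hT.1.2.2.1 hT.1.2.2.1).trans h)⟩
  · by_contra hk2
    obtain rfl : k = 1 := by omega
    refine h3 fun x hx => ?_
    obtain ⟨X, hX⟩ := r2 _ (mem_env hx)
    exact mem_scalars_of_eq (c := X 0 0) (by
      rw [← hX, ← map_one φ, ← map_smul]; congr 1; ext i j; simp [Subsingleton.elim i 0, Subsingleton.elim j 0])
  · choose σ hσ using fun i => sur (x * g i) (mul_mem hx (g1 i))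
    refine mem_wreath_of_perm (by omega) hk hP' (Equiv.ofBijective σ
      (Finite.injective_iff_bijective.1 fun i j hij => inj i j ?_)) fun i X => ?_
    · have := (hσ i).trans (hij ▸ (hσ j).symm)
      rw [cs_mul, cs_mul] at this
      rw [← cs_inv_cs x (cs (g i) T), this, cs_inv_cs]
    · refine (r3 _ _).1 ?_
      rw [Equiv.ofBijective_apply, cs_comm, ← hσ, ← cs_comm]
      exact (r3 _ _).2 ⟨X, cj_mul _ _ _⟩
  · rw [← hP', ← hP']
    change cj _ (cj _ _) = cj _ _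
    rw [cj_mul, cj_inv_cj]
  · have : env F ⁅T, T⁆ ≤ (env F (Subgroup.comap ψ ⁅T, T⁆)).map φ := env_le fun x hx => by
      obtain ⟨a, ha, rfl⟩ := mL.ge hx
      exact ⟨a, mem_env ha, rfl⟩
    obtain ⟨Y, hY, e1⟩ := this (r1 X)
    exact φ.toRingHom.injective e1 ▸ hY

theorem not_le_scalars {H : Subgroup (GL ι F)} (h : Irr H) (hn : 2 ≤ Fintype.card ι) :
    ¬ H ≤ scalars ι F := fun hH => by
  obtain ⟨i, j, hij⟩ := Fintype.one_lt_card_iff.1 hn
  rcases h (F ∙ Pi.single i 1) (fun g hg w hw => by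
    obtain ⟨c, hc⟩ := (mem_scalars_iff g).1 (hH hg)
    rw [hc, smul_mulVec, one_mulVec]; exact Submodule.smul_mem _ _ hw) with e | e
  · simp at e
  · obtain ⟨c, hc⟩ := Submodule.mem_span_singleton.1 (e ▸ Submodule.mem_top (x := Pi.single j 1))
    simpa [hij.symm] using congrFun hc j

theorem min_gen {G N T : Subgroup (GL ι F)} (hN : Minimal (Cand G) N) (hT : Minimal (Cand N) T)
    (h1 : ¬ ⁅N, N⁆ ≤ scalars ι F) : (N = ⨆ g : G, cs g T) ∧ ¬ ⁅T, T⁆ ≤ scalars ι F := by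
  have hm : ∀ g : G, Minimal (Cand N) (cs g T) := fun g => min_cs hT (hN.1.2.2.2.cs_eq g.2)
  have hle : ⨆ g : G, cs g T ≤ N := iSup_le fun g => (hm g).1.2.2.1
  have hs : ∀ g ∈ G, cs g T ≤ ⨆ g : G, cs g T := fun g hg =>
    le_iSup (fun g : G => cs (g : GL ι F) T) ⟨g, hg⟩
  have h2 : Nm G (⨆ g : G, cs g T) := nm_iff.2 fun x hx => by
    rw [cs_le_iff]
    refine iSup_le fun g => ?_
    rw [← cs_le_iff, ← cs_mul]
    exact hs _ (mul_mem hx g.2)
  have h1' : T ≤ ⨆ g : G, cs g T := (cs_one T).ge.trans (hs 1 (one_mem _))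
  have h4 : N = ⨆ g : G, cs g T := by
    generalize ⨆ g : G, cs g T = D at *
    exact (hN.eq_of_le ⟨hT.1.1.trans h1', fun e => hT.1.2.1 (h1'.trans e), hle.trans hN.1.2.2.1,
      h2⟩ hle).symm
  refine ⟨h4, fun h3 => h1 ?_⟩
  have k1 : ∀ g g' : G, cs g' T ≤ cz (cs g T) := fun g g' => by
    rw [le_cz]
    by_cases e : cs g T = cs g' T
    · rw [← e, ← cs_comm, cs_le_iff, cs_scalars]; exact h3
    · exact min_comm (hm g) (hm g') e
  have k2 : ∀ g : G, cs g T ≤ cz N := fun g => by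
    rw [le_cz, Subgroup.commutator_comm, ← le_cz]
    exact h4.le.trans (iSup_le (k1 g))
  exact le_cz.1 (h4.le.trans (iSup_le k2))

/-- the structure of quasi-primitive groups -/
theorem master [Finite F] {H : Subgroup (GL ι F)} (h : Irr H) (hn : 2 ≤ Fintype.card ι)
    (hP : Prim (H ⊔ scalars ι F)) : (∃ k t e P, TensSys (H ⊔ scalars ι F) k t e P) ∨
    (∃ N, Cand (H ⊔ scalars ι F) N ∧ ⁅N, N⁆ ≤ scalars ι F) ∨ ∃ P, Core H P := by
  have : Nonempty ι := Fintype.card_pos_iff.1 (by omega)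
  obtain ⟨N, hN⟩ := exists_minimal_of_wellFoundedLT (Cand (H ⊔ scalars ι F)) ⟨_, le_sup_right,
    fun e => not_le_scalars h hn (le_sup_left.trans e), le_rfl, Nm.self _⟩
  obtain ⟨T, hT⟩ := exists_minimal_of_wellFoundedLT (Cand N) ⟨_, hN.1.1, hN.1.2.1, le_rfl, Nm.self _⟩
  by_cases h1 : ⁅N, N⁆ ≤ scalars ι F
  · exact .inr (.inl ⟨N, hN.1, h1⟩)
  obtain ⟨h4, h3⟩ := min_gen hN hT h1
  by_cases h5 : Nm (H ⊔ scalars ι F) T
  · obtain rfl : T = N := hN.eq_of_le ⟨hT.1.1, hT.1.2.1, hT.1.2.2.1.trans hN.1.2.2.1, h5⟩ hT.1.2.2.1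
    exact .inr (.inr ⟨_, core_of_min hP hN.1 hT h3⟩)
  · exact .inl (tens_of_min hP hN hT h3 h4 h5)

/-- a proper invariant subalgebra gives a commutative one or a tensor decomposition -/
theorem Irr.comm_or_tensor [Finite F] [Nonempty ι] {H : Subgroup (GL ι F)} (h : Irr H)
    {A : Subalgebra F (Matrix ι ι F)} (hA : Nz H A) (h0 : A ≠ ⊥) (h1 : A ≠ ⊤) :
    A ⊓ Subalgebra.centralizer F A ≠ ⊥ ∨ ∃ (k l : ℕ) (e : ι ≃ Fin k × Fin l) (P : GL ι F),
      2 ≤ k ∧ 2 ≤ l ∧ H ≤ tensorProductSubgroup k l e P ∧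
      ∀ x, x ∈ A ↔ ∃ X, tp e P (X ⊗ₖ (1 : Matrix (Fin l) (Fin l) F)) = x := by
  refine or_iff_not_imp_left.2 fun hc => ?_
  obtain ⟨k, φ, hk, h2, h3⟩ := h.exists_hom (B := A.toSubring) hA fun z hz hz' => by
    obtain ⟨c, hc⟩ := Algebra.mem_bot.1 ((not_not.1 hc).le ⟨hz, fun x hx => (hz' x hx).symm⟩)
    exact ⟨c, by rw [← hc, Algebra.algebraMap_eq_smul_one]⟩
  have : Nonempty (Fin k) := ⟨⟨0, hk⟩⟩
  obtain ⟨l, e, P, hP⟩ := exists_tp φ
  have r : ∀ x, x ∈ A ↔ ∃ X, tp e P (X ⊗ₖ (1 : Matrix (Fin l) (Fin l) F)) = x := fun x =>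
    ⟨fun hx => (h3 x hx).imp fun X h => hP X ▸ h.2, fun ⟨X, h⟩ => by
      rw [← h, ← hP, algHom_eq_sum]
      exact sum_mem fun a _ => sum_mem fun b _ => Subalgebra.smul_mem _ (h2 a b) _⟩
  have hl : 0 < l := (e (Classical.arbitrary ι)).2.pos
  refine ⟨k, l, e, P, ?_, ?_, fun g hg => ?_, r⟩
  · by_contra hk2
    obtain rfl : k = 1 := by omega
    refine h0 (eq_bot_iff.2 fun x hx => ?_)
    obtain ⟨X, rfl⟩ := (r x).1 hx
    rw [show X = X 0 0 • 1 by ext i j; simp [Subsingleton.elim i 0, Subsingleton.elim j 0],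
      smul_kronecker, one_kronecker_one, map_smul, map_one]
    exact Subalgebra.smul_mem _ (one_mem _) _
  · by_contra hl2
    obtain rfl : l = 1 := by omega
    refine h1 (eq_top_iff.2 fun x _ => (r x).2 ?_)
    obtain ⟨x, rfl⟩ := (tp e P).surjective x
    refine ⟨of fun a b => x (a, 0) (b, 0), congrArg _ ?_⟩
    ext ⟨a, i⟩ ⟨b, j⟩
    simp [Subsingleton.elim i 0, Subsingleton.elim j 0]
  · obtain ⟨g, rfl⟩ := (tpG e P).surjective g
    refine (tpG_mem_map e P).2 (mem_kron_of_nz hk hl fun X => ?_)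
    obtain ⟨Y, hY⟩ := (r _).1 (hA _ hg _ ((r _).2 ⟨X, rfl⟩))
    exact ⟨Y, (tp e P).injective (by rw [hY, cj_tpG])⟩

theorem Nz.center {H : Subgroup (GL ι F)} {A : Subalgebra F (Matrix ι ι F)} (hA : Nz H A) :
    Nz H (A ⊓ Subalgebra.centralizer F A : Subalgebra F (Matrix ι ι F)) := fun g hg x hx =>
  ⟨hA g hg x hx.1, fun y hy => by
    rw [← cj_cj_inv g y, ← map_mul, ← map_mul, hx.2 _ (hA _ (inv_mem hg) y hy)]⟩

end CfsgH5.As
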