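import Cfsg.Agent.H5.As5

set_option autoImplicit false

/-! Groups that are abelian modulo scalars and span the matrix algebra. -/

namespace CfsgH5.As

open Matrix Module Cfsg.Geo
open scoped commutatorElement

universe u

theorem pow_comm_central {G : Type*} [Group G] {x y z : G} (hz : ∀ g, z * g = g * z)
    (h : y * x = z * (x * y)) (k : ℕ) : y ^ k * x = z ^ k * (x * y ^ k) := by
  induction k with
  | zero => simp
  | succ k ih =>
    have : Commute z (y ^ k) := hz _
    rw [pow_succ, mul_assoc, h, ← mul_assoc, ← this.eq, mul_assoc, ← mul_assoc (y ^ k), ih, pow_succ' z]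
    simp only [mul_assoc]

theorem mul_pow_central {G : Type*} [Group G] {x y z : G} (hz : ∀ g, z * g = g * z)
    (h : y * x = z * (x * y)) (k : ℕ) : (x * y) ^ k = z ^ k.choose 2 * (x ^ k * y ^ k) := by
  induction k with
  | zero => simp
  | succ k ih =>
    have : Commute (x ^ k) (z ^ k) := (Commute.pow_left (hz _) _).symm
    rw [pow_succ, ih, Nat.choose_succ_succ', Nat.choose_one_right, add_comm, pow_add, mul_assoc,
      mul_assoc, ← mul_assoc (y ^ k), pow_comm_central hz h, ← mul_assoc (x ^ k), ← mul_assoc (x ^ k),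
      this.eq, pow_succ x, pow_succ y]
    simp only [mul_assoc]

variable {ι : Type} [Fintype ι] [DecidableEq ι] {F : Type u} [Field F]

theorem isCyclic_scalars [Finite F] : IsCyclic (scalars ι F) :=
  isCyclic_of_surjective _ (MonoidHom.rangeRestrict_surjective _)

theorem not_comm_of_span {N : Subgroup (GL ι F)} (hN : env F N = ⊤) (hn : 2 ≤ Fintype.card ι) :
    ¬ ∀ x ∈ N, ∀ y ∈ N, x * y = y * x := fun h =>
  have : Nonempty ι := Fintype.card_pos_iff.1 (by omega)
  not_le_scalars (irr_of_env hN) hn fun x hx =>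
    let ⟨_, hc⟩ := scalar_of_env hN (z := x) fun y hy => congrArg Units.val (h x hx y hy)
    mem_scalars_of_eq hc

theorem ker_not_le {N : Subgroup (GL ι F)} (hN : env F N = ⊤) (hn : 2 ≤ Fintype.card ι)
    {C : Type*} [Group C] [IsCyclic C] (θ : N →* C) : ¬ θ.ker.map N.subtype ≤ scalars ι F := fun h =>
  not_comm_of_span hN hn fun x hx y hy => congrArg Subtype.val
    ((θ.isMulCommutative_of_isCyclic_of_ker_le_center fun z hz => Subgroup.mem_center_iff.2 fun g =>
      Subtype.ext (scalar_comm (h ⟨z, hz, rfl⟩) _).symm).is_comm.comm ⟨x, hx⟩ ⟨y, hy⟩)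

theorem exists_cj_eq_smul {x y : GL ι F} (h : ⁅x, y⁆ ∈ scalars ι F) :
    ∃ c : F, (⁅x, y⁆ : GL ι F) = c • (1 : Matrix ι ι F) ∧ cj x (y : Matrix ι ι F) = c • y := by
  obtain ⟨c, hc⟩ := (mem_scalars_iff _).1 h
  exact ⟨c, hc, by rw [← smul_one_mul, ← hc, cj_coe, ← Units.val_mul, commutatorElement_def,
    inv_mul_cancel_right]⟩

theorem cj_pow_of_smul {x : GL ι F} {y : Matrix ι ι F} {c : F} (h : cj x y = c • y) (k : ℕ) :
    cj (x ^ k) y = c ^ k • y := by
  induction k with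
  | zero => simp
  | succ k ih => rw [pow_succ, cj_mul, h, map_smul, ih, smul_smul, pow_succ']

/-- a spanning group which is abelian modulo scalars -/
structure Heis (N : Subgroup (GL ι F)) : Prop where
  span : env F N = ⊤
  comm : ⁅N, N⁆ ≤ scalars ι F

namespace Heis

variable {N : Subgroup (GL ι F)}

theorem trace_eq_zero [Nonempty ι] (h : Heis N) {x : GL ι F} (hx : x ∈ N) (h1 : x ∉ scalars ι F) :
    (x : Matrix ι ι F).trace = 0 := by
  by_contra h0
  obtain ⟨c, hc⟩ := scalar_of_env h.span (z := x) fun y hy => by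
    obtain ⟨c, -, hc⟩ := exists_cj_eq_smul (h.comm (Subgroup.commutator_mem_commutator hy hx))
    have := trace_cj y x
    rw [hc, trace_smul, smul_eq_mul, mul_eq_right₀ h0] at this
    rw [this, one_smul] at hc
    exact (cj_eq_self_iff.1 hc).symm
  exact h1 (mem_scalars_of_eq hc)

theorem exists_mem [Nonempty ι] (h : Heis N) {R : Subgroup (GL ι F)} (hR : R ≤ N)
    (h1 : env F R = ⊤) {y : GL ι F} (hy : y ∈ N) : ∃ x ∈ R, y⁻¹ * x ∈ scalars ι F := by
  by_contra hc
  push Not at hc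
  obtain ⟨i⟩ := ‹Nonempty ι›
  have := env_induction (p := fun x => (((y⁻¹ : GL ι F) : Matrix ι ι F) * x).trace = 0)
    (fun x hx => h.trace_eq_zero (mul_mem (inv_mem hy) (hR hx)) (hc x hx)) (by simp)
    (fun x y a b => by rw [mul_add, trace_add, a, b, add_zero])
    (fun (c : F) x a => by rw [mul_smul_comm, trace_smul, a, smul_zero])
    (h1 ▸ Algebra.mem_top (x := (y : Matrix ι ι F) * single i i (1 : F)))
  simp [trace, single_apply] at this

theorem card_ne_zero [Nonempty ι] (h : Heis N) : (Fintype.card ι : F) ≠ 0 := fun h0 => by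
  obtain ⟨i⟩ := ‹Nonempty ι›
  have := env_induction (p := fun x => x.trace = 0) (fun x hx => by
    by_contra h1
    obtain ⟨c, hc⟩ := (mem_scalars_iff x).1 (not_not.1 fun h2 => h1 (h.trace_eq_zero hx h2))
    exact h1 (by rw [hc, trace_smul, trace_one, h0, smul_zero])) (by simp)
    (fun x y a b => by rw [trace_add, a, b, add_zero])
    (fun (c : F) x a => by rw [trace_smul, a, smul_zero]) (h.span ▸ Algebra.mem_top (x := single i i 1))
  simp [trace, single_apply] at this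

theorem linearIndependent [Nonempty ι] (h : Heis N) {κ : Type*} [Fintype κ] (v : κ → GL ι F)
    (hv : ∀ a, v a ∈ N) (hi : ∀ a b, (v a)⁻¹ * v b ∈ scalars ι F → a = b) :
    LinearIndependent F fun a => (v a : Matrix ι ι F) := by
  refine Fintype.linearIndependent_iff.2 fun g hg a => ?_
  have := congrArg (fun x => ((((v a)⁻¹ : GL ι F) : Matrix ι ι F) * x).trace) hg
  simp only [Finset.mul_sum, mul_smul_comm, trace_sum, trace_smul, mul_zero, trace_zero] at this
  rw [Finset.sum_eq_single_of_mem a (Finset.mem_univ _) fun b _ hb => by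
    rw [← Units.val_mul, h.trace_eq_zero (mul_mem (inv_mem (hv a)) (hv b)) fun e => hb (hi a b e).symm,
      smul_zero], Units.inv_mul, trace_one, smul_eq_mul] at this
  exact (mul_eq_zero.1 this).resolve_right h.card_ne_zero

theorem card_quot [Finite F] [Nonempty ι] (h : Heis N) :
    Nat.card (N ⧸ (scalars ι F).subgroupOf N) = Fintype.card ι ^ 2 := by
  have := Fintype.ofFinite (N ⧸ (scalars ι F).subgroupOf N)
  have li := h.linearIndependent (fun q : N ⧸ (scalars ι F).subgroupOf N => (q.out : GL ι F))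
    (fun q => q.out.2) fun a b e => by rw [← a.out_eq', ← b.out_eq']; exact QuotientGroup.eq.2 e
  rw [Nat.card_eq_fintype_card, ← finrank_eq_card_basis (Basis.mk li fun x _ => ?_),
    Module.finrank_matrix, finrank_self, mul_one, sq]
  refine env_induction (fun x hx => ?_) (zero_mem _) (fun _ _ => add_mem)
    (fun (c : F) _ => Submodule.smul_mem _ c) (h.span ▸ Algebra.mem_top (x := x))
  have h1 := QuotientGroup.eq.1
    (QuotientGroup.out_eq' (QuotientGroup.mk (s := (scalars ι F).subgroupOf N) ⟨x, hx⟩))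
  set y := (QuotientGroup.mk (s := (scalars ι F).subgroupOf N) ⟨x, hx⟩).out
  obtain ⟨c, hc⟩ := (mem_scalars_iff (y.1⁻¹ * x)).1 h1
  have : (x : Matrix ι ι F) = (c : F) • (y.1 : Matrix ι ι F) := by
    rw [← mul_one (y.1 : Matrix ι ι F), ← mul_smul_comm, ← hc, ← Units.val_mul, mul_inv_cancel_left]
  exact this ▸ Submodule.smul_mem _ _ (Submodule.subset_span ⟨_, rfl⟩)

theorem center_eq [Nonempty ι] (h : Heis N) : Subgroup.center N = (scalars ι F).subgroupOf N := by
  ext x
  refine ⟨fun hx => ?_, fun hx => Subgroup.mem_center_iff.2 fun g =>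
    Subtype.ext (scalar_comm hx _).symm⟩
  obtain ⟨c, hc⟩ := scalar_of_env h.span (z := x.1) fun y hy =>
    congrArg (fun a : N => (a.1 : Matrix ι ι F)) (Subgroup.mem_center_iff.1 hx ⟨y, hy⟩).symm
  exact mem_scalars_of_eq hc

theorem exists_root (h : Heis N) (hn : 2 ≤ Fintype.card ι) {r : ℕ}
    (hr : ∀ x ∈ N, x ^ r ∈ scalars ι F) : ∃ x ∈ N, ∃ c : F, c ≠ 1 ∧ c ^ r = 1 ∧
      (x : Matrix ι ι F) = c • 1 ∧ x ∈ ⁅N, N⁆ := by
  have : Nonempty ι := Fintype.card_pos_iff.1 (by omega)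
  have := not_comm_of_span h.span hn
  push Not at this
  obtain ⟨x, hx, y, hy, hne⟩ := this
  have h1 := Subgroup.commutator_mem_commutator hx hy
  obtain ⟨c, h2, hc⟩ := exists_cj_eq_smul (h.comm h1)
  refine ⟨_, comm_le_left (Nm.self N) h1, c, fun e => hne (Units.ext (cj_eq_self_iff.1 (by
    rw [hc, e, one_smul]))), ?_, h2, h1⟩
  have := cj_pow_of_smul hc r
  rw [cj_of_scalar (hr x hx)] at this
  exact smul_left_injective F y.ne_zero (this.symm.trans (one_smul _ _).symm)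

theorem comm_pow (h : Heis N) {r : ℕ} (hr : ∀ x ∈ N, x ^ r ∈ scalars ι F) {x y : GL ι F}
    (hx : x ∈ N) (hy : y ∈ N) : ⁅x, y⁆ ^ r = 1 := by
  have := pow_comm_central (scalar_comm (h.comm (Subgroup.commutator_mem_commutator hx hy)))
    (x := y) (y := x) (by rw [commutatorElement_def]; group) r
  rwa [scalar_comm (hr x hx), right_eq_mul] at this

end Heis

/-- extraspecial type subgroups -/
structure Ext (G : Subgroup (GL ι F)) (r : ℕ) (R : Subgroup (GL ι F)) : Prop where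
  prime : r.Prime
  le : R ≤ G
  nm : Nm G R
  heis : Heis R
  pow : ∀ x ∈ R, x ^ r ∈ scalars ι F
  exp : ∀ x ∈ R, x ^ (r * Nat.gcd 2 r) = 1

theorem exists_prime_pow [Finite F] {G N : Subgroup (GL ι F)} (hP : Prim G) (h : Cand G N)
    (h1 : ⁅N, N⁆ ≤ scalars ι F) [Nonempty ι] : ∃ r : ℕ, r.Prime ∧ ∀ x ∈ N, x ^ r ∈ scalars ι F := by
  have hH : Heis N := ⟨(hP N h.2.2.1 h.2.2.2).resolve_left h.2.1, h1⟩
  have : Nontrivial (N ⧸ (scalars ι F).subgroupOf N) := by
    rw [QuotientGroup.nontrivial_iff, Ne, Subgroup.subgroupOf_eq_top]; exact h.2.1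
  obtain ⟨r, hr, hd⟩ := Nat.exists_prime_and_dvd
    (Finite.one_lt_card (α := N ⧸ (scalars ι F).subgroupOf N)).ne'
  have := Fact.mk hr
  obtain ⟨x, hx⟩ := exists_prime_orderOf_dvd_card' r hd
  obtain ⟨x, rfl⟩ := QuotientGroup.mk_surjective x
  let S : Subgroup (GL ι F) := ⟨⟨⟨{x | x ∈ N ∧ x ^ r ∈ scalars ι F}, fun {a b} ha hb =>
    ⟨mul_mem ha.1 hb.1, by
      have := h1 (Subgroup.commutator_mem_commutator hb.1 ha.1)
      rw [mul_pow_central (scalar_comm this) (by rw [commutatorElement_def]; group)]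
      exact mul_mem (pow_mem this _) (mul_mem ha.2 hb.2)⟩⟩, one_mem _, by simp⟩,
    fun ha => ⟨inv_mem ha.1, by rw [inv_pow]; exact inv_mem ha.2⟩⟩
  have hS := (hP S (fun _ a => h.2.2.1 a.1) fun g hg x hx => ⟨h.2.2.2 g hg x hx.1, by
    rw [conj_pow]; exact nm_scalars ⊤ g trivial _ hx.2⟩).resolve_left fun e => by
      have h2 : x.1 ∈ S := ⟨x.2, (QuotientGroup.eq_one_iff (N := (scalars ι F).subgroupOf N)
        (x ^ r)).1 (by rw [QuotientGroup.mk_pow, ← hx, pow_orderOf_eq_one])⟩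
      rw [(QuotientGroup.eq_one_iff (N := (scalars ι F).subgroupOf N) x).2 (e h2), orderOf_one] at hx
      exact hr.one_lt.ne hx
  refine ⟨r, hr, fun y hy => ?_⟩
  obtain ⟨x, hx, e⟩ := hH.exists_mem (R := S) (fun _ a => a.1) hS hy
  have : y = (y⁻¹ * x)⁻¹ * x := by rw [scalar_comm (inv_mem e)]; group
  rw [this, (show Commute _ _ from scalar_comm (inv_mem e) x).mul_pow]
  exact mul_mem (pow_mem (inv_mem e) _) hx.2

theorem dvd_choose_two {r : ℕ} (hr : r.Prime) : r ∣ (r * Nat.gcd 2 r).choose 2 := by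
  rcases hr.eq_two_or_odd' with rfl | h
  · decide
  · rw [(Nat.coprime_two_left.2 h).gcd_eq_one, mul_one]
    exact hr.dvd_choose_self two_ne_zero (lt_of_le_of_ne hr.two_le (by rintro rfl; exact absurd h (by decide)))

theorem exists_ext [Finite F] {G N : Subgroup (GL ι F)} (hP : Prim G) (h : Cand G N)
    (h1 : ⁅N, N⁆ ≤ scalars ι F) (hn : 2 ≤ Fintype.card ι) : ∃ r R, Ext G r R ∧
      ∀ x ∈ scalars ι F, x ^ (r * Nat.gcd 2 r) = 1 → x ∈ R := by
  have : Nonempty ι := Fintype.card_pos_iff.1 (by omega)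
  obtain ⟨r, hr, h2⟩ := exists_prime_pow hP h h1
  have hH : Heis N := ⟨(hP N h.2.2.1 h.2.2.2).resolve_left h.2.1, h1⟩
  let θ : N →* scalars ι F := MonoidHom.mk' (fun x => ⟨x ^ (r * Nat.gcd 2 r), by
    rw [pow_mul]; exact pow_mem (h2 x x.2) _⟩) fun a b => Subtype.ext (by
      obtain ⟨c, hc⟩ := dvd_choose_two hr
      refine (mul_pow_central (scalar_comm (h1 (Subgroup.commutator_mem_commutator b.2 a.2)))
        (by rw [commutatorElement_def]; group) _).trans ?_
      rw [hc, pow_mul, hH.comm_pow h2 b.2 a.2, one_pow, one_mul]; rfl)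
  have := isCyclic_scalars (ι := ι) (F := F)
  have m : ∀ x, x ∈ θ.ker.map N.subtype ↔ x ∈ N ∧ x ^ (r * Nat.gcd 2 r) = 1 := fun x =>
    ⟨fun ⟨y, a, b⟩ => b ▸ ⟨y.2, congrArg Subtype.val a⟩, fun ⟨a, b⟩ => ⟨⟨x, a⟩, Subtype.ext b, rfl⟩⟩
  have hle := Subgroup.map_subtype_le θ.ker
  have hm : Nm G (θ.ker.map N.subtype) := fun g hg x hx => (m _).2
    ⟨h.2.2.2 g hg x (hle hx), by rw [conj_pow, ((m x).1 hx).2, mul_one, mul_inv_cancel]⟩
  exact ⟨r, _, ⟨hr, hle.trans h.2.2.1, hm, ⟨(hP _ (hle.trans h.2.2.1) hm).resolve_left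
    (ker_not_le hH.span hn θ), (Subgroup.commutator_mono hle hle).trans h1⟩,
    fun x hx => h2 x (hle hx), fun x hx => ((m x).1 hx).2⟩, fun x a b => (m x).2 ⟨h.1 a, b⟩⟩

namespace Ext

variable {G R : Subgroup (GL ι F)} {r : ℕ}

theorem dvd [Finite F] (h : Ext G r R) (hn : 2 ≤ Fintype.card ι) : r ∣ Nat.card F - 1 := by
  obtain ⟨-, -, c, h1, h2, -⟩ := h.heis.exists_root hn h.pow
  have := Fact.mk h.prime
  have hc : c ≠ 0 := by rintro rfl; simp [h.prime.ne_zero] at h2
  rw [← orderOf_eq_prime h2 h1, ← Nat.card_units, ← Units.val_mk0 hc, orderOf_units]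
  exact orderOf_dvd_natCard _

theorem isPGroup (h : Ext G r R) : IsPGroup r R := fun x => by
  refine ⟨2, Subtype.ext ?_⟩
  obtain ⟨c, hc⟩ : r * Nat.gcd 2 r ∣ r ^ 2 := by rw [sq]; exact Nat.mul_dvd_mul_left _ (Nat.gcd_dvd_right _ _)
  rw [Subgroup.coe_pow, hc, pow_mul, h.exp x x.2, one_pow]; rfl

theorem card [Finite F] (h : Ext G r R) (hn : 2 ≤ Fintype.card ι) : ∃ m, 1 ≤ m ∧
    Fintype.card ι = r ^ m ∧ Nat.card R = Nat.card (Subgroup.center R) * r ^ (2 * m) := by
  have : Nonempty ι := Fintype.card_pos_iff.1 (by omega)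
  have := Fact.mk h.prime
  obtain ⟨j, hj⟩ := (h.isPGroup.to_quotient ((scalars ι F).subgroupOf R)).exists_card_eq
  obtain ⟨m, -, hm⟩ := (Nat.dvd_prime_pow h.prime).1 ((dvd_pow_self _ two_ne_zero).trans
    (h.heis.card_quot.symm.trans hj).dvd)
  refine ⟨m, Nat.pos_of_ne_zero (by rintro rfl; rw [pow_zero] at hm; omega), hm, ?_⟩
  rw [h.heis.center_eq, Subgroup.card_eq_card_quotient_mul_card_subgroup ((scalars ι F).subgroupOf R),
    h.heis.card_quot, hm, mul_comm, ← pow_mul, mul_comm m]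

theorem sympType [Finite F] (h : Ext G r R) (hP : Prim G) (hn : 2 ≤ Fintype.card ι) :
    IsSymplecticTypeGroup r R := by
  refine ⟨h.prime, h.isPGroup, fun A hA hc => ?_, ?_⟩
  · have h1 : Nm G (A.map R.subtype) := by
      rintro g hg _ ⟨x, hx, rfl⟩
      exact ⟨_, Subgroup.characteristic_iff_map_le.1 hA
        (Subgroup.normalizerMonoidHom R ⟨g, h.nm.le_normalizer hg⟩) ⟨x, hx, rfl⟩, rfl⟩
    have h2 := (hP _ ((Subgroup.map_subtype_le A).trans h.le) h1).resolve_right fun e =>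
      not_comm_of_span e hn (by
        rintro _ ⟨x, hx, rfl⟩ _ ⟨y, hy, rfl⟩
        exact congrArg (fun a : A => a.1.1) (hc.is_comm.comm ⟨x, hx⟩ ⟨y, hy⟩))
    have := isCyclic_scalars (ι := ι) (F := F)
    have := Subgroup.isCyclic_of_le h2
    exact isCyclic_of_surjective _ (A.equivMapOfInjective _ R.subtype_injective).symm.surjective
  · have h1 : Monoid.exponent R ∣ r * Nat.gcd 2 r :=
      Monoid.exponent_dvd_of_forall_pow_eq_one fun x => Subtype.ext (h.exp x x.2)
    have h2 : ¬ Monoid.exponent R ∣ 2 := fun e => not_comm_of_span h.heis.span hn fun x hx y hy =>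
      congrArg Subtype.val (Commute.of_orderOf_dvd_two (fun g => (Monoid.order_dvd_exponent g).trans e)
        (⟨x, hx⟩ : R) ⟨y, hy⟩)
    rcases h.prime.eq_two_or_odd' with rfl | h3
    · have := Nat.le_of_dvd (by decide) h1
      generalize Monoid.exponent R = e at *
      change e ≤ 4 at this
      interval_cases e <;> simp_all
    · rw [(Nat.coprime_two_left.2 h3).gcd_eq_one, mul_one] at h1 ⊢
      exact ((Nat.dvd_prime h.prime).1 h1).resolve_left fun e => h2 (e ▸ one_dvd _)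

theorem card_center [Finite F] [Nonempty ι] (h : Ext G r R) {w : ℕ}
    (hw : ∀ x ∈ scalars ι F, x ∈ R ↔ x ^ w = 1) :
    Nat.card (Subgroup.center R) = Nat.gcd w (Nat.card F - 1) := by
  rw [← card_rootsOfUnity_finite, h.heis.center_eq]
  let s : Fˣ →* GL ι F := Units.map (Matrix.scalar ι : F →+* Matrix ι ι F).toMonoidHom
  have si : Function.Injective s := Units.map_injective fun _ _ h => scalar_inj.1 h
  rw [← Subgroup.card_map_of_injective si, ← Subgroup.card_map_of_injective R.subtype_injective,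
    Subgroup.subgroupOf_map_subtype]
  congr 2
  ext x
  refine ⟨fun ⟨⟨c, hc⟩, a⟩ => ⟨c, si ?_, hc⟩, fun ⟨c, a, hc⟩ => ⟨⟨c, hc⟩, (hw _ ⟨c, hc⟩).2 ?_⟩⟩
  · rw [map_pow, map_one, show s c = x from hc, (hw _ ⟨c, hc⟩).1 a]
  · rw [← hc, ← map_pow, (mem_rootsOfUnity _ _).1 a, map_one]

/-- traces lie in any subfield containing the relevant roots of unity -/
theorem exists_Ov [Finite F] [Nonempty ι] (h : Heis R) {F₀ : Subfield F}
    (hF : ∀ x ∈ R, ∀ c : F, (x : Matrix ι ι F) = c • 1 → c ∈ F₀) :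
    ∃ P : GL ι F, ∀ x ∈ R, cj P⁻¹ (x : Matrix ι ι F) ∈ Ov F₀ :=
  exists_Ov_of_trace h.span fun x hx => by
    by_cases h1 : x ∈ scalars ι F
    · obtain ⟨c, hc⟩ := (mem_scalars_iff x).1 h1
      rw [hc, trace_smul, trace_one]; exact mul_mem (hF x hx c hc) (natCast_mem _ _)
    · rw [h.trace_eq_zero hx h1]; exact zero_mem _

theorem exists_gram [Finite F] (h : Ext G r R) (hn : 2 ≤ Fintype.card ι) {σ : F →+* F}
    (hσ : ∀ a, σ (σ a) = a) (h2 : ∀ x ∈ R, ∀ c : F, (x : Matrix ι ι F) = c • 1 → c * σ c = 1) :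
    ∃ (ε : F) (Γ : GL ι F), HF σ ε Γ ∧ (σ ≠ RingHom.id F → ε = 1) ∧
      ∀ x ∈ R, pull σ (Γ : Matrix ι ι F) (x : Matrix ι ι F) = Γ := by
  have : Nonempty ι := Fintype.card_pos_iff.1 (by omega)
  have := Fact.mk h.prime
  obtain ⟨j, hj⟩ := (h.isPGroup.to_subgroup ((scalars ι F).subgroupOf R)).exists_card_eq
  obtain ⟨m, h3, h4, -⟩ := h.card hn
  have := h.heis.card_ne_zero
  obtain ⟨Γ, a, b⟩ := exists_inv_gram (fun x => h.heis.trace_eq_zero) h2 this (by
    rw [h4, Nat.cast_pow] at this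
    rw [hj, Nat.cast_pow]; exact pow_ne_zero _ fun e => this (by rw [e, zero_pow (by omega)]))
  exact exists_HF hσ h.heis.span a b

end Ext

/-- the smallest subfield containing the `w`-th roots of unity -/
theorem minimal_or_subfield [Fintype F] {w : ℕ} (hw : w ∣ Nat.card F - 1) :
    (∃ p e, IsMinimalFieldFor w p e F) ∨ ∃ F₀ : Subfield F, F₀ ≠ ⊤ ∧ ∀ c : F, c ^ w = 1 → c ∈ F₀ := by
  obtain ⟨p, hp, e, h1, h2⟩ := FiniteField.card' F
  have := Fact.mk h1
  by_cases h : ∀ d : ℕ, 0 < d → d < e → ¬ w ∣ p ^ d - 1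
  · exact .inl ⟨p, e, h1, hp, h2, by rwa [← h2, ← Nat.card_eq_fintype_card], h⟩
  push Not at h
  obtain ⟨d, a, b, c, hc⟩ := h
  refine .inr ⟨(iterateFrobenius F p d).eqLocusField (RingHom.id F), fun ht => ?_, fun x hx => ?_⟩
  · have := (FiniteField.forall_pow_eq_one_iff F (p ^ d - 1)).1 fun x => Units.ext (by
      have : (x : F) ^ p ^ d = x := ht.ge (Subfield.mem_top (x : F))
      rwa [← Nat.sub_add_cancel (Nat.one_le_pow d p h1.pos), pow_succ, mul_eq_right₀ x.ne_zero] at this)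
    have h3 := Nat.pow_lt_pow_right h1.one_lt b
    have h4 := Nat.one_lt_pow a.ne' h1.one_lt
    have := Nat.le_of_dvd (by omega) this
    omega
  · change x ^ p ^ d = x
    rw [← Nat.sub_add_cancel (Nat.one_le_pow d p h1.pos), pow_succ, hc, pow_mul, hx, one_pow, one_mul]

end CfsgH5.As
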