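import Cfsg.Agent.H5.As6
import Cfsg.Agent.H5.Orth7

set_option autoImplicit false

/-! Forms and tensor structures; the subgroup structure theorem in the linear case. -/

namespace CfsgH5.As

open Matrix Module Cfsg.Geo
open scoped Kronecker

universe u

variable {ι : Type} [Fintype ι] [DecidableEq ι] {F : Type u} [Field F] {σ : F →+* F}

theorem mem_stab {W : Submodule F (ι → F)} {g : GL ι F} :
    g ∈ subspaceStabilizer W ↔ ∀ v, v ∈ W ↔ (g : Matrix ι ι F) *ᵥ v ∈ W := Iff.rfl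

theorem le_stab {H : Subgroup (GL ι F)} {W : Submodule F (ι → F)}
    (h : ∀ g ∈ H, ∀ w ∈ W, (g : Matrix ι ι F) *ᵥ w ∈ W) : H ≤ subspaceStabilizer W :=
  fun g hg v => ⟨h g hg v, fun hv => by simpa using h _ (inv_mem hg) _ hv⟩

theorem irr_or_stab (H : Subgroup (GL ι F)) :
    Irr H ∨ ∃ W : Submodule F (ι → F), W ≠ ⊥ ∧ W ≠ ⊤ ∧ H ≤ subspaceStabilizer W := by
  by_contra h
  push Not at h
  exact h.1 fun W hW => by_contra fun e => h.2 W (not_or.1 e).1 (not_or.1 e).2 (le_stab hW)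

theorem Irr.not_le_stab {H : Subgroup (GL ι F)} (h : Irr H) {W : Submodule F (ι → F)} (h0 : W ≠ ⊥)
    (h1 : W ≠ ⊤) : ¬ H ≤ subspaceStabilizer W := fun e =>
  (h W fun _ hg w hw => (e hg w).1 hw).elim h0 h1

namespace HF

variable {ε : F} {Γ : GL ι F}

theorem eps_sq (h : HF σ ε Γ) : ε * ε = 1 := by rcases h.eps with rfl | rfl <;> simp

theorem map_eps (h : HF σ ε Γ) : σ ε = ε := by rcases h.eps with rfl | rfl <;> simp

theorem fm_symm (h : HF σ ε Γ) (u v : ι → F) :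
    fm σ (Γ : Matrix ι ι F) v u = ε * σ (fm σ (Γ : Matrix ι ι F) u v) := by
  rw [← fm_transpose h.invol, h.symm, fm_smul_gram, ← mul_assoc, h.eps_sq, one_mul]

theorem fm_eq_zero_comm (h : HF σ ε Γ) {u v : ι → F} (e : fm σ (Γ : Matrix ι ι F) u v = 0) :
    fm σ (Γ : Matrix ι ι F) v u = 0 := by rw [h.fm_symm, e, map_zero, mul_zero]

theorem bilin (Γ : Matrix ι ι F) : IsBilinearForm (fm (RingHom.id F) Γ) :=
  ⟨fm_add_left Γ, fm_smul_left Γ, fm_add_right Γ, fm_smul_right Γ⟩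

theorem symplectic (h : ∀ v, fm (RingHom.id F) (Γ : Matrix ι ι F) v v = 0) :
    IsSymplecticForm (fm (RingHom.id F) (Γ : Matrix ι ι F)) :=
  ⟨bilin _, fun v w => by
    have := h (v + w)
    rw [fm_add_left, fm_add_right, fm_add_right, h, h] at this
    linear_combination this, h, fm_nondeg Γ⟩

theorem alt_of_neg (h : HF (RingHom.id F) (-1) Γ) (h2 : (2 : F) ≠ 0) (v : ι → F) :
    fm (RingHom.id F) (Γ : Matrix ι ι F) v v = 0 :=
  (mul_eq_zero.1 (by linear_combination h.fm_symm v v)).resolve_left h2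

theorem symmetric (h : HF (RingHom.id F) 1 Γ) :
    IsSymmetricForm (fm (RingHom.id F) (Γ : Matrix ι ι F)) :=
  ⟨bilin _, fun u v => by simpa using h.fm_symm v u, fm_nondeg Γ⟩

theorem polar (h : HF (RingHom.id F) 1 Γ) (u v : ι → F) :
    QuadraticMap.polar (fun v => fm (RingHom.id F) (Γ : Matrix ι ι F) v v) u v =
      2 * fm (RingHom.id F) (Γ : Matrix ι ι F) u v := by
  rw [QuadraticMap.polar, fm_add_left, fm_add_right, fm_add_right, h.fm_symm u v]; simp; ring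

theorem unitary [Finite F] (h : HF σ 1 Γ) (hσ : σ ≠ RingHom.id F) :
    ∃ τ : F ≃+* F, IsUnitaryForm τ (fm σ (Γ : Matrix ι ι F)) :=
  ⟨RingEquiv.ofBijective σ (Function.Involutive.bijective h.invol), fun e => hσ (RingHom.ext fun a =>
    RingEquiv.congr_fun e a), h.invol, fm_add_left _, fm_smul_left _,
    fun v w => by simpa using h.fm_symm w v, fm_nondeg Γ⟩

end HF

theorem quad_of_polar {Q : (ι → F) → F} {Γ : GL ι F} {c : F} (hc : c ≠ 0)
    (h1 : ∀ (c : F) v, Q (c • v) = c ^ 2 * Q v)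
    (h2 : ∀ u v, QuadraticMap.polar Q u v = c * fm (RingHom.id F) (Γ : Matrix ι ι F) u v) :
    IsNondegenerateQuadraticForm Q := by
  have e : QuadraticMap.polar Q = fm (RingHom.id F) (c • (Γ : Matrix ι ι F)) := by
    funext u v; rw [h2, fm_smul_gram]
  refine ⟨h1, e ▸ HF.bilin _, fun v hv => ?_⟩
  simpa only [h2, ne_eq, mul_eq_zero, hc, false_or] using fm_nondeg (σ := RingHom.id F) Γ v hv

theorem exists_gl_of_form {f : (ι → F) → (ι → F) → F} (h1 : ∀ x y v, f (x + y) v = f x v + f y v)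
    (h2 : ∀ (c : F) x v, f (c • x) v = c * f x v) (h3 : ∀ v x y, f v (x + y) = f v x + f v y)
    (h4 : ∀ (c : F) v x, f v (c • x) = σ c * f v x) (h5 : IsNondegenerateForm f) :
    ∃ Γ : GL ι F, f = fm σ (Γ : Matrix ι ι F) := by
  have e := eq_fm_gram h1 h2 h3 h4
  obtain ⟨Γ, h⟩ := exists_gl_of_nondeg (σ := σ) (Γ := gramMatrix f) fun v hv => by
    by_contra h0
    obtain ⟨x, hx⟩ := (h5 v h0).2
    exact hx (by rw [e, hv])
  exact ⟨Γ, h ▸ e⟩

theorem hf_of_symm {ε : F} {Γ : GL ι F} (h1 : ∀ a, σ (σ a) = a) (h2 : ε = 1 ∨ ε = -1)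
    (h3 : ∀ u v, fm σ (Γ : Matrix ι ι F) v u = ε * σ (fm σ (Γ : Matrix ι ι F) u v)) : HF σ ε Γ :=
  ⟨h1, h2, fm_ext (σ := σ) fun u v => by
    rw [fm_transpose h1, fm_smul_gram, h3 u v]; rcases h2 with rfl | rfl <;> simp [h1]⟩

theorem exists_of_bilin {f : (ι → F) → (ι → F) → F} (h : IsBilinearForm f)
    (h5 : IsNondegenerateForm f) : ∃ Γ : GL ι F, f = fm (RingHom.id F) (Γ : Matrix ι ι F) :=
  exists_gl_of_form h.1 h.2 h.3 h.4 h5

theorem exists_of_quad {Q : (ι → F) → F} (h : IsNondegenerateQuadraticForm Q) : ∃ Γ : GL ι F,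
    HF (RingHom.id F) 1 Γ ∧ QuadraticMap.polar Q = fm (RingHom.id F) (Γ : Matrix ι ι F) := by
  obtain ⟨Γ, e⟩ := exists_of_bilin h.polar_bilinear h.nondegenerate
  exact ⟨Γ, hf_of_symm (fun _ => rfl) (.inl rfl) fun u v => by
    simp [← e, QuadraticMap.polar_comm Q u v], e⟩

theorem exists_of_symp {f : (ι → F) → (ι → F) → F} (h : IsSymplecticForm f) : ∃ Γ : GL ι F,
    HF (RingHom.id F) (-1) Γ ∧ f = fm (RingHom.id F) (Γ : Matrix ι ι F) := by
  obtain ⟨Γ, e⟩ := exists_of_bilin h.bilinear h.nondegenerate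
  exact ⟨Γ, hf_of_symm (fun _ => rfl) (.inr rfl) fun u v => by simp [← e, h.skew v u], e⟩

theorem exists_of_herm {f : (ι → F) → (ι → F) → F} (hσ : ∀ a, σ (σ a) = a)
    (h1 : ∀ x y v, f (x + y) v = f x v + f y v) (h2 : ∀ (c : F) x v, f (c • x) v = c * f x v)
    (h3 : ∀ v w, f v w = σ (f w v)) (h5 : IsNondegenerateForm f) :
    ∃ Γ : GL ι F, HF σ 1 Γ ∧ f = fm σ (Γ : Matrix ι ι F) := by
  obtain ⟨Γ, e⟩ := exists_gl_of_form (σ := σ) h1 h2
    (fun v x y => by rw [h3, h1, map_add, ← h3, ← h3]) (fun c v x => by rw [h3, h2, map_mul, ← h3]) h5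
  exact ⟨Γ, hf_of_symm hσ (.inl rfl) fun u v => by rw [← e, h3, one_mul], e⟩

theorem polar_fix {Q : (ι → F) → F} {x : Matrix ι ι F} (h : ∀ v, Q (x *ᵥ v) = Q v) (u v : ι → F) :
    QuadraticMap.polar Q (x *ᵥ u) (x *ᵥ v) = QuadraticMap.polar Q u v := by
  simp only [QuadraticMap.polar, ← mulVec_add, h]

/-- the alternating form with a given Gram matrix -/
def altC (Γ : Matrix ι ι F) (h : ∀ v, fm (RingHom.id F) Γ v v = 0) : CForm (FP.symp F) (ι → F) :=
  CForm.ofAlt (toBilin' Γ) fun v => by rw [toBilin'_apply']; exact h v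

theorem altC_B (Γ : Matrix ι ι F) (h : ∀ v, fm (RingHom.id F) Γ v v = 0) (u v : ι → F) :
    (altC Γ h).B u v = fm (RingHom.id F) Γ u v := toBilin'_apply' _ _ _

theorem altC_nondeg (Γ : GL ι F) (h : ∀ v, fm (RingHom.id F) (Γ : Matrix ι ι F) v v = 0) :
    (altC _ h).Nondeg := fun _ hv => fm_left_eq_zero Γ fun u => (altC_B _ h _ _).symm.trans (hv u)

theorem even_of_alt {Γ : GL ι F} (h : ∀ v, fm (RingHom.id F) (Γ : Matrix ι ι F) v v = 0) :
    Even (Fintype.card ι) := CForm.symp_even _ (altC_nondeg Γ h) (by simp)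

theorem two_ne_zero_iff [Fintype F] : (2 : F) ≠ 0 ↔ Odd (Fintype.card F) :=
  ⟨fun h => Nat.odd_iff.2 (Nat.card_eq_fintype_card (α := F) ▸ card_odd_of_two_ne h), two_ne_of_odd⟩

theorem alt_of_irr [Finite F] (h2 : (2 : F) = 0) {ε : F} {Γ : GL ι F} (h : HF (RingHom.id F) ε Γ)
    {H : Subgroup (GL ι F)} (hI : Irr H) (hn : 2 ≤ Fintype.card ι)
    (hH : H ≤ similarityGroup (fm (RingHom.id F) (Γ : Matrix ι ι F))) (v : ι → F) :
    fm (RingHom.id F) (Γ : Matrix ι ι F) v v = 0 := by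
  have k : ∀ u v, fm (RingHom.id F) (Γ : Matrix ι ι F) (u + v) (u + v) =
      fm (RingHom.id F) Γ u u + fm (RingHom.id F) Γ v v := fun u v => by
    rw [fm_add_left, fm_add_right, fm_add_right, h.fm_symm u v, RingHom.id_apply]
    rcases h.eps with rfl | rfl
    · linear_combination h2 * fm (RingHom.id F) (Γ : Matrix ι ι F) u v
    · ring
  let W : Submodule F (ι → F) := ⟨⟨⟨{v | fm (RingHom.id F) (Γ : Matrix ι ι F) v v = 0},
    fun a b => by rw [Set.mem_setOf_eq, k, a, b, add_zero]⟩, by simp⟩, fun c v a => by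
      rw [Set.mem_setOf_eq, fm_smul_left, fm_smul_right, a]; simp⟩
  rcases hI W (fun g hg w hw => by
    obtain ⟨c, hc⟩ := hH hg
    exact (hc w w).trans (by rw [hw, mul_zero])) with e | e
  · obtain ⟨i, j, hij⟩ := Fintype.one_lt_card_iff.1 hn
    have hi : (Γ : Matrix ι ι F) i i ≠ 0 := fun h0 => by
      simpa using e.le (show Pi.single i 1 ∈ W from (fm_single _ i i).trans h0)
    obtain ⟨s, hs⟩ := FiniteField.isSquare_of_char_two
      (CharP.ringChar_of_prime_eq_zero Nat.prime_two h2) ((Γ : Matrix ι ι F) j j / Γ i i)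
    have : s • Pi.single i 1 + Pi.single j 1 ∈ W := (k _ _).trans (by
      rw [fm_smul_left, fm_smul_right, fm_single, fm_single, ← mul_assoc, RingHom.id_apply, ← hs,
        div_mul_cancel₀ _ hi, ← two_mul, h2, zero_mul])
    exact absurd (congrFun ((Submodule.mem_bot F).1 (e.le this)) j) (by simp [hij.symm])
  · exact (e ▸ Submodule.mem_top : v ∈ W)

section tg

variable {κ : Type} [Fintype κ] [DecidableEq κ]

/-- transport of a Gram matrix -/
def tg (σ : F →+* F) (e : ι ≃ κ) (P : GL ι F) (Γ : Matrix κ κ F) : Matrix ι ι F :=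
  pull σ (Γ.submatrix e e) ((P⁻¹ : GL ι F) : Matrix ι ι F)

theorem fm_tg (e : ι ≃ κ) (P : GL ι F) (Γ : Matrix κ κ F) (x y : κ → F) :
    fm σ (tg σ e P Γ) (P *ᵥ (x ∘ e)) (P *ᵥ (y ∘ e)) = fm σ Γ x y := by
  rw [tg, fm_pull, inv_mulVec_mulVec, inv_mulVec_mulVec, fm_eq_sum, fm_eq_sum, ← e.sum_comp]
  exact Finset.sum_congr rfl fun a _ => e.sum_comp fun b => x (e a) * Γ (e a) b * σ (y b)

theorem fm_ext_tp (e : ι ≃ κ) (P : GL ι F) {Γ Γ' : Matrix ι ι F} (h : ∀ x y : κ → F,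
    fm σ Γ (P *ᵥ (x ∘ e)) (P *ᵥ (y ∘ e)) = fm σ Γ' (P *ᵥ (x ∘ e)) (P *ᵥ (y ∘ e))) : Γ = Γ' :=
  fm_ext fun u v => by
    obtain ⟨x, rfl⟩ := exists_mulVec_comp e P u
    obtain ⟨y, rfl⟩ := exists_mulVec_comp e P v
    exact h x y

theorem pull_tg (e : ι ≃ κ) (P : GL ι F) (Γ X : Matrix κ κ F) :
    pull σ (tg σ e P Γ) (tp e P X) = tg σ e P (pull σ Γ X) :=
  fm_ext_tp (σ := σ) e P fun x y => by rw [fm_pull, tp_mulVec, tp_mulVec, fm_tg, fm_tg, fm_pull]

theorem tg_smul (e : ι ≃ κ) (P : GL ι F) (c : F) (Γ : Matrix κ κ F) :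
    tg σ e P (c • Γ) = c • tg σ e P Γ := pull_smul_gram _ _ _

theorem tg_injective (e : ι ≃ κ) (P : GL ι F) : Function.Injective (tg σ e P) := fun _ _ h =>
  fm_ext (σ := σ) fun x y => by rw [← fm_tg e P, h, fm_tg]

theorem exists_tg {ε : F} (e : ι ≃ κ) (P : GL ι F) {Γ : GL κ F} (h : HF σ ε Γ) :
    ∃ Γ' : GL ι F, HF σ ε Γ' ∧ (Γ' : Matrix ι ι F) = tg σ e P Γ := by
  obtain ⟨Γ', e1⟩ := exists_gl_of_nondeg (σ := σ) (Γ := tg σ e P Γ) fun v hv => by
    obtain ⟨x, rfl⟩ := exists_mulVec_comp e P v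
    rw [fm_right_eq_zero Γ fun y => (fm_tg e P _ x y).symm.trans (hv _)]
    simp
  refine ⟨Γ', hf_of_symm h.invol h.eps fun u v => ?_, e1⟩
  obtain ⟨x, rfl⟩ := exists_mulVec_comp e P u
  obtain ⟨y, rfl⟩ := exists_mulVec_comp e P v
  rw [e1, fm_tg, fm_tg, h.fm_symm]

theorem exists_eq_tg {ε : F} (e : ι ≃ κ) (P : GL ι F) {Γ : GL ι F} (h : HF σ ε Γ) :
    ∃ Γ' : GL κ F, HF σ ε Γ' ∧ (Γ : Matrix ι ι F) = tg σ e P Γ' := by
  obtain ⟨Γ', h1, h2⟩ := exists_tg e.symm (glReindex e P⁻¹) h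
  refine ⟨Γ', h1, fm_ext (σ := σ) fun u v => ?_⟩
  obtain ⟨x, rfl⟩ := exists_mulVec_comp e P u
  obtain ⟨y, rfl⟩ := exists_mulVec_comp e P v
  have : ∀ x : κ → F, (glReindex e P⁻¹ : Matrix κ κ F) *ᵥ (((P : Matrix ι ι F) *ᵥ (x ∘ e)) ∘ e.symm) = x :=
    fun x => by simp [glReindex, submatrix_mulVec_equiv, Function.comp_assoc]
  rw [fm_tg, ← fm_tg e.symm (glReindex e P⁻¹), this, this, h2]

variable {t : ℕ}

theorem ptens_smul (c : Fin t → F) (X : Fin t → Matrix κ κ F) :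
    ptens (fun i => c i • X i) = (∏ i, c i) • ptens X := by
  ext; simp [ptens_apply, Finset.prod_mul_distrib]

theorem pull_ptens (Γ X : Fin t → Matrix κ κ F) :
    pull σ (ptens Γ) (ptens X) = ptens fun i => pull σ (Γ i) (X i) := by
  have : (fun i => pull σ (Γ i) (X i)) = (fun i => (X i)ᵀ) * Γ * fun i => (X i).map σ := rfl
  rw [this, ptens_mul, ptens_mul, pull]
  congr 1
  ext; simp [ptens_apply]

theorem pull_fperm (Γ : Matrix κ κ F) (s : Equiv.Perm (Fin t)) :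
    pull σ (ptens fun _ => Γ) (fperm s) = ptens fun _ : Fin t => Γ := by
  have h1 : (fperm s : Matrix (Fin t → κ) (Fin t → κ) F).map σ = fperm s := by
    ext; simp [fperm, apply_ite σ]
  have h2 : (fperm s : Matrix (Fin t → κ) (Fin t → κ) F)ᵀ = fperm s.symm := by
    ext x y
    have : x = y ∘ s ↔ y = x ∘ s.symm := ⟨fun h => by rw [h]; ext; simp, fun h => by rw [h]; ext; simp⟩
    simp [fperm, this]
  rw [pull, h1, h2]
  exact cj_fpermG s.symm fun _ => Γ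

theorem HF.ptens {ε : F} {Γ : GL κ F} (h : HF σ ε Γ) : HF σ (ε ^ t) (ptensG fun _ : Fin t => Γ) :=
  ⟨h.invol, by rcases h.eps with rfl | rfl; exacts [.inl (one_pow _), neg_one_pow_eq_or F t], by
    have := ptens_smul (fun _ : Fin t => ε) fun _ => (Γ : Matrix κ κ F)
    rw [Finset.prod_const, Finset.card_fin, ← h.symm] at this
    refine Eq.trans ?_ this
    ext; simp [ptensG, ptens_apply]⟩

end tg

/-- the standard alternating form in dimension two -/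
def J2 (F : Type u) [Field F] : GL (Fin 2) F :=
  ⟨!![0, 1; -1, 0], !![0, -1; 1, 0], by simp [← one_fin_two], by simp [← one_fin_two]⟩

theorem hf_J2 : HF (RingHom.id F) (-1) (J2 F) :=
  ⟨fun _ => rfl, .inr rfl, by ext i j; fin_cases i <;> fin_cases j <;> simp [J2]⟩

theorem pull_J2 (a : Matrix (Fin 2) (Fin 2) F) :
    pull (RingHom.id F) (J2 F : Matrix (Fin 2) (Fin 2) F) a = a.det • (J2 F : Matrix (Fin 2) (Fin 2) F) := by
  ext i j
  fin_cases i <;> fin_cases j <;> simp [pull, J2, mul_apply, det_fin_two, vecMul, dotProduct] <;> ring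

theorem mem_wreath_iff {k t : ℕ} {e : ι ≃ (Fin t → Fin k)} {P g : GL ι F}
    (h : g ∈ tensorWreathSubgroup k t e P) : ∃ (s : Equiv.Perm (Fin t)) (a : Fin t → GL (Fin k) F),
      g = tpG e P (fpermG s * ptensG a) := by
  obtain ⟨g, rfl⟩ := (tpG e P).surjective g
  obtain ⟨s, a, rfl⟩ := exists_nz_of_mem_wreath ((tpG_mem_map e P).1 h)
  exact ⟨s, a, rfl⟩

theorem wreath_two [Nonempty ι] {t : ℕ} (e : ι ≃ (Fin t → Fin 2)) (P : GL ι F) :
    ∃ Γ : GL ι F, HF (RingHom.id F) ((-1) ^ t) Γ ∧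
      tensorWreathSubgroup 2 t e P ≤ similarityGroup (fm (RingHom.id F) (Γ : Matrix ι ι F)) := by
  obtain ⟨Γ, h1, h2⟩ := exists_tg e P (hf_J2 (F := F)).ptens
  refine ⟨Γ, h1, fun g hg => mem_sim_iff.2 ?_⟩
  obtain ⟨s, a, rfl⟩ := mem_wreath_iff hg
  refine ⟨∏ i, (a i : Matrix (Fin 2) (Fin 2) F).det, ?_⟩
  rw [h2, tpG_coe, pull_tg, ← tg_smul, Units.val_mul, pull_mul]
  congr 1
  exact (congrArg (pull _ · _) (pull_fperm _ s)).trans ((pull_ptens _ _).trans (by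
    simp only [pull_J2]; exact ptens_smul _ _))

/-- membership in one of the geometric classes, linear case -/
def LinC (n : ℕ) [Fintype F] (H : Subgroup (GL (Fin n) F)) : Prop := ∃ M, InLinearClass n F M ∧ H ≤ M

variable [Fintype F] {n : ℕ} {H : Subgroup (GL (Fin n) F)}

theorem linC_form (hn : 3 ≤ n) (hI : Irr H) {ε : F} {Γ : GL (Fin n) F} (h : HF σ ε Γ)
    (h1 : σ ≠ RingHom.id F → ε = 1) (hH : H ≤ similarityGroup (fm σ (Γ : Matrix (Fin n) (Fin n) F))) :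
    LinC n H := by
  by_cases hσ : σ = RingHom.id F
  · subst hσ
    by_cases ha : ∀ v, fm (RingHom.id F) (Γ : Matrix (Fin n) (Fin n) F) v v = 0
    · have := even_of_alt ha
      rw [Fintype.card_fin] at this
      refine ⟨_, ?_, hH⟩
      iterate 9 right
      exact .inl ⟨_, HF.symplectic ha, this, by obtain ⟨k, rfl⟩ := this; omega, rfl⟩
    have h2 : (2 : F) ≠ 0 := fun h2 => ha (alt_of_irr h2 h hI (by simp; omega) hH)
    obtain rfl : ε = 1 := h.eps.resolve_right (by rintro rfl; exact ha (h.alt_of_neg h2))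
    refine ⟨quadSimilarityGroup fun v => fm (RingHom.id F) (Γ : Matrix (Fin n) (Fin n) F) v v, ?_,
      fun g hg => (hH hg).imp fun c hc v => hc v v⟩
    iterate 11 right
    exact ⟨_, quad_of_polar h2 (fun c v => by rw [fm_smul_left, fm_smul_right]; simp; ring) h.polar,
      two_ne_zero_iff.1 h2, hn, rfl⟩
  · obtain ⟨τ, hτ⟩ := (h1 hσ ▸ h).unitary hσ
    refine ⟨_, ?_, hH⟩
    iterate 10 right
    exact .inl ⟨τ, _, hτ, hn, rfl⟩

theorem linC_subfield {F₀ : Subfield F} (h0 : F₀ ≠ ⊤) {P : GL (Fin n) F}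
    (hH : H ≤ subfieldSubgroup F₀ P) : LinC n H := by
  obtain ⟨F₁, r, h1, h2, h3⟩ := exists_prime_index_subfield h0
  refine ⟨_, ?_, hH.trans (subfieldSubgroup_mono h1 P)⟩
  iterate 6 right
  exact .inl ⟨F₁, r, P, h2, h3, rfl⟩

theorem linC_wreath (hn : 3 ≤ n) (hI : Irr H) {k t : ℕ} (hk : 2 ≤ k) (ht : 2 ≤ t)
    {e : Fin n ≃ (Fin t → Fin k)} {P : GL (Fin n) F} (hH : H ≤ tensorWreathSubgroup k t e P) :
    LinC n H := by
  have : Nonempty (Fin n) := ⟨⟨0, by omega⟩⟩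
  rcases hk.eq_or_lt with rfl | hk
  · obtain ⟨Γ, h1, h2⟩ := wreath_two e P
    exact linC_form hn hI h1 (fun h => absurd rfl h) (hH.trans h2)
  · refine ⟨_, ?_, hH⟩
    iterate 8 right
    exact .inl ⟨k, t, e, P, hk, ht, rfl⟩

theorem linC_comm (hn : 3 ≤ n) (hI : Irr H) {K : Subalgebra F (Matrix (Fin n) (Fin n) F)}
    (hK : Nz H K) (h0 : K ≠ ⊥) (hc : ∀ x ∈ K, ∀ y ∈ K, x * y = y * x) : LinC n H := by
  have : Nonempty (Fin n) := ⟨⟨0, by omega⟩⟩
  rcases hI.fld_or_idem hK hc with h | ⟨t, e, h⟩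
  · obtain ⟨r, K₀, h1, -, h2, -, h3, -⟩ := h.exists_prime h0 hK
    refine ⟨_, ?_, h3.le_normalizer⟩
    iterate 4 right
    exact .inl ⟨r, K₀, h1, h2, rfl⟩
  · obtain ⟨⟨m, h1⟩, h2⟩ := h.decomp
    refine ⟨_, ?_, h2⟩
    iterate 3 right
    exact .inl ⟨t, m, _, h1, rfl⟩

theorem linC_alg (hn : 3 ≤ n) (hI : Irr H) {A : Subalgebra F (Matrix (Fin n) (Fin n) F)}
    (hA : Nz H A) (h0 : A ≠ ⊥) (h1 : A ≠ ⊤) : LinC n H := by
  have : Nonempty (Fin n) := ⟨⟨0, by omega⟩⟩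
  rcases hI.comm_or_tensor hA h0 h1 with h | ⟨k, l, e, P, hk, hl, h, -⟩
  · exact linC_comm hn hI hA.center h fun x hx y hy => (hx.2 y hy.1).symm
  rcases lt_trichotomy k l with h2 | rfl | h2
  · refine ⟨_, ?_, h⟩
    iterate 5 right
    exact .inl ⟨k, l, e, P, hk, h2, rfl⟩
  · exact linC_wreath hn hI hk le_rfl (h.trans (kron_le_wreath e P))
  · refine ⟨_, ?_, h.trans (tensor_swap e P)⟩
    iterate 5 right
    exact .inl ⟨l, k, _, P, hl, h2, rfl⟩

end CfsgH5.As
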