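import Cfsg.Agent.H5.As7

set_option autoImplicit false

/-! The subgroup structure theorem in the linear case; adjoints. -/

namespace CfsgH5.As

open Matrix Module Cfsg.Geo
open scoped Kronecker

universe u

variable {ι : Type} [Fintype ι] [DecidableEq ι] {F : Type u} [Field F] {σ : F →+* F}

theorem prim_or [Nonempty ι] (G : Subgroup (GL ι F)) :
    Prim G ∨ ∃ N ≤ G, Nm G N ∧ env F N ≠ ⊥ ∧ env F N ≠ ⊤ := by
  by_contra h
  push Not at h
  exact h.1 fun N h1 h2 => or_iff_not_imp_left.2 fun h3 =>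
    h.2 N h1 h2 fun e => h3 (env_eq_bot_iff.1 e)

theorem pow_eq_one_of_smul [Nonempty ι] {x : GL ι F} {c : F} (h : (x : Matrix ι ι F) = c • 1) {k : ℕ} :
    x ^ k = 1 ↔ c ^ k = 1 := by
  rw [← Units.val_inj, Units.val_pow_eq_pow_val, h, smul_pow, one_pow, Units.val_one]
  exact ⟨fun e => smul_left_injective F one_ne_zero (e.trans (one_smul _ _).symm),
    fun e => by rw [e, one_smul]⟩

theorem Ext.field [Fintype F] {G R : Subgroup (GL ι F)} {r : ℕ} (h : Ext G r R)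
    (hn : 2 ≤ Fintype.card ι) (hZ : ∀ x ∈ scalars ι F, x ^ (r * Nat.gcd 2 r) = 1 → x ∈ R) :
    (∀ x ∈ R, ∀ c : F, (x : Matrix ι ι F) = c • 1 → c ^ Nat.card (Subgroup.center R) = 1) ∧
    ((Odd r ∧ Nat.card (Subgroup.center R) = r) ∨ (r = 2 ∧ (Nat.card (Subgroup.center R) = 4 ∨
      Nat.card (Subgroup.center R) = 2))) ∧
    ((∃ p e, r ≠ p ∧ IsMinimalFieldFor (Nat.card (Subgroup.center R)) p e F) ∨
      ∃ (F₀ : Subfield F) (P : GL ι F), F₀ ≠ ⊤ ∧ (∀ c : F, c ^ (r * Nat.gcd 2 r) = 1 → c ∈ F₀) ∧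
        ∀ x ∈ R, cj P⁻¹ (x : Matrix ι ι F) ∈ Ov F₀) := by
  have : Nonempty ι := Fintype.card_pos_iff.1 (by omega)
  have hw := h.card_center fun x hx => ⟨h.exp x, hZ x hx⟩
  have hd := h.dvd hn
  have k : ∀ c : F, c ^ (r * Nat.gcd 2 r) = 1 → c ^ Nat.card (Subgroup.center R) = 1 := fun c hc => by
    have h0 : c ≠ 0 := by rintro rfl; simp [h.prime.ne_zero] at hc
    rw [hw, pow_gcd_eq_one, Nat.card_eq_fintype_card]
    exact ⟨hc, FiniteField.pow_card_sub_one_eq_one c h0⟩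
  have h1 : r ∣ Nat.card (Subgroup.center R) := hw ▸ Nat.dvd_gcd (dvd_mul_right _ _) hd
  refine ⟨fun x hx c hc => k c ((pow_eq_one_of_smul hc).1 (h.exp x hx)), ?_, ?_⟩
  · have h2 : Nat.card (Subgroup.center R) ∣ r * Nat.gcd 2 r := hw ▸ Nat.gcd_dvd_left _ _
    rcases h.prime.eq_two_or_odd' with rfl | h3
    · have := Nat.le_of_dvd (by decide) h2
      generalize Nat.card (Subgroup.center R) = e at *
      change e ≤ 4 at this
      refine .inr ⟨rfl, ?_⟩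
      clear k hw
      interval_cases e <;> first | omega | exact absurd h2 (by decide)
    · rw [(Nat.coprime_two_left.2 h3).gcd_eq_one, mul_one] at h2
      exact .inl ⟨h3, Nat.dvd_antisymm h2 h1⟩
  · refine (minimal_or_subfield (F := F) (hw ▸ Nat.gcd_dvd_right _ _)).imp
      (fun ⟨p, e, h2⟩ => ⟨p, e, ?_, h2⟩) fun ⟨F₀, h2, h3⟩ => ?_
    · rintro rfl
      have h4 := h1.trans h2.2.2.2.1
      have he : e ≠ 0 := by
        rintro rfl
        exact Fintype.one_lt_card.ne' (h2.2.2.1.trans (pow_zero _))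
      exact h.prime.one_lt.ne' (Nat.dvd_one.1 ((Nat.dvd_sub_iff_right (Nat.one_le_pow _ _ h.prime.pos)
        (dvd_pow_self r he)).1 h4))
    · obtain ⟨P, hP⟩ := Ext.exists_Ov h.heis (F₀ := F₀) fun x hx c hc =>
        h3 c (k c ((pow_eq_one_of_smul hc).1 (h.exp x hx)))
      exact ⟨F₀, P, h2, fun c hc => h3 c (k c hc), hP⟩

theorem sq_sub_one' (a : ℕ) : a ^ 2 - 1 = (a + 1) * (a - 1) := by simpa using Nat.sq_sub_sq a 1

theorem minimal_even [Fintype F] {w p e : ℕ} (h : IsMinimalFieldFor w p e F) (he : Even e)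
    (hw : w.Prime ∨ (w = 4 ∧ p ≠ 2)) : ∃ d, 0 < d ∧ e = 2 * d ∧ w ∣ p ^ d + 1 ∧ (w = 4 → d = 1) := by
  obtain ⟨d, rfl⟩ := he
  have hd : 0 < d := Nat.pos_of_ne_zero (by
    rintro rfl; exact Fintype.one_lt_card.ne' (h.2.2.1.trans (pow_zero _)))
  have h1 := h.2.2.2.2 d hd (by omega)
  refine ⟨d, hd, by ring, ?_⟩
  rcases hw with hw | ⟨rfl, hp⟩
  · have h2 := h.2.2.2.1
    rw [← two_mul, pow_mul', sq_sub_one'] at h2
    exact ⟨(hw.dvd_mul.1 h2).resolve_right h1, by rintro rfl; exact absurd hw (by decide)⟩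
  · have h3 := Nat.odd_iff.1 (h.1.odd_of_ne_two hp)
    obtain rfl : d = 1 := by
      by_contra hd1
      refine h.2.2.2.2 2 two_pos (by omega) ?_
      rw [sq_sub_one']
      exact Nat.mul_dvd_mul (show 2 ∣ p + 1 by omega) (show 2 ∣ p - 1 by omega)
    rw [pow_one] at *
    omega

theorem minimal_four [Fintype F] {p e : ℕ} (h : IsMinimalFieldFor 4 p e F) (hp : p ≠ 2) :
    e = 1 ∨ Even e := by
  by_contra hc
  have he : e ≠ 0 := by rintro rfl; simp at hc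
  have h3 := Nat.odd_iff.1 (h.1.odd_of_ne_two hp)
  refine h.2.2.2.2 2 two_pos (by
    rw [not_or, Nat.not_even_iff] at hc; omega) ?_
  rw [sq_sub_one']
  exact Nat.mul_dvd_mul (show 2 ∣ p + 1 by omega) (show 2 ∣ p - 1 by omega)

section lin

variable [Fintype F] {n : ℕ} {H : Subgroup (GL (Fin n) F)}

theorem linC_ext (hn : 3 ≤ n) (hI : Irr H) (hP : Prim (H ⊔ scalars _ F)) {r : ℕ}
    {R : Subgroup (GL (Fin n) F)} (h : Ext (H ⊔ scalars _ F) r R)
    (hZ : ∀ x ∈ scalars _ F, x ^ (r * Nat.gcd 2 r) = 1 → x ∈ R) : LinC n H := by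
  have : Nonempty (Fin n) := ⟨⟨0, by omega⟩⟩
  have hn' : 2 ≤ Fintype.card (Fin n) := by simp; omega
  have hm := h.nm.mono (le_sup_left (a := H))
  obtain ⟨h1, h2, ⟨p, e, h3, h4⟩ | ⟨F₀, P, h3, -, h4⟩⟩ := h.field hn' hZ
  swap
  · exact linC_subfield h3 (hm.le_subfield h.heis.span h4)
  have k1 : ∀ σ : F →+* F, (∀ a, σ (σ a) = a) → (∀ c : F, c ^ Nat.card (Subgroup.center R) = 1 →
      c * σ c = 1) → LinC n H := fun σ a b => by
    obtain ⟨ε, Γ, h5, h6, h7⟩ := h.exists_gram hn' a fun x hx c hc => b c (h1 x hx c hc)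
    exact linC_form hn hI h5 h6 (hm.le_sim h.heis.span h7)
  have k2 : Even e → (Nat.card (Subgroup.center R)).Prime ∨ (Nat.card (Subgroup.center R) = 4 ∧
      p ≠ 2) → LinC n H := fun a b => by
    obtain ⟨d, -, rfl, ⟨s, hs⟩, -⟩ := minimal_even h4 a b
    obtain ⟨σ, hσ⟩ := exists_UF (F := F) (q := p ^ d) (by rw [h4.2.2.1, pow_mul'])
    exact k1 σ hσ.invol fun c hc => by rw [hσ.norm_eq, hs, pow_mul, hc, one_pow]
  obtain ⟨m, h5, h6, h7⟩ := h.card hn'
  have k3 : IsLinearSymplecticTypeData r R → LinC n H := fun a => ⟨_, by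
    iterate 7 right
    exact .inl ⟨r, R, a, rfl⟩, hm.le_normalizer⟩
  rcases h2 with ⟨h2, h8⟩ | ⟨rfl, h8 | h8⟩
  · rcases Nat.even_or_odd e with he | he
    · exact k2 he (.inl (h8.symm ▸ h.prime))
    · exact k3 ⟨h.sympType hP hn', absIrr_of_env h.heis.span, p, e, h3, h4,
        .inl ⟨h2, he, h8, m, h5, by rw [h7, h8, pow_add, pow_one]⟩⟩
  · rcases minimal_four (h8 ▸ h4) h3.symm with he | he
    · refine k3 ⟨h.sympType hP hn', absIrr_of_env h.heis.span, p, e, h3, h4,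
        .inr (.inl ⟨rfl, he, h8, ?_, m, by rw [h7, h8, pow_add]; rfl⟩)⟩
      rw [Fintype.card_fin] at h6 ⊢
      rcases h5.eq_or_lt with rfl | h9
      · omega
      · exact h6 ▸ Nat.pow_le_pow_right two_pos (show 2 ≤ m from h9)
    · exact k2 he (.inr ⟨h8, h3.symm⟩)
  · exact k1 (RingHom.id F) (fun _ => rfl) fun c hc => by rwa [h8, sq] at hc

theorem linC_core (hn : 3 ≤ n) (hI : Irr H) {P : Subgroup (GL (Fin n) F)} (h : Core H P) :
    LinC n H ∨ InLinearResidualClass H := by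
  have : Nonempty (Fin n) := ⟨⟨0, by omega⟩⟩
  refine or_iff_not_imp_left.2 fun hc => ⟨P, h.residual fun F₀ h1 h2 => ?_, ?_, ?_, ?_⟩
  · obtain ⟨B, hB⟩ := realisable_iff.1 h2
    exact hc (linC_subfield h1 (h.normal.le_subfield h.span hB))
  · rintro ⟨Q, h1, h2⟩
    obtain ⟨Γ, h3, h4⟩ := exists_of_quad h1
    exact hc (linC_form hn hI h3 (fun e => absurd rfl e) (h.normal.le_sim h.span (fixes_iff.1
      (h4 ▸ fun s hs => polar_fix (h2 s hs)))))
  · rintro ⟨f, h1, h2⟩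
    obtain ⟨Γ, h3, rfl⟩ := exists_of_symp h1
    exact hc (linC_form hn hI h3 (fun e => absurd rfl e) (h.normal.le_sim h.span (fixes_iff.1 h2)))
  · rintro ⟨σ, f, h1, h2⟩
    obtain ⟨Γ, h3, rfl⟩ := exists_of_herm (σ := σ) h1.involutive h1.add_left h1.smul_left h1.herm
      h1.nondegenerate
    exact hc (linC_form hn hI h3 (fun _ => rfl) (h.normal.le_sim h.span (fixes_iff.1 h2)))

/-- the subgroup structure theorem, linear case -/
theorem linear_main (hn : 3 ≤ n) (H : Subgroup (GL (Fin n) F)) :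
    LinC n H ∨ InLinearResidualClass H := by
  have : Nonempty (Fin n) := ⟨⟨0, by omega⟩⟩
  have hn' : 2 ≤ Fintype.card (Fin n) := by simp; omega
  rcases irr_or_stab H with hI | ⟨W, h1, h2, h3⟩
  swap
  · exact .inl ⟨_, .inl ⟨W, h1, h2, rfl⟩, h3⟩
  rcases prim_or (H ⊔ scalars _ F) with hP | ⟨N, -, h1, h2, h3⟩
  swap
  · exact .inl (linC_alg hn hI (h1.mono le_sup_left).nz h2 h3)
  rcases master hI hn' hP with ⟨k, t, e, P, h⟩ | ⟨N, h1, h2⟩ | ⟨P, h⟩
  · exact .inl (linC_wreath hn hI h.two_le_k h.two_le_t (le_sup_left.trans h.le))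
  · obtain ⟨r, R, h3, h4⟩ := exists_ext hP h1 h2 hn'
    exact .inl (linC_ext hn hI hP h3 h4)
  · exact linC_core hn hI h

end lin

end CfsgH5.As
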