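import Cfsg.Agent.H5.As8

set_option autoImplicit false

/-! Large quasisimple spanning groups lie in no geometric subgroup. -/

namespace CfsgH5.As

open Matrix Module Cfsg.Geo
open scoped Kronecker commutatorElement

universe u

variable {ι : Type} [Fintype ι] [DecidableEq ι] {F : Type u} [Field F] {σ : F →+* F}

/-- large quasisimple spanning subgroups -/
structure QS (G : Subgroup (GL ι F)) (p f : ℕ) : Prop where
  perfect : ⁅G, G⁆ = G
  normal : ∀ N ≤ G, Nm G N → N ≤ scalars ι F ∨ N = G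
  span : env F G = ⊤
  two_le : 2 ≤ Fintype.card ι
  prime : p.Prime
  pos : 0 < f
  field : Nat.card F ∣ p ^ (2 * f)
  big : p ^ (f * Fintype.card ι) ∣ Nat.card G

theorem card_GL_eq {F : Type u} [Field F] [Finite F] (k : ℕ) : ∃ m, m.Coprime (Nat.card F) ∧
    Nat.card (GL (Fin k) F) = Nat.card F ^ k.choose 2 * m := by
  have := Fintype.ofFinite F
  refine ⟨∏ i : Fin k, (Nat.card F ^ (k - i) - 1), Nat.Coprime.prod_left fun i _ => ?_, ?_⟩
  · have h := (Nat.coprime_self_sub_left (Nat.one_le_pow (k - i) _ (Nat.card_pos (α := F)))).2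
      (Nat.coprime_one_left _)
    exact h.coprime_dvd_right (dvd_pow_self _ (by omega))
  · rw [card_GL_field, Nat.choose_two_right, ← Finset.sum_range_id, Finset.sum_range,
      ← Finset.prod_pow_eq_pow_sum, ← Finset.prod_mul_distrib, Nat.card_eq_fintype_card]
    exact Finset.prod_congr rfl fun i _ => by
      rw [Nat.mul_sub_one, ← pow_add, Nat.add_sub_cancel' i.2.le]

theorem not_scalar_single {κ : Type} [DecidableEq κ] {a b : κ} (h : a ≠ b) (c : F) :
    single a b (1 : F) ≠ c • (1 : Matrix κ κ F) := fun e => by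
  simpa [h] using congrFun (congrFun e a) b

/-- Kronecker product of invertible matrices -/
def kronG (κ μ : Type) [Fintype κ] [DecidableEq κ] [Fintype μ] [DecidableEq μ] (F : Type u)
    [Field F] : GL κ F × GL μ F →* GL (κ × μ) F :=
  MonoidHom.mk' (fun x => GeneralLinearGroup.kronecker x.1 x.2) fun _ _ =>
    Units.ext (mul_kronecker_mul _ _ _ _)

theorem kronG_coe {κ μ : Type} [Fintype κ] [DecidableEq κ] [Fintype μ] [DecidableEq μ]
    (a : GL κ F) (b : GL μ F) : (kronG κ μ F (a, b) : Matrix (κ × μ) (κ × μ) F) =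
      (a : Matrix κ κ F) ⊗ₖ (b : Matrix μ μ F) := rfl

theorem mem_tensor_iff {k l : ℕ} {e : ι ≃ Fin k × Fin l} {P g : GL ι F} :
    g ∈ tensorProductSubgroup k l e P ↔ ∃ a b, g = tpG e P (kronG _ _ F (a, b)) := by
  obtain ⟨g, rfl⟩ := (tpG e P).surjective g
  refine (tpG_mem_map e P).trans (exists₂_congr fun a b => ?_)
  rw [(tpG e P).apply_eq_iff_eq, Units.ext_iff, kronG_coe]

theorem tp_eq_smul {κ : Type} [Fintype κ] [DecidableEq κ] {e : ι ≃ κ} {P : GL ι F}
    {X : Matrix κ κ F} {c : F} (h : tp e P X = c • 1) : X = c • 1 :=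
  (tp e P).injective (by rw [h, map_smul, map_one])

theorem Nz.centralizer {H : Subgroup (GL ι F)} {S : Set (Matrix ι ι F)} (h : Nz H S) :
    Nz H (Subalgebra.centralizer F S) := fun g hg x hx y hy => by
  rw [← cj_cj_inv g y, ← map_mul, ← map_mul, hx _ (h _ (inv_mem hg) y hy)]

theorem ptens_mulSingle {t : ℕ} {κ : Type} [Fintype κ] [DecidableEq κ] (i : Fin t) {a b : κ}
    (h : a ≠ b) (c : F) : ptens (Pi.mulSingle i (single a b (1 : F))) ≠ c • 1 := fun e => by
  have := congrFun (congrFun e fun _ => a) (Function.update (fun _ => a) i b)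
  rw [ptens_apply, Finset.prod_eq_one fun j _ => by
    by_cases hj : j = i
    · subst hj; simp
    · simp [hj], Matrix.smul_apply, one_apply_ne fun e => h (by simpa using congrFun e i)] at this
  simp at this

theorem cj_wreath_single {t : ℕ} {κ : Type} [Fintype κ] [DecidableEq κ] (s : Equiv.Perm (Fin t))
    (a : Fin t → GL κ F) (i : Fin t) (X : Matrix κ κ F) : cj (fpermG s * ptensG a)
      (ptens (Pi.mulSingle i X)) = ptens (Pi.mulSingle (s i) (cj (a i) X)) := by
  rw [cj_mul, cj_ptensG, cj_fpermG]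
  congr 1
  funext j
  obtain ⟨j, rfl⟩ := s.surjective j
  by_cases hj : j = i
  · subst hj; simp
  · simp [hj]

theorem ptens_comm {t : ℕ} {κ : Type} [Fintype κ] [DecidableEq κ] {i j : Fin t} (h : i ≠ j)
    (X Y : Matrix κ κ F) : ptens (Pi.mulSingle i X) * ptens (Pi.mulSingle j Y) =
      ptens (Pi.mulSingle j Y) * ptens (Pi.mulSingle i X) := by
  rw [← ptens_mul, ← ptens_mul, (Pi.mulSingle_commute (f := fun _ => Matrix κ κ F) h X Y).eq]

theorem ncard_range_le {X : Type*} {t : ℕ} (D : Fin t → X) : (Set.range D).ncard ≤ t := by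
  simpa [← Set.image_univ, Set.ncard_univ] using Set.ncard_image_le (f := D) Set.finite_univ

theorem sim_inv {f : (ι → F) → (ι → F) → F} {a : GL ι F} {c : F} (hc : c ≠ 0)
    (h : ∀ u v, f ((a : Matrix ι ι F) *ᵥ u) ((a : Matrix ι ι F) *ᵥ v) = c * f u v) (u v : ι → F) :
    f (((a⁻¹ : GL ι F) : Matrix ι ι F) *ᵥ u) (((a⁻¹ : GL ι F) : Matrix ι ι F) *ᵥ v) = c⁻¹ * f u v := by
  rw [eq_inv_mul_iff_mul_eq₀ hc, ← h, mulVec_inv_mulVec, mulVec_inv_mulVec]

/-- the isometry group of an arbitrary two-argument function -/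
def isoG (f : (ι → F) → (ι → F) → F) : Subgroup (GL ι F) where
  carrier := {g | ∀ u v, f ((g : Matrix ι ι F) *ᵥ u) ((g : Matrix ι ι F) *ᵥ v) = f u v}
  mul_mem' ha hb u v := by rw [Units.val_mul, ← mulVec_mulVec, ← mulVec_mulVec, ha, hb]
  one_mem' u v := by simp
  inv_mem' ha u v := by rw [← ha, mulVec_inv_mulVec, mulVec_inv_mulVec]

theorem mem_isoG {f : (ι → F) → (ι → F) → F} {g : GL ι F} : g ∈ isoG f ↔
    ∀ u v, f ((g : Matrix ι ι F) *ᵥ u) ((g : Matrix ι ι F) *ᵥ v) = f u v := Iff.rfl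

theorem isoG_le_sim (f : (ι → F) → (ι → F) → F) : isoG f ≤ similarityGroup f :=
  fun _ hg => ⟨1, fun u v => by rw [hg, Units.val_one, one_mul]⟩

theorem comm_sim_le (f : (ι → F) → (ι → F) → F) :
    ⁅similarityGroup f, similarityGroup f⁆ ≤ isoG f :=
  Subgroup.commutator_le.2 fun a ⟨c, hc⟩ b ⟨d, hd⟩ u v => by
    simp only [commutatorElement_def, Units.val_mul, ← mulVec_mulVec]
    rw [hc, hd, sim_inv c.ne_zero hc, sim_inv d.ne_zero hd]
    field_simp

theorem nm_isoG (f : (ι → F) → (ι → F) → F) : Nm (similarityGroup f) (isoG f) :=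
  fun a ⟨c, hc⟩ b hb u v => by
    simp only [Units.val_mul, ← mulVec_mulVec]
    rw [hc, hb, sim_inv c.ne_zero hc]
    field_simp

theorem le_isoG_of_perfect {G : Subgroup (GL ι F)} (hp : ⁅G, G⁆ = G) {f : (ι → F) → (ι → F) → F}
    (h : G ≤ similarityGroup f) : G ≤ isoG f :=
  hp.ge.trans ((Subgroup.commutator_mono h h).trans (comm_sim_le f))

theorem quadSim_eq (Q : (ι → F) → F) : quadSimilarityGroup Q = similarityGroup fun u _ => Q u :=
  Subgroup.ext fun _ => exists_congr fun _ => ⟨fun h u _ => h u, fun h u => h u u⟩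

theorem mem_Ov_of_perfect {G : Subgroup (GL ι F)} (hp : ⁅G, G⁆ = G) {F₀ : Subfield F} {P : GL ι F}
    (h : G ≤ subfieldSubgroup F₀ P) {g : GL ι F} (hg : g ∈ G) :
    cj P⁻¹ (g : Matrix ι ι F) ∈ Ov F₀ := by
  rw [subfieldSubgroup, Subgroup.map_sup, show (scalars ι F).map (MulAut.conj P).toMonoidHom =
    scalars ι F from Subgroup.Normal.conj_smul_eq_self P _] at h
  obtain ⟨_, ⟨x, rfl⟩, rfl⟩ := comm_le_left (Nm.self _)
    (((Subgroup.commutator_mono h h).trans (comm_sup _ _).le) (hp.ge hg))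
  rw [cj_coe, mem_Ov]
  intro i j
  simp [mul_assoc]

namespace QS

variable [Finite F] {G : Subgroup (GL ι F)} {p f : ℕ}

theorem irr (h : QS G p f) : Irr G := irr_of_env h.span

theorem nonempty (h : QS G p f) : Nonempty ι :=
  Fintype.card_pos_iff.1 (by have := h.two_le; omega)

theorem exists_card (h : QS G p f) : ∃ e, 0 < e ∧ e ≤ 2 * f ∧ Nat.card F = p ^ e := by
  obtain ⟨e, h1, h2⟩ := (Nat.dvd_prime_pow h.prime).1 h.field
  exact ⟨e, Nat.pos_of_ne_zero (by rintro rfl; exact Finite.one_lt_card.ne' h2), h1, h2⟩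

theorem cover (h : QS G p f) {Y X : Type*} [Group Y] [Group X] (φ : Y →* GL ι F) (ψ : Y →* X)
    (hG : G ≤ φ.range) (hX : ¬ p ^ (f * Fintype.card ι) ∣ Nat.card X) : G ≤ ψ.ker.map φ := by
  refine inf_eq_left.1 ((h.normal (G ⊓ ψ.ker.map φ) inf_le_left ((Nm.self G).inf ?_)).resolve_left
    fun e => hX ?_)
  · rintro g hg _ ⟨y, hy, rfl⟩
    obtain ⟨z, rfl⟩ := hG hg
    exact ⟨z * y * z⁻¹, Subgroup.Normal.conj_mem inferInstance y hy z, by simp⟩
  have h1 : (ψ.ker.map φ).relIndex G ∣ Nat.card X := by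
    rw [← Subgroup.map_comap_eq_self hG, ← Subgroup.relIndex_comap, Subgroup.comap_map_eq]
    exact ((Subgroup.relIndex_dvd_index_of_normal _ _).trans
      (Subgroup.index_dvd_of_le le_sup_left)).trans (Subgroup.index_ker ψ ▸ Subgroup.card_subgroup_dvd_card _)
  obtain ⟨d, h2, -, h3⟩ := h.exists_card
  have h4 : Nat.card ((ψ.ker.map φ).subgroupOf G) ∣ p ^ d - 1 := by
    rw [← Subgroup.card_map_of_injective G.subtype_injective, Subgroup.subgroupOf_map_subtype,
      inf_comm, ← h3, ← Nat.card_units]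
    exact (Subgroup.card_dvd_of_le e).trans (Subgroup.card_range_dvd _)
  refine (Nat.Coprime.dvd_of_dvd_mul_left ?_ (h.big.trans
    (Subgroup.card_mul_index ((ψ.ker.map φ).subgroupOf G)).symm.dvd)).trans h1
  refine Nat.Coprime.pow_left _ (Nat.Coprime.coprime_dvd_right h4 (Nat.Coprime.symm ?_))
  exact ((Nat.coprime_self_sub_left (Nat.one_le_pow d _ h.prime.pos)).2
    (Nat.coprime_one_left _)).coprime_dvd_right (dvd_pow_self _ h2.ne')

theorem hom (h : QS G p f) {X : Type*} [Group X] (ψ : G →* X)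
    (hX : ¬ p ^ (f * Fintype.card ι) ∣ Nat.card X) (g : G) : ψ g = 1 := by
  obtain ⟨y, h1, h2⟩ := h.cover G.subtype ψ G.range_subtype.ge hX g.2
  exact Subtype.ext h2 ▸ h1

theorem fix (h : QS G p f) {X : Type*} (act : GL ι F → X → X) (h1 : ∀ x, act 1 x = x)
    (hm : ∀ a b x, act (a * b) x = act a (act b x)) {S : Set X} (hS : S.Finite)
    (hc : S.ncard ≤ Fintype.card ι) (hi : ∀ g ∈ G, ∀ x ∈ S, act g x ∈ S) :
    ∀ g ∈ G, ∀ x ∈ S, act g x = x := fun g hg x hx => by
  letI : MulAction G S := { smul := fun g x => ⟨act g x, hi g g.2 x x.2⟩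
                            one_smul := fun x => Subtype.ext (h1 x)
                            mul_smul := fun a b x => Subtype.ext (hm a b x) }
  have := hS.to_subtype
  have := Fact.mk h.prime
  refine congrArg (fun s : Equiv.Perm S => (s ⟨x, hx⟩).1)
    (h.hom (MulAction.toPermHom G S) (fun e => ?_) ⟨g, hg⟩)
  rw [Nat.card_perm, Nat.card_coe_set_eq] at e
  have h2 := padicValNat_factorial_lt_of_ne_zero p (n := Fintype.card ι) (by have := h.two_le; omega)
  have h3 := (padicValNat_dvd_iff_le (Nat.factorial_ne_zero _)).1 (e.trans (Nat.factorial_dvd_factorial hc))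
  exact h2.not_ge ((Nat.le_mul_of_pos_left _ h.pos).trans h3)

theorem not_le_decomp (h : QS G p f) {t m : ℕ} {D : Fin t → Submodule F (ι → F)}
    (hD : IsMDecomposition m D) : ¬ G ≤ decompositionStabilizer D := fun e => by
  have h2 := hD.two_le
  have h0 : ∀ i, D i ≠ ⊥ := fun i e => by
    have := hD.finrank_eq i; rw [e, finrank_bot] at this; exact hD.pos.ne this
  have ht : t ≤ Fintype.card ι := by
    simpa using hD.indep.subtype_ne_bot_le_finrank.trans_eq' (by simp [h0])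
  have := h.fix (fun g W => W.map (toLin' (g : Matrix ι ι F))) (by simp)
    (fun a b W => by rw [Units.val_mul, toLin'_mul, Submodule.map_comp]) (Set.finite_range D)
    ((ncard_range_le D).trans ht)
    (by rintro g hg _ ⟨i, rfl⟩; obtain ⟨s, hs⟩ := e hg; exact ⟨_, (hs i).symm⟩)
  rcases h.irr (D ⟨0, by omega⟩) fun g hg w hw => (this g hg _ ⟨_, rfl⟩).le ⟨w, hw, rfl⟩ with e | e
  · exact h0 _ e
  · have := hD.indep.pairwiseDisjoint (show (⟨0, by omega⟩ : Fin t) ≠ ⟨1, by omega⟩ by simp)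
    rw [Function.onFun, e, top_disjoint] at this
    exact h0 _ this

theorem eq_bot_of_fld (h : QS G p f) {K : Subalgebra F (Matrix ι ι F)} (hK : Fld K) (hz : Nz G K) :
    K = ⊥ := by
  have := h.nonempty
  letI := hK.isField.toField
  refine eq_bot_iff.2 fun x hx => ?_
  have m : ∀ y, y ∈ Subtype.val '' x.charpoly.rootSet K ↔ y ∈ K ∧ Polynomial.aeval y x.charpoly = 0 :=
    fun y => ⟨fun ⟨z, a, b⟩ => b ▸ ⟨z.2, (Polynomial.aeval_algHom_apply K.val z _).trans
      (by rw [(Polynomial.mem_rootSet.1 a).2, map_zero])⟩, fun ⟨a, b⟩ => ⟨⟨y, a⟩,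
        Polynomial.mem_rootSet.2 ⟨x.charpoly_monic.ne_zero, Subtype.ext
          ((Polynomial.aeval_algHom_apply K.val (⟨y, a⟩ : K) x.charpoly).symm.trans b :)⟩, rfl⟩⟩
  obtain ⟨c, hc⟩ := scalar_of_env h.span (z := x) fun g hg => (cj_eq_self_iff.1 (h.fix
    (fun g => cj g) cj_one cj_mul (Set.toFinite _) ((Set.ncard_image_le (Set.toFinite _)).trans
      ((Polynomial.ncard_rootSet_le _ _).trans_eq x.charpoly_natDegree_eq_dim))
    (fun g hg y hy => (m _).2 ⟨hz g hg y ((m y).1 hy).1, by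
      rw [Polynomial.aeval_algHom_apply, ((m y).1 hy).2, map_zero]⟩) g hg x
    ((m x).2 ⟨hx, x.aeval_self_charpoly⟩))).symm
  exact hc ▸ Subalgebra.smul_mem _ (one_mem _) c

theorem not_le_fs (h : QS G p f) {K : Subalgebra F (Matrix ι ι F)} {r : ℕ} (hr : r.Prime)
    (hK : IsFieldSubalgebra r K) : ¬ G ≤ subalgebraNormalizer K := fun e => by
  have := h.nonempty
  have h1 := hK.finrank_eq
  rw [h.eq_bot_of_fld (fld_of_fs hK) fun g hg x hx => (e hg x).1 hx, Subalgebra.finrank_bot] at h1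
  exact hr.one_lt.ne h1

theorem not_le_tensor (h : QS G p f) {k l : ℕ} (hk : 2 ≤ k) (hl : 2 ≤ l) (e : ι ≃ Fin k × Fin l)
    (P : GL ι F) : ¬ G ≤ tensorProductSubgroup k l e P := fun hG => by
  wlog hkl : k ≤ l generalizing k l
  · exact this hl hk _ (hG.trans (tensor_swap e P)) (by omega)
  have h1 := h.cover ((tpG e P).toMonoidHom.comp (kronG _ _ F)) (MonoidHom.fst _ _) (fun g hg =>
    let ⟨a, b, e⟩ := mem_tensor_iff.1 (hG hg); ⟨(a, b), e.symm⟩) fun hd => by
      obtain ⟨m, h2, h3⟩ := card_GL_eq (F := F) k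
      obtain ⟨d, h4, h5, h6⟩ := h.exists_card
      rw [h3, h6, ← pow_mul] at hd
      have h7 := (Nat.pow_dvd_pow_iff_le_right h.prime.one_lt).1 (Nat.Coprime.dvd_of_dvd_mul_right
        (Nat.Coprime.pow_left _ ((h6 ▸ h2).coprime_dvd_right (dvd_pow_self _ h4.ne')).symm) hd)
      have h8 : k.choose 2 * 2 = k * (k - 1) := by
        rw [← Finset.sum_range_id_mul_two, Nat.choose_two_right, Finset.sum_range_id]
      have h9 : Fintype.card ι = k * l := by simp [Fintype.card_congr e]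
      have : k * (k - 1) < k * l := Nat.mul_lt_mul_of_pos_left (by omega) (by omega)
      have := h.pos
      nlinarith
  let a : Fin k := ⟨0, by omega⟩
  let b : Fin k := ⟨1, by omega⟩
  obtain ⟨c, hc⟩ := scalar_of_env h.span (z := tp e P (single a b (1 : F) ⊗ₖ 1)) fun g hg => by
    obtain ⟨⟨x, y⟩, (rfl : x = 1), rfl⟩ := h1 hg
    change _ * tp e P (_ ⊗ₖ _) = tp e P (_ ⊗ₖ _) * _
    simp only [← map_mul, ← mul_kronecker_mul, Units.val_one, mul_one, one_mul]
  simpa [a, b] using congrFun (congrFun (tp_eq_smul hc) (a, ⟨0, by omega⟩)) (b, ⟨0, by omega⟩)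

theorem alg (h : QS G p f) {A : Subalgebra F (Matrix ι ι F)} (hA : Nz G A) : A = ⊥ ∨ A = ⊤ := by
  have := h.nonempty
  by_contra hc
  rcases h.irr.comm_or_tensor hA (not_or.1 hc).1 (not_or.1 hc).2 with h1 | ⟨k, l, e, P, hk, hl, h1, -⟩
  · rcases h.irr.fld_or_idem hA.center fun x hx y hy => (hx.2 y hy.1).symm with h2 | ⟨t, e, h2⟩
    · exact h1 (h.eq_bot_of_fld h2 hA.center)
    · exact h2.decomp.1.elim fun m hm => h.not_le_decomp hm h2.decomp.2
  · exact h.not_le_tensor hk hl e P h1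

theorem not_le_wreath (h : QS G p f) {k t : ℕ} (hk : 2 ≤ k) (ht : 2 ≤ t) (e : ι ≃ (Fin t → Fin k))
    (P : GL ι F) : ¬ G ≤ tensorWreathSubgroup k t e P := fun hG => by
  let S : Fin t → Set (Matrix ι ι F) := fun i => Set.range fun X => tp e P (ptens (Pi.mulSingle i X))
  have h1 := h.fix (fun g => Set.image (cj g)) (fun x => by simp)
    (fun a b x => by simp only [cj_mul, Set.image_image]) (Set.finite_range S)
    ((ncard_range_le S).trans (by simpa [Fintype.card_congr e] using (Nat.lt_pow_self hk).le)) (by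
    rintro g hg _ ⟨i, rfl⟩
    obtain ⟨s, a, rfl⟩ := mem_wreath_iff (hG hg)
    refine ⟨s i, ?_⟩
    simp only [S, ← Set.range_comp, Function.comp_def, cj_tpG, cj_wreath_single]
    exact ((cj (a i)).surjective.range_comp fun X => tp e P (ptens (Pi.mulSingle (s i) X))).symm)
  let i : Fin t := ⟨0, by omega⟩
  let j : Fin t := ⟨1, by omega⟩
  have hab : (⟨0, by omega⟩ : Fin k) ≠ ⟨1, by omega⟩ := by simp
  rcases h.alg (Nz.centralizer (S := S i) fun g hg x hx => (h1 g hg _ ⟨i, rfl⟩).le ⟨x, hx, rfl⟩)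
    with h2 | h2
  · obtain ⟨c, hc⟩ := Algebra.mem_bot.1 (h2.le (show tp e P (ptens (Pi.mulSingle j
      (single ⟨0, by omega⟩ ⟨1, by omega⟩ 1))) ∈ _ from by
        rintro _ ⟨X, rfl⟩
        rw [← map_mul, ← map_mul, ptens_comm (by simp [i, j])]))
    exact ptens_mulSingle j hab c (tp_eq_smul (hc.symm.trans (Algebra.algebraMap_eq_smul_one c)))
  · obtain ⟨c, hc⟩ := scalar_of_comm fun x => h2.ge (Algebra.mem_top (x := x)) _ ⟨single _ _ 1, rfl⟩
    exact ptens_mulSingle i hab c (tp_eq_smul hc)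

theorem not_le_scalars (h : QS G p f) : ¬ G ≤ scalars ι F := As.not_le_scalars h.irr h.two_le

theorem not_le_normalizer (h : QS G p f) {R : Subgroup (GL ι F)} (h1 : Nm R G) (h2 : Nm G R)
    (h3 : env F R = ⊤) (h4 : Group.IsSolvable R) : False := by
  have := h.nonempty
  rcases h.normal (G ⊓ R) inf_le_left ((Nm.self G).inf h2) with e | e
  · have h5 := comm_comm_eq_bot ((le_inf (comm_le_left h1)
      (Subgroup.commutator_comm G R ▸ comm_le_left h2)).trans e)
    rw [h.perfect, Subgroup.commutator_eq_bot_iff_le_centralizer] at h5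
    refine h.not_le_scalars fun g hg => ?_
    obtain ⟨_, hc⟩ := scalar_of_env h3 (z := g) fun x hx => congrArg Units.val (h5 hg x hx).symm
    exact mem_scalars_of_eq hc
  · have := solvable_of_solvable_injective (Subgroup.inclusion_injective (inf_eq_left.1 e))
    have h6 : Nontrivial G := (Subgroup.nontrivial_iff_ne_bot G).2 fun e =>
      h.not_le_scalars (e ▸ bot_le)
    exact (IsSolvable.commutator_lt_top_of_nontrivial G).ne (commutator_eq_top_iff_subtype.2 h.perfect)

theorem not_le_subfield (h : QS G p f) {F₀ : Subfield F} (P : GL ι F)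
    (h1 : ∃ g ∈ G, (g : Matrix ι ι F).trace ∉ F₀) : ¬ G ≤ subfieldSubgroup F₀ P := fun e =>
  let ⟨_, a, b⟩ := h1; b (trace_cj P⁻¹ _ ▸ trace_mem_of_Ov (mem_Ov_of_perfect h.perfect e a))

end QS

theorem normal_of_simple [Nonempty ι] {G : Subgroup (GL ι F)} {X : Type*} [Group X] (e : X ≃* G)
    (h1 : commutator X = ⊤) (h2 : IsSimpleGroup (X ⧸ Subgroup.center X)) (h3 : env F G = ⊤) :
    ⁅G, G⁆ = G ∧ ∀ N ≤ G, Nm G N → N ≤ scalars ι F ∨ N = G := by
  have hp := commutator_eq_top_equiv e.symm h1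
  have := (quotCenterEquiv e).symm.isSimpleGroup
  refine ⟨commutator_eq_top_iff_subtype.1 hp, fun N hN hm => ?_⟩
  have : (N.subgroupOf G).Normal := ⟨fun x hx g => hm g g.2 x hx⟩
  refine (normal_le_center_or_top hp (N.subgroupOf G)).imp (fun a x hx => ?_) fun a =>
    le_antisymm hN (Subgroup.subgroupOf_eq_top.1 a)
  obtain ⟨c, hc⟩ := scalar_of_env h3 (z := x) fun y hy => congrArg (fun a : G => (a.1 : Matrix ι ι F))
    (Subgroup.mem_center_iff.1 (a (x := ⟨x, hN hx⟩) hx) ⟨y, hy⟩).symm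
  exact mem_scalars_of_eq hc

theorem eq_inf_of_max {X : Type*} [Group X] {G H M : Subgroup X} (h : IsMaximalIn G H) (h1 : H ≤ M)
    (h2 : ¬ G ≤ M) : H = M ⊓ G :=
  ((h.2 _ (le_inf h1 h.1.le) inf_le_right).resolve_right fun e => h2 (inf_eq_right.1 e)).symm

theorem ne_top_of_card {F : Type u} [Field F] [Fintype F] {F₀ : Subfield F} {r : ℕ} (hr : r.Prime)
    (h : Fintype.card F = Nat.card F₀ ^ r) : F₀ ≠ ⊤ := by
  rintro rfl
  rw [Nat.card_congr Subfield.topEquiv.toEquiv, Nat.card_eq_fintype_card] at h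
  exact hr.one_lt.ne' (Nat.pow_right_injective Fintype.one_lt_card (h.symm.trans (pow_one _).symm))

end CfsgH5.As
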