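import Cfsg.Agent.H5.Ch6

set_option autoImplicit false

/-!
Matrix representations of Chevalley groups, part 7: the outer automorphism group of `D₄(q)`.
-/

namespace CfsgH5.Ch

open Cfsg.Lie CfsgH6 Au

variable {D : ChevalleyDatum} {F : Type*} [Field F] [Finite F]

theorem umap_one (u : Fˣ) : Units.map ((1 : RingAut F) : F →* F) u = u := rfl

theorem exists_sq_map (σ : RingAut F) (u : Fˣ) : ∃ w : Fˣ, Units.map (σ : F →* F) u = w ^ 2 * u := by
  obtain ⟨w, hw⟩ := sqc_eq_one.1 (show sqc (σ u * u : F) = 1 by rw [sqc_mul (by simp) (by simp), sqc_aut]; simp)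
  have : w ≠ 0 := by rintro rfl; simp at hw
  exact ⟨Units.mk0 w this / u, Units.ext (by simp; field_simp; rw [pow_two, ← hw])⟩

theorem exists_gr {π : Equiv.Perm (Fin chevD4.rank)} (h : π ∈ (goodD4.aperm F).range) :
    ∃ γ, goodD4.aperm F γ = π ∧ Ac goodD4 γ 1 1 := by
  obtain ⟨γ, a, b⟩ := (autD4.1 π h).2
  exact ⟨⟨γ, a⟩, ac_of fun i t => by simpa [lenD4.graphExp_eq] using (b i t).1⟩

theorem exists_ac (θ : goodD4.AA F) : ∃ c σ, Ac goodD4 θ c σ := by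
  obtain ⟨γ, a, b⟩ := exists_gr ⟨θ, rfl⟩
  obtain ⟨c, σ, h⟩ := goodD4.exists_diag_field connD4' (θ * γ⁻¹) (by simp [a])
  obtain rfl : θ = dg _ c * fd _ σ * γ := eq_mul_of_mul_inv_eq (Subtype.ext h)
  exact ⟨_, _, ((ac_dg _ c).2.mul (ac_fd _ σ).2).mul b⟩

theorem dg_sq (c : Fin chevD4.rank → Fˣ) : toOut _ (dg goodD4 (c ^ 2)).1 = 1 :=
  (inn_iff _).2 ⟨pw Fˣ (Matrix.of fun i j : Fin chevD4.rank =>
    ([[2, 2, 1, 1], [2, 4, 2, 2], [1, 2, 2, 1], [1, 2, 1, 2]].getD i []).getD j 0) c, congrArg goodD4.diagAut (funext fun i => by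
      rw [← pw_mul, show _ * cartanM chevD4 = Matrix.diagonal fun _ => 2 by decide +kernel, pw_diagonal]; simp)⟩

theorem pw_leaf (d : Fin chevD4.rank → Fˣ) {i : Fin chevD4.rank} (h : i ≠ ⟨1, by decide⟩) :
    pw Fˣ (cartanM chevD4) d i = d i ^ 2 * (d ⟨1, by decide⟩)⁻¹ := by
  have := (by decide +kernel : ∀ i j : Fin chevD4.rank, i ≠ ⟨1, by decide⟩ →
    cartanM chevD4 j i = if j = i then 2 else if j = ⟨1, by decide⟩ then -1 else 0) i
  rw [pw_apply, Finset.prod_eq_mul i _ h (fun j _ k => by simp [this j h, k]) (by simp) (by simp)]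
  simp [this _ h, h.symm]

theorem out_surj (x : Cfsg.Out (D.group F)) (G : Good D) : ∃ θ : G.AA F, toOut _ θ.1 = x :=
  Twist.out_surjective (G.tw0_G1 F) (G.gl_R3 F) x

theorem out_eq {G : Good D} {θ θ' : G.AA F} (h : toOut _ θ.1 = toOut _ θ'.1) :
    ∃ d, θ' = θ * dg G (pw Fˣ (cartanM D) d) :=
  ((inn_iff G (θ := θ⁻¹ * θ')).1 (by rw [Subgroup.coe_mul, map_mul, ← h, Subgroup.coe_inv, map_inv, inv_mul_cancel])).imp fun _ k => eq_mul_of_inv_mul_eq (Subtype.ext k)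

/-- the three end nodes -/
def leaf : Fin 3 ≃ {i : Fin chevD4.rank // i ≠ ⟨1, by decide⟩} where
  toFun i := ⟨⟨if i.1 = 0 then 0 else i + 1, by revert i; decide⟩, by revert i; decide⟩
  invFun i := ⟨i.1 - 1, by revert i; decide⟩
  left_inv := by decide
  right_inv := by decide

theorem out_D4 {p f n : ℕ} [Fintype F] [Fact p.Prime] (hF : Fintype.card F = p ^ f)
    (hn : p = 2 ∧ n = 3 ∨ p ≠ 2 ∧ n = 4) :
    Nonempty (Cfsg.Out (chevD4.group F) ≃* Equiv.Perm (Fin n) × Multiplicative (ZMod f)) := by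
  obtain ⟨fs, h1⟩ := exists_hom_of_rel (fun (x : Cfsg.Out (chevD4.group F)) σ => ∃ θ c, toOut _ θ.1 = x ∧ Ac goodD4 θ c σ)
    (fun x => let ⟨θ, a⟩ := out_surj x goodD4; let ⟨c, σ, b⟩ := exists_ac θ; ⟨σ, θ, c, a, b⟩)
    (fun _ _ _ ⟨θ, c, a, b⟩ ⟨θ', c', a', b'⟩ => by
      obtain ⟨d, rfl⟩ := out_eq (a.trans a'.symm)
      simpa using ((b.mul (ac_dg _ _).2).unique b').2)
    fun _ _ _ _ ⟨θ, c, a, b⟩ ⟨θ', c', a', b'⟩ => ⟨θ * θ', _, by rw [Subgroup.coe_mul, map_mul, a, a'], b.mul b'⟩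
  replace h1 : ∀ {θ c σ}, Ac goodD4 θ c σ → fs (toOut _ θ.1) = σ := fun h => (h1 _ _).2 ⟨_, _, rfl, h⟩
  obtain ⟨ap, h2⟩ := exists_hom_of_rel (fun (x : Cfsg.Out (chevD4.group F)) π => ∃ θ, toOut _ θ.1 = x ∧
      goodD4.aperm F θ = π) (fun x => let ⟨θ, a⟩ := out_surj x goodD4; ⟨_, θ, a, rfl⟩)
    (fun _ _ _ ⟨θ, a, b⟩ ⟨θ', a', b'⟩ => by
      obtain ⟨d, rfl⟩ := out_eq (a.trans a'.symm)
      simpa [b, (ac_dg _ _).1] using b')
    fun _ _ _ _ ⟨θ, a, b⟩ ⟨θ', a', b'⟩ => ⟨θ * θ', by rw [Subgroup.coe_mul, map_mul, a, a'], by simp [b, b']⟩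
  replace h2 : ∀ θ, ap (toOut _ θ.1) = goodD4.aperm F θ := fun θ => (h2 _ _).2 ⟨_, rfl, rfl⟩
  obtain ⟨ε, h3⟩ := exists_hom_of_rel (fun (π : (goodD4.aperm F).range) (x : fs.ker) => ∃ γ,
      goodD4.aperm F γ = π ∧ Ac goodD4 γ 1 1 ∧ toOut _ γ.1 = x)
    (fun π => let ⟨γ, a, b⟩ := exists_gr π.2; ⟨⟨_, h1 b⟩, γ, a, b, rfl⟩)
    (fun _ _ _ ⟨θ, a, b, c⟩ ⟨θ', a', b', c'⟩ => Subtype.ext (by rw [← c, ← c', b.ext b' (a.trans a'.symm)]))
    fun _ _ _ _ ⟨θ, a, b, c⟩ ⟨θ', a', b', c'⟩ => ⟨θ * θ', by simp [a, a'], by convert b.mul b' using 1 <;> ext <;> simp [umap_one],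
      by rw [Subgroup.coe_mul, map_mul, c, c']; rfl⟩
  replace h3 := fun π => (h3 π _).1 rfl
  have h4 : ∀ π, ap (ε π) = π := fun π => let ⟨γ, a, _, c⟩ := h3 π; by rw [← c, h2, a]
  have h5 : Function.Injective ε := fun a b e => Subtype.ext (by rw [← h4, e, h4])
  have s : Function.Surjective fs := fun σ => ⟨_, h1 (ac_fd _ σ).2⟩
  have c := card_eq_card_mul_ker fs s
  have n0 : 0 < Nat.card (RingAut F) := Nat.card_pos
  have c' : Nat.card fs.ker = 6 * Nat.gcd 2 (Nat.card Fˣ) ^ 2 := by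
    rw [goodD4.card_out connD4', autD4.2, card_ker_D4, mul_comm] at c
    exact (Nat.eq_of_mul_eq_mul_left n0 c).symm
  have : Finite (Cfsg.Out (chevD4.group F)) := Nat.finite_of_card_ne_zero (by rw [c, c']; positivity)
  obtain ⟨φ, -, f2, -⟩ := exists_frob hF
  obtain ⟨ψ⟩ := Oe.prod_equiv fs.ker.subtype fs.ker.subtype_injective (y := toOut _ (fd goodD4 φ).1) (n := f)
    (by
      rw [← f2]
      exact orderOf_injective ((toOut _).comp (goodD4.fieldAut F)) ((injective_iff_map_eq_one _).2 fun _ => fd_inj _) φ)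
    (fun x => by
      obtain ⟨θ, a⟩ := out_surj x.1 goodD4
      obtain ⟨c, σ, b⟩ := exists_ac θ
      obtain rfl : σ = 1 := (h1 b).symm.trans (a ▸ x.2)
      choose w hw using fun i => exists_sq_map φ (c i)
      have := ((ac_fd _ φ).2.mul b).ext (θ' := θ * dg _ (w ^ 2) * fd _ φ)
        (by convert (b.mul (ac_dg _ (w ^ 2)).2).mul (ac_fd _ φ).2 using 1 <;> ext <;>
          simp [hw, mul_comm, (ac_dg _ _).1, (ac_fd _ _).1, umap_one])
        (by simp [(ac_dg _ _).1, (ac_fd _ _).1])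
      have := congrArg (fun θ => toOut _ θ.1) this
      simp only [Subgroup.coe_mul, map_mul, dg_sq, mul_one, a] at this
      exact this.symm)
    (by
      rintro x ⟨i, k⟩
      have := x.2
      change toOut _ (goodD4.fieldAut F φ) ^ i = x.1 at k
      rw [← map_zpow, ← map_zpow] at k
      rw [MonoidHom.mem_ker, ← k] at this
      rw [(h1 (ac_fd _ _).2).symm.trans this, map_one, map_one] at k
      exact Subtype.ext k.symm)
    (by rw [c, mul_comm, Au.card_ringAut hF])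
  suffices Nonempty (fs.ker ≃* Equiv.Perm (Fin n)) from
    ⟨ψ.trans (this.some.prodCongr (MulEquiv.refl _))⟩
  rw [Nat.card_units, Nat.card_eq_fintype_card (α := F), hF] at c'
  have f0 : f ≠ 0 := by rintro rfl; exact Fintype.one_lt_card.ne' hF
  obtain ⟨h, rfl⟩ | ⟨h, rfl⟩ := hn
  · rw [h, show Nat.gcd 2 (2 ^ f - 1) = 1 from Nat.coprime_two_left.2 (Nat.Even.sub_odd Nat.one_le_two_pow
      (Nat.even_pow.2 ⟨even_two, f0⟩) odd_one)] at c'
    let χ : Equiv.Perm (Fin 3) →* Equiv.Perm (Fin chevD4.rank) := Equiv.Perm.extendDomainHom leaf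
    have i : Function.Injective χ := Equiv.Perm.extendDomainHom_injective _
    have : (goodD4.aperm F).range = χ.range := Subgroup.eq_of_le_of_card_ge
      (fun π h => (by unfold ChevalleyDatum.IsDiagramSymmetry; decide +kernel : ∀ π, chevD4.IsDiagramSymmetry π →
        ∃ ρ, Equiv.Perm.extendDomain ρ leaf = π) π (autD4.1 π h).1)
      (by rw [autD4.2, ← Nat.card_congr (MonoidHom.ofInjective i).toEquiv]
          simp [Fintype.card_perm, Nat.factorial])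
    exact ⟨(MulEquiv.ofBijective ε (h5.bijective_of_nat_card_le (by rw [c', autD4.2]; simp))).symm.trans
      ((MulEquiv.subgroupCongr this).trans (MonoidHom.ofInjective i).symm)⟩
  have ho : Odd (Fintype.card F) := hF ▸ ((Fact.out : p.Prime).odd_of_ne_two h).pow
  rw [Nat.gcd_eq_left (hF ▸ (Nat.Odd.sub_odd ho odd_one).two_dvd)] at c'
  refine perm_iso ε.range ?_ (eq_bot_iff.2 fun x hx => ?_) c'
  · have := ε.range.index_mul_card
    rw [← Nat.card_congr (MonoidHom.ofInjective h5).toEquiv, autD4.2, c'] at this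
    omega
  obtain ⟨π, rfl⟩ := ε.range.normalCore_le hx
  by_contra e
  obtain ⟨i, k, i1, k1, a1, a2, a3⟩ := (by unfold ChevalleyDatum.IsDiagramSymmetry; decide +kernel :
    ∀ π, chevD4.IsDiagramSymmetry π → π ≠ 1 → ∃ i k, i ≠ ⟨1, by decide⟩ ∧ k ≠ ⟨1, by decide⟩ ∧ π i ≠ i ∧ k ≠ i ∧ k ≠ π i)
    π.1 (autD4.1 _ π.2).1 fun z => e (by rw [show π = 1 from Subtype.ext z, map_one]; exact one_mem _)
  obtain ⟨κ, k0, k2⟩ := exists_nonsq (two_ne_of_odd ho)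
  obtain ⟨π', l⟩ := hx ⟨_, h1 (ac_dg _ (Pi.mulSingle (π.1 i) (Units.mk0 κ k0))).2⟩
  obtain rfl : π' = π := Subtype.ext (by
    rw [← h4, l]; simp only [Subgroup.coe_mul, Subgroup.coe_inv, map_mul, map_inv, h4, h2, (ac_dg _ _).1]; simp)
  obtain ⟨γ, b1, b2, b3⟩ := h3 π'
  obtain ⟨d, hd⟩ := out_eq (θ := γ * dg _ (Pi.mulSingle (π'.1 i) (Units.mk0 κ k0)))
    (θ' := dg _ (Pi.mulSingle (π'.1 i) (Units.mk0 κ k0)) * γ) (by
      rw [Subgroup.coe_mul, Subgroup.coe_mul, map_mul, map_mul, b3]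
      exact congrArg Subtype.val (eq_mul_inv_iff_mul_eq.1 l))
  have := (((ac_dg _ _).2.mul b2).unique (hd ▸ (b2.mul (ac_dg _ _).2).mul (ac_dg _ _).2)).1
  have t1 := congrFun this i
  have t2 := congrFun this k
  simp [b1, (ac_dg _ _).1, a1.symm, a2, a3, pw_leaf _ i1, pw_leaf _ k1, umap_one] at t1 t2
  rw [show (d ⟨1, _⟩)⁻¹ = (d k ^ 2)⁻¹ from eq_inv_of_mul_eq_one_right t2.symm, ← div_eq_mul_inv, ← div_pow, pow_two] at t1
  exact sqc_eq_neg.1 k2 ⟨_, congrArg Units.val t1⟩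

end CfsgH5.Ch
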