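import Cfsg.Agent.H5.Ch7
import Cfsg.Agent.H5.Oe11

set_option autoImplicit false

/-!
Matrix representations of Chevalley groups, part 8: the inner-diagonal automorphisms of `D₄(q)`.
-/

namespace CfsgH5.Ch

open Cfsg.Lie CfsgH6 Au Au.Γ Oe CForm Fm

universe u

variable {F : Type u} [Field F] [Finite F] {m : ℕ}

theorem exists_dsim (h : 3 ≤ m) (w : Fin m ⊕ Fin m → Fˣ) (μ : Fˣ) (hw : ∀ a, w a * w a.swap = μ) :
    ∃ g : GO (ofQuad (plusQ F m)), (∀ v a, g.1 v a = w a * v a) ∧ (evP F h).dk g = 1 ∧ (evP F h).sq g = sqc (μ : F) := by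
  let g : (Fin m ⊕ Fin m → F) ≃ₗ[F] (Fin m ⊕ Fin m → F) :=
    LinearEquiv.piCongrRight fun a => LinearEquiv.smulOfUnit (w a)
  have k : ∀ v a, g v a = w a * v a := fun v a => rfl
  have s : IsSim (ofQuad (plusQ F m)) (lin g) μ := isSim_lin' μ.ne_zero fun v => by
    simp only [ofQuad_Q, plusQ_coe, Cfsg.quadFormPlus, k, Finset.mul_sum]
    exact Finset.sum_congr rfl fun i _ => by rw [← hw (.inl i)]; simp; ring
  refine ⟨⟨g, _, s⟩, k, ?_, by rw [EV.sq_apply, EV.mu_eq _ s]⟩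
  rw [← (evP F h).par_gs (plusQ_isPlus m)]
  exact (evP F h).par_of_inv _ ⟨TS_U0 m, finrank_U0 m⟩ fun v hv => mem_U0.2 fun i => by simp [k, mem_U0.1 hv i]

variable {S : Type*} [Group S] (e : S ≃* (ofQuad (plusQ F 4)).E) {φ : chevD4.group F ≃* S ⧸ Subgroup.center S}
  (hφ : ∀ r t s, (e s).1 = okD4.x r t → φ ((goodD4.grp F).x r t) = QuotientGroup.mk s)
include hφ

theorem Ψ_x (θ : Sim (ofQuad (plusQ F 4)) cm_orth) {r r' : Fin chevD4.nroots} {t t' : F}
    (h : ∀ v, okD4.x r' t' (θ.1 v) = θ.1 (okD4.x r t v)) :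
    (MulAut.congr φ).symm (ΨS cm_orth e θ) ((goodD4.grp F).x r t) = (goodD4.grp F).x r' t' := by
  have m : ∀ r t, okD4.x r t ∈ (ofQuad (plusQ F 4)).E := fun r t => (xD4_eich r t).1.mem_E
  change φ.symm (ΨS cm_orth e θ (φ _)) = _
  rw [hφ r t (e.symm ⟨_, m r t⟩) (by simp), MulEquiv.symm_apply_eq, hφ r' t' (e.symm ⟨_, m r' t'⟩) (by simp)]
  exact Ψ_mk _ _ (by simpa using h)

theorem π_diag {g : GO (ofQuad (plusQ F 4))} {w : Fin 4 ⊕ Fin 4 → Fˣ} {μ : Fˣ} (hw : ∀ a, w a * w a.swap = μ)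
    (hg : ∀ v a, g.1 v a = w a * v a) : πS cm_orth e g = MulAut.congr φ (goodD4.diagAut fun i =>
      w (tD4 (goodD4.sm i)).1 * w (tD4 (goodD4.sm i)).2 / μ) := by
  have k : ∀ r t, (MulAut.congr φ).symm (πS cm_orth e g) ((goodD4.grp F).x r t) =
      (goodD4.grp F).x r ((w (tD4 r).1 * w (tD4 r).2 / μ : Fˣ) * t) := fun r t =>
    Ψ_x e hφ (gs g) fun v => funext fun a => by
      have p := congrArg Units.val (hw (tD4 r).1)
      have q := congrArg Units.val (hw (tD4 r).2)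
      simp only [gs_coe, lin_apply, xD4_apply, hg, Pi.sub_apply, Pi.add_apply, Pi.single_apply, Units.val_mul,
        Units.val_div_eq_div_val] at p q ⊢
      split_ifs with a b b <;> (try subst a) <;> (try subst b) <;> field_simp <;> grind
  refine (MulEquiv.symm_apply_eq _).1 (goodD4.autm_ext (fun i t => by rw [k, goodD4.diagAut_x, goodD4.chr_sm])
    fun i t => ?_)
  rw [k, goodD4.diagAut_x, goodD4.chr_rev, goodD4.chr_sm, (by decide +kernel : ∀ i, tD4 (goodD4.sm i).rev =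
    ((tD4 (goodD4.sm i)).2.swap, (tD4 (goodD4.sm i)).1.swap)) i, eq_inv_mul_of_mul_eq (hw _),
    eq_inv_mul_of_mul_eq (hw (tD4 _).1)]
  congr 3
  simp [div_eq_mul_inv, mul_comm, mul_left_comm, mul_assoc]

theorem DI_iff {δ : MulAut (S ⧸ Subgroup.center S)} : δ ∈ (evP F (by omega : 3 ≤ 4)).dk.ker.map (πS cm_orth e) ↔
    ∃ c, toOut _ δ = outCongr φ (toOut _ (goodD4.diagAut c)) := by
  have E := evP F (by omega : 3 ≤ 4)
  constructor
  · rintro ⟨g, hg, rfl⟩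
    by_cases h2 : (2 : F) = 0
    · exact ⟨1, by simpa using (E.inn_iff_of e (.inl h2) g).2 ⟨hg, E.sq_two h2 g⟩⟩
    obtain ⟨t, t1, t2, t3⟩ := exists_dsim (by omega : 3 ≤ 4) (Sum.elim 1 fun _ => E.mu g) (E.mu g) (by simp)
    obtain ⟨c, s, k, s1⟩ := (E.so_iff (g * t⁻¹)).1
      ⟨by simp [t2, MonoidHom.mem_ker.1 hg], by rw [map_mul, map_inv, t3, E.sq_apply, mul_inv_cancel]⟩
    obtain ⟨l, l0, l1⟩ : ∃ l : F, l ≠ 0 ∧ sqc l = E.sn s :=
      (Int.units_eq_one_or (E.sn s)).elim (fun k => ⟨1, one_ne_zero, by simp [k]⟩) fun k => k ▸ exists_nonsq h2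
    obtain ⟨u, u1, u2, u3, u4⟩ := exists_diag (by omega : 3 ≤ 4) ![l, 1, 1, 1] (by simp [Fin.forall_fin_succ, l0])
    have a := π_diag e hφ (g := iso u) (μ := 1) (w := Sum.elim ![Units.mk0 l l0, 1, 1, 1] ![(Units.mk0 l l0)⁻¹, 1, 1, 1])
      (by simp [Fin.forall_fin_succ]) (by simp [Fin.forall_fin_succ, u1, u2])
    have b := π_diag e hφ (μ := E.mu g) (by simp) t1
    have c : toOut _ (πS cm_orth e (g * t⁻¹ * (iso u)⁻¹)) = 1 := (QuotientGroup.eq_one_iff _).2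
      ((E.inn_iff e _).2 ⟨c, s * u⁻¹, by simp [k, mul_assoc], by simp [s1, u3], by simp [u4, Fin.prod_univ_four, l1]⟩)
    obtain ⟨x, a⟩ : ∃ x, πS cm_orth e (iso u) = MulAut.congr φ (goodD4.diagAut x) := ⟨_, a⟩
    obtain ⟨y, b⟩ : ∃ x, πS cm_orth e t = MulAut.congr φ (goodD4.diagAut x) := ⟨_, b⟩
    refine ⟨x * y, ?_⟩
    rw [map_mul, map_mul, map_mul, outCongr_mk, outCongr_mk, ← a, ← b]
    simpa only [map_mul, map_inv, mul_inv_eq_iff_eq_mul, one_mul] using c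
  · rintro ⟨c, hc⟩
    let a : Fin 4 → Fˣ := fun i => c i
    let w : Fin 4 → Fˣ := ![a 0 * a 1 * a 2, a 1 * a 2, a 2, 1]
    have hw : ∀ b : Fin 4 ⊕ Fin 4, Sum.elim w (fun i => a 2 / a 3 / w i) b *
      Sum.elim w (fun i => a 2 / a 3 / w i) b.swap = a 2 / a 3 := by simp
    obtain ⟨t, t1, t2, -⟩ := exists_dsim (by omega : 3 ≤ 4) _ _ hw
    have k := π_diag e hφ hw t1
    rw [show (fun i => _) = c from funext fun i => ?_] at k
    · rw [outCongr_mk, ← k] at hc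
      rw [← mul_inv_cancel_left (πS cm_orth e t) δ]
      exact mul_mem ⟨t, t2, rfl⟩ (E.inn_le_DI e (QuotientGroup.eq.1 hc.symm))
    rw [(by decide +kernel : ∀ i : Fin 4, tD4 (goodD4.sm i) = ![(.inl 0, .inr 1), (.inl 1, .inr 2), (.inl 2, .inr 3),
      (.inl 2, .inl 3)] i) i]
    change _ = a i
    revert i
    change ∀ i : Fin 4, _
    simp [w, Fin.forall_fin_succ, Units.ext_iff]
    refine ⟨?_, ?_⟩ <;> field_simp

omit hφ in
theorem DI_normal4 : ((evP F (by omega : 3 ≤ 4)).dk.ker.map (πS cm_orth e)).Normal := by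
  obtain ⟨φ, hφ⟩ := exists_iso_D4 e
  refine ⟨fun δ k α => ?_⟩
  obtain ⟨c, hc⟩ := (DI_iff e hφ).1 k
  obtain ⟨θ, a⟩ := out_surj ((outCongr φ).symm (toOut _ α)) goodD4
  obtain ⟨c', b⟩ := goodD4.diag_normal.1 (dg _ c) ⟨c, rfl⟩ θ
  refine (DI_iff e hφ).2 ⟨c', ?_⟩
  rw [b, map_mul, map_mul, map_inv, hc, ← (MulEquiv.eq_symm_apply _).1 a, ← map_inv, ← map_mul, ← map_mul, ← map_inv,
    ← map_mul, ← map_mul]
  rfl

omit hφ in
theorem DI_normal (h : 4 ≤ m) : (Cfsg.inndiagPOmegaPlus m F).Normal := by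
  rw [inndiag_plus (by omega : 3 ≤ m)]
  obtain rfl | h := h.eq_or_lt
  · exact DI_normal4 _
  · exact (evP F (by omega : 3 ≤ m)).DI_normal _ (aut_plus h)

omit hφ in
theorem split_field {F : Type u} [Field F] [Fintype F] (h : 3 ≤ m) {S : Type*} [Group S] (e : S ≃* (ofQuad (plusQ F m)).E) {σ : F ≃+* F}
    (o : orderOf σ = 2) {F₀ : Type*} [Field F₀] [Fintype F₀] (hq : Fintype.card F₀ ^ 2 = Fintype.card F)
    (ho : Odd (Fintype.card F₀)) :
    Cfsg.splitClassCount ((evP F h).dk.ker.map (πS cm_orth e)) (Cfsg.Inn _) (ΨS cm_orth e (stP m σ)) =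
      if Odd m ∧ Fintype.card F₀ % 4 = 1 then 2 else 4 := by
  have hσ : σ ≠ 1 := by rintro rfl; exact absurd (orderOf_one.symm.trans o) (by decide)
  obtain ⟨q, U⟩ := gf_UF (σ := σ) hσ (o ▸ pow_orderOf_eq_one σ)
  obtain rfl : q = Fintype.card F₀ := Nat.pow_left_injective two_ne_zero
    (U.card.symm.trans (Nat.card_eq_fintype_card.trans hq.symm))
  have h2 := two_ne_of_odd (F := F) (hq ▸ ho.pow)
  have hq' : Nat.card F₀ ^ 2 = Nat.card F := by simpa using hq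
  obtain ⟨j, hj⟩ := exists_emb σ F₀ (o ▸ hq')
  obtain ⟨x, hx⟩ : ∃ x, σ x ≠ x := by
    by_contra! c
    exact hσ (RingEquiv.ext c)
  have l0 : x - σ x ≠ 0 := sub_ne_zero.2 hx.symm
  have l1 : σ (x - σ x) = -(x - σ x) := by rw [_root_.map_sub]; simpa using U.invol x
  generalize x - σ x = l at l0 l1
  obtain ⟨t, t1, t2, t3, t4⟩ := exists_diag h (fun _ => l) fun _ => l0
  refine ((ds_std (isExt_plus j m) hj).split_even e (evP F₀ h) (evP F h) (stP m σ).2 hq' h2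
    ((sn_ng_plus (hq ▸ ho.pow) h).2 fun c => by
      have := pow_mod_four ho 2
      simp [hq, c.2] at this) t3 fun v => funext fun i => by rcases i with i | i <;> simp [t1, t2, l1]).trans ?_
  rw [t4, ← ite_not]
  refine if_congr ?_ rfl rfl
  obtain ⟨s, hs⟩ := ho
  rw [hs] at U ⊢
  have b : sqc l = -(-1) ^ s := EV.units_cast_inj h2 (by
    have := U.pow l
    rw [sqc_norm h2 U l0]
    simp only [RingHom.coe_coe, l1] at this ⊢
    rw [mul_neg, neg_pow, ← pow_two, ← pow_mul, mul_right_cancel₀ l0 (show l ^ (2 * s) * l = -1 * l by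
      rw [← pow_succ, ← this]; simp)]
    simp)
  rw [b, Finset.prod_const, Finset.card_fin]
  rcases Nat.even_or_odd s with c | c <;> rcases Nat.even_or_odd m with c' | c' <;>
    simp [c.neg_one_pow, c'.neg_one_pow, c'] <;> simp only [Nat.even_iff, Nat.odd_iff] at * <;> omega

end CfsgH5.Ch
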