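import Cfsg.Agent.H5.Nm2

set_option autoImplicit false

/-!
Maximality of stabilisers of orthogonal decompositions, part 1: generalities and the symplectic case.
-/

namespace CfsgH5.Dc

open Module Matrix Au Mx CForm Cfsg.Geo Nm

variable {F : Type*} [Field F] {P : FP F} {V : Type*} [AddCommGroup V] [Module F V] [FiniteDimensional F V]
  {f : CForm P V} {t m : ℕ} {D : Fin t → Submodule F V}

theorem mem_dS (hr : ∀ i, finrank F (D i) = m) (hi : Function.Injective D) {g : V ≃ₗ[F] V}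
    (h : ∀ i, ∃ j, ∀ v ∈ D i, g v ∈ D j) : g ∈ dS D := by
  choose s h using h
  have e : ∀ i, (D i).map g.toLinearMap = D (s i) := fun i => Submodule.eq_of_le_of_finrank_eq
    (Submodule.map_le_iff_le_comap.2 (h i)) (by rw [LinearEquiv.finrank_map_eq, hr, hr])
  exact ⟨Equiv.ofBijective s (Finite.injective_iff_bijective.1 fun i j k => hi
    (Submodule.map_injective_of_injective g.injective ((e i).trans (k ▸ (e j).symm)))), e⟩

variable (f D m) in
/-- orthogonal decompositions into isometric members -/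
structure OX : Prop where
  hf : f.Nondeg
  nd : ∀ i, D i ⊓ f.perp (D i) = ⊥
  ort : ∀ i j, i ≠ j → ∀ u ∈ D i, ∀ v ∈ D j, f.B u v = 0
  rk : ∀ i, finrank F (D i) = m
  pos : 0 < m
  two : 2 ≤ t
  sp : iSup D = ⊤
  iso : ∀ i j, ∃ g ∈ f.Isom, (D i).map g.toLinearMap = D j

theorem ox_of {ι : Type} [Fintype ι] [DecidableEq ι] {f : CForm P (ι → F)} {D : Fin t → Submodule F (ι → F)}
    (hf : f.Nondeg) (h : IsNondegenerateMDecomposition f.B m D) (hi : ∀ i j, ∃ e, (f.res (D i)).IsIso (f.res (D j)) e) :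
    OX f m D :=
  ⟨hf, fun i => nd_of_on f (h.nondegenerate i), h.orthogonal, h.decomp.finrank_eq, h.decomp.pos, h.decomp.two_le,
    h.decomp.iSup_eq_top, fun i j => by
      obtain ⟨e, a⟩ := hi i j
      obtain ⟨g, b, c⟩ := witt hf (D i) ((D j).subtype ∘ₗ e.toLinearMap) (Subtype.val_injective.comp e.injective) a.1 a.2
      refine ⟨g, b, Submodule.eq_of_le_of_finrank_eq (Submodule.map_le_iff_le_comap.2 fun v k => ?_) (by
        rw [LinearEquiv.finrank_map_eq, e.finrank_eq])⟩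
      exact Submodule.mem_comap.2 ((c ⟨v, k⟩ : g.toLinearMap v = _).symm ▸ (e ⟨v, k⟩).2)⟩

namespace OX

/-- the components -/
noncomputable def π (h : OX f m D) (i : Fin t) : V →ₗ[F] V :=
  (D i).subtype ∘ₗ (D i).linearProjOfIsCompl _ (h.hf.isCompl_perp (h.nd i))

theorem π_mem (h : OX f m D) (i : Fin t) (v : V) : h.π i v ∈ D i := Subtype.prop _

theorem π_self (h : OX f m D) {i : Fin t} {v : V} (a : v ∈ D i) : h.π i v = v :=
  congrArg Subtype.val (Submodule.linearProjOfIsCompl_apply_left (h.hf.isCompl_perp (h.nd i)) ⟨v, a⟩)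

theorem π_perp (h : OX f m D) {i : Fin t} {v : V} (a : v ∈ f.perp (D i)) : h.π i v = 0 :=
  congrArg Subtype.val (Submodule.linearProjOfIsCompl_apply_right (h.hf.isCompl_perp (h.nd i)) ⟨v, a⟩)

theorem π_ne (h : OX f m D) {i j : Fin t} (e : j ≠ i) {v : V} (a : v ∈ D j) : h.π i v = 0 :=
  h.π_perp fun w b => h.ort j i e v a w b

theorem B_π (h : OX f m D) {i : Fin t} (v : V) {w : V} (a : w ∈ D i) : f.B (h.π i v) w = f.B v w := by
  obtain ⟨x, y, rfl⟩ := exists_add_of_isCompl (h.hf.isCompl_perp (h.nd i)) v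
  simp [h.π_self x.2, h.π_perp y.2, y.2 w a]

theorem B_π' (h : OX f m D) {i : Fin t} (v : V) {w : V} (a : w ∈ D i) : f.B w (h.π i v) = f.B w v := by
  rw [f.B_symm, h.B_π v a, ← f.B_symm]

omit [FiniteDimensional F V] in
theorem eq_zero (h : OX f m D) {v : V} (a : ∀ i, ∀ w ∈ D i, f.B w v = 0) : v = 0 :=
  h.hf v fun u => (iSup_le fun i w k => a i w k : iSup D ≤ LinearMap.ker (f.left v)) (h.sp ▸ Submodule.mem_top)

theorem sum_π (h : OX f m D) (v : V) : ∑ i, h.π i v = v :=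
  sub_eq_zero.1 (h.eq_zero fun i w a => by
    rw [B_sub_right, B_sum_right, Finset.sum_eq_single i (fun j _ e => h.ort i j e.symm w a _ (h.π_mem j v)) (by simp),
      h.B_π' v a, sub_self])

theorem mem_iff (h : OX f m D) {i : Fin t} {v : V} : v ∈ D i ↔ ∀ j, j ≠ i → h.π j v = 0 :=
  ⟨fun a _ e => h.π_ne e.symm a, fun a => by
    rw [← h.sum_π v, Finset.sum_eq_single i (fun j _ e => a j e) (by simp)]; exact h.π_mem i v⟩

theorem exists_ne (h : OX f m D) (i : Fin t) : ∃ v ∈ D i, v ≠ 0 :=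
  Submodule.exists_mem_ne_zero_of_ne_bot fun e => h.pos.ne (by rw [← h.rk i, e, finrank_bot])

theorem eq_of_mem (h : OX f m D) {i j : Fin t} {v : V} (a : v ∈ D i) (b : v ∈ D j) (v0 : v ≠ 0) : i = j :=
  by_contra fun e => v0 ((h.π_self b).symm.trans (h.π_ne e a))

theorem inj (h : OX f m D) : Function.Injective D := fun i _ e =>
  let ⟨_, a, b⟩ := h.exists_ne i
  h.eq_of_mem a (e ▸ a) b

theorem two_comp (h : OX f m D) {v : V} (a : ∀ i, v ∉ D i) : ∃ i j, i ≠ j ∧ h.π i v ≠ 0 ∧ h.π j v ≠ 0 := by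
  simp only [h.mem_iff, not_forall] at a
  obtain ⟨i, -, b⟩ := a ⟨0, by have := h.two; omega⟩
  obtain ⟨j, c, d⟩ := a i
  exact ⟨i, j, Ne.symm c, b, d⟩

theorem of_union (h : OX f m D) {W : Submodule F V} (a : ∀ v ∈ W, ∃ j, v ∈ D j) : ∃ j, W ≤ D j := by
  by_cases e : W = ⊥
  · exact ⟨⟨0, by have := h.two; omega⟩, e ▸ bot_le⟩
  obtain ⟨x, b, c⟩ := Submodule.exists_mem_ne_zero_of_ne_bot e
  obtain ⟨j, d⟩ := a x b
  refine ⟨j, fun y k => by_contra fun n => ?_⟩
  obtain ⟨l, p⟩ := a y k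
  obtain ⟨r, q⟩ := a _ (add_mem b k)
  by_cases e : r = j
  · exact n (((D j).add_mem_iff_right d).1 (e ▸ q))
  · exact c (by simpa [h.π_self d, h.π_ne (by rintro rfl; exact n p : l ≠ j) p] using h.π_ne e q)

theorem mem_dS (h : OX f m D) {g : V ≃ₗ[F] V} (k : ∀ i, ∃ j, ∀ v ∈ D i, g v ∈ D j) : g ∈ dS D := Dc.mem_dS h.rk h.inj k

theorem exists_out (h : OX f m D) {g : V ≃ₗ[F] V} (k : g ∉ dS D) : ∃ i, ∃ v ∈ D i, ∀ j, g v ∉ D j := by
  by_contra! a
  exact k (h.mem_dS fun i => (h.of_union (W := (D i).map g.toLinearMap) (by rintro _ ⟨v, b, rfl⟩; exact a i v b)).imp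
    fun j b v c => b (Submodule.mem_map_of_mem c))

theorem block (h : OX f m D) (s : Equiv.Perm (Fin t)) {ψ : Fin t → V ≃ₗ[F] V} (a : ∀ i, ψ i ∈ f.Isom)
    (b : ∀ i, ∀ v ∈ D i, ψ i v ∈ D (s i)) : ∃ g ∈ f.Isom, g ∈ dS D ∧ ∀ i, ∀ v ∈ D i, g v = ψ i v := by
  let φ : V →ₗ[F] V := ∑ i, (ψ i).toLinearMap ∘ₗ h.π i
  have e : ∀ i, ∀ v ∈ D i, φ v = ψ i v := fun i v c => by
    simp only [φ, LinearMap.sum_apply]
    rw [Finset.sum_eq_single i (fun j _ e => by simp [h.π_ne e.symm c]) (by simp)]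
    simp [h.π_self c]
  have sp : ∀ v, v ∈ Submodule.span F (⋃ i, (D i : Set V)) := fun v => by
    rw [← Submodule.iSup_eq_span, h.sp]; trivial
  have hB : ∀ u ∈ ⋃ i, (D i : Set V), ∀ v ∈ ⋃ i, (D i : Set V), f.B (φ u) (φ v) = f.B u v := by
    simp only [Set.mem_iUnion]
    rintro u ⟨i, c⟩ v ⟨j, d⟩
    rw [e i u c, e j v d]
    by_cases k : i = j
    · exact k ▸ f.Isom_B (a i) u v
    · rw [h.ort i j k u c v d, h.ort _ _ (s.injective.ne k) _ (b i u c) _ (b j v d)]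
  have hB' := fun u v => B_span_of f φ hB u (sp u) v (sp v)
  let g := LinearEquiv.ofInjectiveEndo φ ((injective_iff_map_eq_zero _).2 fun v c => h.hf v fun u => by
    rw [← hB', c, B_zero_right])
  exact ⟨g, ⟨hB', fun v => Q_span_of f φ hB (by
    simp only [Set.mem_iUnion]
    rintro u ⟨i, c⟩
    rw [e i u c, f.Isom_Q (a i)]) v (sp v)⟩, h.mem_dS fun i => ⟨s i, fun v c => (e i v c).symm ▸ b i v c⟩, e⟩

theorem swap (h : OX f m D) (i j : Fin t) : ∃ g ∈ f.Isom, g ∈ dS D ∧ (D i).map g.toLinearMap = D j ∧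
    ∀ l, l ≠ i → l ≠ j → ∀ v ∈ D l, g v = v := by
  obtain ⟨s, a, b⟩ := h.iso i j
  obtain ⟨g, c, d, e⟩ := h.block (Equiv.swap i j) (ψ := fun l => if l = i then s else if l = j then s⁻¹ else 1)
    (fun l => by split_ifs; exacts [a, inv_mem a, one_mem _]) fun l v k => by
      split_ifs with x y
      · subst x; simpa [← b] using k
      · subst y
        obtain ⟨w, c, rfl⟩ := b.ge k
        simpa using c
      · simpa [Equiv.swap_apply_of_ne_of_ne x y] using k
  refine ⟨g, c, d, Submodule.eq_of_le_of_finrank_eq (Submodule.map_le_iff_le_comap.2 fun v k => ?_) (by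
    rw [LinearEquiv.finrank_map_eq, h.rk, h.rk]), fun l x y v k => by simp [e l v k, x, y]⟩
  simpa [e i v k, ← b] using k

theorem eich_mem (h : OX f m D) {g : V ≃ₗ[F] V} {x a : V} {c : F} (k : f.IsEich g x a c) {i : Fin t} (hx : x ∈ D i)
    (ha : a ∈ D i) : g ∈ dS D :=
  h.mem_dS fun j => ⟨j, fun v b => by
    by_cases e : j = i
    · exact e ▸ ((eich_stab k hx ha v).1 (e ▸ b))
    · rwa [k.fix (h.ort j i e v b x hx) (h.ort j i e v b a ha)]⟩

theorem edges (h : OX f m D) {R : Fin t → Fin t → Prop} (h1 : ∀ i j, R i j → R j i)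
    (h2 : ∀ i j p, p ≠ j → i ≠ j → R i j → R p j) {i j : Fin t} (e : i ≠ j) (k : R i j) (p r : Fin t) (e' : p ≠ r) : R p r := by
  by_cases a : r = j
  · exact a ▸ h2 i j p (a ▸ e') e k
  · exact h2 j r p e' (Ne.symm a) (h1 _ _ (h2 i j r a e k))

end OX

theorem exists_B_two {W : Submodule F V} (hW : W ⊓ f.perp W = ⊥) {a b : V} (ha : a ∈ W) (hb : b ∈ W) (a0 : a ≠ 0)
    (b0 : b ≠ 0) : ∃ w ∈ W, f.B w a ≠ 0 ∧ f.B w b ≠ 0 := by
  obtain ⟨u, u1, u2⟩ := exists_B_in hW ha a0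
  obtain ⟨v, v1, v2⟩ := exists_B_in hW hb b0
  by_cases c : f.B u b = 0
  · by_cases d : f.B v a = 0
    · exact ⟨u + v, add_mem u1 v1, by simpa [d], by simpa [c]⟩
    · exact ⟨v, v1, d, v2⟩
  · exact ⟨u, u1, u2, c⟩

theorem mi_symp [Fintype F] {f : CForm (FP.symp F) V} (h : OX f m D) (hx : ¬ (m = 2 ∧ Fintype.card F = 2)) :
    MI f.E (dS D) := by
  have ne : ∀ {u v}, f.B u v ≠ 0 → f.B v u ≠ 0 := fun a b => a (f.B_zero_symm b)
  constructor
  · intro k
    obtain ⟨i, j, e⟩ := Fin.nontrivial_iff_two_le.2 h.two |>.exists_pair_ne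
    obtain ⟨a, a1, a2⟩ := h.exists_ne i
    obtain ⟨b, b1, b2⟩ := h.exists_ne j
    obtain ⟨w, w1, w2⟩ := exists_B_in (h.nd i) a1 a2
    obtain ⟨g, hg⟩ := symp_exists_transvection (f := f) (a + b) 1
    obtain ⟨l, k⟩ := dS_map (k hg.mem_E) i
    have k := k w w1
    have c := h.ort i j e w w1 b b1
    by_cases d : l = j
    · have := h.π_ne (d ▸ e.symm) k
      simp [hg.app, c, h.π_self w1, h.π_self a1, h.π_ne e.symm b1] at this
      simpa [symp_B_self, w2, ne w2] using congrArg (f.B w) this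
    · simpa [hg.app, c, h.π_self b1, h.π_ne e a1, h.π_ne e w1, w2, b2] using h.π_ne d k
  intro K hK hK' g hg hn
  have iE := symp_Isom_eq_E h.hf
  let X (x : V) : Prop := ∀ g c, f.IsEich g x 0 c → g ∈ K
  have X1 : ∀ {i x}, x ∈ D i → X x := fun a g c b => hK ⟨h.eich_mem b a (zero_mem _), b.mem_E⟩
  have X2 : ∀ {k x}, k ∈ K → X x → X (k x) := fun a b g c d =>
    conj_eich_mem a (E_le_Isom (hK' a)) (by simpa using d) fun s => b s c
  have X3 : ∀ {x y}, X x → X y → f.B x y ≠ 0 → X (x + y) := fun {x y} a b c => by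
    obtain ⟨s, d⟩ := symp_exists_transvection (f := f) y (f.B x y)⁻¹
    simpa [d.app, c] using X2 (b _ _ d) a
  have X4 : ∀ {x}, X x → X (-x) := fun a g c b => a g c ⟨by simp [symp_Q], by simp, b.hc, fun v => by simp [b.app]⟩
  have M : ∀ {i a a' r}, a ∈ D i → a' ∈ D i → a ≠ 0 → a' ≠ 0 → r ∈ f.perp (D i) → X (a + r) → X (a' + r) := by
    intro i a a' r a1 a2 a3 a4 b c
    have M : ∀ {a a'}, a ∈ D i → a' ∈ D i → f.B a a' ≠ 0 → X (a + r) → X (a' + r) := fun {a a'} a1 a2 a3 c => by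
      convert X3 c (X1 (sub_mem a2 a1)) (by simpa [b a a1, b a' a2, symp_B_self]) using 1
      abel
    obtain ⟨w, w1, w2, w3⟩ := exists_B_two (h.nd i) a1 a2 a3 a4
    exact M w1 a2 w3 (M a1 w1 (ne w2) c)
  obtain ⟨i₀, x, x1, x2⟩ := h.exists_out hn
  obtain ⟨i, j, e, a0, b0⟩ := h.two_comp x2
  have hX := X2 hg (X1 x1)
  generalize g x = x at hX a0 b0
  have a1 := h.π_mem i x
  have b1 := h.π_mem j x
  have r1 : x - h.π i x - h.π j x ∈ f.perp (D i) := fun w k => by simp [h.B_π x k, h.ort j i e.symm _ b1 w k]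
  have r2 : x - h.π i x - h.π j x ∈ f.perp (D j) := fun w k => by simp [h.B_π x k, h.ort i j e _ a1 w k]
  rw [show x = h.π i x + (h.π j x + (x - h.π i x - h.π j x)) by abel] at hX
  generalize x - h.π i x - h.π j x = r at hX r1 r2
  generalize h.π i x = a at hX a0 a1
  generalize h.π j x = b at hX b0 b1
  have pe : ∀ {i j u}, i ≠ j → u ∈ D j → u ∈ f.perp (D i) := fun e a w b => h.ort _ _ e.symm _ a w b
  obtain ⟨a', a2, a3⟩ := exists_B_in (h.nd i) a1 a0
  obtain ⟨b', b2, b3, b4, b5⟩ : ∃ b' ∈ D j, b' ≠ 0 ∧ b ≠ b' ∧ f.B b' b = 0 := by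
    by_cases q : Fintype.card F = 2
    · obtain ⟨w, w1, w2⟩ := exists_B_in (h.nd j) b1 b0
      have : 1 < m := by
        rw [← h.rk j, ← finrank_span_singleton (K := F) b0]
        refine Submodule.finrank_lt_finrank_of_lt (lt_of_le_of_ne (by simpa) fun e => ?_)
        obtain ⟨c, rfl⟩ := Submodule.mem_span_singleton.1 (e.ge w1)
        simp [symp_B_self] at w2
      have := fr_perp h.hf (D j) (F ∙ b)
      rw [finrank_span_singleton b0, h.rk] at this
      obtain ⟨w, w1, w2⟩ := exists_not_mem (W := D j ⊓ f.perp (F ∙ b)) (U := F ∙ b) (by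
        rw [finrank_span_singleton b0]; omega)
      exact ⟨w, w1.1, fun e => w2 (e ▸ zero_mem _), fun e => w2 (e ▸ Submodule.mem_span_singleton_self _),
        mem_perp_single.1 w1.2⟩
    · obtain ⟨c, c0, c1⟩ : ∃ c : F, c ≠ 0 ∧ c ≠ 1 := by
        have := Fintype.one_lt_card (α := F)
        classical
        simpa using Finset.exists_mem_notMem_of_card_lt_card (s := {0, 1}) (t := (Finset.univ : Finset F))
          (Finset.card_le_two.trans_lt (by simp; omega))
      exact ⟨c • b, (D j).smul_mem c b1, smul_ne_zero c0 b0, fun e => c1 (smul_left_injective F b0 (by simpa using e.symm)),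
        by simp [symp_B_self]⟩
  have a4 : a' ≠ 0 := by rintro rfl; simp at a3
  have h1 := M a1 a2 a0 a4 (add_mem (pe e b1) r1) hX
  rw [add_left_comm] at h1
  have h1 := M b1 b2 b0 b3 (add_mem (pe e.symm a2) r2) h1
  have h2 : X ((a - a') + (b - b')) := by
    convert X3 hX (X4 h1) (by
      simpa [h.ort i j e a a1 b' b2, f.B_zero_symm (r1 a a1), f.B_zero_symm b5, r1 a' a2, r2 b' b2,
        h.ort j i e.symm b b1 a' a2, f.B_zero_symm (r2 b b1), symp_B_self] using ne a3) using 1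
    abel
  have ed : ∀ p r, p ≠ r → ∀ a ∈ D p, ∀ b ∈ D r, X (a + b) := by
    refine h.edges (R := fun p r => ∀ a ∈ D p, ∀ b ∈ D r, X (a + b)) (fun _ _ k a c b d => add_comm a b ▸ k b d a c)
      (fun i j p x y k a c b d => ?_) e fun u c v d => ?_
    · obtain ⟨s, s1, s2, s3, s4⟩ := h.swap i p
      obtain ⟨a, c', rfl⟩ := s3.ge c
      simpa [s4 j y.symm x.symm b d] using X2 (hK ⟨s2, iE ▸ s1⟩) (k a c' b d)
    · by_cases u0 : u = 0
      · simpa [u0] using X1 d
      by_cases v0 : v = 0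
      · simpa [v0] using X1 c
      have := M (sub_mem a1 a2) c (sub_ne_zero.2 (by rintro rfl; simp [symp_B_self] at a3)) u0 (pe e (sub_mem b1 b2)) h2
      rw [add_comm] at this ⊢
      exact M (sub_mem b1 b2) d (sub_ne_zero.2 b4) v0 (pe e.symm c) this
  have al : ∀ i (v : V) (S : Finset (Fin t)), i ∉ S → ∀ a ∈ D i, a ≠ 0 → X (a + ∑ j ∈ S, h.π j v) := fun i v S => by
    induction S using Finset.induction with
    | empty => simpa using fun a b _ => X1 b
    | insert j S n k =>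
      intro c a a1 a0
      rw [Finset.mem_insert, not_or] at c
      obtain ⟨w, w1, w2⟩ := exists_B_in (h.nd i) a1 a0
      convert X3 (k c.2 w w1 (by rintro rfl; simp at w2)) (ed i j c.1 _ (sub_mem a1 w1) _ (h.π_mem j v)) (by
        rw [B_add_left, B_sum_left, Finset.sum_eq_zero fun l d => by
          simp [h.ort l i (by rintro rfl; exact c.2 d) _ (h.π_mem l v) _ a1, h.ort l i (by rintro rfl; exact c.2 d) _
            (h.π_mem l v) _ w1, h.ort l j (by rintro rfl; exact n d) _ (h.π_mem l v) _ (h.π_mem j v)]]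
        simpa [symp_B_self, h.ort i j c.1 w w1 _ (h.π_mem j v)]) using 1
      rw [Finset.sum_insert n]; abel
  rw [← iE, symp_Isom_eq_Tr h.hf]
  refine Tr_le fun g v c => (?_ : X v) g c
  by_cases k : ∀ i, h.π i v = 0
  · exact X1 (h.mem_iff.2 fun l _ => k l : v ∈ D i)
  obtain ⟨l, k⟩ := not_forall.1 k
  have := al l v (Finset.univ.erase l) (by simp) _ (h.π_mem l v) k
  rwa [Finset.add_sum_erase _ (fun j => h.π j v) (Finset.mem_univ l), h.sum_π] at this

end CfsgH5.Dc
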