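import Cfsg.Agent.H5.Dc1

set_option autoImplicit false

/-!
Maximality of unitary field extension subgroups of orthogonal groups.
-/

namespace CfsgH5.Dc

open Module Matrix Au Mx CForm Cfsg.Geo Nm

variable {F : Type*} [Field F] {V : Type*} [AddCommGroup V] [Module F V] [FiniteDimensional F V]

theorem sing_span' {P : FP F} {f : CForm P V} (h3 : I3 f) (hf : f.Nondeg) (X : Submodule F V)
    (hd : 2 * finrank F X + 5 ≤ finrank F V) (A : AddSubgroup V)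
    (key : ∀ y, f.Q y = 0 → (∀ w ∈ X, f.B w y = 0) → y ∈ A) (v : V) (hv : ∀ w ∈ X, f.B w v = 0) : v ∈ A := by
  have := fr_line X v
  obtain ⟨x, y, h, hx, hy⟩ := h3.hyp hf (X ⊔ F ∙ v) (by omega)
  rw [perp_sup_line] at hx hy
  obtain ⟨c, hc⟩ := f.exists_t v
  have e : v = ((1 : F) • x + (-P.σ c) • y + v) - x + P.σ c • y := by module
  rw [e]
  refine A.add_mem (A.sub_mem (key _ ?_ fun w hw => ?_) (key x h.hx hx.1)) (key _ ?_ fun w hw => ?_)
  · rw [h.Q_comb _ _ hx.2 hy.2]; simp [hc]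
  · simp [hx.1 w hw, hy.1 w hw, hv w hw]
  · rw [f.Q_smul, h.hy, mul_zero]
  · simp [hy.1 w hw]

variable {f : CForm (FP.orth F) V} {j : V →ₗ[F] V} {τ ν : F}

variable (f j τ ν) in
/-- a quadratic form which is the norm of a hermitian form over `F[j]` -/
structure Hm : Prop where
  hf : f.Nondeg
  dim : 14 ≤ finrank F V
  adj : ∀ u v, f.B (j u) v = τ * f.B u v - f.B u (j v)
  sq : ∀ v, j (j v) = τ • j v - ν • v
  Qj : ∀ v, f.Q (j v) = ν * f.Q v
  Bj : ∀ v, f.B v (j v) = τ * f.Q v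
  an : ∀ a b, a ^ 2 + a * b * τ + b ^ 2 * ν = 0 → a = 0 ∧ b = 0

variable (j) in
/-- the line over the extension field -/
def El (x : V) : Submodule F V := (F ∙ x) ⊔ F ∙ j x

variable (j) in
/-- invariant subspaces -/
def Iv (U : Submodule F V) : Prop := ∀ u ∈ U, j u ∈ U

section
omit [FiniteDimensional F V]

theorem mem_El {x v : V} : v ∈ El j x ↔ ∃ a b : F, a • x + b • j x = v := by
  simp [El, Submodule.mem_sup, Submodule.mem_span_singleton]

theorem self_El (x : V) : x ∈ El j x := mem_El.2 ⟨1, 0, by simp⟩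

theorem j_El (x : V) : j x ∈ El j x := mem_El.2 ⟨0, 1, by simp⟩

theorem El_perp {x z : V} : (∀ w ∈ El j x, f.B w z = 0) ↔ f.B x z = 0 ∧ f.B (j x) z = 0 := by
  rw [El, perp_sup_line, perp_line]

theorem Iv.sup {U W : Submodule F V} (a : Iv j U) (b : Iv j W) : Iv j (U ⊔ W) := fun u k => by
  obtain ⟨x, c, y, d, rfl⟩ := Submodule.mem_sup.1 k
  exact map_add j x y ▸ Submodule.add_mem_sup (a x c) (b y d)

theorem Iv.le {U : Submodule F V} (a : Iv j U) {x : V} (b : x ∈ U) : El j x ≤ U :=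
  sup_le (by simpa) (by simpa using a x b)

namespace Hm

theorem iv (h : Hm f j τ ν) (x : V) : Iv j (El j x) := fun u k => by
  obtain ⟨a, b, rfl⟩ := mem_El.1 k
  exact mem_El.2 ⟨-(b * ν), a + b * τ, by simp only [map_add, map_smul, h.sq]; module⟩

theorem exch (h : Hm f j τ ν) {U : Submodule F V} (i : Iv j U) {v : V} {a b : F} (k : a • v + b • j v ∈ U) (n : v ∉ U) :
    a = 0 ∧ b = 0 :=
  h.an a b (by_contra fun e => n ((U.smul_mem_iff e).1 (by
    convert U.sub_mem (U.smul_mem (a + b * τ) k) (U.smul_mem b (i _ k)) using 1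
    simp only [map_add, map_smul, h.sq]; module)))

theorem exch' (h : Hm f j τ ν) {X U : Submodule F V} (i : Iv j U) (l : X ≤ U) {u w : V} (a : u ∈ U) (b : w ∉ U)
    (c : u ∉ X) : u ∉ X ⊔ El j w := fun k => by
  obtain ⟨x, d, y, e, rfl⟩ := Submodule.mem_sup.1 k
  obtain ⟨p, q, rfl⟩ := mem_El.1 e
  obtain ⟨rfl, rfl⟩ := h.exch i ((U.add_mem_iff_right (l d)).1 a) b
  exact c (by simpa)

theorem BJ (h : Hm f j τ ν) (u v : V) : f.B (j u) (j v) = ν * f.B u v := by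
  simp [h.adj u, h.sq]

theorem perp_j (h : Hm f j τ ν) {x z : V} (a : f.B x z = 0) (b : f.B (j x) z = 0) : f.B x (j z) = 0 := by
  simpa [h.adj x, a] using b

theorem Q_El (h : Hm f j τ ν) {x v : V} (a : f.Q x = 0) (b : v ∈ El j x) : f.Q v = 0 := by
  obtain ⟨p, q, rfl⟩ := mem_El.1 b
  simp [f.Q_add, f.Q_smul, h.Qj, h.Bj, a]

theorem perp_El (h : Hm f j τ ν) {x z v : V} (a : f.B x z = 0) (b : f.B (j x) z = 0) (c : v ∈ El j z) :
    f.B x v = 0 ∧ f.B (j x) v = 0 := by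
  obtain ⟨p, q, rfl⟩ := mem_El.1 c
  simp [h.perp_j a b, h.BJ, a, b]

theorem xx (h : Hm f j τ ν) {x : V} (a : f.Q x = 0) : f.B x x = 0 ∧ f.B (j x) x = 0 :=
  ⟨f.B_self_of_Q_zero a, f.B_zero_symm (by simp [h.Bj, a])⟩

theorem exists_T (h : Hm f j τ ν) {z : V} (a : f.Q z = 0) (l : F) :
    ∃ g, f.IsEich g z (l • j z) 0 ∧ ∀ v, g (j v) = j (g v) := by
  obtain ⟨g, k⟩ := exists_eich (a := l • j z) (c := 0) a (by simp [h.xx a]) (by simp [f.Q_smul, h.Qj, a])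
  refine ⟨g, k, fun v => ?_⟩
  simp only [k.app, map_add, map_sub, map_smul, B_smul_right, h.BJ, h.adj v z, h.sq, FP.orth_σ, FP.orth_ε]
  module

end Hm
end

theorem fr_El (x : V) : finrank F (El j x) ≤ 2 := by
  have := fr_line (F ∙ x) (j x)
  have := finrank_span_le_card (R := F) ({x} : Set V)
  simp only [Set.toFinset_card, Fintype.card_unique] at this
  unfold El; omega

namespace Hm

variable [Finite F]

theorem nperp (h : Hm f j τ ν) {x a : V} (k : a ∉ El j x) :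
    ∃ z, z ∉ El j x ∧ f.Q z = 0 ∧ f.B x z = 0 ∧ f.B (j x) z = 0 ∧ f.B a z ≠ 0 := by
  by_contra! e
  have := fr_El (j := j) x
  have := h.dim
  obtain ⟨s, -, s1, s2, s3⟩ := (i3_orth f).sing h.hf ⊤ (El j x) (El j x) (by rw [finrank_top]; omega)
  have s4 := El_perp.1 s3
  refine k (h.hf.perp_perp (El j x) ▸ fun w b => ?_)
  refine sing_span' (i3_orth f) h.hf (El j x) (by omega) (LinearMap.ker (f.left a)).toAddSubgroup
    (fun y c d => f.B_zero_symm ?_) w (f.mem_perp'.1 b) |> f.B_zero_symm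
  have d := El_perp.1 d
  by_cases n : y ∈ El j x
  · simpa [e s s1 s2 s4.1 s4.2] using e (y + s) (by rwa [Submodule.add_mem_iff_right _ n]) (by simp [f.Q_add, c, s2, s3 y n])
      (by simp [d, s4]) (by simp [d, s4])
  · exact e y n c d.1 d.2

theorem stepA (h : Hm f j τ ν) {x : V} {A : AddSubgroup V} (hX : ∀ v ∈ El j x, v ∈ A)
    (hA : ∀ z (l : F), f.Q z = 0 → f.B x z = 0 → f.B (j x) z = 0 → ∀ u ∈ A, l • (f.B u (j z) • z - f.B u z • j z) ∈ A)
    {a : V} (ha : a ∈ A) (hn : a ∉ El j x) {v : V} (h1 : f.B x v = 0) (h2 : f.B (j x) v = 0) : v ∈ A := by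
  have := fr_El (j := j) x
  have := h.dim
  have K : ∀ u ∈ A, f.Q u = 0 → f.B x u = 0 → f.B (j x) u = 0 → ∀ z, f.Q z = 0 → f.B x z = 0 → f.B (j x) z = 0 →
      f.B u z = 0 → f.B (j u) z = 0 → u ∉ El j x ⊔ El j z → z ∈ A := by
    intro u u1 u2 u3 u4 z z1 z2 z3 z4 z5 n
    have m : τ • u - j u ∈ El j u := mem_El.2 ⟨τ, -1, by module⟩
    obtain ⟨b, b1, b2⟩ := h.hf.exists_hyp (h.Q_El u2 m) (W := (El j x ⊔ El j z) ⊔ F ∙ u) (fun k => by
      obtain ⟨y, c, _, d, e⟩ := Submodule.mem_sup.1 k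
      obtain ⟨l, rfl⟩ := Submodule.mem_span_singleton.1 d
      simpa using (h.exch ((h.iv x).sup (h.iv z)) (a := τ - l) (b := -1) (by
        convert c using 1; rw [eq_sub_of_add_eq e]; module) n).2) (by
      rw [perp_sup_line, ← f.mem_perp', perp_sup, Submodule.mem_inf, f.mem_perp', f.mem_perp', El_perp, El_perp]
      have z6 := f.B_zero_symm (h.perp_j z4 z5)
      exact ⟨⟨h.perp_El u3 u4 m, h.perp_El (f.B_zero_symm z4) z6 m⟩, (h.perp_El (h.xx u2).1 (h.xx u2).2 m).1⟩)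
    rw [perp_sup_line, ← f.mem_perp', perp_sup, Submodule.mem_inf, f.mem_perp', f.mem_perp', El_perp, El_perp] at b2
    have b3 : f.B u (j b) = 1 := by simpa [h.adj u] using b1.hxy
    have c1 := hA b 1 b1.hy b2.1.1.1 b2.1.1.2 u u1
    have c2 := hA (z + b) 1 (by simp [f.Q_add, z1, b1.hy, b2]) (by simp [z2, b2]) (by simp [z3, b2]) u u1
    simpa [b3, b2, z4, h.perp_j z4 z5] using A.sub_mem c2 c1
  obtain ⟨z, e, z1, z2, z3, z4⟩ := h.nperp hn
  have u1 := hA z 1 z1 z2 z3 a ha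
  have m : (1 : F) • (f.B a (j z) • z - f.B a z • j z) ∈ El j z := mem_El.2 ⟨f.B a (j z), -f.B a z, by module⟩
  have u2 := h.Q_El z1 m
  obtain ⟨u3, u4⟩ := h.perp_El z2 z3 m
  have u5 : (1 : F) • (f.B a (j z) • z - f.B a z • j z) ∉ El j x := fun k =>
    z4 (neg_eq_zero.1 (h.exch (h.iv x) (a := f.B a (j z)) (b := -f.B a z) (by convert k using 1; module) e).2)
  generalize (1 : F) • (f.B a (j z) • z - f.B a z • j z) = u at u1 u2 u3 u4 u5
  refine sing_span' (i3_orth f) h.hf (El j x) (by omega) A (fun y y1 y2 => ?_) v (El_perp.2 ⟨h1, h2⟩)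
  rw [El_perp] at y2
  by_cases e : y ∈ El j x
  · exact hX y e
  by_cases c : f.B u y = 0 ∧ f.B (j u) y = 0 ∧ u ∉ El j x ⊔ El j y
  · exact K u u1 u2 u3 u4 y y1 y2.1 y2.2 c.1 c.2.1 c.2.2
  have iU := ((h.iv x).sup (h.iv y)).sup (h.iv u)
  obtain ⟨w, w1, w2, w3⟩ : ∃ w, w ∉ (El j x ⊔ El j y) ⊔ El j u ∧ f.Q w = 0 ∧ ∀ s ∈ (El j x ⊔ El j y) ⊔ El j u, f.B s w = 0 := by
    have := fr_El (j := j) y
    have := fr_El (j := j) u
    have := fr_sup (El j x) (El j y)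
    have := fr_sup (El j x ⊔ El j y) (El j u)
    by_cases d : u ∈ El j x ⊔ El j y
    · rw [sup_eq_left.2 (((h.iv x).sup (h.iv y)).le d)]
      obtain ⟨w, -, k⟩ := (i3_orth f).sing h.hf ⊤ (El j x ⊔ El j y) (El j x ⊔ El j y) (by rw [finrank_top]; omega)
      exact ⟨w, k⟩
    · generalize hU : (El j x ⊔ El j y) ⊔ El j u = U at *
      have : finrank F (U ⊓ f.perp U : Submodule F V) < finrank F U :=
        Submodule.finrank_lt_finrank_of_lt (inf_lt_left.2 fun l => c ⟨?_, ?_, d⟩)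
      · obtain ⟨w, -, k1, k2, k3⟩ := (i3_orth f).sing h.hf ⊤ U (U ⊓ f.perp U) (by rw [finrank_top]; omega)
        exact ⟨w, fun k => k1 ⟨k, f.mem_perp'.2 k3⟩, k2, k3⟩
      all_goals
        refine l ?_ y ?_ <;> rw [← hU]
      exacts [Submodule.mem_sup_right (self_El u), Submodule.mem_sup_left (Submodule.mem_sup_right (self_El y)),
        Submodule.mem_sup_right (j_El u), Submodule.mem_sup_left (Submodule.mem_sup_right (self_El y))]
  rw [← f.mem_perp', perp_sup, perp_sup, Submodule.mem_inf, Submodule.mem_inf, f.mem_perp', f.mem_perp', f.mem_perp',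
    El_perp, El_perp, El_perp] at w3
  exact K w (K u u1 u2 u3 u4 w w2 w3.1.1.1 w3.1.1.2 w3.2.1 w3.2.2 (h.exch' iU (le_sup_left.trans le_sup_left)
    (Submodule.mem_sup_right (self_El u)) w1 u5)) w2 w3.1.1.1 w3.1.1.2 y y1 y2.1 y2.2 (f.B_zero_symm w3.1.2.1)
    (f.B_zero_symm (h.perp_j w3.1.2.1 w3.1.2.2)) fun k => w1 (Submodule.mem_sup_left k)

theorem exists_mv (h : Hm f j τ ν) {x : V} (hx : f.Q x = 0) (x0 : x ≠ 0) : ∃ z b, z ∉ El j x ∧ f.Q z = 0 ∧ f.B x z = 0 ∧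
    f.B (j x) z = 0 ∧ f.B z b = 0 ∧ f.B (j z) b = 0 ∧ f.B x b = 0 ∧ f.B (j x) b = 1 := by
  have := fr_El (j := j) x
  have := h.dim
  obtain ⟨z, -, z1, z2, z3⟩ := (i3_orth f).sing h.hf ⊤ (El j x) (El j x) (by rw [finrank_top]; omega)
  obtain ⟨b, b1, b2⟩ := h.hf.exists_dual (W := El j z ⊔ F ∙ x) (x := j x) fun k => by
    obtain ⟨y, c, _, d, e⟩ := Submodule.mem_sup.1 k
    obtain ⟨l, rfl⟩ := Submodule.mem_span_singleton.1 d
    simpa using (h.exch (h.iv z) (a := -l) (b := 1) (by convert c using 1; rw [← e]; module) fun k =>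
      h.exch' (X := ⊥) (h.iv x) bot_le (self_El x) z1 (by simpa) (Submodule.mem_sup_right k)).2
  rw [perp_sup_line, El_perp] at b2
  rw [El_perp] at z3
  exact ⟨z, b, z1, z2, z3.1, z3.2, b2.1.1, b2.1.2, b2.2, b1⟩

theorem mi (h : Hm f j τ ν) {H : Subgroup (V ≃ₗ[F] V)}
    (hH : ∀ g, g ∈ H ↔ ∃ a b : F, ∀ v, g (j v) = a • g v + b • j (g v)) : MI f.E H := by
  have dim := h.dim
  obtain ⟨x₀, -, x1, x2⟩ := i3_orth f ⊤ (by rw [finrank_top]; omega)
  constructor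
  · intro k
    obtain ⟨z, b, z1, z2, z3, z4, z5, z6, z7, z8⟩ := h.exists_mv x2 x1
    obtain ⟨g, c, hg⟩ := exists_eich' z2 (f.B_zero_symm z5)
    obtain ⟨p, q, k⟩ := (hH g).1 (k hg.mem_E)
    have := k x₀
    rw [hg.app_perp z4, hg.fix z3 z7, z8, one_smul] at this
    exact z1 (mem_El.2 ⟨p, q - 1, by rw [eq_sub_of_add_eq' this]; module⟩)
  intro K hK hK' g hg hn
  have T : ∀ z (l : F), f.Q z = 0 → ∃ g ∈ K, f.IsEich g z (l • j z) 0 := fun z l a =>
    let ⟨g, b, c⟩ := h.exists_T a l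
    ⟨g, hK ⟨(hH g).2 ⟨0, 1, by simpa⟩, b.mem_E⟩, b⟩
  have c0 : ∀ {g x c}, f.IsEich g x 0 c → g ∈ K := fun {g x c} k => by
    obtain rfl : c = 0 := by simpa using k.hc
    exact k.unique (isEich_one k.hx) ▸ one_mem _
  have X : ∀ x hx, ∀ v ∈ El j x, v ∈ RA f K x hx := fun x hx v k => by
    obtain ⟨a, b, rfl⟩ := mem_El.1 k
    obtain ⟨g, c, d⟩ := T x b hx
    exact ⟨g, c, _, add_comm (b • j x) _ ▸ d.add_x a⟩
  let G (x : V) : Prop := ∃ hx : f.Q x = 0, ∃ a ∈ RA f K x hx, a ∉ El j x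
  have A : ∀ {x}, G x → ∀ hx v, f.B x v = 0 → f.B (j x) v = 0 → v ∈ RA f K x hx := fun {x} ⟨_, a, b, c⟩ hx v =>
    h.stepA (X x hx) (fun z l z1 z2 z3 u k => by
      obtain ⟨g, c, d⟩ := T z l z1
      convert sub_mem (RA_map k c d.mem_Isom (d.fix z2 (by simp [h.perp_j z2 z3]))) k using 1
      simp only [d.app, B_smul_right, FP.orth_σ, FP.orth_ε]; module) b c
  have S : ∀ {x z hx}, z ∈ RA f K x hx → f.Q z = 0 → x ∉ El j z → G z := fun {x z hx} ⟨g, a, c, b⟩ d e => by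
    obtain rfl : c = 0 := by simpa [d] using b.hc
    exact ⟨d, _, ⟨g, a, _, eich_swap b⟩, by simpa⟩
  have ex : ∀ {x z}, x ≠ 0 → z ∉ El j x → x ∉ El j z := fun {x z} a b k =>
    h.exch' (X := ⊥) (h.iv x) bot_le (self_El x) b (by simpa) (Submodule.mem_sup_right k)
  have B : ∀ {x}, x ≠ 0 → G x → ∀ hx v, f.B v x = 0 → v ∈ RA f K x hx := fun {x} x0 k hx v hv => by
    obtain ⟨z, b, z1, z2, z3, z4, z5, z6, z7, z8⟩ := h.exists_mv hx x0
    obtain ⟨s, s1, c, s2⟩ := A (S (A k hx z z3 z4) z2 (ex x0 z1)) z2 b z5 z6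
    obtain ⟨a, -, -, a1, a2, a3⟩ := h.nperp z1
    have m := fun l : F => RA_map (A k hx (l • a) (by simp [a1]) (by simp [a2])) s1 s2.mem_Isom (s2.fix z3 z7)
    have e : f.B (j x) (s a) = -f.B a z := by simp [s2.app, a2, z4, z8]
    have a4 : f.B a z ≠ 0 := fun e => a3 (f.B_zero_symm e)
    simpa using add_mem (A k hx (v - s ((-f.B (j x) v / f.B a z) • a)) (by
      simp [s2.app, a1, z3, z7, f.B_zero_symm hv]) (by simp [e, a4])) (m (-f.B (j x) v / f.B a z))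
  by_cases k : ∃ x, x ≠ 0 ∧ G x
  · obtain ⟨x, x0, k⟩ := k
    obtain ⟨y, hy⟩ := h.hf.exists_hyp' k.1 x0
    have := fr_El (j := j) x
    have := fr_El (j := j) y
    have := fr_sup (El j x) (El j y)
    obtain ⟨z, -, z1, z2, z3⟩ := (i3_orth f).sing h.hf ⊤ (El j x ⊔ El j y) (El j x ⊔ El j y) (by rw [finrank_top]; omega)
    have z0 : z ≠ 0 := by rintro rfl; simp at z1
    have kz := S (B x0 k k.1 z (f.B_zero_symm (z3 x (Submodule.mem_sup_left (self_El x))))) z2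
      (ex x0 fun e => z1 (Submodule.mem_sup_left e))
    have ky := S (B z0 kz z2 y (z3 y (Submodule.mem_sup_right (self_El y)))) hy.hy fun e => z1 (Submodule.mem_sup_right e)
    exact E_le_of_full h.hf (full_of hy.hx (B x0 k _) fun _ _ => c0) (full_of hy.hy (B hy.y_ne ky _) fun _ _ => c0) hy.hx
      hy.hy (by simp [hy.hxy])
  refine (hn ((hH g).2 ?_)).elim
  have gI := E_le_Isom (hK' hg)
  have J : ∀ x, f.Q x = 0 → g (j x) ∈ El j (g x) := fun x hx => by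
    by_cases x0 : x = 0
    · simp [x0]
    obtain ⟨s, s1, s2⟩ := T x 1 hx
    exact by_contra fun n => k ⟨g x, by simpa, by rw [f.Isom_Q gI, hx], _, ⟨_, mul_mem (mul_mem hg s1) (inv_mem hg), _,
      s2.conj gI⟩, by simpa⟩
  obtain ⟨p, q, e⟩ := mem_El.1 (J x₀ x2)
  let A := (LinearMap.ker (p • g.toLinearMap + q • j ∘ₗ g.toLinearMap - g.toLinearMap ∘ₗ j)).toAddSubgroup
  have mA : ∀ {v}, v ∈ A ↔ p • g v + q • j (g v) = g (j v) := by simp [A, sub_eq_zero]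
  have st : ∀ u ∈ A, f.Q u = 0 → u ≠ 0 → ∀ z, f.Q z = 0 → f.B u z = 0 → g z ∉ El j (g u) → z ∈ A := by
    intro u u1 u2 u0 z z1 z2 z3
    obtain ⟨a, b, c⟩ := mem_El.1 (J z z1)
    obtain ⟨a', b', d⟩ := mem_El.1 (J (u + z) (by simp [f.Q_add, *]))
    simp only [map_add, ← c, ← mA.1 u1] at d
    obtain ⟨k1, k2⟩ := h.exch (h.iv (g u)) (a := a' - a) (b := b' - b) (mem_El.2 ⟨p - a', q - b', by
      linear_combination (norm := module) -d⟩) z3
    obtain ⟨k3, k4⟩ := h.exch (U := ⊥) (by simp [Iv]) (v := g u) (a := a' - p) (b := b' - q) (by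
      rw [sub_eq_zero.1 k1, sub_eq_zero.1 k2] at d ⊢
      rw [Submodule.mem_bot]
      linear_combination (norm := module) d) (by simpa)
    rw [mA, ← c, ← sub_eq_zero.1 k1, ← sub_eq_zero.1 k2, sub_eq_zero.1 k3, sub_eq_zero.1 k4]
  refine ⟨p, q, fun v => (mA.1 (conn (i3_orth f) h.hf ⊥ (by simp; omega) A (mA.2 e) (by simpa)
    (fun u u1 u2 z z1 _ z2 z3 => ?_) v (by simp))).symm⟩
  have u2 : f.Q u = 0 := u2.elim (· ▸ x2) id
  have u0 : u ≠ 0 := by rintro rfl; simp at z3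
  by_cases c : g z ∈ El j (g u)
  · by_cases z0 : z = 0
    · simp [z0]
    have := fr_El (j := j) (g u)
    obtain ⟨w, -, w1, w2, w3⟩ := (i3_orth f).sing h.hf ⊤ (El j (g u)) (El j (g u)) (by rw [finrank_top]; omega)
    obtain ⟨w, rfl⟩ := g.surjective w
    rw [f.Isom_Q gI] at w2
    refine st w (st u u1 u2 u0 w w2 (f.Isom_B gI _ _ ▸ w3 _ (self_El _)) w1) w2 (by rintro rfl; simp at w1) z z1
      (f.B_zero_symm (f.Isom_B gI _ _ ▸ w3 _ c)) fun k => ?_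
    exact h.exch' (X := ⊥) (h.iv _) bot_le c w1 (by simpa) (Submodule.mem_sup_right k)
  · exact st u u1 u2 u0 z z1 z2 c

end Hm

end CfsgH5.Dc
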