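import Mathlib

set_option autoImplicit false

/-!
Overgroups of the monomial group, part 1.
-/

namespace CfsgH5.Dc

open Matrix Finset

variable {F : Type*} [Field F] {ι : Type*} [DecidableEq ι]

theorem exists_out [Fintype F] (hq : 5 ≤ Fintype.card F) (a b c d : F) : ∃ x, x ≠ a ∧ x ≠ b ∧ x ≠ c ∧ x ≠ d := by
  classical
  simpa using exists_mem_notMem_of_card_lt_card (s := {a, b, c, d}) (t := (univ : Finset F))
    (card_le_four.trans_lt (by simp; omega))

variable (ι) in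
/-- prescribed sum, sum of inverses and product -/
def RR (n : ℕ) (a b p : F) : Prop :=
  ∀ J : Finset ι, J.card = n → ∃ t : ι → F, (∀ j, t j ≠ 0) ∧ ∑ j ∈ J, t j = a ∧ ∑ j ∈ J, (t j)⁻¹ = b ∧ ∏ j ∈ J, t j = p

theorem RR.step {n : ℕ} {a b p : F} (h : RR ι n a b p) {x : F} (hx : x ≠ 0) : RR ι (n + 1) (x + a) (x⁻¹ + b) (x * p) := by
  intro J k
  obtain ⟨j, J, e, rfl, k'⟩ := card_eq_succ.1 k
  obtain ⟨t, h0, rfl, rfl, rfl⟩ := h J k'
  have : ∀ i ∈ J, Function.update t j x i = t i := fun i c => Function.update_of_ne (by rintro rfl; exact e c) _ _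
  refine ⟨Function.update t j x, fun i => by by_cases c : i = j <;> simp [c, hx, h0], ?_, ?_, ?_⟩
  · simp [e, sum_congr rfl this]
  · simp [e, sum_congr rfl fun i c => congrArg (·⁻¹) (this i c)]
  · simp [e, prod_congr rfl this]

omit [DecidableEq ι] in
theorem RR.smul {n : ℕ} {b p : F} (h : RR ι n 0 b p) {x : F} (hx : x ≠ 0) : RR ι n 0 (x⁻¹ * b) (x ^ n * p) := fun J k => by
  obtain ⟨t, h0, h1, rfl, rfl⟩ := h J k
  exact ⟨fun i => x * t i, by simp [hx, h0], by rw [← mul_sum, h1, mul_zero], by simp [mul_sum, mul_comm],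
    by simp [prod_mul_distrib, k]⟩

omit [DecidableEq ι] in
theorem rr_one (n : ℕ) : RR ι n (n : F) n 1 := fun J k => ⟨1, by simp [k]⟩

theorem RR.pair {n : ℕ} {b p : F} (h : RR ι n 0 b p) {x : F} (hx : x ≠ 0) : RR ι (n + 2) 0 b (-x ^ 2 * p) := by
  convert (h.step hx).step (neg_ne_zero.2 hx) using 1 <;> ring

variable [Fintype F]

theorem rr_free (hq : 5 ≤ Fintype.card F) (n : ℕ) : ∃ b p : F, b ≠ 0 ∧ p ≠ 0 ∧ RR ι (n + 3) 0 b p := by
  obtain ⟨z, z0, z1, -⟩ := exists_out hq 0 (-n) 0 0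
  have c0 : -(z + n) ≠ 0 := neg_ne_zero.2 fun e => z1 (eq_neg_of_add_eq_zero_left e)
  generalize hc : -(z + n) = c at c0
  have k : ∀ x, x ≠ 0 → x ≠ c → RR ι (n + 3) 0 (c / (x * (c - x)) + (z⁻¹ + n)) (x * ((c - x) * z)) := fun x a b => by
    have := sub_ne_zero.2 b.symm
    convert (((rr_one (ι := ι) n).step z0).step this).step a using 1
    · linear_combination hc
    · field_simp; ring
    · ring
  obtain ⟨x, x0, x1, -⟩ := exists_out hq 0 c 0 0
  obtain ⟨y, y0, y1, y2, y3⟩ := exists_out hq 0 c x (c - x)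
  have := sub_ne_zero.2 x1.symm
  have := sub_ne_zero.2 y1.symm
  by_cases e : c / (x * (c - x)) + (z⁻¹ + n) = 0
  · refine ⟨_, _, fun e' => ?_, by simp [*], k y y0 y1⟩
    have := (div_eq_div_iff (by simp [*]) (by simp [*])).1 (add_right_cancel (e.trans e'.symm))
    exact mul_ne_zero c0 (mul_ne_zero (sub_ne_zero.2 y2) (sub_ne_zero.2 y3)) (by linear_combination -this)
  · exact ⟨_, _, e, by simp [*], k x x0 x1⟩

theorem rr_prod (hq : 5 ≤ Fintype.card F) {n : ℕ} (hn : 8 ≤ n) : ∃ b : F, b ≠ 0 ∧ RR ι n 0 b 1 := by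
  obtain ⟨r, rfl | rfl⟩ : ∃ r, n = 2 * r + 3 + 2 ∨ n = 2 * r + 3 + 3 + 2 :=
    ⟨if n % 2 = 0 then (n - 8) / 2 else (n - 5) / 2, by split_ifs <;> omega⟩
  · obtain ⟨b, p, b0, p0, h⟩ := rr_free (ι := ι) hq (2 * r)
    refine ⟨(-p)⁻¹ * b, by simp [*], ?_⟩
    convert (h.smul (neg_ne_zero.2 p0)).pair (inv_ne_zero (pow_ne_zero (r + 2) p0)) using 1
    rw [Odd.neg_pow ⟨r + 1, by ring⟩]
    field_simp; ring
  · obtain ⟨b, p, b0, p0, h⟩ := rr_free (ι := ι) hq (2 * r)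
    obtain ⟨x, x0, x1, -⟩ := exists_out hq 0 1 0 0
    have x2 := sub_ne_zero.2 x1
    obtain ⟨s, hs⟩ : ∃ s : F, s = x⁻¹ + ((1 - x)⁻¹ + -1) := ⟨_, rfl⟩
    have k : ∀ ν : F, ν ≠ 0 → RR ι (2 * r + 3 + 3 + 2) 0 (s + (p * x * (1 - x) * ν ^ 2)⁻¹ * b) 1 := fun ν a => by
      have x3 := sub_ne_zero.2 x1.symm
      have := (((h.smul (x := p * x * (1 - x) * ν ^ 2) (by simp [*])).step (neg_ne_zero.2 one_ne_zero)).step x3).step x0
      rw [show x + (1 - x + (-1 + 0)) = 0 by ring] at this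
      convert this.pair (x := ((p * x * (1 - x)) ^ (r + 2) * ν ^ (2 * r + 3))⁻¹) (by simp [*]) using 1
      · simp [hs]; ring
      · have : p * x * (1 - x) ≠ 0 := by simp [*]
        rw [show ∀ w, x * ((1 - x) * (-1 * (w * p))) = -w * (p * x * (1 - x)) by intro; ring]
        generalize p * x * (1 - x) = u at this
        field_simp; ring
    obtain ⟨y, y0, y1, y2, -⟩ := exists_out hq 0 1 (-1) 0
    by_cases e : s + (p * x * (1 - x) * 1 ^ 2)⁻¹ * b = 0
    · refine ⟨_, fun e' => ?_, k y y0⟩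
      have := inv_injective (mul_right_cancel₀ b0 (add_left_cancel (e.trans e'.symm)))
      simp [sub_ne_zero.2 x1.symm, *] at this
    · exact ⟨_, e, k 1 one_ne_zero⟩

theorem exists_tt [Fintype ι] (hq : 5 ≤ Fintype.card F) (hn : 8 ≤ Fintype.card ι) {J : Finset ι} (hJ : 3 ≤ J.card) :
    ∃ t : ι → F, ∏ j, t j = 1 ∧ ∑ j ∈ J, t j = 0 ∧ ∑ j ∈ J, (t j)⁻¹ ≠ 0 := by
  by_cases e : J = univ
  · obtain ⟨b, b0, h⟩ := rr_prod (ι := ι) hq hn
    obtain ⟨t, -, h1, h2, h3⟩ := h univ rfl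
    exact ⟨t, h3, e ▸ h1, e ▸ h2 ▸ b0⟩
  obtain ⟨n, hn⟩ := Nat.exists_eq_add_of_le' hJ
  obtain ⟨b, p, b0, -, h⟩ := rr_free (ι := ι) hq n
  obtain ⟨t, h0, h1, h2, -⟩ := h J hn
  obtain ⟨j, c⟩ := not_forall.1 (mt eq_univ_iff_forall.2 e)
  have : ∀ x, ∀ i ∈ J, Function.update t j x i = t i := fun x i k => Function.update_of_ne (by rintro rfl; exact c k) _ _
  refine ⟨Function.update t j (∏ i ∈ univ \ {j}, t i)⁻¹, ?_, ?_, ?_⟩
  · rw [prod_update_of_mem (mem_univ j), inv_mul_cancel₀ (prod_ne_zero_iff.2 fun i _ => h0 i)]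
  · rw [sum_congr rfl (this _), h1]
  · rwa [sum_congr rfl fun i c => congrArg (·⁻¹) (this _ i c), h2]

variable [Fintype ι]

/-- monomial matrices -/
def Mon (A : Matrix ι ι F) : Prop := ∀ j, ∃ i, ∀ k, k ≠ i → A k j = 0

/-- the monomial matrix with given data -/
def mo (π : Equiv.Perm ι) (t : ι → F) : Matrix ι ι F := of fun i j => if i = π j then t j else 0

omit [Fintype F] [Fintype ι] in
theorem mo_mon (π : Equiv.Perm ι) (t : ι → F) : Mon (mo π t) := fun j => ⟨π j, fun _ h => if_neg h⟩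

omit [Fintype F] in
theorem det_mo (π : Equiv.Perm ι) (t : ι → F) : (mo π t).det = (Equiv.Perm.sign π : ℤ) * ∏ j, t j := by
  rw [show mo π t = (diagonal t).submatrix π.symm id by
    ext i j; simp [mo, diagonal_apply, Equiv.symm_apply_eq]; split_ifs with h <;> simp [h], det_permute]
  simp

omit [Fintype F] in
theorem mul_mo (A : Matrix ι ι F) (π : Equiv.Perm ι) (t : ι → F) (i j : ι) : (A * mo π t) i j = A i (π j) * t j := by
  simp [mul_apply, mo]

theorem exists_idx (hn : 8 ≤ Fintype.card ι) (a b c d : ι) : ∃ x, x ≠ a ∧ x ≠ b ∧ x ≠ c ∧ x ≠ d := by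
  simpa using exists_mem_notMem_of_card_lt_card (s := {a, b, c, d}) (t := (univ : Finset ι))
    (card_le_four.trans_lt (by simp; omega))

theorem mon_of (hq : 5 ≤ Fintype.card F) (hn : 8 ≤ Fintype.card ι) {S : Submonoid (Matrix ι ι F)}
    (hi : ∀ A ∈ S, ∃ B ∈ S, A * B = 1) (hm : ∀ π t, (mo π t).det = 1 → mo π t ∈ S)
    (hQ : ∀ h ∈ S, ∀ i, (∀ k, h k i = (1 : Matrix ι ι F) k i) → ∀ k, h i k = (1 : Matrix ι ι F) i k) {g : Matrix ι ι F}
    (hg : g ∈ S) : Mon g := by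
  classical
  have sw : ∀ {k l p r : ι}, k ≠ l → p ≠ r → ∀ t : ι → F, ∏ j, t j = 1 → mo (Equiv.swap k l * Equiv.swap p r) t ∈ S :=
    fun a b t c => hm _ _ (by simp [det_mo, a, b, c])
  have B : ∀ A ∈ S, ∀ B ∈ S, A * B = 1 → ∀ i k l, B k i ≠ 0 → B l i ≠ 0 → A i k * B k i = A i l * B l i := by
    intro A a B b e i k l k0 l0
    by_cases kl : k = l
    · rw [kl]
    obtain ⟨p, r, pr, p1, p2, r1, r2, z⟩ : ∃ p r, p ≠ r ∧ p ≠ k ∧ p ≠ l ∧ r ≠ k ∧ r ≠ l ∧ (B p i = 0 ↔ B r i = 0) := by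
      obtain ⟨x, x1, x2, -⟩ := exists_idx hn k l k k
      obtain ⟨y, y1, y2, y3, -⟩ := exists_idx hn k l x k
      obtain ⟨z, z1, z2, z3, z4⟩ := exists_idx hn k l x y
      by_cases c : B x i = 0 ↔ B y i = 0
      · exact ⟨x, y, y3.symm, x1, x2, y1, y2, c⟩
      by_cases d : B x i = 0 ↔ B z i = 0
      · exact ⟨x, z, z3.symm, x1, x2, z1, z2, d⟩
      · exact ⟨y, z, z4.symm, y1, y2, z1, z2, by tauto⟩
    obtain ⟨π, hπ⟩ : ∃ π, π = Equiv.swap k l * Equiv.swap p r := ⟨_, rfl⟩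
    have z : ∀ j, B (π j) i = 0 ↔ B j i = 0 := fun j => by
      simp only [hπ, Equiv.Perm.mul_apply, Equiv.swap_apply_def]
      split_ifs <;> simp_all
    let c := fun j => if B j i = 0 then 1 else B j i
    have c0 : ∀ j, c j ≠ 0 := fun j => by by_cases h : B j i = 0 <;> simp [c, h]
    have := sw kl pr (fun j => c (π j) / c j) (by
      rw [prod_div_distrib, Equiv.prod_comp π c, div_self (prod_ne_zero_iff.2 fun j _ => c0 j)])
    rw [← hπ] at this
    have := hQ _ (mul_mem (mul_mem a this) b) i fun m => by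
        rw [← e, mul_apply, mul_apply]
        refine Fintype.sum_equiv π _ _ fun j => ?_
        rw [mul_mo, mul_assoc]
        by_cases h : B j i = 0 <;> simp [c, h, z]
    have h2 : (A * mo π fun j => c (π j) / c j) i k = A i k := by
      rw [← mul_one (A * _), ← mul_eq_one_comm.1 e, ← mul_assoc, mul_apply]
      simp [this, one_apply]
    rw [← h2, mul_mo]
    simp [hπ, c, Equiv.swap_apply_of_ne_of_ne p1.symm r1.symm, k0, l0, mul_assoc]
  have A : ∀ A ∈ S, ∀ B ∈ S, A * B = 1 → ∀ i k, B k i ≠ 0 → A i k ≠ 0 := fun A a B' b e i k k0 h =>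
    one_ne_zero ((congrFun₂ e i i).symm.trans (sum_eq_zero fun l _ => by
      by_cases l0 : B' l i = 0
      · simp [l0]
      · rw [B A a B' b e i l k l0 k0, h, zero_mul]) ▸ (one_apply_eq i).symm)
  have C : ∀ A ∈ S, ∀ B ∈ S, A * B = 1 → ∀ i k l p, k ≠ l → k ≠ p → l ≠ p → B k i ≠ 0 → B l i ≠ 0 → B p i = 0 := by
    intro A' a B' b e i k l p h1 h2 h3 k0 l0
    by_contra p0
    obtain ⟨t, t1, t2, t3⟩ := exists_tt hq hn (J := {j | B' j i ≠ 0})
      (two_lt_card_iff.2 ⟨k, l, p, by simpa, by simpa, by simpa, h1, h2, h3⟩)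
    have t0 := prod_ne_zero_iff.1 (t1 ▸ one_ne_zero)
    have s : ∀ u : ι → F, (A' * mo 1 u * B') i i = A' i k * B' k i * ∑ j with B' j i ≠ 0, u j := fun u => by
      rw [mul_apply, mul_sum, sum_filter]
      refine sum_congr rfl fun j _ => ?_
      by_cases h : B' j i = 0
      · simp [h]
      · simp [mul_mo, h, B A' a B' b e i k j k0 h, mul_right_comm]
    refine A _ (mul_mem (mul_mem a (hm 1 t (by simp [det_mo, t1]))) b) _
      (mul_mem (mul_mem a (hm 1 (fun j => (t j)⁻¹) (by simp [det_mo, t1]))) b) ?_ i i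
      (by simp [s, A A' a B' b e i k k0, k0, t3]) (by simp [s, t2])
    have : mo 1 t * mo 1 (fun j => (t j)⁻¹) = 1 := by
      ext x y; rw [mul_mo]; by_cases h : x = y <;> simp [mo, h, t0, one_apply]
    simp only [mul_assoc]
    rw [← mul_assoc B', mul_eq_one_comm.1 e, one_mul, ← mul_assoc (mo 1 t), this, one_mul, e]
  obtain ⟨g', b, e'⟩ := hi g hg
  have e := mul_eq_one_comm.1 e'
  have nz : ∀ {X Y : Matrix ι ι F}, X * Y = 1 → ∀ j, ∃ i, Y i j ≠ 0 := fun {X Y} e j => by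
    by_contra! h
    simpa [mul_apply, h] using congrFun₂ e j j
  intro i
  obtain ⟨k, k0⟩ := nz e i
  refine ⟨k, fun l kl => by_contra fun l0 => ?_⟩
  have z := fun p a c => C g' b g hg e i k l p kl.symm a c k0 l0
  have su : ∀ u : ι → F, ∑ j, u j * g j i = u k * g k i + u l * g l i := fun u =>
    sum_eq_add k l kl.symm (fun j _ c => by simp [z j c.1.symm c.2.symm]) (by simp) (by simp)
  obtain ⟨p, p1, p2, -⟩ := exists_idx hn k l k k
  obtain ⟨r, r1, r2, r3, -⟩ := exists_idx hn k l p k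
  obtain ⟨s, s1, s2, s3, s4⟩ := exists_idx hn k l p r
  have h1 := mul_mem (mul_mem b (sw p2.symm s4.symm 1 (by simp))) hg
  have h2 : ∀ m, (g' * mo (Equiv.swap l p * Equiv.swap r s) 1 * g : Matrix ι ι F) m i =
      g' m k * g k i + g' m p * g l i := fun m => by
    rw [mul_apply, su]
    simp [mul_mo, Equiv.swap_apply_of_ne_of_ne, r1.symm, s1.symm, r2.symm, s2.symm, kl.symm, p1.symm]
  generalize g' * mo (Equiv.swap l p * Equiv.swap r s) 1 * g = h at h1 h2
  obtain ⟨h', h3, h4⟩ := hi h h1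
  have a1 := A g' b g hg e i k k0
  have a2 : g' i p = 0 := not_not.1 fun c => A g hg g' b e' p i c (z p p1.symm p2.symm)
  obtain ⟨i', i1, i2⟩ : ∃ i', i' ≠ i ∧ g' i' k ≠ 0 := by
    by_contra! c
    have := congrFun₂ e' l k
    rw [mul_apply, sum_eq_single i (fun j _ d => by simp [c j d]) (by simp)] at this
    simp [kl, l0, a1] at this
  have a3 : g' i' p = 0 := not_not.1 fun c => by
    have := congrFun₂ e i' i
    rw [mul_apply, su, one_apply_ne i1] at this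
    refine A g hg g' b e' p i' c (C g' b g hg e i' k l p kl.symm p1.symm p2.symm (A g hg g' b e' k i' i2)
      (A g hg g' b e' l i' fun d => ?_))
    simp [d, i2, k0] at this
  obtain ⟨i'', j0⟩ := nz e' p
  have j1 : i ≠ i'' := by rintro rfl; exact j0 a2
  have j2 : i' ≠ i'' := by rintro rfl; exact j0 a3
  simpa [h2, C g hg g' b e' k i i' i'' i1.symm j1 j2 a1 i2, j0, l0] using
    C h' h3 h h1 (mul_eq_one_comm.1 h4) i i i' i'' i1.symm j1 j2 (by simp [h2, a1, a2, k0]) (by simp [h2, i2, a3, k0])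

end CfsgH5.Dc
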