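import Cfsg.Agent.H5.Mx8

set_option autoImplicit false

/-!
Maximal subgroups of classical groups, part 9: subfield subgroups of `SL`.
-/

namespace CfsgH5.Mx

open Module CForm Au Cfsg.Geo Matrix

universe u v w

section
variable {F : Type u} [Field F] {V : Type v} [AddCommGroup V] [Module F V]

theorem exists_ker3 [FiniteDimensional F V] (h : 4 ≤ finrank F V) (a b c : V →ₗ[F] F) :
    ∃ z, z ≠ 0 ∧ a z = 0 ∧ b z = 0 ∧ c z = 0 := by
  have k1 := (a.prod (b.prod c)).finrank_range_add_finrank_ker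
  have k2 := (LinearMap.range (a.prod (b.prod c))).finrank_le
  simp only [finrank_prod, finrank_self] at k2
  obtain ⟨z, h1, h2⟩ := exists_not_mem (W := LinearMap.ker (a.prod (b.prod c))) (U := ⊥) (by rw [finrank_bot]; omega)
  simpa using ⟨z, by simpa using h2, by simpa using h1⟩

theorem exists_ker_not_line [FiniteDimensional F V] (h : 3 ≤ finrank F V) (a : V →ₗ[F] F) (e : V) :
    ∃ z, z ∉ F ∙ e ∧ a z = 0 := by
  have k1 := a.finrank_range_add_finrank_ker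
  have k2 := (LinearMap.range a).finrank_le
  have := finrank_line_le (F := F) e
  rw [finrank_self] at k2
  obtain ⟨z, h1, h2⟩ := exists_not_mem (W := LinearMap.ker a) (U := F ∙ e) (by omega)
  exact ⟨z, h2, h1⟩

theorem exists_fun_two [FiniteDimensional F V] (h : 3 ≤ finrank F V) (x y : V) :
    ∃ ψ : V →ₗ[F] F, ψ ≠ 0 ∧ ψ x = 0 ∧ ψ y = 0 := by
  have := finrank_line_le (F := F) x
  have := fr_line (F ∙ x) y
  obtain ⟨z, -, h2⟩ := exists_not_mem (W := ⊤) (U := (F ∙ x) ⊔ F ∙ y) (by rw [finrank_top]; omega)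
  obtain ⟨ψ, h3, h4⟩ := exists_fun h2
  exact ⟨ψ, fun e => by simp [e] at h3, h4 _ (Submodule.mem_sup_left (Submodule.mem_span_singleton_self x)),
    h4 _ (Submodule.mem_sup_right (Submodule.mem_span_singleton_self y))⟩

variable {F₀ : Subfield F} {V₀ : Type w} [AddCommGroup V₀] [Module F₀ V₀]

/-- a rational structure with its rational functionals -/
structure Rs (φ : V₀ →ₗ[F₀] V) (d : (V₀ →ₗ[F₀] F₀) → V →ₗ[F] F) : Prop where
  dim : 4 ≤ finrank F₀ V₀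
  app : ∀ ψ u, d ψ (φ u) = ψ u
  span : Submodule.span F (Set.range φ) = ⊤
  span' : Submodule.span F (Set.range d) = ⊤
  rat : ∀ v, (∀ ψ, d ψ v ∈ F₀) → ∃ u, φ u = v
  max : ∀ L : Subring F, (∀ a ∈ F₀, a ∈ L) → (∀ a ∈ L, a ∈ F₀) ∨ L = ⊤

variable {φ : V₀ →ₗ[F₀] V} {d : (V₀ →ₗ[F₀] F₀) → V →ₗ[F] F} {K : Subgroup (V ≃ₗ[F] V)}

namespace Rs

theorem ext (h : Rs φ d) {a b : V →ₗ[F] F} (k : ∀ u, a (φ u) = b (φ u)) : a = b :=
  LinearMap.ext_on h.span (by rintro _ ⟨u, rfl⟩; exact k u)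

theorem ext' (h : Rs φ d) {v : V} (k : ∀ ψ, d ψ v = 0) : v = 0 := (forall_dual_apply_eq_zero_iff F v).1 fun a => by
  have : Submodule.span F (Set.range d) ≤ LinearMap.ker (Dual.eval F V v) := Submodule.span_le.2 (by
    rintro _ ⟨u, rfl⟩; exact k u)
  exact this (h.span' ▸ Submodule.mem_top)

theorem rat' (h : Rs φ d) {a : V →ₗ[F] F} (k : ∀ u, a (φ u) ∈ F₀) : ∃ ψ, d ψ = a :=
  ⟨{ toFun := fun u => ⟨_, k u⟩
     map_add' := fun u v => Subtype.ext (by simp)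
     map_smul' := fun c u => Subtype.ext (by simp [Subfield.smul_def]) }, h.ext fun u => by rw [h.app]; rfl⟩

theorem inj (h : Rs φ d) {u : V₀} (e : φ u = 0) : u = 0 :=
  (forall_dual_apply_eq_zero_iff F₀ u).1 fun ψ => Subtype.ext (by simp [← h.app, e])

theorem coef (h : Rs φ d) {u e : V₀} (he : e ≠ 0) {κ : F} (k : φ u = κ • φ e) : κ ∈ F₀ := by
  obtain ⟨ψ, h1, -⟩ := exists_fun_line (F := F₀) (x := e) (y := 0) (by simpa using he)
  have := congrArg (d ψ) k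
  simp only [map_smul, h.app, h1, OneMemClass.coe_one, smul_eq_mul, mul_one] at this
  exact this ▸ (ψ u).2

theorem d_add (h : Rs φ d) (a b : V₀ →ₗ[F₀] F₀) : d (a + b) = d a + d b := h.ext fun u => by simp [h.app]

theorem d_zero (h : Rs φ d) : d 0 = 0 := h.ext fun u => by simp [h.app]

variable [Finite V] [FiniteDimensional F V] [FiniteDimensional F₀ V₀]

omit [FiniteDimensional F₀ V₀] in
theorem tv (h : Rs φ d) (hK : ratS φ ⊓ LinearEquiv.det.ker ≤ K) {e : V₀} {ψ : V₀ →ₗ[F₀] F₀} (he : ψ e = 0) :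
    TV K (φ e) (d ψ) := tv_of (by simp [h.app, he]) fun g hg =>
  hK ⟨⟨1, one_ne_zero, fun u => ⟨u + ψ u • e, by simp [hg.app, h.app, Subfield.smul_def]⟩⟩, hg.det⟩

variable (K φ d) in
/-- the scalars by which rational transvections may be multiplied inside `K` -/
def L (l : F) : Prop := ∀ e ψ, ψ e = 0 → TV K (l • φ e) (d ψ)

theorem mvH (h : Rs φ d) (hK : ratS φ ⊓ LinearEquiv.det.ker ≤ K) {l : F} {e : V₀} {ψ : V₀ →ₗ[F₀] F₀} (h0 : e ≠ 0)
    (k : TV K (l • φ e) (d ψ)) {z : V₀} (hz : ψ z = 0) : TV K (l • φ z) (d ψ) := by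
  have A : ∀ z, ψ z = 0 → z ∉ F₀ ∙ e → TV K (l • φ z) (d ψ) := fun z h1 h2 => by
    obtain ⟨χ, h3, h4⟩ := exists_fun_line (x := e) (y := z) fun k => h2 (line_symm h0 k)
    simpa [h.app, h3] using k.moveH (h.tv hK h4) (by simp [h.app, h1])
  by_cases c : z ∈ F₀ ∙ e
  · obtain ⟨y, h1, h2⟩ := exists_ker_not_line (by have := h.dim; omega) ψ e
    simpa using (A (z + y) (by simp [hz, h2]) fun k => h1 ((Submodule.add_mem_iff_right _ c).1 k)).sub (A y h2 h1)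
  · exact A z hz c

theorem mvP (h : Rs φ d) (hK : ratS φ ⊓ LinearEquiv.det.ker ≤ K) {l : F} {e : V₀} {ψ : V₀ →ₗ[F₀] F₀} (h0 : ψ ≠ 0)
    (he : ψ e = 0) (k : TV K (l • φ e) (d ψ)) {χ : V₀ →ₗ[F₀] F₀} (hz : χ e = 0) : TV K (l • φ e) (d χ) := by
  have A : ∀ χ z, χ e = 0 → ψ z = 1 → χ z = 0 → TV K (l • φ e) (d χ) := fun χ z h1 h2 h3 => by
    simpa [h.app, h2] using k.moveP (h.tv hK h3) (by simp [h.app, h1])
  obtain ⟨z, h1⟩ := DFunLike.ne_iff.1 h0
  obtain ⟨z, h1⟩ : ∃ z, ψ z = 1 := ⟨(ψ z)⁻¹ • z, by simpa using inv_mul_cancel₀ h1⟩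
  obtain ⟨y, h2, h3⟩ := exists_ker_not_line (by have := h.dim; omega) ψ e
  obtain ⟨ω, h4, h5⟩ := exists_fun (x := y) (X := (F₀ ∙ e) ⊔ F₀ ∙ z) fun k => by
    obtain ⟨a, ha, _, hb, rfl⟩ := Submodule.mem_sup.1 k
    obtain ⟨a, rfl⟩ := Submodule.mem_span_singleton.1 ha
    obtain ⟨b, rfl⟩ := Submodule.mem_span_singleton.1 hb
    simp [he, h1] at h3
    exact h2 (by simpa [h3] using ha)
  have h6 := h5 _ (Submodule.mem_sup_left (Submodule.mem_span_singleton_self e))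
  have h7 := h5 _ (Submodule.mem_sup_right (Submodule.mem_span_singleton_self z))
  simpa [h.d_add] using (A (χ + - χ (z + y) • ω) (z + y) (by simp [hz, h6]) (by simp [h1, h3])
    (by simp [h4, h7])).sub' (A (- χ (z + y) • ω) z (by simp [h6]) h1 (by simp [h7]))

theorem L_of (h : Rs φ d) (hK : ratS φ ⊓ LinearEquiv.det.ker ≤ K) {l : F} {e : V₀} {ψ : V₀ →ₗ[F₀] F₀} (h0 : e ≠ 0)
    (h1 : ψ ≠ 0) (k : TV K (l • φ e) (d ψ)) : L φ d K l := fun e' ψ' h2 => by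
  obtain ⟨z, h3, h4, h5, -⟩ := exists_ker3 h.dim ψ ψ' 0
  exact h.mvH hK h3 (h.mvP hK h1 h4 (h.mvH hK h0 k h4) h5) h2

theorem L_all (h : Rs φ d) (hK : ratS φ ⊓ LinearEquiv.det.ker ≤ K) {l : F} (hl : L φ d K l) (hn : l ∉ F₀) (m : F) :
    L φ d K m := by
  have k1 : ∀ a ∈ F₀, L φ d K a := fun a ha e ψ k => by
    simpa [Subfield.smul_def] using h.tv hK (e := (⟨a, ha⟩ : F₀) • e) (ψ := ψ) (by simp [k])
  let S : Subring F :=
    { carrier := {l | L φ d K l}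
      mul_mem' := fun {a b} ha hb => by
        obtain ⟨e, h1, -⟩ := exists_ker3 h.dim 0 0 0
        obtain ⟨z, h2, -⟩ := exists_ker_not_line (F := F₀) (by have := h.dim; omega) 0 e
        obtain ⟨ψ, h3, h4, h5⟩ := exists_fun_two (F := F₀) (by have := h.dim; omega) e z
        obtain ⟨χ, h6, h7⟩ := exists_fun_line (x := e) (y := z) fun k => h2 (line_symm h1 k)
        refine h.L_of hK (e := z) (fun k => h2 (by simp [k])) h3 ?_
        simpa [h.app, h6, smul_smul] using (ha e ψ h4).moveH (hb z χ h7) (by simp [h.app, h5])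
      one_mem' := k1 _ (one_mem _)
      add_mem' := fun ha hb e ψ k => by simpa [add_smul] using (ha e ψ k).add (hb e ψ k)
      zero_mem' := k1 _ (zero_mem _)
      neg_mem' := fun ha e ψ k => by simpa using (ha e ψ k).neg }
  have : m ∈ S := ((h.max S k1).resolve_left fun k => hn (k l hl)) ▸ Subring.mem_top m
  exact this

omit [Finite V] [FiniteDimensional F V] [FiniteDimensional F₀ V₀] in
theorem all (h : Rs φ d) (hL : ∀ l, L φ d K l) : SH K = ⊤ := by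
  rw [eq_top_iff, ← h.span', Submodule.span_le]
  rintro _ ⟨ψ, rfl⟩ x hx
  by_cases h0 : ψ = 0
  · rw [h0, h.d_zero]; exact tv_zero' x
  obtain ⟨z, h1⟩ := DFunLike.ne_iff.1 h0
  obtain ⟨z, h1⟩ : ∃ z, ψ z = 1 := ⟨(ψ z)⁻¹ • z, by simpa using inv_mul_cancel₀ h1⟩
  have : ∀ v ∈ Submodule.span F (Set.range φ), ∀ l : F, TV K (l • (v - d ψ v • φ z)) (d ψ) := fun v hv => by
    induction hv using Submodule.span_induction with
    | mem v hv =>
      obtain ⟨v, rfl⟩ := hv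
      intro l
      simpa [h.app, Subfield.smul_def] using hL l (v - ψ v • z) ψ (by simp [h1])
    | zero => intro l; simpa using tv_zero _
    | add v w _ _ hv hw =>
      intro l
      convert (hv l).add (hw l) using 1
      rw [map_add]; module
    | smul c v _ hv =>
      intro l
      convert hv (l * c) using 1
      rw [map_smul, smul_eq_mul]; module
  simpa [hx] using this x (h.span ▸ Submodule.mem_top) 1

theorem ratH (h : Rs φ d) (hK : ratS φ ⊓ LinearEquiv.det.ker ≤ K) (hL : ¬ ∀ l, L φ d K l) {y : V} {ψ : V₀ →ₗ[F₀] F₀}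
    (h0 : ψ ≠ 0) (k : TV K y (d ψ)) : ∃ u, φ u = y := h.rat y fun χ => by
  by_contra c
  obtain ⟨z, h1, h2, h3, -⟩ := exists_ker3 h.dim ψ χ 0
  exact hL (h.L_all hK (h.L_of hK h1 h0 (k.moveH (h.tv hK h3) (by simp [h.app, h2]))) c)

theorem ratP (h : Rs φ d) (hK : ratS φ ⊓ LinearEquiv.det.ker ≤ K) (hL : ¬ ∀ l, L φ d K l) {e : V₀} {χ : V →ₗ[F] F}
    (h0 : e ≠ 0) (k : TV K (φ e) χ) : ∃ ψ, d ψ = χ := h.rat' fun u => by
  by_contra c
  obtain ⟨ψ, h1, h2, h3⟩ := exists_fun_two (F := F₀) (by have := h.dim; omega) e u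
  exact hL (h.L_all hK (h.L_of hK h0 h1 ((k.moveP (h.tv hK h3) (by simp [h.app, h2])).smul' (by simp [h.app, h2]))) c)

theorem pres (h : Rs φ d) (hK : ratS φ ⊓ LinearEquiv.det.ker ≤ K) (hL : ¬ ∀ l, L φ d K l) {k : V ≃ₗ[F] V} (hk : k ∈ K)
    {e e' : V₀} (h0 : e' ≠ 0) {c : F} (ke : k (φ e') = c • φ e) (u : V₀) : ∃ u₁, k (φ u) = c • φ u₁ := by
  have hc : c ≠ 0 := by rintro rfl; exact h0 (h.inj (k.injective (by simpa using ke)))
  have he : e ≠ 0 := by rintro rfl; exact h0 (h.inj (k.injective (by simpa using ke)))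
  obtain ⟨ψ, h1, h2, h3⟩ := exists_fun_two (F := F₀) (by have := h.dim; omega) e' u
  have k1 := (h.tv hK h2).conj hk
  rw [ke] at k1
  obtain ⟨χ, k2⟩ := h.ratP hK hL he (k1.smul (by simpa [hc] using k1.hx))
  have k3 := (h.tv hK h3).conj hk
  rw [(inv_smul_eq_iff₀ hc).2 k2 |>.symm] at k3
  obtain ⟨u₁, k4⟩ := h.ratH hK hL (ψ := χ) (by
    rintro rfl
    exact h1 (LinearMap.ext fun v => Subtype.ext (by
      simpa [h.d_zero, hc, h.app] using LinearMap.congr_fun k2 (k (φ v))))) (k3.smul' (by simpa [hc] using k3.hx))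
  exact ⟨u₁, by rw [k4, smul_inv_smul₀ hc]⟩

omit [FiniteDimensional F₀ V₀] in
theorem not_le (h : Rs φ d) (h0 : F₀ ≠ ⊤) : ¬ LinearEquiv.det.ker ≤ ratS φ := fun k => by
  have := Module.finite_of_finrank_pos (R := F₀) (M := V₀) (by have := h.dim; omega)
  obtain ⟨l, hl⟩ : ∃ l, l ∉ F₀ := by
    by_contra c; push Not at c; exact h0 (eq_top_iff.2 fun x _ => c x)
  obtain ⟨e, h1, -⟩ := exists_ker3 h.dim 0 0 0
  obtain ⟨z, h2, -⟩ := exists_ker_not_line (F := F₀) (by have := h.dim; omega) 0 e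
  obtain ⟨χ, h6, h7⟩ := exists_fun_line h2
  obtain ⟨g, hg⟩ := exists_T (x := l • φ e) (φ := d χ) (by simp [h.app, h7])
  obtain ⟨c, c0, hc⟩ := k hg.det
  obtain ⟨e', k1⟩ := hc e
  obtain ⟨y', k2⟩ := hc z
  rw [hg.fix (by simp [h.app, h7])] at k1
  have k3 := h.coef (u := e) (e := e') (by rintro rfl; exact h1 (h.inj (by simpa using k1))) k1
  exact hl (h.coef (u := (⟨c, k3⟩ : F₀) • y' - z) h1 (by simp [Subfield.smul_def, ← k2, hg.app, h.app, h6]))

theorem mi [Finite F] (h : Rs φ d) (hK : ratS φ ⊓ LinearEquiv.det.ker ≤ K) {g : V ≃ₗ[F] V} (hg : g ∈ K)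
    (hn : g ∉ ratS φ) : SH K = ⊤ := h.all (by
  by_contra hL
  obtain ⟨e, e1, -⟩ := exists_ker3 h.dim 0 0 0
  obtain ⟨e', e2, -⟩ := exists_ker_not_line (F := F₀) (by have := h.dim; omega) 0 e
  have e3 : e' ≠ 0 := fun k => e2 (by simp [k])
  obtain ⟨ψ, p1, p2, p3⟩ := exists_fun_two (F := F₀) (by have := h.dim; omega) e e'
  obtain ⟨ρ, r1, r2⟩ := (h.tv hK p2).conj hg
  have c1 : d ψ ∘ₗ g⁻¹.toLinearMap ≠ 0 := fun k => p1 (LinearMap.ext fun v => Subtype.ext (by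
    simpa [h.app] using LinearMap.congr_fun k (g (φ v))))
  generalize d ψ ∘ₗ g⁻¹.toLinearMap = χ at r2 c1
  have N : ∀ (c : F) u, c ≠ 0 → φ u ≠ c • g (φ e) := fun c u hc k =>
    hn ⟨_, inv_ne_zero hc, h.pres hK hL hg e1 ((eq_inv_smul_iff₀ hc).2 k.symm)⟩
  generalize g (φ e) = x at r2 N
  have G : ∀ z, z ≠ 0 → χ (φ z) ≠ 0 := fun z z1 z2 => by
    obtain ⟨u, hu⟩ : ∃ u, χ (φ u) ≠ 0 := by
      by_contra c; push Not at c; exact c1 (h.ext c)
    obtain ⟨u', k⟩ := h.pres hK hL r1 z1 (c := 1) (e := z) (by rw [one_smul, r2.fix z2]) u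
    exact N _ (u' - u) hu (by rw [map_sub, ← one_smul F (φ u'), ← k, r2.app]; simp)
  have G' : d ψ x ≠ 0 := fun k => by
    obtain ⟨u, hu⟩ := h.ratH hK hL p1 ((h.tv hK p2).moveH ⟨ρ, r1, r2⟩ k)
    exact N _ u (G e e1) hu
  have O : ∀ z, z ≠ 0 → ψ z = 0 → ∃ w ∈ K ⊓ fixS F {v | d ψ v = 0 ∧ χ v = 0}, ∃ β : F, β ≠ 0 ∧ w (φ z) = β • x :=
    fun z z1 z2 => by
      obtain ⟨t, t1, t2⟩ := h.tv hK z2
      obtain ⟨w, w1, β, w2, w3⟩ := orb (D := K ⊓ fixS F {v | d ψ v = 0 ∧ χ v = 0}) (t := t) (ρ := ρ)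
        ⟨t1, fun v hv => t2.fix hv.1⟩ ⟨r1, fun v hv => r2.fix hv.2⟩ (M := {φ z}) (mul_ne_zero (G z z1) G')
        (by rintro _ rfl; exact t2.fix t2.hx) (by rintro _ rfl; simp [r2.app (φ z), r2.fix r2.hx])
        (by rintro _ rfl; simp [r2.app (φ z), t2.app, smul_smul]) rfl (fun k => z1 (h.inj k))
      exact ⟨w, w1, _, mul_ne_zero w2 (G z z1), by rw [w3 _ rfl, r2.app]; simp [smul_smul]⟩
  obtain ⟨w, w1, β, w5, w2⟩ := O e e1 p2
  obtain ⟨w', w3, β', w6, w4⟩ := O e' e3 p3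
  have k1 := mul_mem (inv_mem w1) w3
  have k2 : (w⁻¹ * w') (φ e') = (β' / β) • φ e := w.injective (by simp [w2, w4, smul_smul, w5])
  generalize w⁻¹ * w' = k at k1 k2
  have k3 : k (φ e') - φ e' = 0 := h.ext' fun ω => by
    obtain ⟨ω', k3⟩ := h.rat' (a := (β' / β)⁻¹ • d ω ∘ₗ k.toLinearMap) fun u => by
      obtain ⟨u₁, k3⟩ := h.pres hK hL k1.1 e3 k2 u
      simp [k3, h.app, ← mul_assoc, w5, w6]
    obtain ⟨z, z1, z2, z3, z4⟩ := exists_ker3 h.dim ψ ω ω'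
    have k4 : d ω (k (φ z)) = 0 := by simpa [h.app, z4, w5, w6] using (LinearMap.congr_fun k3 (φ z)).symm
    have := congrArg (d ω) (k1.2 (φ e' - (χ (φ e') / χ (φ z)) • φ z) ⟨by simp [h.app, z2, p3], by simp [G z z1]⟩)
    simp only [map_sub, map_smul, k4, h.app ω z, z3] at this
    simpa [sub_eq_zero] using this
  have k4 : φ e' = (β' / β) • φ e := by rw [← k2, sub_eq_zero.1 k3]
  exact e2 (Submodule.mem_span_singleton.2 ⟨⟨_, h.coef e1 k4⟩, sub_eq_zero.1 (h.inj (by simp [Subfield.smul_def, k4]))⟩))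

end Rs

end

variable {ι : Type} [Fintype ι] [DecidableEq ι] {F : Type u} [Field F] {F₀ : Subfield F}

theorem mi_sub_SL [Fintype F] {r : ℕ} (hr : r.Prime) (h : Fintype.card F = Nat.card F₀ ^ r) (hn : 4 ≤ Fintype.card ι)
    (P : GL ι F) : MI LinearEquiv.det.ker (ratS (phiP F₀ P)) := by
  let d : ((ι → F₀) →ₗ[F₀] F₀) → (ι → F) →ₗ[F] F := fun ψ =>
    (∑ i, (ψ (Pi.single i 1) : F) • LinearMap.proj i) ∘ₗ (gl P).symm.toLinearMap
  have e : ∀ i v, d (LinearMap.proj i) (gl P v) = v i := fun i v => by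
    simp [-gl_apply, d, Pi.single_apply, apply_ite]
  have k : Rs (phiP F₀ P) d := ⟨by simpa using hn, fun ψ u => by
      conv_rhs => rw [pi_eq_sum_univ' u]
      rw [phiP_apply, ← gl_apply]
      simp [d, -gl_apply, mul_comm], phiP_span, eq_top_iff.2 fun a _ => by
      rw [show a = ∑ i, a (gl P (Pi.single i 1)) • d (LinearMap.proj i) from LinearMap.ext fun v => by
        obtain ⟨v, rfl⟩ := (gl P).surjective v
        conv_lhs => rw [pi_eq_sum_univ' v]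
        simp [-gl_apply, e, mul_comm]]
      exact Submodule.sum_mem _ fun i _ => Submodule.smul_mem _ _ (Submodule.subset_span ⟨_, rfl⟩), fun v hv => by
      obtain ⟨v, rfl⟩ := (gl P).surjective v
      exact ⟨fun i => ⟨v i, e i v ▸ hv _⟩, rfl⟩, sub_max hr h⟩
  exact ⟨k.not_le (sub_ne hr h), fun K k1 _ g hg hn => SL_le fun x φ =>
    (show φ ∈ SH K from k.mi k1 hg hn ▸ Submodule.mem_top) x⟩

end CfsgH5.Mx
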