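import Cfsg.Agent.H5.Dc3
import Cfsg.Agent.H5.Dc1
import Cfsg.Agent.H5.Mx9

set_option autoImplicit false

/-!
Overgroups of the monomial group, part 2.
-/

namespace CfsgH5.Dc

open Module Matrix Au Mx CForm Cfsg.Geo Nm
open LinearMap (proj toMatrix')

variable {F : Type*} [Field F] {ι : Type} [Fintype ι] [DecidableEq ι] {K : Subgroup ((ι → F) ≃ₗ[F] (ι → F))}

theorem SL_le' (h : ∀ i j : ι, i ≠ j → ∀ c : F, TV K (c • Pi.single i 1) (proj j)) : LinearEquiv.det.ker ≤ K :=
  fun g hg => by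
  have := SL_eq_top_of_transvections (K.comap ((SLV ι F).subtype.comp (slE ι F).toMonoidHom)) fun i j hij c =>
    (h i j hij c).mem ⟨by simp [hij.symm], fun v => by
      change (transvection i j c) *ᵥ v = _
      simp [transvection, add_mulVec, single_mulVec_eq, smul_smul, mul_comm]⟩
  have k : (slE ι F).symm ⟨g, hg⟩ ∈ K.comap ((SLV ι F).subtype.comp (slE ι F).toMonoidHom) := this ▸ Subgroup.mem_top _
  simpa using k

theorem exists_perm {α : Type*} [DecidableEq α] {i j p r : α} (a : i ≠ j) (b : p ≠ r) :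
    ∃ s : Equiv.Perm α, s i = p ∧ s j = r :=
  ⟨Equiv.swap (Equiv.swap i p j) r * Equiv.swap i p, by
    simp [Equiv.swap_apply_of_ne_of_ne (fun e => a ((Equiv.swap i p).injective (by simp [← e])) :
      p ≠ Equiv.swap i p j) b], by simp⟩

variable (K) in
/-- the matrices of the elements of `K` -/
def mS : Submonoid (Matrix ι ι F) where
  carrier := {A | ∃ g ∈ K, ∀ v, g v = A *ᵥ v}
  one_mem' := ⟨1, one_mem _, by simp⟩
  mul_mem' := fun ⟨g, a, b⟩ ⟨h, c, d⟩ => ⟨g * h, mul_mem a c, by simp [b, d]⟩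

theorem mS_self {g : (ι → F) ≃ₗ[F] (ι → F)} (h : g ∈ K) : toMatrix' g.toLinearMap ∈ mS K := ⟨g, h, by simp⟩

theorem mS_inv {A : Matrix ι ι F} (h : A ∈ mS K) : ∃ B ∈ mS K, A * B = 1 :=
  let ⟨g, a, b⟩ := h
  ⟨_, mS_self (inv_mem a), ext_of_mulVec_single fun i => by
    rw [← mulVec_mulVec, ← b, LinearMap.toMatrix'_mulVec, one_mulVec]; exact g.apply_symm_apply _⟩

variable [Fintype F] (hq : 5 ≤ Fintype.card F) (hn : 8 ≤ Fintype.card ι) (hM : ∀ A, A.det = 1 → Mon A → A ∈ mS K)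
include hM

omit [Fintype F] in
theorem exists_dd {i j : ι} (e : i ≠ j) {b : F} (b0 : b ≠ 0) : ∃ g ∈ K,
    (∀ v, g v = v + ((b - 1) * v i) • Pi.single i 1 + ((b⁻¹ - 1) * v j) • Pi.single j 1) ∧
    ∀ v, g⁻¹ v = v + ((b⁻¹ - 1) * v i) • Pi.single i 1 + ((b - 1) * v j) • Pi.single j 1 := by
  obtain ⟨g, a, c⟩ := hM (mo 1 fun k => (if k = i then b else 1) * if k = j then b⁻¹ else 1) (by
    simp only [det_mo, Finset.prod_mul_distrib, Finset.prod_ite_eq', Finset.mem_univ, if_true]; simp [b0]) (mo_mon _ _)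
  have c : ∀ v, g v = v + ((b - 1) * v i) • Pi.single i 1 + ((b⁻¹ - 1) * v j) • Pi.single j 1 := fun v => by
    ext k
    simp only [c, mulVec, dotProduct, mo, of_apply, Equiv.Perm.coe_one, id, ite_mul, zero_mul, Finset.sum_ite_eq,
      Finset.mem_univ, if_true, Pi.add_apply, Pi.smul_apply, Pi.single_apply]
    split_ifs <;> simp_all <;> ring
  refine ⟨g, a, c, fun v => g.injective ((g.apply_symm_apply v).trans ?_)⟩
  simp [c, e, e.symm]
  match_scalars <;> field_simp <;> ring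

include hq hn

theorem le_of_tv {i : ι} {ψ : (ι → F) →ₗ[F] F} (h : TV K (Pi.single i 1) ψ) {l : ι} (hl : ψ (Pi.single l 1) ≠ 0) :
    LinearEquiv.det.ker ≤ K := by
  have li : l ≠ i := by rintro rfl; exact hl h.hx
  obtain ⟨p, p1, p2, -⟩ := exists_idx hn i l i i
  obtain ⟨r, r1, r2, r3, -⟩ := exists_idx hn i l p i
  obtain ⟨b, b0, b1, -⟩ := exists_out hq 0 1 0 0
  obtain ⟨s, s1, s2, s3⟩ := exists_dd hM p2.symm b0
  obtain ⟨u, u1, u2, u3⟩ := exists_dd hM r2.symm b0
  have h1 := h.conj s1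
  rw [show s (Pi.single i 1) = Pi.single i 1 by simp [s2, li, p1]] at h1
  have h1 := h1.sub' h
  have h2 := h1.conj u1
  rw [show u (Pi.single i 1) = Pi.single i 1 by simp [u2, li, r1]] at h2
  have h2 : TV K (Pi.single i 1) (((b⁻¹ - 1) ^ 2 * ψ (Pi.single l 1)) • proj l) := by
    convert h2.sub' h1 using 1
    refine LinearMap.ext fun v => ?_
    simp [s3, u3, r2.symm, r3.symm, p2, -LinearEquiv.coe_inv]
    ring
  have c0 : (b⁻¹ - 1) ^ 2 * ψ (Pi.single l 1) ≠ 0 := by simp [hl, sub_eq_zero, b1]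
  generalize (b⁻¹ - 1) ^ 2 * ψ (Pi.single l 1) = c at h2 c0
  refine SL_le' fun i' j' e d => ?_
  by_cases d0 : d = 0
  · simpa [d0] using tv_zero _
  obtain ⟨π, rfl, rfl⟩ := exists_perm li.symm e
  obtain ⟨g, a, k⟩ := hM (mo π fun k => (if k = i then d / c else 1) * if k = p then (Equiv.Perm.sign π : ℤ) * (c / d) else 1)
    (by
      simp only [det_mo, Finset.prod_mul_distrib, Finset.prod_ite_eq', Finset.mem_univ, if_true]
      rcases Int.units_eq_one_or (Equiv.Perm.sign π) with x | x <;> simp [x, c0, d0]) (mo_mon _ _)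
  have h3 := h2.conj a
  rw [show (c • proj l : (ι → F) →ₗ[F] F) ∘ₗ g⁻¹.toLinearMap = c • proj (π l) from LinearMap.ext (g.surjective.forall.2
    fun v => (congrArg (c • proj l : (ι → F) →ₗ[F] F) (g.symm_apply_apply v)).trans (by
      simp [k, mulVec, dotProduct, mo, li, p2.symm]))] at h3
  convert h3.smul' (by simpa [c0] using h3.hx) using 1
  ext x
  simp [k, mo, p1.symm, Pi.single_apply, mul_div_cancel₀ _ c0]

theorem le_of_two {i j l : ι} (ij : i ≠ j) (li : l ≠ i) (lj : l ≠ j) {y : (ι → F) ≃ₗ[F] (ι → F)} (hy : y ∈ K)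
    (h1 : ∀ v r, r ≠ i → r ≠ j → y v r = v r) (h2 : y (Pi.single i 1) j = 0) (h3 : y (Pi.single l 1) j ≠ 0) :
    LinearEquiv.det.ker ≤ K := by
  obtain ⟨p, p1, p2, p3, -⟩ := exists_idx hn i j l i
  obtain ⟨r, r1, r2, r3, r4⟩ := exists_idx hn i j l p
  obtain ⟨b, b0, b1, -⟩ := exists_out hq 0 1 0 0
  obtain ⟨s, s1, s2, s3⟩ := exists_dd hM p3.symm b0
  obtain ⟨w, w1, w2, w3⟩ := exists_dd hM r2.symm b0
  have y1 : ∀ k, y (Pi.single k 1) = Pi.single k 1 + (y (Pi.single k 1) - Pi.single k 1 : ι → F) i • Pi.single i 1 +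
      (y (Pi.single k 1) - Pi.single k 1 : ι → F) j • Pi.single j 1 := fun k => by
    ext x
    by_cases a : x = i
    · simp [a, ij]
    by_cases c : x = j
    · simp [c, ij.symm]
    · simp [a, c, h1]
  have u1 : y⁻¹ * (s * y * s⁻¹) ∈ K := mul_mem (inv_mem hy) (mul_mem (mul_mem s1 hy) (inv_mem s1))
  have u2 : ∀ v, y ((y⁻¹ * (s * y * s⁻¹)) v) = y v + ((b⁻¹ - 1) * v l) • (y (Pi.single l 1) - Pi.single l 1) +
      ((b - 1) * v p) • (y (Pi.single p 1) - Pi.single p 1) := fun v => (y.apply_symm_apply _).trans <| by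
    simp [s2, s3, h1 _ l li lj, h1 _ p p1 p2, p3, p3.symm, -LinearEquiv.coe_inv]
    match_scalars <;> field_simp <;> ring
  generalize y⁻¹ * (s * y * s⁻¹) = u at u1 u2
  have u3 : ∀ k, k ≠ l → k ≠ p → u (Pi.single k 1) = Pi.single k 1 := fun k a c => y.injective (by simp [u2, a.symm, c.symm])
  have u4 : ∀ v k, k ≠ i → k ≠ j → u v k = v k := fun v k a c => by
    simpa [h1 _ k a c] using congrFun (u2 v) k
  have u5 : u (Pi.single l 1) j ≠ 0 := fun e => by
    have := congrFun (u2 (Pi.single l 1)) j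
    rw [show u (Pi.single l 1) = Pi.single l 1 + u (Pi.single l 1) i • Pi.single i 1 by
      ext x
      by_cases a : x = i
      · simp [a, li.symm]
      by_cases c : x = j
      · simp [c, ij.symm, lj.symm, e]
      · simp [a, u4 _ x a c]] at this
    simp [h2, h3, p3, lj.symm, sub_eq_zero, b1] at this
  refine le_of_tv hq hn hM (i := j) (ψ := (b - 1) • (proj j ∘ₗ u.toLinearMap - proj j)) (l := l) ⟨_, mul_mem (inv_mem u1)
    (mul_mem (mul_mem w1 u1) (inv_mem w1)), by simp [u3 j lj.symm p2.symm], fun v => u.injective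
      ((u.apply_symm_apply _).trans ?_)⟩ (by
      simp [u5, lj.symm, sub_eq_zero, b1])
  simp [w2, w3, u3 j lj.symm p2.symm, u3 r r3 r4, u4 _ r r1 r2, r2, r2.symm, -LinearEquiv.coe_inv]
  match_scalars <;> field_simp <;> ring

omit hn in
theorem mono_max (hn : 9 ≤ Fintype.card ι) (hK : K ≤ LinearEquiv.det.ker) {g : (ι → F) ≃ₗ[F] (ι → F)} (hg : g ∈ K)
    (h : ¬ Mon (toMatrix' g.toLinearMap)) : LinearEquiv.det.ker ≤ K := by
  have h8 : 8 ≤ Fintype.card ι := by omega
  refine by_contra fun hN => h (mon_of hq h8 (fun _ => mS_inv) (fun π t a => hM _ a (mo_mon π t)) ?_ (mS_self hg))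
  rintro A ⟨k, k1, k2⟩ i hi l
  let S : Submonoid (Matrix {x // x ≠ i} {x // x ≠ i} F) :=
    { carrier := {X | ∃ B ∈ mS K, (∀ x, x ≠ i → B x i = 0) ∧ X = B.submatrix (↑) (↑)}
      one_mem' := ⟨1, one_mem _, fun x => one_apply_ne, (submatrix_one _ Subtype.val_injective).symm⟩
      mul_mem' := by
        rintro _ _ ⟨B, a, b, rfl⟩ ⟨C, c, d, rfl⟩
        refine ⟨B * C, mul_mem a c, fun x e => ?_, ?_⟩
        · rw [mul_apply, Finset.sum_eq_single i (fun y _ e => by simp [d y e]) (by simp), b x e, zero_mul]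
        · ext x y
          simp [mul_apply, Fintype.sum_eq_add_sum_subtype_ne _ i, b x x.2] }
  have ii : ∀ {B C : Matrix ι ι F}, C * B = 1 → (∀ x, x ≠ i → B x i = 0) → ∀ x, C x i * B i i = (1 : Matrix ι ι F) x i :=
    fun {B C} e b x => by rw [← e, mul_apply, Finset.sum_eq_single i (fun y _ e => by simp [b y e]) (by simp)]
  have := mon_of (S := S) hq (by simp; omega) ?_ ?_ ?_ ⟨A, ⟨k, k1, k2⟩, fun x e => (hi x).trans (one_apply_ne e), rfl⟩
  · have ke : k (Pi.single i 1) = Pi.single i 1 := by ext x; simp [k2, hi, one_apply, Pi.single_apply]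
    obtain ⟨s, hs⟩ := exists_T (x := -Pi.single i 1) (φ := (proj i ∘ₗ k.toLinearMap - proj i) ∘ₗ k⁻¹.toLinearMap) (by
      simp [k.symm_apply_eq.2 ke.symm, ke])
    have sk : ∀ v, (s * k) v = k v - (k v i - v i) • Pi.single i 1 := fun v => by simp [hs.app, sub_eq_add_neg]
    have sd := mul_mem hs.det (hK k1)
    generalize hw : s * k = w at sk sd
    obtain ⟨n, n1, n2⟩ := hM (toMatrix' w.toLinearMap) (by simpa using congrArg Units.val sd) fun j => by
        by_cases e : j = i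
        · exact ⟨i, fun x c => by simp [sk, e, ke, c]⟩
        obtain ⟨x, b⟩ := this ⟨j, e⟩
        refine ⟨x, fun y c => ?_⟩
        by_cases d : y = i
        · simp [sk, d, Ne.symm e]
        · simpa [sk, d, k2] using b ⟨y, d⟩ fun e => c (congrArg (·.1) e)
    obtain rfl : n = s * k := hw ▸ LinearEquiv.ext fun v => by simp [n2]
    have t := TV.neg ⟨s, by simpa using mul_mem n1 (inv_mem k1), hs⟩
    rw [neg_neg] at t
    have : (proj i ∘ₗ k.toLinearMap - proj i) ∘ₗ k⁻¹.toLinearMap = 0 :=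
      LinearMap.pi_ext' fun x => LinearMap.ext_ring (not_not.1 fun c => hN (le_of_tv hq h8 hM t c))
    have : k (Pi.single l 1) i - (Pi.single l 1 : ι → F) i = 0 := by simpa using LinearMap.congr_fun this (k (Pi.single l 1))
    simpa [k2, sub_eq_zero, one_apply, Pi.single_apply] using this
  · rintro _ ⟨B, a, b, rfl⟩
    obtain ⟨C, c, d⟩ := mS_inv a
    have e := ii (mul_eq_one_comm.1 d) b
    refine ⟨_, ⟨C, c, fun x k => ?_, rfl⟩, ?_⟩
    · exact ((mul_eq_zero.1 ((e x).trans (one_apply_ne k))).resolve_right (right_ne_zero_of_mul_eq_one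
        ((e i).trans (one_apply_eq i))))
    · ext x y
      simpa [mul_apply, Fintype.sum_eq_add_sum_subtype_ne _ i, b x x.2, one_apply, Subtype.ext_iff] using congrFun₂ d x y
  · intro π t a
    refine ⟨mo (Equiv.Perm.ofSubtype π) fun x => if h : x ≠ i then t ⟨x, h⟩ else 1, hM _ ?_ (mo_mon _ _), fun x e => by
      simp [mo, Equiv.Perm.ofSubtype_apply_of_not_mem, e], ?_⟩
    · rw [det_mo] at a ⊢
      rw [Fintype.prod_eq_mul_prod_subtype_ne _ i]
      simpa [fun x : {x // x ≠ i} => x.2] using a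
    · ext x y
      simp [mo, Equiv.Perm.ofSubtype_apply_coe, Subtype.ext_iff, y.2]
  · rintro _ ⟨B, ⟨k, k1, k2⟩, b, rfl⟩ ⟨j, ji⟩ c ⟨l, li⟩
    by_cases lj : l = j
    · subst lj; exact c _
    rw [one_apply_ne fun e => lj (congrArg (·.1) e).symm]
    refine by_contra fun d => hN ?_
    obtain ⟨a, a0, a1, -⟩ := exists_out hq 0 1 0 0
    obtain ⟨s, s1, s2, -⟩ := exists_dd hM ji a0
    obtain ⟨C, -, e⟩ := mS_inv ⟨k, k1, k2⟩
    have b0 := right_ne_zero_of_mul_eq_one ((ii (mul_eq_one_comm.1 e) b i).trans (one_apply_eq i))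
    have e1 : k (Pi.single i 1) = B i i • Pi.single i 1 := by
      ext x; by_cases e : x = i <;> simp [k2, e, b]
    have e2 : k (Pi.single j 1) = Pi.single j 1 + B i j • Pi.single i 1 := by
      ext x
      by_cases e : x = i
      · simp [k2, e, Ne.symm ji]
      · simpa [k2, e, one_apply, Subtype.ext_iff, Pi.single_apply] using c ⟨x, e⟩
    have y : ∀ v, (k⁻¹ * (s * k)) v = v + ((a - 1) * k v j) • Pi.single j 1 +
        (((a⁻¹ - 1) * k v i - (a - 1) * k v j * B i j) / B i i) • Pi.single i 1 := fun v =>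
      k.injective ((k.apply_symm_apply _).trans (by
        refine (s2 (k v)).trans ?_
        simp only [map_add, map_smul, e1, e2]
        match_scalars <;> field_simp <;> ring))
    refine le_of_two hq h8 hM (Ne.symm ji) li lj (mul_mem (inv_mem k1) (mul_mem s1 k1)) (fun v r x z => ?_) ?_ ?_ <;>
      rw [y]
    · simp [x, z]
    · simp [e1, ji]
    · simpa [k2, ji, Ne.symm lj, sub_eq_zero, a1] using d

end CfsgH5.Dc
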