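import Cfsg.Agent.H5.Nm2

set_option autoImplicit false

/-!
Non-maximal geometric subgroups, part 4: decompositions over very small fields and the weight function.
-/

namespace CfsgH5.Nm

open Module Matrix Au Mx CForm Cfsg.Geo

variable {F : Type*} [Field F] {V : Type*} [AddCommGroup V] [Module F V] {t m : ℕ}

/-- the elements preserving a function -/
def fixF {X : Type*} (N : V → X) : Subgroup (V ≃ₗ[F] V) where
  carrier := {g | ∀ v, N (g v) = N v}
  one_mem' _ := rfl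
  mul_mem' a b v := (a _).trans (b v)
  inv_mem' a v := (a _).symm.trans (by simp)

open Classical in
/-- the number of non-zero blocks -/
noncomputable def wt (x : Fin m × Fin t → F) : F := ∑ i, if ∀ a, x (a, i) = 0 then 0 else 1

variable {D : Fin t → Submodule F V} {Φ : (Fin m × Fin t → F) ≃ₗ[F] V}

variable (D Φ) in
/-- adapted coordinates -/
structure Ad : Prop where
  mem : ∀ j x, Φ x ∈ D j ↔ ∀ a i, i ≠ j → x (a, i) = 0
  inv : ∀ g ∈ dS D, ∀ x y, g (Φ x) = Φ y → wt y = wt x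

theorem exists_ad {ι : Type} [Fintype ι] [DecidableEq ι] {D : Fin t → Submodule F (ι → F)} (h : IsMDecomposition m D) :
    ∃ Φ : (Fin m × Fin t → F) ≃ₗ[F] (ι → F), Ad D Φ := by
  obtain ⟨e, P, h1, h2⟩ := As.exists_bm h
  refine ⟨(LinearEquiv.funCongrLeft F F e).trans (gl P), h1, fun g k x y c => ?_⟩
  obtain ⟨g, rfl⟩ := gl_surjective g
  obtain ⟨s, A, k⟩ := h2 g (mem_decStab.2 k)
  have d := g.det_ne_zero
  rw [k, As.det_tp, As.det_bm, mul_ne_zero_iff, Finset.prod_ne_zero_iff] at d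
  obtain rfl : As.bm s A *ᵥ x = y := ((LinearEquiv.funCongrLeft F F e).trans (gl P)).injective
    ((As.tp_mulVec e P _ x).symm.trans (k ▸ c))
  refine Fintype.sum_equiv s _ _ fun i => ?_
  congr 1
  refine propext ?_
  have : ∀ a, (As.bm s A *ᵥ x) (a, i) = (A (s i) *ᵥ fun b => x (b, s i)) a := fun a => by
    simp [mulVec, dotProduct, As.bm_apply, Fintype.sum_prod_type]
  simp only [this]
  exact ⟨fun k => congrFun (eq_zero_of_mulVec_eq_zero (d.2 _ (Finset.mem_univ _)) (funext k)), fun k a => by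
    simp [mulVec, dotProduct, k]⟩

theorem Ad.nm (h : Ad D Φ) {G : Subgroup (V ≃ₗ[F] V)} (h1 : ∃ g ∈ G, ∃ x y, g (Φ x) = Φ y ∧ wt y ≠ wt x)
    (h2 : ∃ g ∈ G, ∃ T : (Fin m × Fin t → F) → _, (∀ x, g (Φ x) = Φ (T x)) ∧ (∀ x, wt (T x) = wt x) ∧
      ∃ p a b i j, i ≠ j ∧ T (Pi.single p 1) (a, i) ≠ 0 ∧ T (Pi.single p 1) (b, j) ≠ 0) : NM G (dS D) := by
  refine nm_of (fixF fun v => wt (Φ.symm v)) (fun g _ k v => h.inv g k _ _ (by simp)) (fun e => ?_) ?_
  · obtain ⟨g, a, x, y, b, c⟩ := h1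
    exact c (by simpa [b] using e a (Φ x))
  obtain ⟨g, a, T, b, c, p, x, y, i, j, d, u, v⟩ := h2
  refine ⟨g, a, Φ.surjective.forall.2 fun x => by simp [b, c], fun k => ?_⟩
  obtain ⟨l, k⟩ := dS_map k p.2
  have := (h.mem l _).1 (b _ ▸ k (Φ (Pi.single p 1)) ((h.mem _ _).2 fun a i e => Pi.single_eq_of_ne
    (by rintro rfl; exact e rfl) _))
  exact d ((not_not.1 (mt (this x i) u)).trans (not_not.1 (mt (this y j) v)).symm)

theorem exists_T' [FiniteDimensional F V] (Φ : (Fin m × Fin t → F) ≃ₗ[F] V) (w z : Fin m × Fin t → F) (h : w ⬝ᵥ z = 0) :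
    ∃ g ∈ (LinearEquiv.det (R := F) (M := V)).ker, ∀ x, g (Φ x) = Φ (x + (w ⬝ᵥ x) • z) :=
  let ⟨g, k⟩ := exists_T (x := Φ z) (φ := dotProductBilin F F w ∘ₗ Φ.symm.toLinearMap) (by simpa)
  ⟨g, k.det, fun x => by simp [k.app]⟩

/-- an initial segment of a row -/
def sg (F : Type*) [Field F] (a : Fin m) (k : ℕ) : Fin m × Fin t → F := fun p => if p.1 = a ∧ p.2.val < k then 1 else 0

theorem n3 (a : ℕ) : ¬ a + 1 + 1 + 1 < 3 := by omega
theorem n2 (a : ℕ) : ¬ a + 1 + 1 + 1 < 2 := by omega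
theorem n4 (a : ℕ) : ¬ a + 1 + 1 + 1 + 1 < 4 := by omega
theorem n43 (a : ℕ) : ¬ a + 1 + 1 + 1 + 1 < 3 := by omega

theorem Ad.nm_two [Fintype F] (hq : Fintype.card F = 2) {Φ : (Fin 2 × Fin t → F) ≃ₗ[F] V} (h : Ad D Φ) (ht : 3 ≤ t)
    {G : Subgroup (V ≃ₗ[F] V)} (hG : ∀ k, ∃ g ∈ G, ∀ x, g (Φ x) = Φ (x + (sg F 1 k ⬝ᵥ x) • sg F 0 k)) : NM G (dS D) := by
  have h2 : (2 : F) = 0 := not_not.1 (As.two_ne_zero_iff.not.2 (by simp [hq]))
  have w : ∀ x : Fin 2 × Fin t → F, wt x = ∑ i, (x (0, i) + x (0, i) * x (1, i) + x (1, i)) := fun x =>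
    Finset.sum_congr rfl fun i _ => by
      rcases As.eq_zero_or_one hq (x (0, i)) with a | a <;> rcases As.eq_zero_or_one hq (x (1, i)) with b | b <;>
        simp [a, b, one_add_one_eq_two, h2]
  obtain ⟨t, rfl⟩ := Nat.exists_eq_add_of_le' ht
  obtain ⟨g, a, b⟩ := hG 2
  obtain ⟨g', a', b'⟩ := hG 3
  refine h.nm ⟨g, a, Pi.single (1, 0) 1, _, b _, ?_⟩ ⟨g', a', _, b', fun x => ?_, (1, 0), 0, 0, 0, 1, by simp, by simp [sg],
    by simp [sg]⟩
  · simp [w, sg, Fin.sum_univ_succ, Pi.single_apply, n2, one_add_one_eq_two, h2]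
  · have := FiniteField.pow_card (x (1, 0) + x (1, 1) + x (1, 2))
    simp [w, sg, Fin.sum_univ_succ, dotProduct, Fintype.sum_prod_type, hq, n3] at this ⊢
    grind

theorem Ad.nm_one [Fintype F] [FiniteDimensional F V] (hq : Fintype.card F ≤ 4) {Φ : (Fin 1 × Fin t → F) ≃ₗ[F] V}
    (h : Ad D Φ) (ht : 4 ≤ t) : NM (LinearEquiv.det (R := F) (M := V)).ker (dS D) := by
  have q := Fintype.one_lt_card (α := F)
  have w : ∀ x : Fin 1 × Fin t → F, wt x = ∑ i, x (0, i) ^ (Fintype.card F - 1) := fun x =>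
    Finset.sum_congr rfl fun i _ => by
      by_cases a : x (0, i) = 0
      · simp [a, zero_pow (by omega : Fintype.card F - 1 ≠ 0)]
      · simp [a, FiniteField.pow_card_sub_one_eq_one]
  obtain ⟨t, rfl⟩ := Nat.exists_eq_add_of_le' ht
  have v2 : 2 % (t + 4) = 2 := Nat.mod_eq_of_lt (by omega)
  have e0 : (2 : Fin (t + 4)) ≠ 0 := Fin.ne_of_val_ne (by simp [v2])
  have e1 : (1 : Fin (t + 4)) ≠ 2 := Fin.ne_of_val_ne (by simp [v2])
  have e2 : ∀ k : ℕ, ∀ i : Fin (k + 1), i.succ.succ ≠ 1 := fun k i => Fin.ne_of_val_ne (by simp)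
  obtain ⟨g, a, b⟩ := exists_T' Φ (Pi.single (0, 0) 1) (Pi.single (0, 1) 1) (by simp)
  refine h.nm ⟨g, a, Pi.single (0, 0) 1, _, b _, by
    simp [w, Fin.sum_univ_succ, Pi.single_apply, zero_pow (by omega : Fintype.card F - 1 ≠ 0), -Finset.sum_boole, e2]⟩ ?_
  have c := FiniteField.cast_card_eq_zero F
  by_cases h3 : Fintype.card F = 3
  · simp only [h3, Nat.cast_ofNat] at c
    obtain ⟨g, a, b⟩ := exists_T' Φ (sg F 0 3) (sg F 0 4 + sg F 0 3) (by
      simp [sg, Fin.sum_univ_succ, dotProduct, Fintype.sum_prod_type, n4, n43]; grind)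
    obtain ⟨g', a', b'⟩ := exists_T' Φ (sg F 0 3 - sg F 0 4) (sg F 0 3) (by
      simp [sg, Fin.sum_univ_succ, dotProduct, Fintype.sum_prod_type, n4, n43])
    refine ⟨g' * g, mul_mem a' a, _, fun x => (congrArg g' (b x)).trans (b' _), fun x => ?_, (0, 0), 0, 0, 1, 2, e1,
      ?_, ?_⟩ <;> simp [w, h3, sg, Fin.sum_univ_succ, dotProduct, Fintype.sum_prod_type, Pi.single_apply, n4, n43, v2, e0]
    all_goals grind
  have h2 : (2 : F) = 0 := not_not.1 (As.two_ne_zero_iff.not.2 (by rw [Nat.odd_iff]; omega))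
  obtain ⟨g, a, b⟩ := exists_T' Φ (sg F 0 4) (sg F 0 4) (by
    simp [sg, Fin.sum_univ_succ, dotProduct, Fintype.sum_prod_type, n4]; grind)
  refine ⟨g, a, _, b, fun x => ?_, (0, 0), 0, 0, 1, 2, e1, by simp [sg], by simp [sg, v2, e0]⟩
  have := FiniteField.pow_card (x (0, 0) + x (0, 1) + x (0, 2) + x (0, 3))
  obtain e | e : Fintype.card F = 2 ∨ Fintype.card F = 4 := by omega
  all_goals
    simp [w, e, sg, Fin.sum_univ_succ, dotProduct, Fintype.sum_prod_type, n4] at this ⊢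
    grind

end CfsgH5.Nm
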