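import Cfsg.Agent.H5.Dc4
import Cfsg.Agent.H5.Nm4

set_option autoImplicit false

/-!
Maximality of imprimitive subgroups of special linear groups.
-/

namespace CfsgH5.Dc

open Module Matrix Au Mx CForm Cfsg.Geo Nm
open LinearMap (proj toMatrix')

variable {F : Type*} [Field F] {m t : ℕ}

variable (F m) in
/-- the standard decomposition -/
def D0 (j : Fin t) : Submodule F (Fin m × Fin t → F) where
  carrier := {x | ∀ a i, i ≠ j → x (a, i) = 0}
  add_mem' a b _ _ e := by simp [a _ _ e, b _ _ e]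
  zero_mem' _ _ _ := rfl
  smul_mem' _ _ a _ _ e := by simp [a _ _ e]

/-- the components -/
def pj (j : Fin t) : (Fin m × Fin t → F) →ₗ[F] (Fin m × Fin t → F) := .pi fun p => if p.2 = j then proj p else 0

theorem pj_apply (j : Fin t) (x : Fin m × Fin t → F) (p : Fin m × Fin t) : pj j x p = if p.2 = j then x p else 0 := by
  by_cases h : p.2 = j <;> simp [pj, h]

theorem pj_mem (j : Fin t) (x : Fin m × Fin t → F) : pj j x ∈ D0 F m j := fun _ _ e => by simp [pj_apply, e]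

theorem pj_self {j : Fin t} {x : Fin m × Fin t → F} (h : x ∈ D0 F m j) : pj j x = x := funext fun p => by
  by_cases e : p.2 = j <;> simp [pj_apply, e, h p.1 p.2]

theorem single_mem (p : Fin m × Fin t) : Pi.single p 1 ∈ D0 F m p.2 := fun _ _ e =>
  Pi.single_eq_of_ne (by rintro rfl; exact e rfl) _

/-- functionals supported on one block -/
def Du (j : Fin t) (ψ : (Fin m × Fin t → F) →ₗ[F] F) : Prop := ∀ i, i ≠ j → ∀ v ∈ D0 F m i, ψ v = 0

theorem du_pj (j : Fin t) (ψ : (Fin m × Fin t → F) →ₗ[F] F) : Du j (ψ ∘ₗ pj j) := fun i e v h => by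
  rw [LinearMap.comp_apply, show pj j v = 0 from funext fun p => by
    by_cases c : p.2 = j <;> simp [pj_apply, c, h p.1 p.2, e.symm], map_zero]

theorem sum_pj (x : Fin m × Fin t → F) : ∑ j, pj j x = x := by ext; simp [pj_apply]

theorem Du.app {j : Fin t} {ψ : (Fin m × Fin t → F) →ₗ[F] F} (h : Du j ψ) (x : Fin m × Fin t → F) : ψ (pj j x) = ψ x := by
  conv_rhs => rw [← sum_pj x, map_sum, Finset.sum_eq_single j (fun i _ e => h i e _ (pj_mem i x)) (by simp)]

theorem Du.smul {j : Fin t} {ψ : (Fin m × Fin t → F) →ₗ[F] F} (h : Du j ψ) (c : F) : Du j (c • ψ) := fun i e v k => by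
  simp [h i e v k]

theorem dual {i : Fin t} {x y : Fin m × Fin t → F} (a : x ∈ D0 F m i) (b : y ∈ D0 F m i) (c : y ∉ F ∙ x) :
    ∃ ψ, Du i ψ ∧ ψ y = 1 ∧ ψ x = 0 :=
  let ⟨φ, h⟩ := exists_fun_line c
  ⟨_, du_pj i φ, by simpa [pj_self, a, b]⟩

theorem exists_hom {i : Fin t} {y : Fin m × Fin t → F} {ψ : (Fin m × Fin t → F) →ₗ[F] F} (a : y ∈ D0 F m i) (b : Du i ψ)
    (c : 1 + ψ y ≠ 0) : ∃ g : (Fin m × Fin t → F) ≃ₗ[F] (Fin m × Fin t → F), (∀ j, ∀ v ∈ D0 F m j, g v ∈ D0 F m j) ∧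
      (LinearEquiv.det g : F) = 1 + ψ y ∧ ∀ v, g v = v + ψ v • y :=
  ⟨.dilatransvection c.isUnit, fun j v k => by
    rw [LinearEquiv.dilatransvection.apply]
    by_cases e : j = i
    · exact add_mem k (Submodule.smul_mem _ _ (e ▸ a))
    · simpa [b j e v k], by simp, fun _ => LinearEquiv.dilatransvection.apply⟩

theorem mi_blk [Fintype F] (ht : 2 ≤ t) (hm : 0 < m) (hr : ∀ j : Fin t, finrank F (D0 F m j) = m) (hn : 13 ≤ m * t)
    (h1 : ¬ (m = 1 ∧ Fintype.card F ≤ 4)) (h2 : ¬ (m = 2 ∧ Fintype.card F = 2)) :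
    MI LinearEquiv.det.ker (dS (D0 F m (t := t))) := by
  let o : Fin m := ⟨0, hm⟩
  have mem := fun g => mem_dS (g := g) hr fun i j e => by_contra fun c => by simpa using e.le (single_mem (o, i)) o i c
  constructor
  · intro k
    obtain ⟨i, j, e⟩ := Fin.nontrivial_iff_two_le.2 ht |>.exists_pair_ne
    obtain ⟨g, hg⟩ := exists_T (F := F) (V := Fin m × Fin t → F) (x := Pi.single (o, i) 1) (φ := proj (o, j))
      (by simp [e.symm])
    obtain ⟨l, k⟩ := dS_map (k hg.det) j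
    have k := k _ (single_mem (o, j))
    by_cases c : i = l
    · simpa [hg.app, e.symm] using k o j (c ▸ e.symm)
    · simpa [hg.app, e] using k o i c
  intro K hK hK' g hg hn'
  by_cases m1 : m = 1
  · subst m1
    have mon : ∀ g : (Fin 1 × Fin t → F) ≃ₗ[F] (Fin 1 × Fin t → F), Mon (toMatrix' g.toLinearMap) → g ∈ dS (D0 F 1) :=
      fun g h => mem g fun j => by
        obtain ⟨p, h⟩ := h (0, j)
        refine ⟨p.2, fun v k a i e => ?_⟩
        rw [show v = v (0, j) • Pi.single (0, j) 1 from funext fun ⟨b, l⟩ => by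
          by_cases c : l = j <;> simp [c, Subsingleton.elim b 0, k 0 l], map_smul]
        simpa using .inr (h (a, i) (by rintro rfl; exact e rfl))
    refine mono_max (by omega) (fun A a b => ?_) (by simp; omega) hK' hg (mt (mon g) hn')
    let s := gl (GeneralLinearGroup.mkOfDetNeZero A (a ▸ one_ne_zero))
    have e : toMatrix' s.toLinearMap = A := by ext; simp [s, gl_apply]
    exact ⟨s, hK ⟨mon s (e ▸ b), Units.ext (by simp [← LinearMap.det_toMatrix', e, a])⟩, fun v => gl_apply _ v⟩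
  have ot : ∀ i (x : Fin m × Fin t → F), ∃ y ∈ D0 F m i, y ∉ F ∙ x := fun i x => exists_not_mem (by
    have := finrank_span_le_card (R := F) ({x} : Set (Fin m × Fin t → F))
    simp only [Set.toFinset_card, Fintype.card_unique] at this
    rw [hr]; omega)
  have tv : ∀ {i x ψ}, x ∈ D0 F m i → Du i ψ → ψ x = 0 → TV K x ψ := fun {i x ψ} a b c => tv_of c fun s d => by
    obtain ⟨s', k, -, e⟩ := exists_hom a b (by simp [c])
    exact hK ⟨mem s fun j => ⟨j, fun v h => (d.app v).trans (e v).symm ▸ k j v h⟩, d.det⟩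
  let R (i j : Fin t) : Prop := ∀ x ∈ D0 F m i, ∀ ψ, Du j ψ → TV K x ψ
  have R1 : ∀ {i j x ψ}, i ≠ j → x ∈ D0 F m i → x ≠ 0 → Du j ψ → ψ ≠ 0 → TV K x ψ → R i j := by
    intro i j x ψ e a b c d h
    have s1 : ∀ z ∈ D0 F m i, z ∉ F ∙ x → TV K z ψ := fun z p q => by
      obtain ⟨χ, k1, k2, k3⟩ := dual p a fun k => q (by simpa using exchange (X := ⊥) (by simpa) (by simpa using k))
      simpa [k2] using h.moveH (tv p k1 k3) (c i e z p)
    have s2 : ∀ z ∈ D0 F m i, TV K z ψ := fun z p => by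
      by_cases q : z ∈ F ∙ x
      · obtain ⟨y, y1, y2⟩ := ot i x
        simpa using (s1 _ (add_mem p y1) (by rwa [Submodule.add_mem_iff_right _ q])).sub (s1 y y1 y2)
      · exact s1 z p q
    intro z p χ q
    by_cases k : ∀ v, χ v = 0 → ψ v = 0
    · obtain ⟨l, rfl⟩ := exists_smul_fun k
      have l0 : l ≠ 0 := by rintro rfl; simp at d
      simpa [smul_smul, l0] using (s2 _ (Submodule.smul_mem _ l⁻¹ p)).smul (c i e z p)
    · obtain ⟨v, k1, k2⟩ := not_forall₂.1 k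
      simpa [c.app, k2] using (s2 z p).moveP (tv (Submodule.smul_mem _ (ψ v)⁻¹ (pj_mem j v)) q (by simp [q.app, k1]))
        (q i e z p)
  have G : ∀ {i j x φ}, i ≠ j → TV K x φ → pj i x ≠ 0 → (∃ w ∈ D0 F m j, φ w ≠ 0) →
      (∃ z ∈ D0 F m i, z ∉ F ∙ pj i x ∧ φ z = 0) → ∃ i j, i ≠ j ∧ R i j := by
    rintro i j x φ e h a ⟨w, w1, w2⟩ ⟨z, z1, z2, z3⟩
    obtain ⟨χ, k1, k2, k3⟩ := dual z1 (pj_mem i x) fun k => z2 (by
      simpa using exchange (X := ⊥) (by simpa) (by simpa using k))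
    have h := h.moveH (tv z1 k1 k3) z3
    rw [← k1.app, k2, one_smul] at h
    obtain ⟨y, y1, y2⟩ := ot j w
    obtain ⟨ψ, p1, p2, p3⟩ := dual w1 y1 y2
    exact ⟨i, j, e, R1 e z1 (by rintro rfl; simp at z2) (p1.smul _) (fun k => w2 (by
      simpa [p2] using LinearMap.congr_fun k y)) (h.moveP (tv w1 p1 p3) (p1 i e z z1))⟩
  have G' : ∀ {i j x φ}, i ≠ j → TV K x φ → pj i x ≠ 0 → pj j x ≠ 0 →
      ¬ (∃ z ∈ D0 F m i, z ∉ F ∙ pj i x ∧ φ z = 0) → ∃ i j, i ≠ j ∧ R i j := by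
    intro i j x φ e h a b c
    obtain rfl : m = 2 := by_contra fun k => by
      obtain ⟨z, z1, z2⟩ := exists_ker_not_line (by rw [hr]; omega) (φ ∘ₗ (D0 F m i).subtype) ⟨_, pj_mem i x⟩
      exact c ⟨z, z.2, fun k => z1 (by
        obtain ⟨l, k⟩ := Submodule.mem_span_singleton.1 k
        exact Submodule.mem_span_singleton.2 ⟨l, Subtype.ext k⟩), z2⟩
    obtain ⟨y, y1, y2⟩ := ot i (pj i x)
    have y3 : φ y ≠ 0 := fun k => c ⟨y, y1, y2, k⟩
    have x0 : φ (pj i x) = 0 := by_contra fun k => c ⟨y - (φ y / φ (pj i x)) • pj i x,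
      sub_mem y1 (Submodule.smul_mem _ _ (pj_mem i x)), by
        rwa [Submodule.sub_mem_iff_left _ (Submodule.smul_mem _ _ (Submodule.mem_span_singleton_self _))], by simp [k]⟩
    obtain ⟨k, k1, k2⟩ := exists_ne_ne_of_three_le (ι := Fin t) (by simp; omega) i j
    obtain ⟨y', y4, y5⟩ := ot k (pj k x)
    obtain ⟨χ, p1, p2, p3⟩ := dual (pj_mem k x) y4 y5
    obtain ⟨u, u0, u1⟩ := exists_ne_ne_of_three_le (ι := Fin (Fintype.card F)) (by
      have := Fintype.one_lt_card (α := F); simp; omega) (Fintype.equivFin F 0) (Fintype.equivFin F 1)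
    obtain ⟨u, rfl⟩ := (Fintype.equivFin F).surjective u
    simp only [ne_eq, EmbeddingLike.apply_eq_iff_eq] at u0 u1
    have d1 := (du_pj i φ).smul ((u - 1) / φ y)
    obtain ⟨s, s1, s2, s3⟩ := exists_hom y1 d1 (by simp [pj_self y1, y3, u0])
    obtain ⟨s', s4, s5, s6⟩ := exists_hom y4 (p1.smul (u⁻¹ - 1)) (by simp [p2, u0])
    have sK : s * s' ∈ K := hK ⟨mem _ fun j => ⟨j, fun v h => s1 j _ (s4 j v h)⟩, Units.ext (by
      rw [map_mul, Units.val_mul, s2, s5]; simp [pj_self y1, y3, u0, p2])⟩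
    have h' := h.conj (inv_mem sK)
    rw [show (s * s')⁻¹ x = x from (s * s').symm_apply_eq.2 (by simp [s3, s6, x0, ← p1.app x, p3]), inv_inv] at h'
    obtain ⟨z, z1, z2⟩ := ot j (pj j x)
    refine G e.symm (h'.sub' h) b ⟨y, y1, ?_⟩ ⟨z, z1, z2, ?_⟩
    · simp [s3, s6, p1 i k1.symm y y1, pj_self y1, y3, sub_eq_zero, u1]
    · have := du_pj i φ j e.symm z z1
      have := du_pj i φ k k1 y' y4
      simp_all [s3, s6, p1 j k2.symm z z1]
  obtain ⟨i, j, e, r⟩ : ∃ i j, i ≠ j ∧ R i j := by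
    obtain ⟨i₀, x, x1, x2⟩ : ∃ i, ∃ v ∈ D0 F m i, ∀ j, g v ∉ D0 F m j := by
      by_contra! a
      refine hn' (mem g fun i => ?_)
      obtain ⟨j, b⟩ := a i _ (single_mem (o, i))
      refine ⟨j, fun y k => by_contra fun n => ?_⟩
      obtain ⟨l, p⟩ := a i y k
      obtain ⟨r, q⟩ := a i _ (add_mem (single_mem (o, i)) k)
      rw [map_add] at q
      by_cases e : r = j
      · exact n ((Submodule.add_mem_iff_right _ b).1 (e ▸ q))
      · refine (g.map_ne_zero_iff.2 (by simp : (Pi.single (o, i) 1 : _ → F) ≠ 0)) (funext fun ⟨c, d⟩ => ?_)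
        by_cases k : d = j
        · simpa [k, p c j (by rintro rfl; exact n p)] using q c j (Ne.symm e)
        · exact b c d k
    obtain ⟨y, y1, y2⟩ := ot i₀ x
    obtain ⟨ψ, p1, p2, p3⟩ := dual x1 y1 y2
    have h := (tv x1 p1 p3).conj hg
    obtain ⟨l, w⟩ : ∃ l, ∃ w ∈ D0 F m l, (ψ ∘ₗ g⁻¹.toLinearMap) w ≠ 0 := by
      by_contra! a
      have := Finset.sum_eq_zero fun l (_ : l ∈ Finset.univ) => a l _ (pj_mem l (g y))
      rw [← map_sum, sum_pj] at this
      simp [p2] at this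
    have tw : ∀ i, ∃ j, j ≠ i ∧ pj j (g x) ≠ 0 := fun i => by
      by_contra! a
      exact x2 i fun c d e => by simpa [pj_apply] using congrFun (a d e) (c, d)
    obtain ⟨i, -, a⟩ := tw l
    obtain ⟨j, e, b⟩ := tw i
    by_contra n
    by_cases c : i = l
    · exact n (G (c ▸ e) h b w (not_not.1 fun k => n (G' e h b a k)))
    · exact n (G c h a w (not_not.1 fun k => n (G' e.symm h a b k)))
  refine SL_le' fun p q pq c => ?_
  have d : Du q.2 (proj q : (Fin m × Fin t → F) →ₗ[F] F) := fun i e v k => k q.1 q.2 e.symm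
  by_cases k : p.2 = q.2
  · exact tv (Submodule.smul_mem _ c (single_mem p)) (k ▸ d) (by simp [pq.symm])
  obtain ⟨s, s1, s2⟩ := exists_perm e k
  let g₀ := LinearEquiv.funCongrLeft F F ((Equiv.refl (Fin m)).prodCongr s.symm)
  obtain ⟨h, h3, h4, -⟩ := exists_hom (single_mem (o, i)) (Du.smul (j := i) (ψ := proj (o, i))
    (fun l e v k => k o i e.symm) ((((LinearEquiv.det g₀)⁻¹ : Fˣ) : F) - 1)) (by simp [-LinearEquiv.coe_det])
  have mp : ∀ l, ∀ v ∈ D0 F m l, (g₀ * h :) v ∈ D0 F m (s l) := fun l v k a d e =>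
    h3 l v k a _ fun c => e (s.symm_apply_eq.1 c)
  have gK : g₀ * h ∈ K := hK ⟨mem _ fun l => ⟨_, mp l⟩, Units.ext (by rw [map_mul, Units.val_mul, h4]; simp [-LinearEquiv.coe_det])⟩
  generalize g₀ * h = u at mp gK
  obtain ⟨x, x1, x2⟩ := (Submodule.eq_of_le_of_finrank_eq (Submodule.map_le_iff_le_comap.2 (mp i) :
    (D0 F m i).map u.toLinearMap ≤ D0 F m (s i)) (by rw [LinearEquiv.finrank_map_eq, hr, hr])).ge
      (s1 ▸ Submodule.smul_mem _ c (single_mem p))
  convert (r x x1 (proj q ∘ₗ u.toLinearMap) fun l e v k => d _ (s2 ▸ s.injective.ne e) _ (mp l v k)).conj gK using 1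
  · exact x2.symm
  · ext; simp

theorem mi_dec [Fintype F] {ι : Type} [Fintype ι] [DecidableEq ι] {D : Fin t → Submodule F (ι → F)} (h : IsMDecomposition m D)
    (hn : 13 ≤ Fintype.card ι) (h1 : ¬ (m = 1 ∧ Fintype.card F ≤ 4)) (h2 : ¬ (m = 2 ∧ Fintype.card F = 2)) :
    MI LinearEquiv.det.ker (dS D) := by
  obtain ⟨Φ, a⟩ := exists_ad h
  have e : ∀ j, (D0 F m j).map Φ.toLinearMap = D j := fun j => Submodule.ext (Φ.surjective.forall.2 fun x => by
    simpa [D0] using (a.mem j x).symm)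
  refine (mi_blk h.two_le h.pos (fun j => by rw [← Φ.finrank_map_eq, e, h.finrank_eq])
    (As.IsMDecomposition.card h ▸ hn) h1 h2).comap (φ := (conjEquiv Φ.symm).toMonoidHom) (conjEquiv _).bijective
    (fun g => ?_) fun g _ => exists_congr fun s => forall_congr' fun i => ?_
  · simp only [MonoidHom.mem_ker, Units.ext_iff, LinearEquiv.coe_det]
    exact (conjEquiv_det Φ.symm g).symm ▸ Iff.rfl
  · rw [← e, ← e, ← (Submodule.map_injective_of_injective Φ.injective (f := Φ.toLinearMap)).eq_iff, ← Submodule.map_comp,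
      ← Submodule.map_comp]
    exact iff_of_eq (by congr 2; ext; simp)

end CfsgH5.Dc
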