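import Cfsg.Agent.H5.Dc2

set_option autoImplicit false

/-!
Maximality of unitary field extension subgroups of symplectic groups.
-/

namespace CfsgH5.Dc

open Module Matrix Au Mx CForm Cfsg.Geo Nm

variable {F : Type*} [Field F] {V : Type*} [AddCommGroup V] [Module F V] [FiniteDimensional F V] {j : V →ₗ[F] V}

theorem Hm.norm_of [Finite F] {f : CForm (FP.orth F) V} {τ ν : F} (h : Hm f j τ ν) {g : V ≃ₗ[F] V}
    (J : ∀ x, f.Q x = 0 → g (j x) ∈ El j (g x)) : ∃ a b : F, ∀ v, g (j v) = a • g v + b • j (g v) := by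
  have dim := h.dim
  obtain ⟨x₀, -, x1, x2⟩ := i3_orth f ⊤ (by rw [finrank_top]; omega)
  obtain ⟨p, q, e⟩ := mem_El.1 (J x₀ x2)
  let A := (LinearMap.ker (p • g.toLinearMap + q • j ∘ₗ g.toLinearMap - g.toLinearMap ∘ₗ j)).toAddSubgroup
  have mA : ∀ {v}, v ∈ A ↔ p • g v + q • j (g v) = g (j v) := by simp [A, sub_eq_zero]
  have st : ∀ u ∈ A, f.Q u = 0 → u ≠ 0 → ∀ z, f.Q z = 0 → f.B u z = 0 → g z ∉ El j (g u) → z ∈ A := by
    intro u u1 u2 u0 z z1 z2 z3
    obtain ⟨a, b, c⟩ := mem_El.1 (J z z1)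
    obtain ⟨a', b', d⟩ := mem_El.1 (J (u + z) (by simp [f.Q_add, *]))
    simp only [map_add, ← c, ← mA.1 u1] at d
    obtain ⟨k1, k2⟩ := h.exch (h.iv (g u)) (a := a' - a) (b := b' - b) (mem_El.2 ⟨p - a', q - b', by
      linear_combination (norm := module) -d⟩) z3
    obtain ⟨k3, k4⟩ := h.exch (U := ⊥) (by simp [Iv]) (v := g u) (a := a' - p) (b := b' - q) (by
      rw [sub_eq_zero.1 k1, sub_eq_zero.1 k2] at d ⊢
      rw [Submodule.mem_bot]
      linear_combination (norm := module) d) (by simpa)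
    rw [mA, ← c, ← sub_eq_zero.1 k1, ← sub_eq_zero.1 k2, sub_eq_zero.1 k3, sub_eq_zero.1 k4]
  refine ⟨p, q, fun v => (mA.1 (conn (i3_orth f) h.hf ⊥ (by simp; omega) A (mA.2 e) (by simpa)
    (fun u u1 u2 z z1 _ z2 z3 => ?_) v (by simp))).symm⟩
  have u2 : f.Q u = 0 := u2.elim (· ▸ x2) id
  have u0 : u ≠ 0 := by rintro rfl; simp at z3
  by_cases c : g z ∈ El j (g u)
  · by_cases z0 : z = 0
    · simp [z0]
    have := fr_El (j := j) (g u)
    rw [← g.symm.finrank_map_eq] at this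
    obtain ⟨w, -, w1, w2, w3⟩ := (i3_orth f).sing h.hf ⊤ ((El j (g u)).map g.symm.toLinearMap)
      ((El j (g u)).map g.symm.toLinearMap) (by rw [finrank_top]; omega)
    simp only [Submodule.mem_map_equiv, LinearEquiv.symm_symm] at w1 w3
    refine st w (st u u1 u2 u0 w w2 (w3 _ (self_El _)) w1) w2 (by rintro rfl; simp at w1) z z1
      (f.B_zero_symm (w3 _ c)) fun k => ?_
    exact h.exch' (X := ⊥) (h.iv _) bot_le c w1 (by simpa) (Submodule.mem_sup_right k)
  · exact st u u1 u2 u0 z z1 z2 c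

variable {f : CForm (FP.symp F) V} {δ : F}

variable (f j δ) in
/-- a symplectic form which is the trace of a skew-hermitian form over `F[j]` -/
structure Hs : Prop where
  hf : f.Nondeg
  dim : 14 ≤ finrank F V
  two : (2 : F) ≠ 0
  adj : ∀ u v, f.B (j u) v = -f.B u (j v)
  sq : ∀ v, j (j v) = δ • v
  an : ∀ a b, a ^ 2 - b ^ 2 * δ = 0 → a = 0 ∧ b = 0

namespace Hs
section
omit [FiniteDimensional F V]

theorem sy (h : Hs j f δ) (u v : V) : f.B v (j u) = f.B u (j v) := by rw [symp_B_symm, h.adj, neg_neg]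

/-- the associated quadratic form -/
def fo (h : Hs j f δ) : CForm (FP.orth F) V where
  B u v := f.B u (j v)
  Q v := 2⁻¹ * f.B v (j v)
  B_add_left := by simp
  B_smul_left := by simp
  B_symm u v := by simp [h.sy u v]
  Q_add u v := by have := h.two; simp [h.sy u v]; field_simp; ring
  Q_smul a v := by simp; ring
  Q_diag v := ⟨2⁻¹ * f.B v (j v), rfl, by have := h.two; simp; field_simp; ring⟩

theorem d0 (h : Hs j f δ) : δ ≠ 0 := fun e => by simpa [e] using h.an 0 1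

theorem hm (h : Hs j f δ) : Hm h.fo j 0 (-δ) :=
  ⟨fun v k => by simpa [h.hf _ k, h.d0] using (h.sq v).symm, h.dim, fun u v => by simp [fo, h.adj u],
    fun v => by simp [h.sq], fun v => by simp [fo, h.sq, h.adj v]; ring, fun v => by simp [fo, h.sq, symp_B_self],
    fun a b k => h.an a b (by linear_combination k)⟩

theorem Q_iff (h : Hs j f δ) {v : V} : h.fo.Q v = 0 ↔ f.B v (j v) = 0 := by simp [fo, h.two]

theorem El_iff (h : Hs j f δ) {x v : V} : (∀ w ∈ El j x, h.fo.B w v = 0) ↔ f.B x (j v) = 0 ∧ f.B x v = 0 := by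
  rw [El_perp]; simp [fo, h.adj x, h.sq, h.d0]

end

theorem mke (h : Hs j f δ) (φ : V →ₗ[F] V) (k : ∀ u v, f.B (φ u) (φ v) = f.B u v) : ∃ g ∈ f.E, ∀ v, g v = φ v :=
  ⟨.ofInjectiveEndo φ ((injective_iff_map_eq_zero _).2 fun v c => h.hf v fun u => by rw [← k, c, B_zero_right]),
    (symp_Isom_eq_E h.hf).le ⟨k, fun _ => by simp [symp_Q]⟩, fun _ => rfl⟩

theorem exists_T (h : Hs j f δ) {z : V} (a : f.B z (j z) = 0) (l : F) : ∃ g ∈ f.E, (∀ v, g (j v) = j (g v)) ∧
    ∀ v, g v = v + (l * δ * f.B v z) • z - (l * f.B v (j z)) • j z := by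
  obtain ⟨g, b, c⟩ := h.mke (.id + ((l * δ) • f.left z).smulRight z - (l • f.left (j z)).smulRight (j z)) fun u v => by
    simp [h.adj z, h.sq, a, symp_B_self, symp_B_symm f v z, h.sy z v]
    ring
  exact ⟨g, b, fun v => by simp [c, h.adj v, h.sq]; module, fun v => by simp [c]⟩

theorem exists_U (h : Hs j f δ) {z b : V} (a : f.B z (j z) = 0) (c : f.B z b = 0) (d : f.B z (j b) = 0) :
    ∃ g ∈ f.E, (∀ v, g (j v) = j (g v)) ∧
      ∀ v, f.B v z = 0 → f.B v (j z) = 0 → g v = v + f.B v (j b) • z - f.B v b • j z := by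
  have := h.two
  obtain ⟨g, k, e⟩ := h.mke (.id + (f.left (j b)).smulRight z - (f.left b).smulRight (j z) - (f.left (j z)).smulRight b +
      (f.left z).smulRight (j b) - ((2⁻¹ * f.B b (j b)) • f.left (j z)).smulRight z +
      ((2⁻¹ * f.B b (j b)) • f.left z).smulRight (j z)) fun u v => by
    simp [h.adj z, h.adj b, h.sq, a, c, d, symp_B_self, symp_B_symm f v z, h.sy z v, symp_B_symm f v b, h.sy b v,
      symp_B_symm f z b, h.sy z b]
    field_simp
    ring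
  exact ⟨g, k, fun v => by simp [e, h.adj v, h.sq]; module, fun v p q => by simp [e, p, q]⟩

theorem dual (h : Hs j f δ) {U : Submodule F V} (i : Iv j U) {a : V} (n : a ∉ U) :
    ∃ b, f.B a (j b) = 1 ∧ f.B a b = 0 ∧ ∀ w ∈ U, f.B w b = 0 := by
  obtain ⟨b, b1, b2⟩ := h.hf.exists_dual (W := U ⊔ F ∙ a) (x := -j a) fun k => by
    obtain ⟨y, c, _, d, e⟩ := Submodule.mem_sup.1 k
    obtain ⟨l, rfl⟩ := Submodule.mem_span_singleton.1 d
    simpa using (h.hm.exch i (a := -l) (b := -1) (by convert c using 1; rw [eq_sub_of_add_eq e]; module) n).2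
  rw [perp_sup_line] at b2
  exact ⟨b, by simpa [h.adj a] using b1, b2.2, b2.1⟩

theorem mi [Finite F] (h : Hs j f δ) {H : Subgroup (V ≃ₗ[F] V)}
    (hH : ∀ g, g ∈ H ↔ ∃ a b : F, ∀ v, g (j v) = a • g v + b • j (g v)) : MI f.E H := by
  have dim := h.dim
  have hm := h.hm
  have sg : ∀ x y : V, ∃ z, z ∉ El j x ⊔ El j y ∧ f.B z (j z) = 0 ∧ f.B x (j z) = 0 ∧ f.B x z = 0 ∧ f.B y (j z) = 0 ∧
      f.B y z = 0 := fun x y => by
    have := fr_El (j := j) x
    have := fr_El (j := j) y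
    have := fr_sup (El j x) (El j y)
    obtain ⟨z, -, z1, z2, z3⟩ := (i3_orth h.fo).sing hm.hf ⊤ (El j x ⊔ El j y) (El j x ⊔ El j y) (by rw [finrank_top]; omega)
    have a := h.El_iff.1 fun w k => z3 w (Submodule.mem_sup_left k)
    have b := h.El_iff.1 fun w k => z3 w (Submodule.mem_sup_right k)
    exact ⟨z, z1, h.Q_iff.1 z2, a.1, a.2, b⟩
  have ex : ∀ {x z}, x ≠ 0 → z ∉ El j x → x ∉ El j z := fun {x z} a b k =>
    hm.exch' (X := ⊥) (hm.iv x) bot_le (self_El x) b (by simpa) (Submodule.mem_sup_right k)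
  constructor
  · intro k
    obtain ⟨x, x0, x1, -⟩ := sg 0 0
    obtain ⟨b, b1, b2, -⟩ := h.dual (U := ⊥) (by simp [Iv]) (a := x) fun e => x0 (by simp [show x = 0 from e])
    obtain ⟨g, hg⟩ := symp_exists_transvection (f := f) b 1
    obtain ⟨p, q, k⟩ := (hH g).1 (k hg.mem_E)
    have := k x
    simp only [hg.app, h.adj x b, b1, b2, FP.symp_ε, B_zero_right, mul_zero, zero_smul, smul_zero, add_zero,
      sub_zero] at this
    rw [show b = -p • x + (1 - q) • j x by linear_combination (norm := module) -this] at b1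
    simp [h.sq, x1, symp_B_self] at b1
  intro K hK hK' g hg hn
  have cK : ∀ {s}, s ∈ f.E → (∀ v, s (j v) = j (s v)) → s ∈ K := fun a b => hK ⟨(hH _).2 ⟨0, 1, by simpa⟩, a⟩
  let X (x : V) : Prop := ∀ g c, f.IsEich g x 0 c → g ∈ K
  have X0 : X 0 := fun g c a => a.eq_one_of_x_zero ▸ one_mem _
  have X2 : ∀ {k x}, k ∈ K → X x → X (k x) := fun a b g c d =>
    conj_eich_mem a (E_le_Isom (hK' a)) (by simpa using d) fun s => b s c
  have X3 : ∀ {x y}, X x → X y → f.B x y ≠ 0 → X (x + y) := fun {x y} a b c => by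
    obtain ⟨s, d⟩ := symp_exists_transvection (f := f) y (f.B x y)⁻¹
    simpa [d.app, c] using X2 (b _ _ d) a
  have mv : ∀ {z y}, X z → f.B z (j z) = 0 → f.B y (j y) = 0 → f.B z (j y) = 0 → f.B z y = 0 → z ∉ El j y → X y := by
    intro z y a b c d e n
    by_cases y0 : y = 0
    · exact y0 ▸ X0
    obtain ⟨w, w1, w2, w3⟩ := h.dual (hm.iv (y - z)) (a := z) fun k => by
      obtain ⟨p, q, k⟩ := mem_El.1 k
      obtain ⟨r, rfl⟩ := hm.exch (hm.iv y) (a := 1 + p) (b := q) (mem_El.2 ⟨p, q, by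
        rw [map_sub] at k; linear_combination (norm := module) k⟩) n
      exact y0 (by simpa [eq_neg_of_add_eq_zero_right r] using k)
    obtain ⟨u, u1, u2, u3⟩ := h.exists_U (z := y - z) (b := w) (by simp [b, c, d, h.sy z y]) (w3 _ (self_El _))
      (neg_eq_zero.1 ((h.adj _ _).symm.trans (w3 _ (j_El _))))
    simpa [u3 z (by simp [e, symp_B_self]) (by simp [b, d]), w1, w2] using X2 (cK u1 u2) a
  obtain ⟨z₀, z1, z2⟩ := not_forall₂.1 (mt hm.norm_of (mt (hH g).2 hn))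
  rw [h.Q_iff] at z1
  have gI := E_le_Isom (hK' hg)
  have a0 : g z₀ ≠ 0 := fun e => z2 (by simp [g.map_eq_zero_iff.1 e])
  have a1 : f.B (g z₀) (g (j z₀)) = 0 := (f.Isom_B gI _ _).trans z1
  have T : ∀ l : F, ∃ s ∈ K, ∀ v, s v = v + (l * δ * f.B v (g z₀)) • g z₀ - (l * f.B v (g (j z₀))) • g (j z₀) := fun l =>
    let ⟨s, a, b, c⟩ := h.exists_T z1 l
    ⟨_, mul_mem (mul_mem hg (cK a b)) (inv_mem hg), g.surjective.forall.2 fun v => by simp [c, f.Isom_B gI]⟩
  generalize g z₀ = a, g (j z₀) = a' at z2 a0 a1 T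
  obtain ⟨z, p1, p2, p3, p4, p5, p6⟩ := sg a a'
  obtain ⟨b, b1, b2, b3⟩ := h.dual ((hm.iv a').sup (hm.iv z)) (hm.exch' ((hm.iv a).sup (hm.iv a')) le_sup_right
    (Submodule.mem_sup_left (self_El a)) p1 (ex a0 z2))
  have b4 : ∀ x, El j x ≤ El j a' ⊔ El j z → f.B x b = 0 ∧ f.B x (j b) = 0 := fun x k =>
    ⟨b3 _ (k (self_El x)), neg_eq_zero.1 ((h.adj _ _).symm.trans (b3 _ (k (j_El x))))⟩
  obtain ⟨b5, b6⟩ := b4 z le_sup_right
  obtain ⟨b7, b8⟩ := b4 a' le_sup_left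
  obtain ⟨u, u1, u2, u3⟩ := h.exists_U p2 b5 b6
  have uI := E_le_Isom u1
  have u4 : u a = a + z := by simp [u3 a p4 p3, b1, b2]
  have u5 : u a' = a' := by simp [u3 a' p6 p5, b7, b8]
  have u6 : u z = z := by simp [u3 z (symp_B_self _ _) p2, b5, b6]
  have hz : X z := fun s c k => by
    obtain ⟨r, r1, r2⟩ := T (c / 2 / δ)
    rw [div_mul_cancel₀ _ h.d0] at r2
    have r3 : ∀ v, (u * r * u⁻¹) v = v + (c / 2 * f.B v (a + z)) • (a + z) - (c / 2 / δ * f.B v a') • a' :=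
      u.surjective.forall.2 fun v => by
        rw [← u4, ← u5, f.Isom_B uI, f.Isom_B uI]
        simp [r2]
    have r4 : f.IsEich (u * r * u⁻¹ * r⁻¹) z ((c / 2) • a) (c / 2) := ⟨symp_Q _ _, by simp [p4], by simp [symp_Q],
      r.surjective.forall.2 fun v => ((congrArg _ (r.symm_apply_apply v)).trans (r3 v)).trans (by
        simp [r2, symp_B_self, p4, p6, f.B_zero_symm a1]
        module)⟩
    have r5 := ((r4.conj uI).mul (u6.symm ▸ r4.inv)).add_x (-(c / 2))
    have uK := cK u1 u2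
    have r6 := mul_mem (mul_mem (mul_mem uK r1) (inv_mem uK)) (inv_mem r1)
    refine k.unique (by
      convert r5 using 1
      · exact u6.symm
      · simp [u4, u6]
      · have := h.two; simp [u4, symp_B_self, p4]; field_simp; ring) ▸ mul_mem (mul_mem (mul_mem uK r6) (inv_mem uK)) (inv_mem r6)
  have z0 : z ≠ 0 := by rintro rfl; simp at p1
  have al : ∀ y, f.B y (j y) = 0 → X y := fun y k => by
    obtain ⟨w, w1, w2, w3, w4, w5, w6⟩ := sg z y
    exact mv (mv hz p2 w2 w3 w4 (ex z0 fun e => w1 (Submodule.mem_sup_left e))) w2 k (h.sy _ _ ▸ w5) (f.B_zero_symm w6)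
      fun e => w1 (Submodule.mem_sup_right e)
  rw [← symp_Isom_eq_E h.hf, symp_Isom_eq_Tr h.hf]
  refine Tr_le fun g v c => (?_ : X v) g c
  by_cases v0 : v = 0
  · exact v0 ▸ X0
  obtain ⟨x, -, x1, -, -, x2⟩ := hm.nperp (x := 0) (a := v) (by simpa [mem_El] using Ne.symm v0)
  rw [h.Q_iff] at x1
  change f.B v (j x) ≠ 0 at x2
  have n : f.B v (j x) ^ 2 - f.B v x ^ 2 * δ ≠ 0 := fun e => x2 (h.an _ _ e).1
  obtain ⟨y, y1, y2, y3⟩ : ∃ y, f.B y (j y) = 0 ∧ f.B v y = 1 ∧ 2 * f.B v (j y) = f.B v (j v) :=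
    ⟨((2⁻¹ * f.B v (j v) * f.B v (j x) - δ * f.B v x) / (f.B v (j x) ^ 2 - f.B v x ^ 2 * δ)) • x +
      ((f.B v (j x) - 2⁻¹ * f.B v (j v) * f.B v x) / (f.B v (j x) ^ 2 - f.B v x ^ 2 * δ)) • j x,
      by simp [h.sq, h.adj x, x1, symp_B_self], by
        simp only [B_add_right, B_smul_right, FP.symp_σ, div_mul_eq_mul_div, ← add_div, div_eq_iff n]; ring, by
        have := h.two
        simp only [map_add, map_smul, h.sq, B_add_right, B_smul_right, FP.symp_σ, div_mul_eq_mul_div, ← add_div,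
          ← mul_div_assoc, div_eq_iff n]; field_simp; ring⟩
  simpa using X3 (al (v - y) (by simp [y1, h.sy v y]; linear_combination -y3)) (al y y1) (by simp [y2, symp_B_self])

end Hs

end CfsgH5.Dc
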