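import Cfsg.Agent.H5.El10

set_option autoImplicit false

namespace CfsgH5.El
open Module Polynomial Gl Gc CForm

universe u v w

theorem ar_nsd {i d m e n : ℕ} (h0 : 0 < i) (h1 : i ≤ d) (h2 : m ≤ d) (hn : n = 2 * d + e) (he : e ≤ 2) {R0 R : ℕ → Prop}
    (hR0 : ∀ j, R0 j ↔ e ≠ 2) (hR : ∀ j, R j ↔ e ≠ 2) :
    (∀ k j, (1 ≤ j ∧ k + j * (2 * i) = n ∧ (0 < k ∨ R0 j)) → ∃ a b, b ≤ j ∧ 2 * a ≤ k ∧ a + b * i = m ∧ (2 * a < k ∨ R j)) ↔ m % i ≤ d % i := by
  simp only [hR0, hR, mul_left_comm _ 2 i]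
  rw [← ar1 h0 h1 h2]
  constructor
  · intro h c j a b
    obtain ⟨x, y, c1, c2, c3, c4⟩ := h (2 * c + e) j ⟨a, by omega, by omega⟩
    exact ⟨x, by omega, y, c1, c3⟩
  · rintro h k j ⟨a, b, c⟩
    obtain ⟨x, c1, y, c2, c3⟩ := h ((k - e) / 2) j a (by omega)
    exact ⟨x, y, c2, by omega, c3, by omega⟩

theorem ar_ev2 {α : Type*} {T : Finset α} (hT : T.Nonempty) {i n m : ℕ} (h0 : 0 < i) (h1 : i ≤ m) (h2 : 2 * m ≤ n) {G R : ℕ → Prop}
    (hG : ∀ j, G (j + 1) ↔ ¬ G j) (hR : ∀ j, R j ↔ G j) :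
    (∀ (w : Multiset α) (k : ℕ), (∀ a ∈ w, a ∈ T) → (1 ≤ w.card ∧ k + w.card * i = n ∧ (0 < k ∨ G w.card)) →
      ∃ a t, t + t ≤ w ∧ 2 * a ≤ k ∧ a + t.card * i = m ∧ (2 * a < k ∨ R w.card)) ↔ T.card + 2 * (m / i) ≤ n / i ∧
      ((2 * (m % i) ≤ i ∧ n % i = 0 ∧ ¬ G (n / i) ∧ T.card + 2 * (m / i) < n / i) ∨ (2 * (m % i) ≤ n % i ∧ G (n / i)) ∨
        (2 * (m % i) < n % i ∧ ¬ G (n / i))) := by
  simp only [hR]
  have G2 : ∀ x j, G (j + 2 * x) ↔ G j := fun x j => by
    induction x with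
    | zero => rfl
    | succ x ih => rw [mul_add, ← add_assoc, mul_one, hG, hG, not_not, ih]
  have e1 := Nat.mod_add_div' n i
  have e2 := Nat.mod_add_div' m i
  have e3 := Nat.mod_lt n h0
  have e4 := Nat.mod_lt m h0
  have M := Nat.div_pos h1 h0
  have N : 2 * (m / i) ≤ n / i := (Nat.le_div_iff_mul_le h0).mpr (by rw [mul_assoc]; omega)
  have uq : ∀ a b, a < i → a + b * i = m → a = m % i ∧ b = m / i := fun a b h e => by
    rw [← e, Nat.add_mul_mod_self_right, Nat.add_mul_div_right _ _ h0, Nat.mod_eq_of_lt h, Nat.div_eq_of_lt h]; simp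
  have := hT.card_pos
  constructor
  · intro h
    have key : ∀ j e, j + e = n / i → 1 ≤ j → (0 < n % i + e * i ∨ G j) → ∃ a b, 2 * b ≤ 1 + (j - T.card) ∧ 2 * a ≤ n % i + e * i ∧
        (a < i → a = m % i ∧ b = m / i) ∧ (2 * a < n % i + e * i ∨ G j) := fun j e a b c => by
      obtain ⟨w, w1, rfl, w3⟩ := worst hT j
      obtain ⟨x, t, a1, a2, a3, a4⟩ := h w (n % i + e * i) w1 ⟨b, by rw [← a, add_mul] at e1; omega, c⟩
      exact ⟨x, _, w3 t a1, a2, fun k => uq _ _ k a3, a4⟩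
    obtain ⟨a, b, a1, a2, a3, -⟩ := key (n / i - 1) 1 (by omega) (by omega) (by omega)
    obtain ⟨rfl, rfl⟩ := a3 (by omega)
    refine ⟨by omega, ?_⟩
    by_cases k : 0 < n % i ∨ G (n / i)
    · obtain ⟨a, b, -, b2, b3, b4⟩ := key (n / i) 0 rfl (by omega) (by simpa using k)
      obtain ⟨rfl, rfl⟩ := b3 (by omega)
      by_cases g : G (n / i)
      · exact Or.inr (Or.inl ⟨by omega, g⟩)
      · exact Or.inr (Or.inr ⟨by simpa [g] using b4, g⟩)
    · obtain ⟨a, b, b1, -, b3, b4⟩ := key (n / i - 2) 2 (by omega) (by omega) (by omega)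
      rw [← G2 1, show n / i - 2 + 2 * 1 = n / i by omega] at b4
      have := b4.resolve_right fun g => k (Or.inr g)
      obtain ⟨rfl, rfl⟩ := b3 (by omega)
      exact Or.inl ⟨by omega, by omega, fun g => k (Or.inr g), by omega⟩
  · rintro ⟨a1, a2⟩ w k w1 ⟨-, e, g⟩
    obtain ⟨x, hx⟩ := Nat.exists_eq_add_of_le ((Nat.le_div_iff_mul_le h0).mpr (show w.card * i ≤ n by omega))
    obtain ⟨t, t1, t2⟩ := half_le w w1
    obtain ⟨u, d, u1, u2, u3⟩ : ∃ u d, u + u ≤ w ∧ m / i = u.card + d ∧ (d = 0 ∨ w.card ≤ 2 * u.card + T.card) := by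
      by_cases c : m / i ≤ t.card
      · obtain ⟨u, u1, u2⟩ := exists_le_card t c
        exact ⟨u, 0, (add_le_add u1 u1).trans t1, u2.symm, Or.inl rfl⟩
      · exact ⟨t, m / i - t.card, t1, by omega, Or.inr t2⟩
    obtain ⟨y, rfl⟩ := Nat.exists_eq_add_of_le (show 2 * d ≤ x by omega)
    have hk : k = n % i + (2 * (d * i) + y * i) := by rw [hx, add_mul, add_mul, mul_assoc] at e1; omega
    have g0 : G (n / i) ↔ G (w.card + y) := by rw [hx, add_comm (2 * d), ← add_assoc, G2]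
    refine ⟨m % i + d * i, u, u1, ?_⟩
    rw [u2, add_mul] at e2
    rw [g0] at a2
    rcases y with _ | _ | y
    · rcases a2 with a2 | a2 | a2
      · obtain rfl : d = 0 := by omega
        exact absurd (g.resolve_left (by omega)) a2.2.2.1
      · exact ⟨by omega, by omega, Or.inr a2.2⟩
      · exact ⟨by omega, by omega, Or.inl (by omega)⟩
    · rcases a2 with a2 | a2 | a2
      · exact ⟨by omega, by omega, Or.inr (not_not.mp fun c => a2.2.2.1 ((hG _).mpr c))⟩
      · exact ⟨by omega, by omega, Or.inl (by omega)⟩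
      · exact ⟨by omega, by omega, Or.inl (by omega)⟩
    · rw [add_mul, add_mul] at hk
      exact ⟨by omega, by omega, Or.inl (by omega)⟩

theorem mod_two_mul (d e i : ℕ) (he : e < 2) : (2 * d + e) % (2 * i) = 2 * (d % i) + e := by
  rw [Nat.mod_mul, Nat.mul_add_mod, Nat.mod_eq_of_lt he, show (2 * d + e) / 2 = d by omega, add_comm]

variable {F : Type u} [Field F] {P : FP F} {V : Type v} [AddCommGroup V] [Module F V] [FiniteDimensional F V] {f : CForm P V}

/-- the criterion for totally singular subspaces when all types are realisable -/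
theorem UP.ts_true {σ : F →+* F} {r i c n m : ℕ} {T : Finset F[X]} (H : UP σ r T i (Even i)) (hc : c = if Even i then i else 2 * i) (h2 : 2 * m ≤ n) :
    (i ≤ m ∧ ∀ k w j, SU σ r T i c w j → (1 ≤ j ∧ k + j * c = n ∧ (0 < k ∨ True)) →
      ∃ a t, t + t.map (du σ r) ≤ w ∧ 2 * a ≤ k ∧ a + t.card * i = m ∧ (2 * a < k ∨ True)) ↔
      i ≤ m ∧ 2 * (m % i) ≤ n % c ∧ (Odd i ∨ (r - 1) / i + 2 * (m / i) ≤ n / i) := by
  refine and_congr_right fun h1 => ?_
  by_cases h : Even i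
  · refine (H.tr_sd hc h (A := fun k j => 1 ≤ j ∧ k + j * c = n ∧ (0 < k ∨ True))
      (B := fun k _ a b => 2 * a ≤ k ∧ a + b * i = m ∧ (2 * a < k ∨ True))).trans ?_
    rw [if_pos h] at hc
    subst hc
    simp only [or_true, and_true, and_imp, H.card_eq, ← Nat.not_even_iff_odd, h, not_true, false_or,
      and_left_comm (a := (_ + _ : Multiset F[X]) ≤ _)]
    rw [ar_even H.ne H.pos (by omega), or_iff_right (by omega)]
  · refine (H.tr_nsd hc h (A := fun k j => 1 ≤ j ∧ k + j * c = n ∧ (0 < k ∨ True))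
      (B := fun k _ a b => 2 * a ≤ k ∧ a + b * i = m ∧ (2 * a < k ∨ True))).trans ?_
    rw [if_neg h] at hc
    subst hc
    rw [ar_nsd (d := n / 2) (e := n % 2) (R0 := fun _ => True) (R := fun _ => True) H.pos (by omega) (by omega) (by omega) (by omega)
      (by simp; omega) (by simp; omega), and_iff_left (Or.inl (Nat.not_even_iff_odd.mp h))]
    conv_rhs => rw [← Nat.div_add_mod n 2, mod_two_mul _ _ _ (by omega)]
    omega

theorem finrank_sup_span {K : Submodule F V} {v : V} (h : v ∉ K) : finrank F (K ⊔ F ∙ v : Submodule F V) = finrank F K + 1 := by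
  have := Submodule.finrank_sup_add_finrank_inf_eq K (F ∙ v)
  have v0 : v ≠ 0 := fun e => h (e ▸ K.zero_mem)
  rwa [((Submodule.disjoint_span_singleton' v0).mpr h).eq_bot, finrank_bot, finrank_span_singleton v0] at this

omit [FiniteDimensional F V] in
theorem inv_sup_span {g : End F V} {K L : Submodule F V} {v : V} (h : ∀ u ∈ K, g u ∈ L) (hv : g v ∈ L) : ∀ u ∈ K ⊔ F ∙ v, g u ∈ L := fun u hu => by
  obtain ⟨k, hk, _, hw, rfl⟩ := Submodule.mem_sup.mp hu
  obtain ⟨c, rfl⟩ := Submodule.mem_span_singleton.mp hw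
  rw [map_add, map_smul]; exact L.add_mem (h k hk) (L.smul_mem c hv)

theorem ts_diag (hf : f.Nondeg) (h2 : (2 : F) ≠ 0) {x : V ≃ₗ[F] V} (hx : x ∈ f.Isom) {b : F} (hb : b ≠ 0) (h : ∀ v, x (x v) = (b * b) • v)
    (hQ : ∀ v (c : F), x v = c • v → f.Q v = 0) (m : ℕ) (hm : 2 * m ≤ finrank F V) :
    ∃ W : Submodule F V, (finrank F W = m ∧ f.TS W) ∧ ∀ v ∈ W, x.toLinearMap v ∈ W := by
  induction m with
  | zero => exact ⟨⊥, ⟨finrank_bot _ _, ⟨by simp, by simp⟩⟩, by simp⟩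
  | succ m ih =>
    obtain ⟨K, ⟨rfl, k1⟩, k2⟩ := ih (by omega)
    have := hf.finrank_perp K
    obtain ⟨u, u1, u2⟩ := SetLike.exists_of_lt (lt_of_le_of_ne k1.le_perp fun e => by rw [← e] at this; omega)
    have : ∃ c : F, c * c = b * b ∧ c ≠ 0 ∧ c • u + x u ∉ K := by
      by_contra k
      push Not at k
      have := K.sub_mem (k b rfl hb) (k (-b) (by ring) (by simpa))
      exact u2 ((K.smul_mem_iff (mul_ne_zero h2 hb)).mp (by convert this using 1; module))
    obtain ⟨c, c1, c2, c3⟩ := this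
    have e : x (c • u + x u) = c • (c • u + x u) := by rw [map_add, map_smul, h, ← c1]; module
    exact ⟨K ⊔ F ∙ (c • u + x u), ⟨finrank_sup_span c3, k1.sup_span (hQ _ c e)
      (f.mem_perp'.mp ((f.perp K).add_mem ((f.perp K).smul_mem c u1) (inv_perp hx k2 u u1)))⟩,
      inv_sup_span (fun v hv => Submodule.mem_sup_left (k2 v hv)) (Submodule.mem_sup_right (Submodule.mem_span_singleton.mpr ⟨c, e.symm⟩))⟩

theorem exists_sing [Finite F] (g : CForm (FP.orth F) V) {K L : Submodule F V} (h : finrank F K + 3 ≤ finrank F L) : ∃ v ∈ L, v ∉ K ∧ g.Q v = 0 := by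
  obtain ⟨C, hC⟩ := (K.comap L.subtype).exists_isCompl
  have d := Submodule.finrank_add_eq_of_isCompl hC
  have d' := (Submodule.finrank_map_subtype_eq L (K.comap L.subtype)).symm.trans_le (Submodule.finrank_mono (Submodule.map_comap_le _ _))
  by_contra k
  push Not at k
  have := Aniso.finrank_le (f := (g.res L).res C) fun v hv => by_contra fun e => k v.1 v.1.2
    (fun a => e (Subtype.ext (Submodule.disjoint_def.mp hC.disjoint _ a v.2))) hv
  omega

theorem ts_two [Finite F] (hf : f.Nondeg) (hσ : ∀ a, P.σ a = a) {x : V ≃ₗ[F] V} (hx : x ∈ f.Isom) (h : ∀ v, x (x v) = -v) (h1 : ¬ IsSquare (-1 : F))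
    (g : CForm (FP.orth F) V) (hg : ∀ v, g.Q v = 0 → f.Q v = 0 ∧ f.B v (x v) = 0) (m : ℕ) (hm : 4 * m ≤ finrank F V) :
    ∃ W : Submodule F V, (finrank F W = 2 * m ∧ f.TS W) ∧ ∀ v ∈ W, x.toLinearMap v ∈ W := by
  induction m with
  | zero => exact ⟨⊥, ⟨finrank_bot _ _, ⟨by simp, by simp⟩⟩, by simp⟩
  | succ m ih =>
    obtain ⟨K, ⟨k0, k1⟩, k2⟩ := ih (by omega)
    have := hf.finrank_perp K
    obtain ⟨u, u1, u2, u3⟩ := exists_sing g (K := K) (L := f.perp K) (by omega)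
    obtain ⟨u3, u4⟩ := hg u u3
    have a : x u ∉ K ⊔ F ∙ u := fun e => by
      obtain ⟨k, hk, _, hw, e⟩ := Submodule.mem_sup.mp e
      obtain ⟨c, rfl⟩ := Submodule.mem_span_singleton.mp hw
      have e' := congrArg x e
      rw [h, map_add, map_smul, ← e] at e'
      have : (1 + c * c) • u = -(x k + c • k) := by rw [← sub_eq_zero, ← sub_eq_zero.mpr e']; module
      exact u2 ((K.smul_mem_iff fun z => h1 ⟨c, by linear_combination -z⟩).mp (this ▸ K.neg_mem (K.add_mem (k2 k hk) (K.smul_mem c hk))))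
    refine ⟨(K ⊔ F ∙ u) ⊔ F ∙ x u, ⟨by rw [finrank_sup_span a, finrank_sup_span u2]; omega, (k1.sup_span u3 (f.mem_perp'.mp u1)).sup_span
      ((f.Isom_Q hx u).trans u3) fun w hw => ?_⟩, inv_sup_span (inv_sup_span (fun v hv => Submodule.mem_sup_left (Submodule.mem_sup_left (k2 v hv)))
        (Submodule.mem_sup_right (Submodule.mem_span_singleton_self _))) (Submodule.mem_sup_left (Submodule.mem_sup_right
          (by rw [LinearEquiv.coe_coe, h]; exact Submodule.neg_mem _ (Submodule.mem_span_singleton_self _))))⟩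
    obtain ⟨k, hk, _, hw', rfl⟩ := Submodule.mem_sup.mp hw
    obtain ⟨c, rfl⟩ := Submodule.mem_span_singleton.mp hw'
    simp [u4, f.mem_perp'.mp (inv_perp hx k2 u u1) k hk]

theorem even_of_neg {g : End F V} (h : ∀ v, g (g v) = -v) (h1 : ¬ IsSquare (-1 : F)) {W : Submodule F V} (hW : ∀ v ∈ W, g v ∈ W) :
    Even (finrank F W) := by
  have e : (g.restrict hW * g.restrict hW : End F W) = (-1 : F) • 1 := LinearMap.ext fun v => Subtype.ext (by simp [h])
  have := congrArg LinearMap.det e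
  rw [map_mul, LinearMap.det_smul, map_one, mul_one] at this
  exact Nat.not_odd_iff_even.mp fun k => h1 ⟨_, by rw [this, k.neg_one_pow]⟩

omit [FiniteDimensional F V] in
theorem sq_app {g : End F V} {z : F} (h : g ^ 2 = z • 1) (v : V) : g (g v) = z • v := by simpa [sq] using LinearMap.congr_fun h v

theorem sq_cases (hσ : ∀ a, P.σ a = a) (hf : f.Nondeg) (h0 : 0 < finrank F V) {g : V ≃ₗ[F] V} (hg : g ∈ f.Isom) {z : F}
    (h : (g.toLinearMap : End F V) ^ 2 = z • 1) : (∀ v, g (g v) = v) ∨ ∀ v, g (g v) = -v := by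
  have a := norm_of_pow hf h0 hg h
  rw [hσ, mul_self_eq_one_iff] at a
  exact a.imp (fun e v => by simpa [e] using sq_app h v) fun e v => by simpa [e] using sq_app h v

theorem neg_sq_iff [Fintype F] (h : Odd (Fintype.card F)) : IsSquare (-1 : F) ↔ Fintype.card F % 4 = 1 := by
  rw [FiniteField.isSquare_neg_one_iff]; obtain ⟨k, hk⟩ := h; omega

theorem odd_card [Fintype F] {p : ℕ} [Fact p.Prime] [CharP F p] (hp : p ≠ 2) : Odd (Fintype.card F) := by
  obtain ⟨n, -, h⟩ := FiniteField.card F p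
  exact h ▸ ((Fact.out : p.Prime).odd_of_ne_two hp).pow

omit [FiniteDimensional F V] in
theorem not_scal_neg {g : End F V} (h : ∀ v, g (g v) = -v) (h1 : ¬ IsSquare (-1 : F)) [Nontrivial V] (c : F) : g ≠ c • 1 := fun e => by
  obtain ⟨v, hv⟩ := exists_ne (0 : V)
  exact h1 ⟨c, smul_left_injective F hv (by simpa [e, smul_smul] using (h v).symm)⟩

end CfsgH5.El
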