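import Cfsg.Agent.H5.El11
import Cfsg.Agent.H5.Mx4
import Cfsg.Agent.H5.Fm2
import Cfsg.Agent.H5.In2

set_option autoImplicit false

namespace CfsgH5.El
open Module Polynomial Gl Gc CForm Au Fm

universe u v w
variable {F : Type u} [Field F] {P : FP F} {V : Type v} [AddCommGroup V] [Module F V] [FiniteDimensional F V]

/-- `g` fixes a member of `Ω` -/
def Fx (Ω : Submodule F V → Prop) (g : End F V) : Prop := ∃ W, Ω W ∧ ∀ v ∈ W, g v ∈ W

/-- every element of order `r` has the property -/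
def AllO (S : Subgroup (V ≃ₗ[F] V)) (r : ℕ) (Pr : End F V → Prop) : Prop := ∀ g ∈ S, g ^ r = 1 → g ≠ 1 → Pr g.toLinearMap

omit [FiniteDimensional F V] in
theorem Fx.neg (Ω : Submodule F V → Prop) (g : End F V) (h : Fx Ω (-g)) : Fx Ω g := by simpa [Fx] using h

omit [FiniteDimensional F V] in
theorem Fx_iff {Ω : Submodule F V → Prop} {g : End F V} : (∃ W, Ω W ∧ W.map g ≤ W) ↔ Fx Ω g := by simp only [map_le]; rfl

omit [FiniteDimensional F V] in
theorem Fx_orb {Ω : Submodule F V → Prop} {S : Subgroup (V ≃ₗ[F] V)} {U : Submodule F V} (h : ∀ W, Ω W ↔ ∃ g ∈ S, U.map g.toLinearMap = W)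
    {x : End F V} : Fx Ω x ↔ ∃ g ∈ S, ∀ v ∈ U.map g.toLinearMap, x v ∈ U.map g.toLinearMap :=
  ⟨fun ⟨W, a, b⟩ => by obtain ⟨g, c, rfl⟩ := (h W).mp a; exact ⟨g, c, b⟩, fun ⟨g, a, b⟩ => ⟨_, (h _).mpr ⟨g, a, rfl⟩, b⟩⟩

section
variable {ι : Type} [Fintype ι] [DecidableEq ι] {G : Subgroup (GL ι F)} {S : Subgroup ((ι → F) ≃ₗ[F] (ι → F))}

theorem gl_coe (g : GL ι F) : (gl g).toLinearMap = Matrix.toLin' g.1 := LinearMap.ext fun v => by simp

theorem all_iff (hG : ∀ g, g ∈ G ↔ gl g ∈ S) {r : ℕ} (Pr : End F (ι → F) → Prop) :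
    (∀ x : GL ι F, x ∈ G → (∃ z : F, ((x ^ r : GL ι F) : Matrix ι ι F) = z • 1) → (∀ z : F, (x : Matrix ι ι F) ≠ z • 1) → Pr (Matrix.toLin' x.1)) ↔
      AllS S r Pr := by
  constructor
  · intro h g hg z h1 h2
    obtain ⟨x, rfl⟩ := gl_surjective g
    rw [gl_coe] at *
    exact h x ((hG x).mpr hg) ⟨z, by rw [Units.val_pow_eq_pow_val]; exact pow_iff'.mpr h1⟩ fun c => mt scal_iff'.mp (h2 c)
  · rintro h x hx ⟨z, h1⟩ h2
    rw [← gl_coe]
    exact h _ ((hG x).mp hx) z (gl_coe x ▸ pow_iff'.mp (by rwa [Units.val_pow_eq_pow_val] at h1)) fun c => gl_coe x ▸ mt scal_iff'.mpr (h2 c)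

theorem ord_iff (hG : ∀ g, g ∈ G ↔ gl g ∈ S) {r : ℕ} [Fact r.Prime] (Pr : End F (ι → F) → Prop) :
    (∀ x : GL ι F, x ∈ G → orderOf x = r → Pr (Matrix.toLin' x.1)) ↔ AllO S r Pr := by
  constructor
  · intro h g hg h1 h2
    obtain ⟨x, rfl⟩ := gl_surjective g
    exact gl_coe x ▸ h x ((hG x).mpr hg) (orderOf_eq_prime (gl_injective (by rw [map_pow, h1, map_one])) fun e => h2 (by rw [e, map_one]))
  · rintro h x hx h1
    exact gl_coe x ▸ h _ ((hG x).mp hx) (by rw [← map_pow, ← h1, pow_orderOf_eq_one, map_one]) fun e => (Fact.out : r.Prime).one_lt.ne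
      (by rw [← h1, gl_injective (e.trans (map_one _).symm), orderOf_one])

end

section
variable {f : CForm P V}

theorem finrank_sup_perp {A B : Submodule F V} (hA : (f.res A).Nondeg) (h : B ≤ f.perp A) :
    finrank F (A ⊔ B : Submodule F V) = finrank F A + finrank F B := by
  have := Submodule.finrank_sup_add_finrank_inf_eq A B
  rwa [eq_bot_iff.mpr ((inf_le_inf_left A h).trans ((f.res_nondeg_iff A).mp hA).le), finrank_bot] at this

omit [FiniteDimensional F V] in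
theorem nd_sup {A B : Submodule F V} (hA : (f.res A).Nondeg) (hB : (f.res B).Nondeg) (h : B ≤ f.perp A) : (f.res (A ⊔ B)).Nondeg := by
  rw [res_nondeg_iff] at *
  rw [eq_bot_iff, perp_sup]
  rintro v ⟨h1, h2, h3⟩
  obtain ⟨a, ha, b, hb, rfl⟩ := Submodule.mem_sup.mp h1
  obtain rfl : a = 0 := hA.le ⟨ha, by simpa using (f.perp A).sub_mem h2 (h hb)⟩
  exact hB.le ⟨by simpa using hb, h3⟩

theorem nd_span {v : V} (h : f.B v v ≠ 0) : (f.res (F ∙ v)).Nondeg := nd_iff.mp fun u hu k => by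
  obtain ⟨c, rfl⟩ := Submodule.mem_span_singleton.mp hu
  exact ⟨v, Submodule.mem_span_singleton_self v, by simp [h, left_ne_zero_of_smul k]⟩

omit [FiniteDimensional F V] in
theorem inv_sup {g : End F V} {A B : Submodule F V} (hA : ∀ u ∈ A, g u ∈ A) (hB : ∀ u ∈ B, g u ∈ B) : ∀ u ∈ A ⊔ B, g u ∈ A ⊔ B := fun u hu => by
  obtain ⟨a, ha, b, hb, rfl⟩ := Submodule.mem_sup.mp hu
  exact map_add g a b ▸ Submodule.add_mem_sup (hA a ha) (hB b hb)

/-- extension by the identity -/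
noncomputable def inlI {U : Submodule F V} (hc : IsCompl U (f.perp U)) : (f.res U).Isom →* f.Isom :=
  ((sumHom hc).comp ((MonoidHom.inl _ _).comp (f.res U).Isom.subtype)).codRestrict _ fun g => (sumHom_mem_Isom hc).mpr ⟨g.2, one_mem _⟩

/-- the involution with given `-1`-eigenspace -/
noncomputable def rho {U : Submodule F V} (hc : IsCompl U (f.perp U)) : V ≃ₗ[F] V := sumHom hc (LinearEquiv.neg F, 1)

omit [FiniteDimensional F V] in
theorem rho_mem {U : Submodule F V} (hc : IsCompl U (f.perp U)) : rho hc ∈ f.Isom := (inlI hc ⟨_, neg_mem⟩).2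
omit [FiniteDimensional F V] in
theorem rho_left {U : Submodule F V} (hc : IsCompl U (f.perp U)) {v : V} (h : v ∈ U) : rho hc v = -v := sumHom_left hc _ ⟨v, h⟩
omit [FiniteDimensional F V] in
theorem rho_right {U : Submodule F V} (hc : IsCompl U (f.perp U)) {v : V} (h : v ∈ f.perp U) : rho hc v = v := sumHom_right hc _ ⟨v, h⟩
omit [FiniteDimensional F V] in
theorem rho_sq {U : Submodule F V} (hc : IsCompl U (f.perp U)) : rho hc ^ 2 = 1 := by
  rw [rho, ← map_pow, Prod.pow_mk, one_pow, show LinearEquiv.neg F ^ 2 = (1 : U ≃ₗ[F] U) from LinearEquiv.ext fun v => neg_neg v]; exact map_one _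

omit [FiniteDimensional F V] in
theorem ext_compl {U W : Submodule F V} (hc : IsCompl U W) {a b : V ≃ₗ[F] V} (h1 : ∀ v ∈ U, a v = b v) (h2 : ∀ v ∈ W, a v = b v) : a = b :=
  LinearEquiv.ext fun v => by
    obtain ⟨x, y, rfl, -⟩ := Submodule.existsUnique_add_of_isCompl hc v
    rw [map_add, map_add, h1 _ x.2, h2 _ y.2]

theorem exists_rho (hf : f.Nondeg) (h2 : (2 : F) ≠ 0) {g : V ≃ₗ[F] V} (hg : g ∈ f.Isom) (h : ∀ v, g (g v) = v) :
    ∃ (U : Submodule F V) (hU : (f.res U).Nondeg), g = rho (nd_compl hf hU) := by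
  have n := hf.res_perp (ker_nondeg hf hg (r := 2) (LinearEquiv.ext h) (by simpa using h2))
  rw [← In.perp_W hf hg, hf.perp_perp] at n
  refine ⟨_, n, ext_compl (nd_compl hf n) (fun v hv => ?_) fun v hv => ?_⟩
  · rw [rho_left _ hv]
    obtain ⟨u, rfl⟩ := hv
    simp [h]
  · rw [rho_right _ hv]
    rw [In.perp_W hf hg] at hv
    simpa [sub_eq_zero] using hv

omit [FiniteDimensional F V] in
theorem rho_not_scal {U : Submodule F V} (hc : IsCompl U (f.perp U)) (h2 : (2 : F) ≠ 0) :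
    (∀ c : F, (rho hc).toLinearMap ≠ c • 1) ↔ U ≠ ⊥ ∧ f.perp U ≠ ⊥ := by
  refine ⟨fun h => ⟨fun e => h 1 (LinearMap.ext fun v => ?_), fun e => h (-1) (LinearMap.ext fun v => ?_)⟩, fun ⟨a, b⟩ c e => ?_⟩
  · simpa using rho_right hc (show v ∈ f.perp U by rw [e, perp_bot]; trivial)
  · simpa using rho_left hc (show v ∈ U by have := hc.sup_eq_top; rw [e, sup_bot_eq] at this; rw [this]; trivial)
  · obtain ⟨u, u1, u2⟩ := U.ne_bot_iff.mp a
    obtain ⟨w, w1, w2⟩ := (f.perp U).ne_bot_iff.mp b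
    have e1 : c = -1 := smul_left_injective F u2 (by simpa [rho_left hc u1] using (LinearMap.congr_fun e u).symm)
    have e2 : c = 1 := smul_left_injective F w2 (by simpa [rho_right hc w1] using (LinearMap.congr_fun e w).symm)
    exact h2 (by linear_combination e1 - e2)

theorem rho_TS {U : Submodule F V} (hc : IsCompl U (f.perp U)) (h2 : (2 : F) ≠ 0) (m : ℕ) :
    Fx (fun W => finrank F W = m ∧ f.TS W) (rho hc).toLinearMap ↔
      ∃ a b, a + b = m ∧ (∃ K, (f.res U).TS K ∧ finrank F K = a) ∧ ∃ K, (f.res (f.perp U)).TS K ∧ finrank F K = b := by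
  have d : ∀ A B : Submodule F V, A ≤ U → B ≤ f.perp U → finrank F (A ⊔ B : Submodule F V) = finrank F A + finrank F B := fun A B a b => by
    have := Submodule.finrank_sup_add_finrank_inf_eq A B
    rwa [(hc.disjoint.mono a b).eq_bot, finrank_bot] at this
  constructor
  · rintro ⟨W, ⟨rfl, w1⟩, w2⟩
    refine ⟨_, _, ?_, ⟨W.comap U.subtype, ⟨fun w hw => w1.1 _ hw, fun u hu w hw => w1.2 _ hu _ hw⟩, rfl⟩,
      W.comap (f.perp U).subtype, ⟨fun w hw => w1.1 _ hw, fun u hu w hw => w1.2 _ hu _ hw⟩, rfl⟩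
    rw [← Submodule.finrank_map_subtype_eq, ← Submodule.finrank_map_subtype_eq, Submodule.map_comap_subtype, Submodule.map_comap_subtype,
      ← d _ _ inf_le_left inf_le_left]
    refine congrArg (fun W : Submodule F V => finrank F W) (le_antisymm (sup_le inf_le_right inf_le_right) fun v hv => ?_)
    obtain ⟨x, y, rfl, -⟩ := Submodule.existsUnique_add_of_isCompl hc v
    have e := w2 _ hv
    rw [LinearEquiv.coe_coe, map_add, rho_left hc x.2, rho_right hc y.2] at e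
    exact Submodule.add_mem_sup ⟨x.2, (W.smul_mem_iff h2).mp (by convert W.sub_mem hv e using 1; module)⟩
      ⟨y.2, (W.smul_mem_iff h2).mp (by convert W.add_mem hv e using 1; module)⟩
  · rintro ⟨_, _, rfl, ⟨A, a1, rfl⟩, B, b1, rfl⟩
    have a2 := TS_map_subtype a1
    have b2 := TS_map_subtype b1
    have a3 := Submodule.map_subtype_le U A
    have b3 := Submodule.map_subtype_le _ B
    refine ⟨A.map U.subtype ⊔ B.map (f.perp U).subtype, ⟨by rw [d _ _ a3 b3]; simp [Submodule.finrank_map_subtype_eq], fun v hv => ?_, fun u hu v hv => ?_⟩,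
      inv_sup (fun v hv => ?_) fun v hv => ?_⟩
    · obtain ⟨a, ha, b, hb, rfl⟩ := Submodule.mem_sup.mp hv
      simp [f.Q_add, a2.1 a ha, b2.1 b hb, f.mem_perp'.mp (b3 hb) a (a3 ha)]
    · obtain ⟨a, ha, b, hb, rfl⟩ := Submodule.mem_sup.mp hv
      obtain ⟨a', ha', b', hb', rfl⟩ := Submodule.mem_sup.mp hu
      simp [a2.2 a' ha' a ha, b2.2 b' hb' b hb, f.mem_perp'.mp (b3 hb) a' (a3 ha'), b3 hb' a (a3 ha)]
    · rw [LinearEquiv.coe_coe, rho_left hc (a3 hv)]; exact Submodule.neg_mem _ hv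
    · rwa [LinearEquiv.coe_coe, rho_right hc (b3 hv)]

end

variable [Fintype F] {f : CForm (FP.orth F) V}

theorem odd_mem_E (hf : f.Nondeg) (h5 : 5 ≤ finrank F V) {r : ℕ} (hr : Odd r) {g : V ≃ₗ[F] V} (hg : g ∈ f.Isom) (h : g ^ r = 1) : g ∈ f.E := by
  have k : ∀ s : f.Isom →* ℤˣ, s ⟨g, hg⟩ = 1 := fun s => by
    have := map_pow s ⟨g, hg⟩ r
    rw [show (⟨g, hg⟩ : f.Isom) ^ r = 1 from Subtype.ext h, map_one] at this
    rcases Int.units_eq_one_or (s ⟨g, hg⟩) with e | e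
    · exact e
    · rw [e, hr.neg_one_pow] at this; exact absurd this (by decide)
  exact (Mx.mem_E_iff hf h5 (g := ⟨g, hg⟩)).mpr ((mem_comm hf (split_of_finrank hf (by omega))).mpr ⟨k _, k _⟩)

theorem odd_all (hf : f.Nondeg) (h5 : 5 ≤ finrank F V) {r : ℕ} (hr : Odd r) {Pr : End F V → Prop} :
    AllO f.E r Pr ↔ AllO f.Isom r Pr :=
  ⟨fun h g hg a => h g (odd_mem_E hf h5 hr hg a) a, fun h g hg => h g (E_le_Isom hg)⟩

theorem odd_allS (hf : f.Nondeg) (h5 : 5 ≤ finrank F V) {r : ℕ} (hr : Odd r) {Pr : End F V → Prop} (hP : ∀ g, Pr (-g) → Pr g) :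
    AllS f.E r Pr ↔ AllO f.Isom r Pr :=
  (odd_red (fun _ => rfl) hf (by omega) E_le_Isom hr hP fun _ _ _ h a => odd_mem_E hf h5 hr h a).trans (odd_all hf h5 hr)

theorem inl_comm (hf : f.Nondeg) (hs : f.Split) {U : Submodule F V} (hU : (f.res U).Nondeg) (hs' : (f.res U).Split) (g : (f.res U).Isom) :
    dick hf hs (inlI (nd_compl hf hU) g) = dick hU hs' g ∧ sp hf hs (inlI (nd_compl hf hU) g) = sp hU hs' g :=
  comm_iff_of_rf hU hs' hf hs _ (fun d _ => ⟨d, rfl, ext_compl (nd_compl hf hU) (fun v hv => (sumHom_left _ _ ⟨v, hv⟩).trans (by simp [rf_apply]))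
    fun v hv => (sumHom_right _ _ ⟨v, hv⟩).trans (rf_fix (hv d d.2)).symm⟩) g

/-- the type for which `-1` lies in `Ω` -/
def NT (f : CForm (FP.orth F) V) (k : ℕ) : Prop := f.IsPlus ↔ Fintype.card F ^ k % 4 = 1

theorem neg_comm_iff (hf : f.Nondeg) (h2 : (2 : F) ≠ 0) : (⟨_, neg_mem_Isom⟩ : f.Isom) ∈ commutator f.Isom ↔ ∃ k, finrank F V = 2 * k ∧ NT f k := by
  obtain ⟨k, hk | hk⟩ := Nat.even_or_odd' (finrank F V)
  · rw [show (∃ k, finrank F V = 2 * k ∧ NT f k) ↔ NT f k from ⟨fun ⟨j, a, b⟩ => (show j = k by omega) ▸ b, fun h => ⟨k, hk, h⟩⟩]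
    rcases k with _ | k
    · haveI := finrank_zero_iff.mp hk
      exact iff_of_true (by rw [show (⟨_, neg_mem_Isom⟩ : f.Isom) = 1 from Subtype.ext (Subsingleton.elim _ _)]; exact one_mem _)
        (iff_of_true isPlus_of_subsingleton rfl)
    · have : Fintype.card F ^ (k + 1) % 2 = 1 := Nat.odd_iff.mp (Odd.pow (Nat.odd_iff.mpr (FiniteField.odd_card_of_char_ne_two (ringChar_ne_two h2))))
      rw [neg_mem_commutator_iff hf h2 hk, NT, ← sgn_eq_one]
      split_ifs with h <;> simp [h]; omega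
  · exact iff_of_false (neg_not_mem_commutator hf ⟨k, hk⟩) fun ⟨j, a, _⟩ => by omega

theorem rho_E (hf : f.Nondeg) (h5 : 5 ≤ finrank F V) (h2 : (2 : F) ≠ 0) {U : Submodule F V} (hU : (f.res U).Nondeg) :
    rho (nd_compl hf hU) ∈ f.E ↔ ∃ k, finrank F U = 2 * k ∧ NT (f.res U) k := by
  have := inl_comm hf (split_of_two_ne h2) hU (split_of_two_ne h2) ⟨_, neg_mem_Isom⟩
  rw [← neg_comm_iff hU h2, mem_comm hU (split_of_two_ne h2), ← this.1, ← this.2, ← mem_comm, ← Mx.mem_E_iff hf h5]; rfl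

omit [Fintype F] [FiniteDimensional F V] in
theorem B_self_ne (h2 : (2 : F) ≠ 0) {v : V} (h : f.Q v ≠ 0) : f.B v v ≠ 0 := by rw [orth_B_self]; exact mul_ne_zero h2 h

theorem neg_chain (hf : f.Nondeg) (h2 : (2 : F) ≠ 0) {x : V ≃ₗ[F] V} (hx : x ∈ f.Isom) (h : ∀ v, x (x v) = -v) (a : ℕ) (ha : 2 * a ≤ finrank F V + 1) :
    ∃ W : Submodule F V, (f.res W).Nondeg ∧ finrank F W = 2 * a ∧ (∀ v ∈ W, x v ∈ W) ∧ ∃ y : f.Isom, (∀ v ∈ W, y.1 v = x v) ∧
      (∀ v ∈ f.perp W, y.1 v = v) ∧ sp hf (split_of_two_ne h2) y = sqc (2 : F) ^ a ∧ dick hf (split_of_two_ne h2) y = 1 := by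
  induction a with
  | zero => exact ⟨⊥, (f.res_nondeg_iff _).mpr (by simp), by simp, by simp, 1, by simp, by simp, by simp, by simp⟩
  | succ a ih =>
    obtain ⟨W, w1, w2, w3, y, y1, y2, y3, y4⟩ := ih (by omega)
    have := hf.finrank_perp W
    obtain ⟨⟨v, v1⟩, v2⟩ := orth_exists_Q_ne (hf.res_perp w1) (by omega)
    change f.Q v ≠ 0 at v2
    have u1 := inv_perp hx w3 v v1
    have u2 := f.Isom_Q hx v
    have b : f.B v (x v) = 0 := (mul_eq_zero.mp (show 2 * f.B v (x v) = 0 by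
      have := f.Isom_B hx v (x v); rw [h, B_neg_right, f.orth_B_symm] at this; linear_combination -this)).resolve_left h2
    have b' : f.B (x v) v = 0 := f.B_zero_symm b
    have q : f.Q (v - x v) = 2 * f.Q v := by simp [f.Q_sub, u2, b]; ring
    have q' : f.Q (v - x v) ≠ 0 := q ▸ mul_ne_zero h2 v2
    have s1 : (F ∙ v) ≤ f.perp W := (Submodule.span_singleton_le_iff_mem _ _).mpr v1
    have n1 := nd_sup w1 (nd_span (B_self_ne h2 v2)) s1
    have s2 : (F ∙ x v) ≤ f.perp (W ⊔ F ∙ v) := (Submodule.span_singleton_le_iff_mem _ _).mpr (by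
      rw [perp_sup]; exact ⟨u1, by simpa [mem_perp_span] using b'⟩)
    have v0 : v ≠ 0 := fun e => v2 (by simp [e])
    refine ⟨(W ⊔ F ∙ v) ⊔ F ∙ x v, nd_sup n1 (nd_span (B_self_ne h2 (u2 ▸ v2))) s2, by
      rw [finrank_sup_perp n1 s2, finrank_sup_perp w1 s1, finrank_span_singleton v0, finrank_span_singleton (by simpa using v0)]; omega,
      inv_sup_span (g := x.toLinearMap) (inv_sup_span (fun v hv => Submodule.mem_sup_left (Submodule.mem_sup_left (w3 v hv)))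
        (Submodule.mem_sup_right (Submodule.mem_span_singleton_self _))) (Submodule.mem_sup_left (Submodule.mem_sup_right
          (by rw [LinearEquiv.coe_coe, h]; exact Submodule.neg_mem _ (Submodule.mem_span_singleton_self _)))),
      y * ⟨_, rf_mem v⟩ * ⟨_, rf_mem (v - x v)⟩, fun u hu => ?_, fun u hu => ?_, ?_, ?_⟩
    · have e1 : f.rf (v - x v) v = x v := by
        rw [rf_apply, show (f.Q (v - x v))⁻¹ * f.B v (v - x v) = 1 by rw [q]; simp [b, orth_B_self]; field_simp]; simp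
      have e2 : f.rf (v - x v) (x v) = v := (congrArg _ e1.symm).trans (LinearEquiv.congr_fun (rf_mul_rf _) v)
      obtain ⟨k, hk, _, hw, rfl⟩ := Submodule.mem_sup.mp hu
      obtain ⟨c, rfl⟩ := Submodule.mem_span_singleton.mp hw
      obtain ⟨k, hk', _, hw', rfl⟩ := Submodule.mem_sup.mp hk
      obtain ⟨c', rfl⟩ := Submodule.mem_span_singleton.mp hw'
      have k1 := f.mem_perp'.mp v1 k hk'
      simp [e1, e2, rf_fix b', rf_self v2, rf_fix k1, rf_fix (show f.B k (v - x v) = 0 by simp [k1, f.mem_perp'.mp u1 k hk']), y1 k hk', y2 v v1,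
        y2 _ u1, h]
    · rw [perp_sup, perp_sup] at hu
      have k1 := hu.1.2 v (Submodule.mem_span_singleton_self _)
      simp [rf_fix k1, rf_fix (show f.B u (v - x v) = 0 by simp [k1, hu.2 _ (Submodule.mem_span_singleton_self _)]), y2 u hu.1.1]
    · rw [map_mul, map_mul, y3, sp_rf _ _ v2, sp_rf _ _ q', q, sqc_mul h2 v2, pow_succ, mul_assoc, mul_left_comm (sqc _), Int.units_mul_self, mul_one]
    · rw [map_mul, map_mul, y4, dick_rf _ _ v2, dick_rf _ _ q']; simp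

theorem neg_NT (hf : f.Nondeg) (h2 : (2 : F) ≠ 0) {x : V ≃ₗ[F] V} (hx : x ∈ f.Isom) (h : ∀ v, x (x v) = -v) : ∃ k, finrank F V = 2 * k ∧ NT f k := by
  rw [← neg_comm_iff hf h2, mem_comm hf (split_of_two_ne h2), show (⟨_, neg_mem_Isom⟩ : f.Isom) = ⟨x, hx⟩ * ⟨x, hx⟩ from
    Subtype.ext (LinearEquiv.ext fun v => (h v).symm), map_mul, map_mul]
  exact ⟨Int.units_mul_self _, Int.units_mul_self _⟩

theorem neg_E (hf : f.Nondeg) (h2 : (2 : F) ≠ 0) {d : ℕ} (hd : finrank F V = 2 * d) (h5 : 3 ≤ d) {x : V ≃ₗ[F] V} (hx : x ∈ f.Isom)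
    (h : ∀ v, x (x v) = -v) : x ∈ f.E ↔ Even d ∨ Fintype.card F % 8 = 1 ∨ Fintype.card F % 8 = 7 := by
  obtain ⟨W, -, w2, -, y, y1, -, y3, y4⟩ := neg_chain hf h2 hx h d (by omega)
  obtain rfl : W = ⊤ := Submodule.eq_top_of_finrank_eq (w2.trans hd.symm)
  obtain rfl : y.1 = x := LinearEquiv.ext fun v => y1 v trivial
  have := FiniteField.odd_card_of_char_ne_two (ringChar_ne_two h2)
  rw [Mx.mem_E_iff hf (by omega), mem_comm hf (split_of_two_ne h2), y3, y4, and_iff_right rfl, show (_ = 1 ∨ _ = 7) ↔ sqc (2 : F) = 1 by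
    rw [sqc_eq_one, FiniteField.isSquare_two_iff]; omega]
  rcases Int.units_eq_one_or (sqc (2 : F)) with e | e <;> simp [e, neg_one_pow_eq_one_iff_even]

theorem ex_nd (hf : f.Nondeg) (h2 : (2 : F) ≠ 0) (a : ℕ) (ha : a ≤ finrank F V) : ∃ U : Submodule F V, (f.res U).Nondeg ∧ finrank F U = a := by
  induction a with
  | zero => exact ⟨⊥, (f.res_nondeg_iff _).mpr (by simp), by simp⟩
  | succ a ih =>
    obtain ⟨W, w1, rfl⟩ := ih (by omega)
    have := hf.finrank_perp W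
    obtain ⟨⟨v, v1⟩, v2⟩ := orth_exists_Q_ne (hf.res_perp w1) (by omega)
    change f.Q v ≠ 0 at v2
    have s1 : (F ∙ v) ≤ f.perp W := (Submodule.span_singleton_le_iff_mem _ _).mpr v1
    exact ⟨_, nd_sup w1 (nd_span (B_self_ne h2 v2)) s1, by rw [finrank_sup_perp w1 s1, finrank_span_singleton fun e => v2 (by simp [e])]⟩

theorem exists_neg (hf : f.Nondeg) (h2 : (2 : F) ≠ 0) {d : ℕ} (hd : finrank F V = 2 * d) (h : NT f d) : ∃ x ∈ f.Isom, ∀ v, x (x v) = -v := by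
  obtain ⟨U, u1, u2⟩ := ex_nd hf h2 d (by omega)
  let x : (U × U) ≃ₗ[F] (U × U) := LinearEquiv.prodComm F U U ≪≫ₗ (LinearEquiv.neg F).prodCongr (LinearEquiv.refl F U)
  have hx : x ∈ (prodF (f.res U) (f.res U)).Isom := ⟨fun u v => by simp [x, add_comm], fun v => by simp [x, add_comm]⟩
  have e : ∀ v, x (x v) = -v := fun v => by simp [x]; rfl
  have n := prodF_nondeg u1 u1
  obtain ⟨k, k1, k2⟩ := neg_NT n h2 hx e
  obtain rfl : k = d := by rw [finrank_prod] at k1; omega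
  obtain ⟨a, ha⟩ := orth_exists_isIso_even k n hf k1 hd (k2.trans h.symm)
  exact ⟨_, ha.conj_mem.mpr hx, fun v => by simp [conjEquiv, e]⟩

theorem TS_odd (hf : f.Nondeg) {m : ℕ} (hm : finrank F V = 2 * m + 1) (k : ℕ) : (∃ K, f.TS K ∧ finrank F K = k) ↔ k ≤ m :=
  ⟨fun ⟨K, k1, k2⟩ => by have := k1.two_mul_finrank_le hf; omega, fun h => exists_TS (d := 3) (fun _ _ _ _ _ => orth_exists_hyp) k hf (by omega)⟩

theorem TS_even (hf : f.Nondeg) {m : ℕ} (hm : finrank F V = 2 * m) (k : ℕ) : (∃ K, f.TS K ∧ finrank F K = k) ↔ k < m ∨ (k = m ∧ f.IsPlus) := by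
  by_cases h : f.IsPlus
  · rw [In.TS_plus hf h hm, and_iff_left h]; omega
  · rcases m with _ | m
    · haveI := finrank_zero_iff.mp hm
      exact absurd isPlus_of_subsingleton h
    · rw [In.TS_minus hf h hm]; simp [h]

end CfsgH5.El
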