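import Cfsg.Agent.H5.El12

set_option autoImplicit false

namespace CfsgH5.El
open Module Polynomial Gl Gc CForm Au Fm

universe u v w
variable {F : Type u} [Field F] [Fintype F]

theorem ex_fam (h2 : (2 : F) ≠ 0) (a : ℕ) : ∀ {V : Type v} [AddCommGroup V] [Module F V] [FiniteDimensional F V] {f : CForm (FP.orth F) V}, f.Nondeg →
    a < finrank F V → ∀ c : Fin a → F, (∀ i, c i ≠ 0) → ∃ v : Fin a → V, (∀ i, f.Q (v i) = c i) ∧ ∀ i j, i ≠ j → f.B (v i) (v j) = 0 := by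
  induction a with
  | zero => exact fun _ _ _ _ => ⟨Fin.elim0, fun i => i.elim0, fun i => i.elim0⟩
  | succ a ih =>
    intro V _ _ _ f hf h c hc
    obtain ⟨u, hu⟩ := orth_universal hf (by omega) (hc 0)
    have u0 : u ≠ 0 := fun e => hc 0 (by simp [← hu, e])
    have := hf.finrank_perp (F ∙ u)
    rw [finrank_span_singleton u0] at this
    obtain ⟨v, v1, v2⟩ := ih (hf.res_perp (nd_span (B_self_ne h2 (hu ▸ hc 0)))) (by omega) (fun i => c i.succ) fun i => hc _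
    have k : ∀ i, f.B (v i) u = 0 := fun i => (v i).2 u (Submodule.mem_span_singleton_self u)
    refine ⟨Fin.cons u fun i => (v i).1, Fin.cases hu v1, Fin.cases (Fin.cases (fun e => absurd rfl e) fun j _ => f.B_zero_symm (k j))
      fun i => Fin.cases (fun _ => k i) fun j e => v2 i j fun e' => e (congrArg _ e')⟩

variable {V : Type v} [AddCommGroup V] [Module F V] [FiniteDimensional F V] {f : CForm (FP.orth F) V}
  {W : Type w} [AddCommGroup W] [Module F W] [FiniteDimensional F W] {g : CForm (FP.orth F) W}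

omit [Fintype F] [FiniteDimensional F V] in
theorem emb_fam (h2 : (2 : F) ≠ 0) (hg : g.Nondeg) {ι : Type*} (b : Basis ι F W) (hb : ∀ i j, i ≠ j → g.B (b i) (b j) = 0) {v : ι → V}
    (h : ∀ i, f.Q (v i) = g.Q (b i)) (h' : ∀ i j, i ≠ j → f.B (v i) (v j) = 0) :
    ∃ φ : W →ₗ[F] V, Function.Injective φ ∧ (∀ u w, f.B (φ u) (φ w) = g.B u w) ∧ (∀ w, f.Q (φ w) = g.Q w) ∧ ∀ i, φ (b i) = v i := by
  have e : ∀ u w, f.B (b.constr F v u) (b.constr F v w) = g.B u w := fun u w => LinearMap.congr_fun₂ (LinearMap.ext_basis b b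
    (B := LinearMap.mk₂ F (fun u w => f.B (b.constr F v u) (b.constr F v w)) (by simp) (by simp) (by simp) (by simp))
    (B' := LinearMap.mk₂ F g.B (by simp) (by simp) (by simp) (by simp)) fun i j => by
      by_cases k : i = j
      · simp [k, orth_B_self, h]
      · simp [hb i j k, h' i j k]) u w
  exact ⟨b.constr F v, (injective_iff_map_eq_zero _).mpr fun w hw => hg w fun u => by rw [← e, hw, B_zero_right], e,
    fun w => mul_left_cancel₀ h2 (by rw [← orth_B_self, ← orth_B_self, e]), by simp⟩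

theorem emb (h2 : (2 : F) ≠ 0) (hf : f.Nondeg) (hg : g.Nondeg) (h : finrank F W < finrank F V) : ∃ U : Submodule F V, ∃ e, g.IsIso (f.res U) e := by
  obtain ⟨b, b1, b2⟩ := exists_obasis hg h2
  obtain ⟨v, v1, v2⟩ := ex_fam h2 _ hf h _ b2
  obtain ⟨φ, a1, a2, a3, -⟩ := emb_fam h2 hg b b1 v1 v2
  exact ⟨_, LinearEquiv.ofInjective φ a1, a2, a3⟩

theorem emb_even (hf : f.Nondeg) (hg : g.Nondeg) {k : ℕ} (hk : finrank F W = 2 * k) (h : 2 * k < finrank F V) :
    ∃ U : Submodule F V, ∃ e, g.IsIso (f.res U) e := by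
  obtain ⟨m, hm | hm⟩ := Nat.even_or_odd' (finrank F V)
  · obtain ⟨U, _, _, _, h', e, he⟩ := Gc.exists_compl hf hg hm hk (by omega)
    exact ⟨_, LinearEquiv.ofInjective (e.toLinearMap ∘ₗ LinearMap.inl F W U) (e.injective.comp LinearMap.inl_injective),
      fun u v => (he.1 (u, 0) (v, 0)).trans (by simp), fun v => (he.2 (v, 0)).trans (by simp)⟩
  · exact emb (orth_two_ne_of_odd hf ⟨m, hm⟩) hf hg (by omega)

theorem ex_type (hf : f.Nondeg) {k : ℕ} (h0 : 0 < k) (h : 2 * k < finrank F V) (s : Prop) :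
    ∃ U : Submodule F V, (f.res U).Nondeg ∧ finrank F U = 2 * k ∧ ((f.res U).IsPlus ↔ s) := by
  by_cases hs : s
  · obtain ⟨U, e, he⟩ := emb_even hf (plusQ_nondeg F k) (by simp [two_mul]) h
    exact ⟨U, he.nondeg (plusQ_nondeg F k), by simp [← e.finrank_eq, two_mul], iff_of_true (he.isPlus (plusQ_isPlus k)) hs⟩
  · obtain ⟨a, c, hac⟩ := exists_quad_aniso (F := F)
    obtain ⟨U, e, he⟩ := emb_even hf (minusQ_nondeg (k - 1) hac) (by simp; omega) h
    exact ⟨U, he.nondeg (minusQ_nondeg _ hac), by simp [← e.finrank_eq]; omega, iff_of_false (fun k => minusQ_not_isPlus _ hac (he.symm.isPlus k)) hs⟩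

theorem rho_nd0 (h2 : (2 : F) ≠ 0) (hf : f.Nondeg) {U : Submodule F V} (hU : (f.res U).Nondeg) (h1 : 0 < finrank F U) (h3 : finrank F U < finrank F V)
    {W₀ : Submodule F V} (hW : (f.res W₀).Nondeg) (h : finrank F W₀ + 2 ≤ finrank F V) :
    ∃ y ∈ f.Isom, ∀ v ∈ W₀.map y.toLinearMap, rho (nd_compl hf hU) v ∈ W₀.map y.toLinearMap := by
  have d := hf.finrank_perp U
  obtain ⟨a, c, e, a1, a2⟩ : ∃ a c, a + c = finrank F W₀ ∧ a < finrank F U ∧ c < finrank F (f.perp U) :=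
    ⟨min (finrank F W₀) (finrank F U - 1), finrank F W₀ - min (finrank F W₀) (finrank F U - 1), by omega, by omega, by omega⟩
  obtain ⟨b, b1, b2⟩ := exists_obasis hW h2
  let σ : Fin (finrank F W₀) ≃ Fin a ⊕ Fin c := (finCongr e.symm).trans finSumFinEquiv.symm
  obtain ⟨v, v1, v2⟩ := ex_fam h2 _ hU a1 (fun i => f.Q (b.reindex σ (.inl i))) fun i => by simpa using b2 _
  obtain ⟨w, w1, w2⟩ := ex_fam h2 _ (hf.res_perp hU) a2 (fun i => f.Q (b.reindex σ (.inr i))) fun i => by simpa using b2 _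
  obtain ⟨φ, c1, c2, c3, c4⟩ := emb_fam (f := f) h2 hW (b.reindex σ) (fun i j k => by simpa using b1 _ _ (σ.symm.injective.ne k))
    (v := Sum.elim (fun i => (v i).1) fun i => (w i).1) (by rintro (i | i); exacts [v1 i, w1 i]) (by
      rintro (i | i) (j | j) k
      exacts [v2 i j (by simpa using k), f.mem_perp'.mp (w j).2 _ (v i).2, (w i).2 _ (v j).2, w2 i j (by simpa using k)])
  obtain ⟨y, y1, y2⟩ := witt hf W₀ φ c1 c2 c3
  have r : W₀.map y.toLinearMap = LinearMap.range φ :=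
    le_antisymm (by rintro _ ⟨u, hu, rfl⟩; exact ⟨⟨u, hu⟩, (y2 _).symm⟩) (by rintro _ ⟨u, rfl⟩; exact ⟨u, u.2, y2 u⟩)
  refine ⟨y, y1, r ▸ ?_⟩
  rintro _ ⟨u, rfl⟩
  refine (show ⊤ ≤ (LinearMap.range φ).comap ((rho (nd_compl hf hU)).toLinearMap ∘ₗ φ) from ?_) (Submodule.mem_top (x := u))
  rw [← (b.reindex σ).span_eq, Submodule.span_le]
  rintro _ ⟨i | i, rfl⟩
  · exact ⟨-_, by rw [map_neg, LinearMap.comp_apply, c4]; exact (rho_left _ (v i).2).symm⟩
  · exact ⟨_, by rw [LinearMap.comp_apply, c4]; exact (rho_right _ (w i).2).symm⟩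

theorem rho_nd (h2 : (2 : F) ≠ 0) (hf : f.Nondeg) {U : Submodule F V} (hU : (f.res U).Nondeg) (h1 : 2 ≤ finrank F U) (h3 : finrank F U < finrank F V)
    {W₀ : Submodule F V} (hW : (f.res W₀).Nondeg) (h : finrank F W₀ < finrank F V) :
    ∃ y ∈ f.Isom, ∀ v ∈ W₀.map y.toLinearMap, rho (nd_compl hf hU) v ∈ W₀.map y.toLinearMap := by
  by_cases k : finrank F W₀ + 2 ≤ finrank F V
  · exact rho_nd0 h2 hf hU (by omega) h3 hW k
  · have d := hf.finrank_perp W₀
    obtain ⟨y, y1, y2⟩ := rho_nd0 h2 hf hU (by omega) h3 (hf.res_perp hW) (by omega)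
    have := inv_perp (rho_mem _) y2
    rw [← map_perp y1, hf.perp_perp] at this
    exact ⟨y, y1, this⟩

theorem inv_two (hf : f.Nondeg) (h5 : 5 ≤ finrank F V) (h2 : (2 : F) ≠ 0) {Pr : End F V → Prop} :
    (∀ g ∈ f.E, (∀ v, g (g v) = v) → (∀ c : F, g.toLinearMap ≠ c • 1) → Pr g.toLinearMap) ↔ ∀ (U : Submodule F V) (hU : (f.res U).Nondeg) k,
      finrank F U = 2 * k → 0 < k → 2 * k < finrank F V → NT (f.res U) k → Pr (rho (nd_compl hf hU)).toLinearMap := by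
  constructor
  · intro h U hU k a b c d
    have := hf.finrank_perp U
    exact h _ ((rho_E hf h5 h2 hU).mpr ⟨k, a, d⟩) (LinearEquiv.congr_fun (sq (rho (nd_compl hf hU)) ▸ rho_sq _)) ((rho_not_scal _ h2).mpr
      ⟨fun e => by rw [e, finrank_bot] at a; omega, fun e => by rw [e, finrank_bot] at this; omega⟩)
  · intro h g hg a b
    obtain ⟨U, hU, rfl⟩ := exists_rho hf h2 (E_le_Isom hg) a
    obtain ⟨k, c, d⟩ := (rho_E hf h5 h2 hU).mp hg
    obtain ⟨e1, e2⟩ := (rho_not_scal _ h2).mp b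
    have := hf.finrank_perp U
    have := mt Submodule.finrank_eq_zero.mp e1
    have := mt Submodule.finrank_eq_zero.mp e2
    exact h U hU k c (by omega) (by omega) d

theorem all_two (hf : f.Nondeg) (h5 : 5 ≤ finrank F V) (h2 : (2 : F) ≠ 0) {Pr : End F V → Prop} :
    AllS f.E 2 Pr ↔ (∀ (U : Submodule F V) (hU : (f.res U).Nondeg) k, finrank F U = 2 * k → 0 < k → 2 * k < finrank F V → NT (f.res U) k →
      Pr (rho (nd_compl hf hU)).toLinearMap) ∧ ∀ g ∈ f.E, (∀ v, g (g v) = -v) → (∀ c : F, g.toLinearMap ≠ c • 1) → Pr g.toLinearMap := by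
  rw [← inv_two hf h5 h2]
  exact ⟨fun h => ⟨fun g hg a => h g hg 1 (LinearMap.ext fun v => by simp [sq, a]), fun g hg a => h g hg (-1) (LinearMap.ext fun v => by simp [sq, a])⟩,
    fun h g hg z a => (sq_cases (fun _ => rfl) hf (by omega) (E_le_Isom hg) a).elim (h.1 g hg) (h.2 g hg)⟩

theorem ord_two' (hf : f.Nondeg) (h5 : 5 ≤ finrank F V) (ho : Odd (finrank F V)) {Pr : End F V → Prop} :
    AllO f.E 2 Pr ↔ ∀ (U : Submodule F V) (hU : (f.res U).Nondeg) k, finrank F U = 2 * k → 0 < k →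
      2 * k < finrank F V → NT (f.res U) k → Pr (rho (nd_compl hf hU)).toLinearMap := by
  have h2 := orth_two_ne_of_odd hf ho
  rw [← inv_two hf h5 h2]
  refine forall₂_congr fun g hg => ⟨fun h a b => h (LinearEquiv.ext a) fun e => b 1 (by rw [e, one_smul]; rfl), fun h a b =>
    h (LinearEquiv.congr_fun a) fun c e => ?_⟩
  have := norm_of_pow hf (by omega) (E_le_Isom hg) (r := 1) (by rwa [pow_one])
  rcases mul_self_eq_one_iff.mp this with rfl | rfl
  · exact b (LinearEquiv.toLinearMap_injective (by rw [e, one_smul]; rfl))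
  · refine neg_not_mem_commutator hf ho ((Mx.mem_E_iff hf h5).mp ?_)
    rwa [show g = LinearEquiv.neg F from LinearEquiv.toLinearMap_injective (by rw [e]; ext; simp)] at hg

theorem neg_TS (hf : f.Nondeg) (h2 : (2 : F) ≠ 0) {x : V ≃ₗ[F] V} (hx : x ∈ f.Isom) (h : ∀ v, x (x v) = -v) {m : ℕ} (hm : 2 * m ≤ finrank F V) :
    Fx (fun W => finrank F W = m ∧ f.TS W) x.toLinearMap ↔ Fintype.card F % 4 = 1 ∨ Even m := by
  rw [← neg_sq_iff (Nat.odd_iff.mpr (FiniteField.odd_card_of_char_ne_two (ringChar_ne_two h2)))]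
  refine ⟨fun ⟨W, ⟨a, _⟩, b⟩ => or_iff_not_imp_left.mpr fun k => a ▸ even_of_neg h k b, fun k => ?_⟩
  by_cases s : IsSquare (-1 : F)
  · obtain ⟨b, hb⟩ := s
    refine ts_diag hf h2 hx (b := b) (by rintro rfl; simp at hb) (by simpa [← hb] using h) (fun v c e => ?_) m hm
    by_cases v0 : v = 0
    · simp [v0]
    have e1 : c * c = -1 := smul_left_injective F v0 (by simpa [e, smul_smul] using h v)
    have := f.Isom_Q hx v
    rw [e, f.Q_smul] at this
    exact (mul_eq_zero.mp (show 2 * f.Q v = 0 by simp at this; linear_combination f.Q v * e1 - this)).resolve_left h2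
  · obtain ⟨j, rfl⟩ := k.resolve_left s
    rw [← two_mul]
    exact ts_two hf (fun _ => rfl) hx h s f (fun v hv => ⟨hv, (mul_eq_zero.mp (show 2 * f.B v (x v) = 0 by
      have := f.Isom_B hx v (x v); rw [h, B_neg_right, f.orth_B_symm] at this; linear_combination -this)).resolve_left h2⟩) j (by omega)

theorem neg_nd (hf : f.Nondeg) (h2 : (2 : F) ≠ 0) {x : V ≃ₗ[F] V} (hx : x ∈ f.Isom) (h : ∀ v, x (x v) = -v) {W₀ : Submodule F V}
    (hW : (f.res W₀).Nondeg) : (∃ y ∈ f.Isom, ∀ v ∈ W₀.map y.toLinearMap, x v ∈ W₀.map y.toLinearMap) ↔ ∃ k, finrank F W₀ = 2 * k ∧ NT (f.res W₀) k := by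
  constructor
  · rintro ⟨y, y1, y2⟩
    obtain ⟨k, a, b⟩ := neg_NT (nd_map hW y1) h2 (rs_mem hx y2) fun v => Subtype.ext (h v)
    have e := isIso_res_map y1 (rfl : W₀.map y.toLinearMap = _)
    exact ⟨k, (y.finrank_map_eq W₀).symm.trans a, Iff.trans ⟨e.isPlus, e.symm.isPlus⟩ b⟩
  · rintro ⟨k, a, b⟩
    obtain ⟨W, w1, w2, w3, -⟩ := neg_chain hf h2 hx h k (by have := W₀.finrank_le; omega)
    obtain ⟨j, c, d⟩ := neg_NT w1 h2 (rs_mem hx w3) fun v => Subtype.ext (h v)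
    obtain rfl : j = k := by omega
    obtain ⟨y, y1, rfl⟩ := exists_map_nd hf (orth_exists_isIso_even j hW w1 a c (b.trans d.symm))
    exact ⟨y, y1, w3⟩

theorem pow4 {q : ℕ} (h : Odd q) (k : ℕ) : q ^ k % 4 = 1 ↔ q % 4 = 1 ∨ Even k := by
  obtain ⟨a, rfl⟩ := h
  induction k with
  | zero => simp
  | succ k ih =>
    have : (2 * a + 1) ^ k % 2 = 1 := Nat.odd_iff.mp (Odd.pow ⟨a, rfl⟩)
    rw [pow_succ, Nat.mul_mod, Nat.even_add_one]
    have h1 : (2 * a + 1) % 4 = 1 ∨ (2 * a + 1) % 4 = 3 := by omega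
    have h2 : (2 * a + 1) ^ k % 4 = 1 ∨ (2 * a + 1) ^ k % 4 = 3 := by omega
    rcases h1 with h1 | h1 <;> rcases h2 with h2 | h2 <;> simp_all

/-- existence of elements of `Ω` squaring to `-1` -/
theorem neg_all (hf : f.Nondeg) (h2 : (2 : F) ≠ 0) {d : ℕ} (hd : finrank F V = 2 * d) (h3 : 3 ≤ d) {Pr : End F V → Prop} {R : Prop}
    (h : ∀ g ∈ f.Isom, (∀ v, g (g v) = -v) → (Pr g.toLinearMap ↔ R)) :
    (∀ g ∈ f.E, (∀ v, g (g v) = -v) → (∀ c : F, g.toLinearMap ≠ c • 1) → Pr g.toLinearMap) ↔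
      (NT f d → (Even d ∨ Fintype.card F % 8 = 1 ∨ Fintype.card F % 8 = 7) → R) := by
  constructor
  · intro k a b
    obtain ⟨x, x1, x2⟩ := exists_neg hf h2 hd a
    refine (h x x1 x2).mp (k x ((neg_E hf h2 hd h3 x1 x2).mpr b) x2 fun c e => ?_)
    obtain ⟨v, hv⟩ := orth_exists_Q_ne hf (by omega)
    have e' : ∀ v, x v = c • v := LinearMap.congr_fun e
    have e1 : c * c = -1 := smul_left_injective F (show v ≠ 0 from fun k => hv (by simp [k])) (by simpa [e', smul_smul] using x2 v)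
    have := f.Isom_Q x1 v
    rw [e', f.Q_smul] at this
    exact mul_ne_zero h2 hv (by simp at this; linear_combination f.Q v * e1 - this)
  · intro k g hg a _
    obtain ⟨j, b, c⟩ := neg_NT hf h2 (E_le_Isom hg) a
    obtain rfl : j = d := by omega
    exact (h g (E_le_Isom hg) a).mpr (k c ((neg_E hf h2 hd h3 (E_le_Isom hg) a).mp hg))

theorem not_p_TS {p : ℕ} [Fact p.Prime] [CharP F p] (hf : f.Nondeg) {m : ℕ} (hex : ∃ K, f.TS K ∧ finrank F K = m) (h : 2 * m < finrank F V) :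
    ¬ p ∣ Nat.card {W : Submodule F V // finrank F W = m ∧ f.TS W} := by
  obtain ⟨K, k1, rfl⟩ := hex
  obtain ⟨a, a1, a2⟩ := In.exists_nonsing hf h
  exact not_dvd_TS hf k1 ⟨a, a1, _, rfl, Or.inl a2⟩

theorem ts_even {p : ℕ} [Fact p.Prime] [CharP F p] {r i c d m : ℕ} (hr : r.Prime) (hr2 : r ≠ 2) (hrp : r ≠ p) (hi : i = orderOf (Fintype.card F : ZMod r))
    (hc : c = if Even i then i else 2 * i) (hf : f.Nondeg) (hd : finrank F V = 2 * d) (hm : m < d)
    (hΩ : r ∣ Nat.card {W : Submodule F V // finrank F W = m ∧ f.TS W}) {e : ℕ} (he : (f.IsPlus ∧ e = 0) ∨ (¬ f.IsPlus ∧ e = 1)) :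
    AllO f.Isom r (Fx fun W => finrank F W = m ∧ f.TS W) ↔
      0 < i ∧ i ≤ m ∧ if Even i then (r - 1) / i + 2 * (m / i) ≤ 2 * d / i ∧ ((2 * (m % i) ≤ i ∧ 2 * d % i = 0 ∧ 2 * d / i % 2 ≠ e ∧
        (r - 1) / i + 2 * (m / i) < 2 * d / i) ∨ (2 * (m % i) ≤ 2 * d % i ∧ 2 * d / i % 2 = e) ∨ (2 * (m % i) < 2 * d % i ∧ 2 * d / i % 2 ≠ e))
      else m % i ≤ (d - e) % i := by
  obtain ⟨T, H⟩ := exists_UP_id (F := F) hr hr2 hrp
  rw [← hi] at H
  simp only [AllO, Fx]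
  rw [UP.ts_master (P := FP.orth F) H hc hf hr hrp ((TS_even hf hd m).mpr (Or.inl hm)) (rz_even hr hr2 hrp H hi hc hf ⟨d, by omega⟩)
    (R := fun j => f.IsPlus ↔ (Even i → Even j)) (fun b b' h => by
      refine (iff_congr Iff.rfl (forall_congr' fun k => ?_)).mp
      rw [Nat.even_iff, Nat.even_iff, h k])
    (fun K U a b c' d' h => (rz_even hr hr2 hrp H hi hc (hf.res_perp h) ⟨d - m, by have := hf.finrank_perp U; omega⟩).congr fun j _ => by
      rw [plus_perp hf h hd d', iff_true_left (plus_of_TS a c' (by omega))])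
    (fun x y a => (orth_isConj hf a (natCast_ne hr hrp) (hr.odd_of_ne_two hr2)).mpr) hΩ, hd, and_iff_right H.pos]
  refine and_congr_right fun h1 => ?_
  split_ifs with h
  · refine (H.tr_sd hc h (A := fun k j => 1 ≤ j ∧ k + j * c = 2 * d ∧ (0 < k ∨ (f.IsPlus ↔ (Even i → Even j))))
      (B := fun k j a b => 2 * a ≤ k ∧ a + b * i = m ∧ (2 * a < k ∨ (f.IsPlus ↔ (Even i → Even j))))).trans ?_
    rw [if_pos h] at hc
    subst hc
    have G : ∀ j, (f.IsPlus ↔ (Even c → Even j)) ↔ j % 2 = e := fun j => by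
      rcases he with ⟨a, rfl⟩ | ⟨a, rfl⟩ <;> simp [a, h, Nat.even_iff]
    simp only [G]
    rw [ar_ev2 H.ne H.pos h1 (by omega) (G := fun j => j % 2 = e) (R := fun j => j % 2 = e) (fun j => by omega) (fun _ => Iff.rfl), H.card_eq]
  · refine (H.tr_nsd hc h (A := fun k j => 1 ≤ j ∧ k + j * c = 2 * d ∧ (0 < k ∨ (f.IsPlus ↔ (Even i → Even j))))
      (B := fun k j a b => 2 * a ≤ k ∧ a + b * i = m ∧ (2 * a < k ∨ (f.IsPlus ↔ (Even i → Even j))))).trans ?_
    rw [if_neg h] at hc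
    subst hc
    have G : ∀ j : ℕ, (f.IsPlus ↔ (Even i → Even j)) ↔ 2 * e ≠ 2 := fun j => by rcases he with ⟨a, rfl⟩ | ⟨a, rfl⟩ <;> simp [a, h]
    exact ar_nsd (e := 2 * e) H.pos (by omega) (by omega) (by omega) (by omega) G G

end CfsgH5.El
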