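import Cfsg.Agent.H5.El13

set_option autoImplicit false

namespace CfsgH5.El
open Module Polynomial Gl Gc CForm Au Fm In

universe u v w

/-- `M` is the largest admissible number of blocks -/
def IsM (c n : ℕ) (P : Prop) (M : ℕ) : Prop := (n % c = 0 ∧ ¬ P ∧ M + 1 = n / c) ∨ ((0 < n % c ∨ P) ∧ M = n / c)

theorem exists_M {c n : ℕ} (hc : 0 < c) (hn : 0 < n) (R : ℕ → Prop) :
    ∃ M, IsM c n (R (n / c)) M ∧ ∀ b, (∃ a, a + b * c = n ∧ (0 < a ∨ R b)) ↔ b ≤ M := by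
  have e := Nat.mod_add_div' n c
  have k : ∀ b, b ≤ n / c ↔ b * c ≤ n := fun b => Nat.le_div_iff_mul_le hc
  have k' : ∀ b, b < n / c → b * c < n := fun b h => by have := Nat.mul_le_mul_right c (Nat.succ_le_of_lt h); rw [Nat.succ_mul] at this; omega
  by_cases h : 0 < n % c ∨ R (n / c)
  · refine ⟨n / c, Or.inr ⟨h, rfl⟩, fun b => ⟨fun ⟨a, x, _⟩ => (k b).mpr (by omega), fun x => ⟨n - b * c, by have := (k b).mp x; omega, ?_⟩⟩⟩
    rcases x.eq_or_lt with rfl | x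
    · exact h.imp_left fun _ => by omega
    · exact Or.inl (by have := k' b x; omega)
  · have : 0 < n / c := Nat.pos_of_ne_zero fun z => by rw [z] at e; omega
    refine ⟨n / c - 1, Or.inl ⟨by omega, fun x => h (Or.inr x), by omega⟩, fun b => ⟨fun ⟨a, x, y⟩ => ?_, fun x =>
      ⟨n - b * c, by have := k' b (by omega); omega, Or.inl (by have := k' b (by omega); omega)⟩⟩⟩
    rcases ((k b).mpr (by omega)).eq_or_lt with rfl | z
    · exact absurd (y.imp_left fun _ => by omega) h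
    · omega

theorem ar_nd {c n m : ℕ} (hc : 0 < c) (h0 : 0 < m) (h1 : m < n) (R0 R1 R2 : ℕ → Prop) : ∃ M0 M1 M2, IsM c n (R0 (n / c)) M0 ∧ IsM c m (R1 (m / c)) M1 ∧
    IsM c (n - m) (R2 ((n - m) / c)) M2 ∧ (M0 ≤ M1 + M2 ↔ ∀ k j, 1 ≤ j → k + j * c = n → (0 < k ∨ R0 j) →
      ∃ a b a' b', a + a' = k ∧ b + b' = j ∧ a + b * c = m ∧ (0 < a ∨ R1 b) ∧ (0 < a' ∨ R2 b')) := by
  obtain ⟨M0, a0, b0⟩ := exists_M hc (h0.trans h1) R0
  obtain ⟨M1, a1, b1⟩ := exists_M hc h0 R1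
  obtain ⟨M2, a2, b2⟩ := exists_M hc (Nat.sub_pos_of_lt h1) R2
  refine ⟨M0, M1, M2, a0, a1, a2, fun h k j _ e d => ?_, fun h => ?_⟩
  · have := (b0 j).mp ⟨k, e, d⟩
    obtain ⟨b, b', rfl, c1, c2⟩ : ∃ b b', b + b' = j ∧ b ≤ M1 ∧ b' ≤ M2 := ⟨min j M1, j - min j M1, by omega, by omega, by omega⟩
    obtain ⟨a, x, y⟩ := (b1 b).mpr c1
    obtain ⟨a', x', y'⟩ := (b2 b').mpr c2
    exact ⟨a, b, a', b', by rw [add_mul] at e; omega, rfl, x, y, y'⟩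
  · rcases Nat.eq_zero_or_pos M0 with z | z
    · omega
    obtain ⟨k, x, y⟩ := (b0 M0).mpr le_rfl
    obtain ⟨a, b, a', b', rfl, rfl, c1, c2, c3⟩ := h k M0 z x y
    exact add_le_add ((b1 b).mp ⟨a, c1, c2⟩) ((b2 b').mp ⟨a', by rw [add_mul] at x; omega, c3⟩)

theorem div_sub {c n m : ℕ} (hc : 0 < c) (h : m ≤ n) : m % c < c ∧ n % c < c ∧ (c ≤ m ↔ 1 ≤ m / c) ∧
    ((m % c ≤ n % c ∧ (n - m) / c + m / c = n / c ∧ (n - m) % c + m % c = n % c) ∨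
      (n % c < m % c ∧ (n - m) / c + m / c + 1 = n / c ∧ (n - m) % c + m % c = n % c + c)) ∧
    (m % c = n % c → (n + m - 2 * (n % c)) / c = n / c + m / c) := by
  obtain ⟨k, rfl⟩ := Nat.exists_eq_add_of_le h
  have := Nat.mod_lt m hc
  have := Nat.mod_lt k hc
  refine ⟨Nat.mod_lt _ hc, Nat.mod_lt _ hc, by rw [Nat.le_div_iff_mul_le hc, one_mul], ?_, fun e => ?_⟩
  · rw [Nat.add_sub_cancel_left, Nat.add_div hc, Nat.add_mod]
    split_ifs with h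
    · rw [Nat.mod_eq_sub_mod h, Nat.mod_eq_of_lt (a := _ - _) (by omega)]; omega
    · rw [Nat.mod_eq_of_lt (a := _ + _) (by omega)]; omega
  · have e1 := Nat.mod_add_div (m + k) c
    have e2 := Nat.mod_add_div m c
    rw [show m + k + m - 2 * ((m + k) % c) = c * ((m + k) / c + m / c) by rw [mul_add]; omega, Nat.mul_div_cancel_left _ hc]

theorem c_even {i c : ℕ} (hc : c = if Even i then i else 2 * i) (n : ℕ) : n % c % 2 = n % 2 :=
  Nat.mod_mod_of_dvd _ (by split_ifs at hc with h; exacts [hc ▸ h.two_dvd, hc ▸ dvd_mul_right _ _])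

variable {F : Type u} [Field F] {P : FP F} {V : Type v} [AddCommGroup V] [Module F V] [FiniteDimensional F V]

section
variable {f : CForm P V}

theorem orb_of (hf : f.Nondeg) {U : Submodule F V} {Ω : Submodule F V → Prop} (h1 : ∀ W, Ω W → ∃ e, (f.res U).IsIso (f.res W) e)
    (h2 : ∀ W e, (f.res U).IsIso (f.res W) e → Ω W) (W : Submodule F V) : Ω W ↔ ∃ g ∈ f.Isom, U.map g.toLinearMap = W :=
  ⟨fun h => exists_map_nd hf (h1 W h), fun ⟨_, a, b⟩ => h2 W _ (isIso_res_map a b)⟩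

theorem UP.nd_fin [Finite F] {p : ℕ} [Fact p.Prime] [CharP F p] {r i c : ℕ} {T : Finset F[X]} {sd : Prop} [Decidable sd] (H : UP P.σ r T i sd)
    (hc : c = if sd then i else 2 * i) (hf : f.Nondeg) (hr : r.Prime) (hrp : r ≠ p) {U : Submodule F V} (hU : (f.res U).Nondeg) {R0 R1 R2 : ℕ → Prop}
    (hR0 : Rz f r T i c R0) (hR1 : Rz (f.res U) r T i c R1) (hR2 : Rz (f.res (f.perp U)) r T i c R2)
    (hconj : ∀ x y : f.Isom, x ^ r = 1 → Sim x.1.toLinearMap y.1.toLinearMap → IsConj x y) {Ω : Submodule F V → Prop}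
    (hΩ : ∀ W, Ω W ↔ ∃ g ∈ f.Isom, U.map g.toLinearMap = W) (hd : r ∣ Nat.card {W // Ω W}) {m n : ℕ} (hm : finrank F U = m) (hn : finrank F V = n)
    (h0 : 0 < m) (h1 : m < n) {R : Prop} (h : ∀ M0 M1 M2, IsM c n (R0 (n / c)) M0 → IsM c m (R1 (m / c)) M1 → IsM c (n - m) (R2 ((n - m) / c)) M2 →
      (R → M0 ≤ M1 + M2) ∧ (c ≤ m → M0 ≤ M1 + M2 → R)) : AllO f.Isom r (Fx Ω) ↔ R := by
  obtain ⟨M0, M1, M2, a0, a1, a2, e⟩ := ar_nd (H.cpos hc) h0 h1 R0 R1 R2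
  exact H.nd_master hc hf hr hrp hU hR0 hR1 hR2 hconj hΩ hd hm hn _ e (h _ _ _ a0 a1 a2).1 (h _ _ _ a0 a1 a2).2

omit [FiniteDimensional F V] in
theorem Fx_conj {Ω : Submodule F V → Prop} {U : Submodule F V} (hΩ : ∀ W, Ω W ↔ ∃ g ∈ f.Isom, U.map g.toLinearMap = W) {x : f.Isom} :
    Fx Ω x.1.toLinearMap ↔ ∃ y : f.Isom, IsConj y x ∧ ∀ v ∈ U, y.1 v ∈ U := by
  rw [Fx_orb hΩ]
  constructor
  · rintro ⟨g, a, b⟩
    refine ⟨(⟨g, a⟩ : f.Isom)⁻¹ * x * ⟨g, a⟩, isConj_iff.mpr ⟨⟨g, a⟩, by group⟩, fun v hv => ?_⟩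
    obtain ⟨u, hu, e⟩ := b _ ⟨v, hv, rfl⟩
    have : g.symm (x.1 (g v)) = u := by rw [LinearEquiv.symm_apply_eq]; exact e.symm
    exact this ▸ hu
  · rintro ⟨y, a, b⟩
    obtain ⟨g, rfl⟩ := isConj_iff.mp a
    refine ⟨g.1, g.2, ?_⟩
    rintro _ ⟨u, hu, rfl⟩
    exact ⟨_, b u hu, by simp⟩

theorem iv_sum {U : Submodule F V} (hc : IsCompl U (f.perp U)) (a : U ≃ₗ[F] U) (b : f.perp U ≃ₗ[F] f.perp U) :
    finrank F (WW (sumHom hc (a, b))) = finrank F (WW a) + finrank F (WW b) ∧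
      (Alt f (sumHom hc (a, b)) ↔ Alt (f.res U) a ∧ Alt (f.res (f.perp U)) b) := by
  have e : ∀ (u : U) (w : f.perp U), NN (sumHom hc (a, b)) (u + w) = NN a u + NN b w := fun u w => by
    simp only [LinearMap.sub_apply, LinearEquiv.coe_coe, sumHom_apply, Module.End.one_apply]; simp; abel
  refine ⟨?_, fun h => ⟨fun u => by simpa [sumHom_left] using h u, fun u => by simpa [sumHom_right] using h u⟩, fun h v => ?_⟩
  · have := Submodule.finrank_sup_add_finrank_inf_eq ((WW a).map U.subtype) ((WW b).map (f.perp U).subtype)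
    rw [(hc.disjoint.mono (Submodule.map_subtype_le _ _) (Submodule.map_subtype_le _ _)).eq_bot, finrank_bot, Submodule.finrank_map_subtype_eq,
      Submodule.finrank_map_subtype_eq] at this
    refine Eq.trans (congrArg (fun W : Submodule F V => finrank F W) (le_antisymm ?_ (sup_le ?_ ?_))) this
    · rintro _ ⟨v, rfl⟩
      obtain ⟨x, y, rfl, -⟩ := Submodule.existsUnique_add_of_isCompl hc v
      exact e x y ▸ Submodule.add_mem_sup ⟨_, ⟨x, rfl⟩, rfl⟩ ⟨_, ⟨y, rfl⟩, rfl⟩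
    · rintro _ ⟨_, ⟨x, rfl⟩, rfl⟩; exact ⟨x, by simpa using e x 0⟩
    · rintro _ ⟨_, ⟨x, rfl⟩, rfl⟩; exact ⟨x, by simpa using e 0 x⟩
  · obtain ⟨x, y, rfl, -⟩ := Submodule.existsUnique_add_of_isCompl hc v
    rw [e, f.B_add_left, f.B_add_right, f.B_add_right, f.mem_perp'.mp y.2 _ (NN a x).2, (NN b y).2 _ x.2]
    simpa using congrArg₂ (· + ·) (h.1 x) (h.2 y)

theorem nd_char2 [Finite F] (hf : f.Nondeg) (hσ : ∀ a, P.σ a = a) (h2 : (2 : F) = 0) {U : Submodule F V} (hU : (f.res U).Nondeg) {w w1 w2 m m' : ℕ}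
    (hw : ∀ k, (∃ K, f.TS K ∧ finrank F K = k) ↔ k ≤ w) (hw1 : ∀ k, (∃ K, (f.res U).TS K ∧ finrank F K = k) ↔ k ≤ w1)
    (hw2 : ∀ k, (∃ K, (f.res (f.perp U)).TS K ∧ finrank F K = k) ↔ k ≤ w2) (hm : finrank F V = 2 * (m + m')) (h0 : 0 < m + m')
    (n1 : ∀ s, 1 ≤ s → s ≤ m → ∃ x, Iv (f.res U) x ∧ finrank F (WW x) = s ∧ ¬ Alt (f.res U) x)
    (n2 : ∀ s, 1 ≤ s → s ≤ m' → ∃ x, Iv (f.res (f.perp U)) x ∧ finrank F (WW x) = s ∧ ¬ Alt (f.res (f.perp U)) x)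
    {S : Subgroup (V ≃ₗ[F] V)} (hS : S ≤ f.Isom) (hA : ∀ x, Iv f x → Alt f x → x ∈ S) {Ω : Submodule F V → Prop}
    (hΩ : ∀ W, Ω W ↔ ∃ g ∈ f.Isom, U.map g.toLinearMap = W) : AllS S 2 (Fx Ω) ↔ w / 2 ≤ w1 / 2 + w2 / 2 := by
  have hc := nd_compl hf hU
  have hU' := hf.res_perp hU
  constructor
  · intro h
    by_contra k
    obtain ⟨K, k1, k2⟩ := (hw (2 * (w / 2))).mpr (by omega)
    obtain ⟨x, x1, rfl, x3⟩ := exists_alt hf hσ h2 k1 (k2 ▸ even_two_mul _)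
    obtain ⟨y, y1, y2⟩ := (Fx_conj hΩ (x := ⟨x, x1.mem⟩)).mp (h x (hA x x1 x3) 1 (LinearMap.ext fun v => by simp [sq, x1.sq]) fun c e => by
      obtain ⟨_, ⟨v, rfl⟩, v0⟩ := (WW x).ne_bot_iff.mp fun e => by rw [e, finrank_bot] at k2; omega
      have e' : ∀ v, x v = c • v := LinearMap.congr_fun e
      obtain rfl : c = 1 := smul_left_injective F v0 (by simpa using (e' _).symm.trans (x1.fix ⟨v, rfl⟩))
      exact v0 (by simp [e']))
    have iy : Iv f y.1 := iv_of hf hσ h2 (by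
      obtain ⟨g, hg⟩ := isConj_iff.mp y1.symm
      rw [← hg, conj_pow, show (⟨x, x1.mem⟩ : f.Isom) ^ 2 = 1 from Subtype.ext (LinearEquiv.ext x1.sq)]; simp)
    obtain ⟨c1, c2⟩ := (In.isConj_iff iy x1).mp y1
    obtain ⟨⟨a, b⟩, e⟩ := exists_sumHom_eq hc y.2 (mem_stabS_of_le y2)
    obtain ⟨d1, d2⟩ := iv_sum hc a b
    obtain ⟨m1, m2⟩ := (sumHom_mem_Isom hc).mp (e ▸ y.2)
    have ia : Iv (f.res U) a := ⟨hU, hσ, h2, m1, fun v => Subtype.ext (by rw [← sumHom_left hc (a, b), ← sumHom_left hc (a, b), e, iy.sq])⟩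
    have ib : Iv (f.res (f.perp U)) b := ⟨hU', hσ, h2, m2, fun v => Subtype.ext (by rw [← sumHom_right hc (a, b), ← sumHom_right hc (a, b), e, iy.sq])⟩
    rw [e] at d1 d2
    obtain ⟨e1, e2⟩ := d2.mp (c2.mpr x3)
    have := (hw1 _).mp ⟨_, ia.TS e1, rfl⟩
    have := (hw2 _).mp ⟨_, ib.TS e2, rfl⟩
    have := Nat.even_iff.mp (ia.even e1)
    have := Nat.even_iff.mp (ib.even e2)
    change finrank F (WW y.1) = finrank F (WW x) at c1
    omega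
  · intro h g hg z h1 _
    have ig : Iv f g := ⟨hf, hσ, h2, hS hg, fun v => (sq_cases hσ hf (by omega) (hS hg) h1).elim (· v) fun e => by
      rw [e, neg_eq_iff_add_eq_zero, ← two_smul F, h2, zero_smul]⟩
    obtain ⟨a, b, ia, ib, c1, c2⟩ : ∃ a b, Iv (f.res U) a ∧ Iv (f.res (f.perp U)) b ∧ finrank F (WW a) + finrank F (WW b) = finrank F (WW g) ∧
        (Alt (f.res U) a ∧ Alt (f.res (f.perp U)) b ↔ Alt f g) := by
      by_cases k : Alt f g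
      · have := (hw _).mp ⟨_, ig.TS k, rfl⟩
        obtain ⟨s, hs⟩ := ig.even k
        obtain ⟨A, a1, a2⟩ := (hw1 (2 * min s (w1 / 2))).mpr (by omega)
        obtain ⟨B, b1, b2⟩ := (hw2 (2 * (s - min s (w1 / 2)))).mpr (by omega)
        obtain ⟨a, a3, rfl, a4⟩ := exists_alt hU hσ h2 a1 (a2 ▸ even_two_mul _)
        obtain ⟨b, b3, rfl, b4⟩ := exists_alt hU' hσ h2 b1 (b2 ▸ even_two_mul _)
        exact ⟨a, b, a3, b3, by omega, iff_of_true ⟨a4, b4⟩ k⟩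
      · have := ig.two_mul_le
        have s0 : finrank F (WW g) ≠ 0 := fun e => k fun v => by
          rw [show NN g v = 0 from (Submodule.finrank_eq_zero.mp e).le ⟨v, rfl⟩, B_zero_left]
        have w0 : ∀ W : Submodule F V, finrank F (WW (1 : W ≃ₗ[F] W)) = 0 := fun W =>
          Submodule.finrank_eq_zero.mpr (LinearMap.range_eq_bot.mpr (sub_self _))
        by_cases c : finrank F (WW g) ≤ m
        · obtain ⟨a, a1, a2, a3⟩ := n1 _ (by omega) c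
          exact ⟨a, 1, a1, ⟨hU', hσ, h2, one_mem _, fun _ => rfl⟩, by rw [w0, a2, add_zero], iff_of_false (fun e => a3 e.1) k⟩
        obtain ⟨b, b1, b2, b3⟩ := n2 (finrank F (WW g) - m) (by omega) (by omega)
        by_cases c' : m = 0
        · exact ⟨1, b, ⟨hU, hσ, h2, one_mem _, fun _ => rfl⟩, b1, by rw [w0]; omega, iff_of_false (fun e => b3 e.2) k⟩
        obtain ⟨a, a1, a2, a3⟩ := n1 m (by omega) le_rfl
        exact ⟨a, b, a1, b1, by omega, iff_of_false (fun e => b3 e.2) k⟩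
    obtain ⟨d1, d2⟩ := iv_sum hc a b
    have my := (sumHom_mem_Isom hc (p := (a, b))).mpr ⟨ia.mem, ib.mem⟩
    exact (Fx_conj hΩ (x := ⟨g, hS hg⟩)).mpr ⟨⟨_, my⟩, (In.isConj_iff (iv_of hf hσ h2 (Subtype.ext (by
      change sumHom hc (a, b) ^ 2 = 1
      rw [← map_pow, Prod.pow_mk, show a ^ 2 = 1 from LinearEquiv.ext ia.sq, show b ^ 2 = 1 from LinearEquiv.ext ib.sq]; exact map_one _))) ig).mpr
      ⟨d1.trans c1, d2.trans c2⟩, fun v hv => (sumHom_left hc (a, b) ⟨v, hv⟩).symm ▸ Subtype.prop _⟩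

end

variable [Fintype F] {f : CForm (FP.orth F) V}

theorem orb_even (hf : f.Nondeg) {U : Submodule F V} (hU : (f.res U).Nondeg) {m : ℕ} (hk : finrank F U = m) (he : Even m) {s : Prop}
    (hs : (f.res U).IsPlus ↔ s) (W : Submodule F V) :
    (finrank F W = m ∧ (f.res W).Nondeg ∧ ((f.res W).IsPlus ↔ s)) ↔ ∃ g ∈ f.Isom, U.map g.toLinearMap = W := by
  obtain ⟨k, rfl⟩ := he
  exact orb_of hf (Ω := fun W => finrank F W = k + k ∧ (f.res W).Nondeg ∧ ((f.res W).IsPlus ↔ s))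
    (fun W h => orth_exists_isIso_even k hU h.2.1 (by omega) (by omega) (hs.trans h.2.2.symm))
    (fun W e h => ⟨e.finrank_eq.symm.trans hk, h.nondeg hU, Iff.trans ⟨h.symm.isPlus, h.isPlus⟩ hs⟩) W

theorem nd_two (hf : f.Nondeg) (h2 : (2 : F) ≠ 0) {d : ℕ} (hd : finrank F V = 2 * d) (h3 : 3 ≤ d) {U : Submodule F V} (hU : (f.res U).Nondeg)
    (h : finrank F U < 2 * d) {Ω : Submodule F V → Prop} (hΩ : ∀ W, Ω W ↔ ∃ g ∈ f.Isom, U.map g.toLinearMap = W) : AllS f.E 2 (Fx Ω) ↔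
      (NT f d → (Even d ∨ Fintype.card F % 8 = 1 ∨ Fintype.card F % 8 = 7) → ∃ k, finrank F U = 2 * k ∧ NT (f.res U) k) := by
  rw [all_two hf (by omega) h2, neg_all hf h2 hd h3 fun g a b => (Fx_orb hΩ).trans (neg_nd hf h2 a b hU), and_iff_right]
  exact fun W hW k a b c _ => (Fx_orb hΩ).mpr (rho_nd h2 hf hW (by omega) (by omega) hU (by omega))

theorem nd_two_odd (hf : f.Nondeg) (h5 : 5 ≤ finrank F V) (ho : Odd (finrank F V)) {U : Submodule F V} (hU : (f.res U).Nondeg)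
    (h : finrank F U < finrank F V) {Ω : Submodule F V → Prop} (hΩ : ∀ W, Ω W ↔ ∃ g ∈ f.Isom, U.map g.toLinearMap = W) : AllO f.E 2 (Fx Ω) :=
  (ord_two' hf h5 ho).mpr fun W hW k a b c _ => (Fx_orb hΩ).mpr (rho_nd (orth_two_ne_of_odd hf ho) hf hW (by omega) (by omega) hU h)

theorem alt_mem_E (hf : f.Nondeg) (h5 : 5 ≤ finrank F V) {x : V ≃ₗ[F] V} (h : Iv f x) (ha : Alt f x) : x ∈ f.E :=
  (Mx.mem_E_iff hf h5 (g := ⟨x, h.mem⟩)).mpr ((mem_omega hf (split_of_finrank hf (by omega)) h.two).mpr (h.even ha))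

theorem TS_wi (hf : f.Nondeg) {m e : ℕ} (hm : finrank F V = 2 * m) (h0 : 0 < m) (he : (f.IsPlus ∧ e = 0) ∨ (¬ f.IsPlus ∧ e = 1)) (k : ℕ) :
    (∃ K, f.TS K ∧ finrank F K = k) ↔ k ≤ m - e := by
  rw [TS_even hf hm]
  rcases he with ⟨a, rfl⟩ | ⟨a, rfl⟩ <;> simp only [a, and_true, and_false, or_false] <;> omega

theorem nd_char2' (hf : f.Nondeg) (h2 : (2 : F) = 0) {d k e e1 e2 : ℕ} (hd : finrank F V = 2 * d) (h3 : 3 ≤ d) {U : Submodule F V} (hU : (f.res U).Nondeg)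
    (hk : finrank F U = 2 * k) (h0 : 0 < k) (h1 : k < d) (he : (f.IsPlus ∧ e = 0) ∨ (¬ f.IsPlus ∧ e = 1))
    (he1 : ((f.res U).IsPlus ∧ e1 = 0) ∨ (¬ (f.res U).IsPlus ∧ e1 = 1)) (he2 : ((f.res (f.perp U)).IsPlus ∧ e2 = 0) ∨ (¬ (f.res (f.perp U)).IsPlus ∧ e2 = 1))
    {Ω : Submodule F V → Prop} (hΩ : ∀ W, Ω W ↔ ∃ g ∈ f.Isom, U.map g.toLinearMap = W) :
    AllS f.E 2 (Fx Ω) ↔ (d - e) / 2 ≤ (k - e1) / 2 + (d - k - e2) / 2 := by
  have := hf.finrank_perp U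
  have hk' : finrank F (f.perp U) = 2 * (d - k) := by omega
  exact nd_char2 hf (fun _ => rfl) h2 hU (TS_wi hf hd (by omega) he) (TS_wi hU hk h0 he1) (TS_wi (hf.res_perp hU) hk' (by omega) he2) (m := k) (m' := d - k)
    (by omega) (by omega) (fun s => exists_non_orth hU h2 hk) (fun s => exists_non_orth (hf.res_perp hU) h2 hk') E_le_Isom
    (fun x => alt_mem_E hf (by omega)) hΩ

theorem on_iff {ι : Type} [Fintype ι] [DecidableEq ι] {P : FP F} (f : CForm P (ι → F)) {W : Submodule F (ι → F)} :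
    Cfsg.Geo.IsNondegenerateOn f.B W ↔ (f.res W).Nondeg := by rw [res_nondeg_iff]; exact ⟨Mx.nd_of_on f, Mx.on_of_nd f⟩

end CfsgH5.El
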