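import Cfsg.Agent.H5.El14
import Cfsg.Agent.H5.Un1

set_option autoImplicit false

namespace CfsgH5.El
open Module Polynomial Gl Gc CForm Au Fm In Un

universe u v w
variable {F : Type u} [Field F] {P : FP F} {V : Type v} [AddCommGroup V] [Module F V] [FiniteDimensional F V]

/-- unipotent type -/
noncomputable abbrev ut (F : Type u) [Field F] (μ : Multiset ℕ) : Multiset F[X] := μ.map fun e => (X - C 1) ^ e

theorem ut_count [DecidableEq F[X]] (μ : Multiset ℕ) (j : ℕ) : (ut F μ).count ((X - C 1) ^ j) = μ.count j :=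
  Multiset.count_map_eq_count' _ _ (fun a b e => by simpa [natDegree_pow, natDegree_X_sub_C, -map_one] using congrArg natDegree e) j

omit [FiniteDimensional F V] in
theorem ut_dim {x : End F V} {μ : Multiset ℕ} (h0 : ∀ a ∈ μ, 0 < a) (h : HT x (ut F μ)) : finrank F V = μ.sum := by
  rw [h.dim fun a ha => PP.ne (pp_unip h0 a ha), deg_unip]

omit [FiniteDimensional F V] in
theorem ut_ker {x : End F V} {μ : Multiset ℕ} (h0 : ∀ a ∈ μ, 0 < a) (h : HT x (ut F μ)) (k : ℕ) :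
    finrank F (LinearMap.ker ((x - 1) ^ k)) = (μ.map (min · k)).sum := by
  have := h.ker (fun a ha => PP.ne (pp_unip h0 a ha)) ((X - C 1) ^ k)
  rw [map_pow, map_sub, aeval_X, aeval_C, map_one, Multiset.map_map] at this
  rw [this]; congr 1
  exact Multiset.map_congr rfl fun a _ => by simp only [Function.comp, cd_pow (X_sub_C_ne_zero (1 : F)), natDegree_X_sub_C, mul_one]

section
variable {f : CForm P V}

/-- the unipotent type occurs -/
def Ru (f : CForm P V) (μ : Multiset ℕ) : Prop := ∃ x ∈ f.Isom, HT x.toLinearMap (ut F μ)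

theorem HT_sum {U W : Submodule F V} (hc : IsCompl U W) {a : U ≃ₗ[F] U} {b : W ≃ₗ[F] W} {t t' : Multiset F[X]} (h1 : HT a.toLinearMap t)
    (h2 : HT b.toLinearMap t') (ht : ∀ a ∈ t, PP a) (ht' : ∀ a ∈ t', PP a) : HT (sumHom hc (a, b)).toLinearMap (t + t') :=
  (HT_prod h1 h2 ht ht').of_sim ⟨Submodule.prodEquivOfIsCompl _ _ hc, fun v => by simp [Submodule.coe_prodEquivOfIsCompl', sumHom_apply]⟩

theorem Ru.sum {U : Submodule F V} (hc : IsCompl U (f.perp U)) {μ ν : Multiset ℕ} (h1 : Ru (f.res U) μ) (h2 : Ru (f.res (f.perp U)) ν)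
    (a : ∀ a ∈ μ, 0 < a) (b : ∀ a ∈ ν, 0 < a) : Ru f (μ + ν) := by
  obtain ⟨x, x1, x2⟩ := h1
  obtain ⟨y, y1, y2⟩ := h2
  exact ⟨_, (sumHom_mem_Isom hc (p := (x, y))).mpr ⟨x1, y1⟩, by rw [ut, Multiset.map_add]; exact HT_sum hc x2 y2 (pp_unip a) (pp_unip b)⟩

theorem unip_nd (hf : f.Nondeg) {x : V ≃ₗ[F] V} (hx : x ∈ f.Isom) {μ : Multiset ℕ} (h0 : ∀ a ∈ μ, 0 < a) (h : HT x.toLinearMap (ut F μ))
    {W : Submodule F V} (hn : (f.res W).Nondeg) (hW : ∀ v ∈ W, x v ∈ W) :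
    ∃ ν ν', ν + ν' = μ ∧ HT (rs x hW).toLinearMap (ut F ν) ∧ HT (rs x (inv_perp hx hW)).toLinearMap (ut F ν') := by
  obtain ⟨s, s1, s2⟩ := exists_HT (rs x hW).toLinearMap
  obtain ⟨t, t1, t2⟩ := exists_HT (rs x (inv_perp hx hW)).toLinearMap
  have e := (HT_compl (nd_compl hf hn) hW (inv_perp hx hW) s2 t2 s1 t1).unique h (fun a ha => (Multiset.mem_add.mp ha).elim (s1 a) (t1 a)) (pp_unip h0)
  obtain ⟨ν, a, rfl⟩ := exists_le_map _ μ s (e ▸ Multiset.le_add_right _ _)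
  obtain ⟨ν', rfl⟩ := Multiset.le_iff_exists_add.mp a
  rw [ut, Multiset.map_add] at e
  obtain rfl := add_left_cancel e
  exact ⟨ν, ν', rfl, s2, t2⟩

omit [FiniteDimensional F V] in
theorem all_unip {p : ℕ} [Fact p.Prime] [CharP F p] {Pr : End F V → Prop} (h : AllO f.Isom p Pr) {x : V ≃ₗ[F] V} (hx : x ∈ f.Isom) {μ : Multiset ℕ}
    (h0 : ∀ a ∈ μ, 0 < a ∧ a ≤ p) (h1 : μ ≠ Multiset.replicate μ.sum 1) (h2 : HT x.toLinearMap (ut F μ)) : Pr x.toLinearMap :=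
  h x hx (pow_coe_iff.mpr (pow_unip (fun a ha => (h0 a ha).2) h2)) fun e => scal_unip (fun a ha => (h0 a ha).1) h2 h1 1 (by rw [e, one_smul]; rfl)

end

/-- even parts have even multiplicity -/
def Ev (μ : Multiset ℕ) : Prop := ∀ e, Even e → Even (μ.count e)

theorem real_plus (μ : Multiset ℕ) (h0 : ∀ a ∈ μ, 0 < a) (h : ∀ e, Even (μ.count e)) : ∃ (W : Type u) (_ : AddCommGroup W) (_ : Module F W)
    (_ : FiniteDimensional F W) (g : CForm (FP.orth F) W), g.Nondeg ∧ g.IsPlus ∧ Ru g μ := by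
  induction μ using Multiset.strongInductionOn with | _ μ ih
  rcases μ.empty_or_exists_mem with rfl | ⟨a, ha⟩
  · refine ⟨_, _, _, inferInstance, _, plusQ_nondeg F 0, plusQ_isPlus 0, 1, one_mem _, ?_⟩
    have := HT_scalar (V := Fin 0 ⊕ Fin 0 → F) (1 : F)
    rwa [finrank_zero_of_subsingleton, one_smul] at this
  obtain ⟨t, rfl⟩ := Multiset.le_iff_exists_add.mp (Multiset.le_count_iff_replicate_le.mp (Nat.le_of_dvd (Multiset.count_pos.mpr ha) (h a).two_dvd))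
  obtain ⟨W, _, _, _, g, g1, g2, y, y1, y2⟩ := ih t (lt_add_of_pos_left _ (pos_iff_ne_zero.mpr fun e => by simpa using congrArg Multiset.card e)) (fun b hb => h0 b (by simp [hb])) fun e => by
    have := h e
    rw [Multiset.count_add, Multiset.count_replicate] at this
    exact (Nat.even_add.mp this).mp (by split_ifs <;> simp)
  obtain ⟨A, h1, h2⟩ := exists_reg_equiv (F := F) (h0 a ha)
  have pp : ∀ b ∈ ({(X - C 1) ^ a} : Multiset F[X]), PP b := by simpa [-map_one] using pp_pow 1 (h0 a ha)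
  have h3 := HT_dual h1 h2
  have h4 := reg_HT (f := A.toLinearMap) (c := 1) (m := a) (by rwa [map_one]) (by rwa [map_one])
  rw [finrank_fin_fun] at h3 h4
  refine ⟨_, _, _, inferInstance, _, prodF_nondeg (dualF_nondeg (fun _ => rfl) (Fin a → F)) g1, plus_prod ⟨LinearMap.range (LinearMap.inl F _ _),
    TS_orth.mpr (by rintro _ ⟨v, rfl⟩; simp [dualF]), by rw [LinearMap.finrank_range_of_inj LinearMap.inl_injective]; simp [two_mul]⟩ g2, _,
    prodF_mem (dualF_mem _ A) y1, ?_⟩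
  rw [ut, Multiset.map_add]
  exact HT_prod (HT_prod h4 h3 pp pp) y2 (fun b hb => (Multiset.mem_add.mp hb).elim (pp b) (pp b)) (pp_unip fun b hb => h0 b (by simp [hb]))

variable [Fintype F] {f : CForm (FP.orth F) V}

theorem ru_odd (hf : f.Nondeg) (ho : Odd (finrank F V)) {μ : Multiset ℕ} (h0 : ∀ a ∈ μ, 0 < a) (h : Ev μ) (hs : μ.sum = finrank F V) : Ru f μ := by
  classical
  obtain ⟨W, _, _, _, g, a1, x, a2, a3⟩ := real_of_count (P := FP.orth F) (fun _ => rfl) (ut F μ) (fun a ha => by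
    obtain ⟨e, h, rfl⟩ := Multiset.mem_map.mp ha; exact ⟨e, h0 e h, rfl⟩) fun j hj => by
      rcases Nat.even_or_odd j with e | ⟨l, rfl⟩
      · exact Or.inr (ut_count (F := F) μ j ▸ h j e)
      · exact Or.inl (reg_orth (orth_two_ne_of_odd hf ho) _)
  obtain ⟨m, hm⟩ := ho
  obtain ⟨c, e, c1, c2⟩ := orth_exists_similar_odd m a1 hf (by rw [ut_dim h0 a3, hs, hm]) hm
  obtain ⟨y, hy⟩ := exists_sim_of_isIso ⟨e, c2⟩ (A := x) (by rwa [scale_Isom c1])
  exact ⟨y.1, y.2, a3.of_sim hy⟩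

theorem ru_orth (hf : f.Nondeg) (h2 : (2 : F) ≠ 0) {μ : Multiset ℕ} (h0 : ∀ a ∈ μ, 0 < a) (h : Ev μ) (hs : μ.sum = finrank F V)
    (h1 : (∃ e ∈ μ, Odd e) ∨ f.IsPlus) : Ru f μ := by
  rcases Nat.even_or_odd (finrank F V) with he | ho
  swap
  · exact ru_odd hf ho h0 h hs
  by_cases k : ∃ e ∈ μ, Odd e
  · obtain ⟨e, e1, e2⟩ := k
    obtain ⟨ν, rfl⟩ := Multiset.exists_cons_of_mem e1
    rw [Multiset.sum_cons] at hs
    obtain ⟨U, u1, rfl⟩ := ex_nd hf h2 e (by omega)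
    have := hf.finrank_perp U
    have c : ∀ j, Even j → j ≠ finrank F U := fun j a b => Nat.not_even_iff_odd.mpr e2 (b ▸ a)
    have b : ∀ a ∈ ν, 0 < a := fun a ha => h0 a (by simp [ha])
    exact (ru_odd u1 e2 (μ := {finrank F U}) (by simpa using e2.pos) (fun j a => by simp [Multiset.count_singleton, c j a]) (by simp)).sum (nd_compl hf u1)
      (ru_odd (hf.res_perp u1) (by rw [Nat.odd_iff, Nat.even_iff] at *; omega) b (fun j a => by simpa [c j a] using h j a) (by omega))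
      (by simpa using e2.pos) b
  · obtain ⟨W, _, _, _, g, g1, g2, x, a2, a3⟩ := real_plus (F := F) μ h0 fun e => (Nat.even_or_odd e).elim (h e) fun o => by
      rw [Multiset.count_eq_zero.mpr fun m => k ⟨e, m, o⟩]; exact Even.zero
    obtain ⟨m, hm⟩ := he
    obtain ⟨y, hy⟩ := exists_sim_of_isIso (orth_exists_isIso_even m g1 hf (by rw [ut_dim h0 a3, hs]; omega) (by omega)
      (iff_of_true g2 (h1.resolve_left k))) a2
    exact ⟨y.1, y.2, a3.of_sim hy⟩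

omit [Fintype F] in
theorem ev_of (hf : f.Nondeg) (h2 : (2 : F) ≠ 0) {x : V ≃ₗ[F] V} (hx : x ∈ f.Isom) {μ : Multiset ℕ} (h0 : ∀ a ∈ μ, 0 < a)
    (h : HT x.toLinearMap (ut F μ)) : Ev μ := fun e he => by
  classical
  rcases Nat.eq_zero_or_pos e with rfl | k
  · rw [Multiset.count_eq_zero.mpr fun m => (h0 0 m).false]; exact Even.zero
  · exact ut_count (F := F) μ e ▸ orth_parity h2 hf hx (pp_unip h0) h he k

/-- partitions with parts at most three -/
def m3 (a b c : ℕ) : Multiset ℕ := Multiset.replicate a 1 + Multiset.replicate b 2 + Multiset.replicate c 3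

theorem m3_mem {a b c e : ℕ} (h : e ∈ m3 a b c) : 0 < e ∧ e ≤ 3 := by
  simp only [m3, Multiset.mem_add, Multiset.mem_replicate] at h; omega

theorem m3_sum (a b c : ℕ) : (m3 a b c).sum = a + 2 * b + 3 * c := by simp [m3, mul_comm]

theorem m3_count (a b c e : ℕ) : (m3 a b c).count e = if e = 1 then a else if e = 2 then b else if e = 3 then c else 0 := by
  simp only [m3, Multiset.count_add, Multiset.count_replicate]; split_ifs <;> omega

theorem m3_eq {ν : Multiset ℕ} (h : ∀ e ∈ ν, 0 < e ∧ e ≤ 3) : ν = m3 (ν.count 1) (ν.count 2) (ν.count 3) := Multiset.ext.mpr fun e => by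
  rw [m3_count]
  split_ifs with a b c
  exacts [by rw [a], by rw [b], by rw [c], Multiset.count_eq_zero.mpr fun m => by have := h e m; omega]

theorem m3_min (a b c k : ℕ) : ((m3 a b c).map (min · k)).sum = a * min 1 k + b * min 2 k + c * min 3 k := by simp [m3]

theorem m3_sub {a b c : ℕ} {ν ν' : Multiset ℕ} (h : ν + ν' = m3 a b c) :
    ∃ a1 b1 c1 a2 b2 c2, a1 + a2 = a ∧ b1 + b2 = b ∧ c1 + c2 = c ∧ ν = m3 a1 b1 c1 ∧ ν' = m3 a2 b2 c2 := by
  have k := fun e => (Multiset.count_add e ν ν').symm.trans ((congrArg _ h).trans (m3_count a b c e))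
  exact ⟨_, _, _, _, _, _, k 1, k 2, k 3, m3_eq fun e m => m3_mem (h ▸ Multiset.mem_add.mpr (Or.inl m)),
    m3_eq fun e m => m3_mem (h ▸ Multiset.mem_add.mpr (Or.inr m))⟩

omit [Fintype F] in
theorem sq_TS (hf : f.Nondeg) (h2 : (2 : F) ≠ 0) {x : V ≃ₗ[F] V} (hx : x ∈ f.Isom) {a b : ℕ} (h : HT x.toLinearMap (ut F (m3 a b 0))) :
    f.TS (WW x) ∧ finrank F (WW x) = b := by
  have h0 := fun e (m : e ∈ m3 a b 0) => (m3_mem m).1
  have d := ut_dim h0 h
  have k1 := ut_ker h0 h 1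
  have k2 := ut_ker h0 h 2
  have r := (NN x).finrank_range_add_finrank_ker
  rw [m3_min] at k1 k2
  rw [m3_sum] at d
  rw [pow_one] at k1
  have e := LinearMap.ker_eq_top.mp (Submodule.eq_top_of_finrank_eq (k2.trans (by rw [d]; simp [mul_comm])))
  refine ⟨TS_orth.mpr ?_, by simp only [min_self, Nat.min_eq_right one_le_two, zero_mul] at k1; change finrank F (WW x) + finrank F (LinearMap.ker (x.toLinearMap - 1)) = _ at r; omega⟩
  rintro _ ⟨v, rfl⟩
  refine (mul_eq_zero.mp ((orth_B_self f _).symm.trans ?_)).resolve_left h2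
  exact (perp_W hf hx).ge (show NN x (NN x v) = 0 by simpa [sq] using LinearMap.congr_fun e v) _ ⟨v, rfl⟩

omit [Fintype F] in
theorem plus_of_two (hf : f.Nondeg) (h2 : (2 : F) ≠ 0) {x : V ≃ₗ[F] V} (hx : x ∈ f.Isom) {b : ℕ} (h : HT x.toLinearMap (ut F (m3 0 b 0))) : f.IsPlus :=
  ⟨_, (sq_TS hf h2 hx h).1, by rw [(sq_TS hf h2 hx h).2, ut_dim (fun e m => (m3_mem m).1) h, m3_sum]; omega⟩

theorem m3_ru (hf : f.Nondeg) (h2 : (2 : F) ≠ 0) {a b c : ℕ} (hb : b % 2 = 0) (hs : a + 2 * b + 3 * c = finrank F V) (h1 : 0 < a + c ∨ f.IsPlus) :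
    Ru f (m3 a b c) :=
  ru_orth hf h2 (fun e m => (m3_mem m).1) (fun e he => by rw [m3_count]; rw [Nat.even_iff] at *; split_ifs <;> omega) ((m3_sum ..).trans hs)
    (h1.imp_left fun k => (Nat.eq_zero_or_pos a).elim (fun z => ⟨3, Multiset.count_pos.mp (by rw [m3_count]; simp; omega), by decide⟩) fun z => ⟨1, Multiset.count_pos.mp (by rw [m3_count]; simp; omega), by decide⟩)

theorem m3_ne {a b c : ℕ} (h : 0 < b + c) : m3 a b c ≠ Multiset.replicate (m3 a b c).sum 1 := fun e => by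
  have := congrArg (Multiset.count 1) e
  rw [m3_count, Multiset.count_replicate_self, m3_sum] at this
  simp at this; omega

theorem unip3 {p : ℕ} [Fact p.Prime] [CharP F p] (hp : p ≠ 2) (hf : f.Nondeg) {Ω : Submodule F V → Prop} (hΩ : ∀ W, Ω W → (f.res W).Nondeg)
    (h : AllO f.Isom p (Fx Ω)) (a b c : ℕ) (hb : b % 2 = 0) (hs : a + 2 * b + 3 * c = finrank F V) (h0 : 0 < b + c) (h1 : 0 < a + c ∨ f.IsPlus) :
    ∃ W, Ω W ∧ ∃ a1 b1 c1 a2 b2 c2, a1 + a2 = a ∧ b1 + b2 = b ∧ c1 + c2 = c ∧ b1 % 2 = 0 ∧ a1 + 2 * b1 + 3 * c1 = finrank F W ∧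
      (a1 + c1 = 0 → (f.res W).IsPlus) ∧ (a2 + c2 = 0 → (f.res (f.perp W)).IsPlus) := by
  have h2 : (2 : F) ≠ 0 := natCast_ne (F := F) Nat.prime_two hp.symm
  have := (Fact.out : p.Prime).two_le
  obtain ⟨x, x1, x2⟩ := m3_ru hf h2 hb hs h1
  obtain ⟨W, w1, w2⟩ := all_unip h x1 (fun e m => by have := m3_mem m; omega) (m3_ne h0) x2
  obtain ⟨ν, ν', e, c1, c2⟩ := unip_nd hf x1 (fun e m => (m3_mem m).1) x2 (hΩ W w1) w2
  obtain ⟨a1, b1, c1', a2, b2, c2', e1, e2, e3, rfl, rfl⟩ := m3_sub e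
  refine ⟨W, w1, a1, b1, c1', a2, b2, c2', e1, e2, e3, ?_, by rw [ut_dim (fun e m => (m3_mem m).1) c1, m3_sum], fun k => ?_, fun k => ?_⟩
  · simpa [m3_count, Nat.even_iff] using ev_of (hΩ W w1) h2 (rs_mem x1 w2) (fun e m => (m3_mem m).1) c1 2 even_two
  · obtain ⟨rfl, rfl⟩ := Nat.add_eq_zero_iff.mp k
    exact plus_of_two (hΩ W w1) h2 (rs_mem x1 w2) c1
  · obtain ⟨rfl, rfl⟩ := Nat.add_eq_zero_iff.mp k
    exact plus_of_two (hf.res_perp (hΩ W w1)) h2 (rs_mem x1 _) c2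

theorem unip_part {p : ℕ} [Fact p.Prime] [CharP F p] (hp : p ≠ 2) (hf : f.Nondeg) {Ω : Submodule F V → Prop} {m : ℕ}
    (hΩ : ∀ W, Ω W → finrank F W = m ∧ (f.res W).Nondeg) (hm : m ≤ finrank F V) (h : AllO f.Isom p (Fx Ω)) (μ : Multiset ℕ) (h0 : ∀ a ∈ μ, 0 < a ∧ a ≤ p)
    (he : Ev μ) (hs : μ.sum = finrank F V) (h1 : (∃ e ∈ μ, Odd e) ∨ f.IsPlus) : ∃ ν ≤ μ, ν.sum = m ∧ Ev ν := by
  have h2 : (2 : F) ≠ 0 := natCast_ne (F := F) Nat.prime_two hp.symm
  by_cases k : μ = Multiset.replicate μ.sum 1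
  · exact ⟨Multiset.replicate m 1, by rw [k, Multiset.replicate_le_replicate, hs]; exact hm, by simp, fun e a => by
      rw [Multiset.count_replicate, if_neg (by rintro rfl; simp at a)]; exact Even.zero⟩
  obtain ⟨x, x1, x2⟩ := ru_orth hf h2 (fun a ha => (h0 a ha).1) he hs h1
  obtain ⟨W, w1, w2⟩ := all_unip h x1 h0 k x2
  obtain ⟨ν, ν', rfl, c1, -⟩ := unip_nd hf x1 (fun a ha => (h0 a ha).1) x2 (hΩ W w1).2 w2
  have b : ∀ a ∈ ν, 0 < a := fun a ha => (h0 a (by simp [ha])).1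
  exact ⟨ν, Multiset.le_add_right _ _, (ut_dim b c1).symm.trans (hΩ W w1).1, ev_of (hΩ W w1).2 h2 (rs_mem x1 w2) b c1⟩

theorem p_ne_two {p : ℕ} [Fact p.Prime] [CharP F p] (h : Odd (Fintype.card F)) : p ≠ 2 := by
  rintro rfl
  have := FiniteField.even_card_of_char_two (ringChar.eq F 2)
  have := Nat.odd_iff.mp h
  omega

end CfsgH5.El
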