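import Cfsg.Agent.H5.El15

set_option autoImplicit false

namespace CfsgH5.El
open Module Polynomial Gl Gc CForm Au Fm In Un

universe u v w
variable {F : Type u} [Field F] [Fintype F] {V : Type v} [AddCommGroup V] [Module F V] [FiniteDimensional F V] {f : CForm (FP.orth F) V}

omit [Fintype F] in
theorem pt_eq {W : Submodule F V} (h : finrank F W = 1) {v : V} (hv : v ∈ W) (h0 : f.Q v ≠ 0) : W = F ∙ v :=
  (Submodule.eq_of_le_of_finrank_eq ((Submodule.span_singleton_le_iff_mem _ _).mpr hv)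
    (by rw [h, finrank_span_singleton fun e => h0 (by simp [e])])).symm

omit [Fintype F] in
theorem pt_fix (h2 : (2 : F) = 0) {x : V ≃ₗ[F] V} (hx : x ∈ f.Isom) :
    Fx (fun W => finrank F W = 1 ∧ ∃ v ∈ W, f.Q v ≠ 0) x.toLinearMap ↔ ∃ v, x v = v ∧ f.Q v ≠ 0 := by
  constructor
  · rintro ⟨W, ⟨a, v, b, c⟩, d⟩
    obtain rfl := pt_eq a b c
    obtain ⟨t, ht⟩ := Submodule.mem_span_singleton.mp (d v b)
    have e := f.Isom_Q hx v
    rw [← show t • v = x v from ht, f.Q_smul] at e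
    have : (t - 1) ^ 2 = 0 := mul_right_cancel₀ c (by simp at e; linear_combination e + (1 - t) * f.Q v * h2)
    exact ⟨v, by rw [← show t • v = x v from ht, sub_eq_zero.mp (pow_eq_zero_iff two_ne_zero |>.mp this), one_smul], c⟩
  · rintro ⟨v, a, b⟩
    refine ⟨F ∙ v, ⟨finrank_span_singleton fun e => b (by simp [e]), v, Submodule.mem_span_singleton_self v, b⟩, fun u hu => ?_⟩
    obtain ⟨c, rfl⟩ := Submodule.mem_span_singleton.mp hu
    simp [a, Submodule.smul_mem]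

theorem pt_two (hf : f.Nondeg) (h2 : (2 : F) = 0) {d : ℕ} (hd : finrank F V = 2 * d) (h3 : 3 ≤ d) :
    AllS f.E 2 (Fx fun W => finrank F W = 1 ∧ ∃ v ∈ W, f.Q v ≠ 0) ↔ ¬ (f.IsPlus ∧ Even d) := by
  constructor
  · rintro h ⟨⟨K, k1, k2⟩, e⟩
    obtain ⟨x, x1, rfl, x3⟩ := exists_alt hf (fun _ => rfl) h2 k1 (by rwa [show finrank F K = d by omega])
    obtain ⟨v, a, b⟩ := (pt_fix h2 x1.mem).mp (h x (alt_mem_E hf (by omega) x1 x3) 1 (LinearMap.ext fun v => by simp [sq, x1.sq]) fun c e => by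
      obtain ⟨_, ⟨v, rfl⟩, v0⟩ := (WW x).ne_bot_iff.mp fun e => by rw [e, finrank_bot] at k2; omega
      have e' : ∀ v, x v = c • v := LinearMap.congr_fun e
      obtain rfl : c = 1 := smul_left_injective F v0 (by simpa using (e' _).symm.trans (x1.fix ⟨v, rfl⟩))
      exact v0 (by simp [e']))
    exact b (k1.1 v (by rw [← k1.perp_eq hf k2, perp_W hf x1.mem]; simp [a]))
  · intro h g hg z h1 _
    have ig : Iv f g := ⟨hf, fun _ => rfl, h2, E_le_Isom hg, fun v => (sq_cases (fun _ => rfl) hf (by omega) (E_le_Isom hg) h1).elim (· v) fun e => by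
      rw [e, neg_eq_iff_add_eq_zero, ← two_smul F, h2, zero_smul]⟩
    rw [pt_fix h2 ig.mem]
    by_cases k : Alt f g
    · obtain ⟨v, a, b⟩ := exists_nonsing hf (K := WW g) (lt_of_le_of_ne ig.two_mul_le fun e => h ⟨⟨_, ig.TS k, e⟩, by
        rw [← show finrank F (WW g) = d by omega]; exact ig.even k⟩)
      rw [perp_W hf ig.mem] at a
      exact ⟨v, by simpa [sub_eq_zero] using a, b⟩
    · obtain ⟨v, hv⟩ := not_forall.mp k
      exact ⟨_, ig.fix ⟨v, rfl⟩, by rw [ig.Q_NN]; exact hv⟩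

theorem pt_odd [CharP F 2] (hf : f.Nondeg) (h5 : 5 ≤ finrank F V) {r : ℕ} (hr : r.Prime) (hr2 : r ≠ 2)
    (hd : r ∣ Nat.card {W : Submodule F V // finrank F W = 1 ∧ ∃ v ∈ W, f.Q v ≠ 0}) : ¬ AllS f.E r (Fx fun W => finrank F W = 1 ∧ ∃ v ∈ W, f.Q v ≠ 0) := by
  have h2 : (2 : F) = 0 := CharP.cast_eq_zero F 2
  rw [odd_allS hf h5 (hr.odd_of_ne_two hr2) (Fx.neg _)]
  obtain ⟨u, hu⟩ := orth_exists_Q_ne hf (by omega)
  refine fun h => excl_min hf hr (natCast_ne hr hr2) (W₀ := F ∙ u) (fun W => ⟨?_, ?_⟩) (fun x hx _ W a b => ?_) h hd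
  · rintro ⟨a, v, b, c⟩
    obtain rfl := pt_eq a b c
    obtain ⟨t, ht⟩ := FiniteField.isSquare_of_char_two (ringChar.eq F 2) (f.Q u / f.Q v)
    have t0 : t ≠ 0 := by rintro rfl; simp [hu, c] at ht
    have u0 : u ≠ 0 := fun e => hu (by simp [e])
    let φ : (F ∙ u) →ₗ[F] V := LinearMap.toSpanSingleton F V (t • v) ∘ₗ (LinearEquiv.toSpanNonzeroSingleton F V u u0).symm.toLinearMap
    have e : ∀ s : F, φ ⟨s • u, Submodule.smul_mem _ _ (Submodule.mem_span_singleton_self u)⟩ = s • t • v := fun s =>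
      congrArg (· • t • v) (((LinearEquiv.toSpanNonzeroSingleton F V u u0).symm_apply_eq (y := s)).mpr rfl)
    have q : ∀ w, f.Q (φ w) = f.Q w := fun ⟨w, hw⟩ => by
      obtain ⟨s, rfl⟩ := Submodule.mem_span_singleton.mp hw
      rw [e]; simp [f.Q_smul, ← ht, c]
    obtain ⟨g, g1, g2⟩ := witt hf _ φ ((LinearMap.ker_eq_bot.mp (LinearMap.ker_toSpanSingleton F (smul_ne_zero t0 fun e => c (by simp [e])))).comp
      (LinearEquiv.injective _)) (fun a b => by rw [orth_B, orth_B, ← map_add, q, q, q]; rfl) q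
    exact ⟨g, g1, by rw [Submodule.map_span, Set.image_singleton, show g.toLinearMap u = t • v by simpa using (g2 _).trans (e 1),
      Submodule.span_singleton_smul_eq t0.isUnit]⟩
  · rintro ⟨g, g1, rfl⟩
    exact ⟨by rw [g.finrank_map_eq, finrank_span_singleton fun e => hu (by simp [e])], g u, ⟨u, Submodule.mem_span_singleton_self u, rfl⟩,
      by rwa [f.Isom_Q g1]⟩
  · obtain ⟨a, v, c, d⟩ := a
    obtain rfl := pt_eq a c d
    obtain ⟨t, ht⟩ := Submodule.mem_span_singleton.mp (b v c)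
    have e := f.Isom_Q hx v
    rw [← ht, f.Q_smul] at e
    have : (t - 1) ^ 2 = 0 := mul_right_cancel₀ d (by simp at e; linear_combination e + (1 - t) * f.Q v * h2)
    exact (Submodule.span_singleton_le_iff_mem _ _).mpr (by simp [← ht, sub_eq_zero.mp (pow_eq_zero_iff two_ne_zero |>.mp this)])

section
variable {ι : Type} [Fintype ι] [DecidableEq ι] {G H : Subgroup (GL ι F)} {S T : Subgroup ((ι → F) ≃ₗ[F] (ι → F))}

/-- `A` is conjugate into `T` by an element of `S` -/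
def Cj {F V : Type*} [Field F] [AddCommGroup V] [Module F V] (S T : Subgroup (V ≃ₗ[F] V)) (A : End F V) : Prop :=
  ∃ g ∈ S, ∃ y ∈ T, ∀ v, A (g v) = g (y v)

omit [Fintype F] in
theorem cj_iff (hG : ∀ g, g ∈ G ↔ gl g ∈ S) (hH : ∀ g ∈ G, g ∈ H ↔ gl g ∈ T) {r : ℕ} :
    (∀ x ∈ G, (∃ z : F, ((x ^ r : GL ι F) : Matrix ι ι F) = z • 1) → (∀ z : F, (x : Matrix ι ι F) ≠ z • 1) → ∃ g ∈ G, g⁻¹ * x * g ∈ H) ↔
      AllS S r (Cj S T) := by
  rw [← all_iff hG]
  refine forall₂_congr fun x hx => forall₂_congr fun _ _ => ⟨fun ⟨g, a, b⟩ => ⟨_, (hG g).mp a, _,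
    (hH _ (G.mul_mem (G.mul_mem (G.inv_mem a) hx) a)).mp b, fun v => by simp⟩, fun ⟨g, a, y, b, c⟩ => ?_⟩
  obtain ⟨g, rfl⟩ := gl_surjective g
  have a := (hG g).mpr a
  refine ⟨g, a, (hH _ (G.mul_mem (G.mul_mem (G.inv_mem a) hx) a)).mpr ?_⟩
  rwa [map_mul, map_mul, map_inv, show (gl g)⁻¹ * gl x * gl g = y from LinearEquiv.ext fun v => (gl g).symm_apply_eq.mpr (c v)]

omit [Fintype F] in
theorem card_gl (hG : ∀ g, g ∈ G ↔ gl g ∈ S) : Nat.card G = Nat.card S :=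
  Nat.card_congr ((Equiv.ofBijective _ ⟨gl_injective, gl_surjective⟩).subtypeEquiv hG)

omit [Fintype F] in
theorem rel_card (hG : ∀ g, g ∈ G ↔ gl g ∈ S) (hH : ∀ g ∈ G, g ∈ H ↔ gl g ∈ T) (hT : T ≤ S) : H.relIndex G * Nat.card T = Nat.card S := by
  rw [← card_gl hG, ← card_gl (G := H ⊓ G) fun g => ⟨fun h => (hH g h.2).mp h.1, fun h => ⟨(hH g ((hG g).mpr (hT h))).mpr h, (hG g).mpr (hT h)⟩⟩,
    ← Subgroup.card_mul_index (H.subgroupOf G), mul_comm, ← Subgroup.inf_subgroupOf_right, Nat.card_congr (Subgroup.subgroupOfEquivOfLe inf_le_right).toEquiv,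
    Subgroup.inf_subgroupOf_right]
  rfl

end

end CfsgH5.El
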