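import Cfsg.Agent.H5.El16

set_option autoImplicit false

namespace CfsgH5.El
open Module Polynomial Gl Gc CForm Au Fm In Un

universe u v w
variable {F : Type u} [Field F] {P : FP F} {V : Type v} [AddCommGroup V] [Module F V] [FiniteDimensional F V] {f : CForm P V}

omit [FiniteDimensional F V] in
theorem plane {u w : V} (hu : f.Q u = 0) (hw : f.Q w = 0) (h : f.B u w ≠ 0) :
    (f.res ((F ∙ u) ⊔ F ∙ w)).Nondeg ∧ finrank F ((F ∙ u) ⊔ F ∙ w : Submodule F V) = 2 := by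
  have H : f.IsHyp u (P.σ (f.B u w)⁻¹ • w) := ⟨hu, by rw [f.Q_smul, hw, mul_zero], by simp [h]⟩
  have e : Submodule.span F {u, P.σ (f.B u w)⁻¹ • w} = (F ∙ u) ⊔ F ∙ w := by
    rw [Submodule.span_insert, Submodule.span_singleton_smul_eq (by simp [h])]
  exact e ▸ ⟨(f.res_nondeg_iff _).mpr H.isCompl.inf_eq_bot, H.finrank_span⟩

omit [FiniteDimensional F V] in
theorem inv_sup' {g : V ≃ₗ[F] V} {A B C : Submodule F V} (hA : ∀ u ∈ A, g u ∈ C) (hB : ∀ u ∈ B, g u ∈ C) : ∀ u ∈ A ⊔ B, g u ∈ C :=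
  show A ⊔ B ≤ C.comap g.toLinearMap from sup_le hA hB

theorem PD.step (hf : f.Nondeg) {x : V ≃ₗ[F] V} (hx : x ∈ f.Isom) {U : Submodule F V} (hn : (f.res U).Nondeg) (hU : ∀ u ∈ U, x u ∈ U) {a t t' : ℕ}
    (h : PD (f.res U).B (rs x hU).toLinearMap a t) (h' : PD (f.res (f.perp U)).B (rs x (inv_perp hx hU)).toLinearMap a t') :
    PD f.B x.toLinearMap a (t + t') :=
  PD.sum (nd_compl hf hn) hU (inv_perp hx hU) (fun u hu _ hw => ⟨f.mem_perp'.mp hw u hu, hw u hu⟩) h h'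

theorem PD.pair {B : V → V → F} {g : End F V} {a : ℕ} {U W : Submodule F V} (hU : ∀ v ∈ U ⊔ W, g v ∈ U ⊔ W)
    (d : 2 * a = finrank F (U ⊔ W : Submodule F V)) (a1 : finrank F U ≤ a) (a2 : finrank F W ≤ a) (h1 : ∀ v ∈ U, g v ∈ W) (h2 : ∀ v ∈ W, g v ∈ U)
    (h3 : ∀ u ∈ U, ∀ w ∈ W, B u w = 0 ∧ B w u = 0) : PD (fun u v : ↥(U ⊔ W) => B u v) (g.restrict hU) a 2 := by
  refine ⟨d, Bool, inferInstance, fun b => (if b then U else W).comap (U ⊔ W).subtype, Equiv.boolNot, by simp, ?_, ?_, ?_, ?_⟩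
  · rintro (_ | _)
    exacts [(Submodule.comapSubtypeEquivOfLe le_sup_right).finrank_eq.trans_le a2, (Submodule.comapSubtypeEquivOfLe le_sup_left).finrank_eq.trans_le a1]
  · apply Submodule.map_injective_of_injective (U ⊔ W).injective_subtype
    simp [iSup_bool_eq, Submodule.map_comap_subtype]
  · rintro (_ | _) v hv
    exacts [h2 _ hv, h1 _ hv]
  · rintro (_ | _) (_ | _) k u hu v hv
    exacts [(k rfl).elim, (h3 _ hv _ hu).2, (h3 _ hu _ hv).1, (k rfl).elim]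

omit [FiniteDimensional F V] in
theorem PD.conj {x y g : V ≃ₗ[F] V} (hg : g ∈ f.Isom) (e : ∀ v, x (g v) = g (y v)) {a t : ℕ} (h : PD f.B y.toLinearMap a t) :
    PD f.B x.toLinearMap a t := by
  obtain ⟨h0, ι, _, D, σ, h1, h2, h3, h4, h5⟩ := h
  refine ⟨h0, ι, _, fun i => (D i).map g.toLinearMap, σ, h1, fun i => (g.finrank_map_eq _).trans_le (h2 i), ?_, ?_, ?_⟩
  · rw [← Submodule.map_iSup, h3]; simp
  · rintro j _ ⟨v, hv, rfl⟩; exact ⟨_, h4 j v hv, (e v).symm⟩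
  · rintro i j k _ ⟨u, hu, rfl⟩ _ ⟨v, hv, rfl⟩; exact (hg.1 u v).trans (h5 i j k u hu v hv)

theorem pd_two {z : F} (d : ℕ) : ∀ {V : Type v} [AddCommGroup V] [Module F V] [FiniteDimensional F V] {f : CForm (FP.symp F) V}, f.Nondeg →
    finrank F V = 2 * d → ∀ {x : V ≃ₗ[F] V}, x ∈ f.Isom → (∀ v, x (x v) = z • v) → PD f.B x.toLinearMap 2 d := by
  induction d using Nat.strong_induction_on with
  | _ d ih =>
  intro V _ _ _ f hf hd x hx h
  have st : ∀ (U : Submodule F V) (hU : ∀ u ∈ U, x u ∈ U) t, (f.res U).Nondeg → 0 < t → PD (f.res U).B (rs x hU).toLinearMap 2 t →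
      PD f.B x.toLinearMap 2 d := fun U hU t a b c => by
    have := hf.finrank_perp U
    have := c.1
    rw [show d = t + (d - t) by omega]
    exact c.step hf hx a hU (ih _ (by omega) (hf.res_perp a) (by omega) (rs_mem hx _) fun v => Subtype.ext (h v))
  have sp : ∀ {u : V} {W : Submodule F V}, x u ∈ W → ∀ v ∈ F ∙ u, x v ∈ W := fun a v b => by
    obtain ⟨c, rfl⟩ := Submodule.mem_span_singleton.mp b
    rw [map_smul]; exact Submodule.smul_mem _ _ a
  have m := fun u : V => Submodule.mem_span_singleton_self (R := F) u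
  rcases d.eq_zero_or_pos with rfl | d0
  · exact PD.zero hd
  by_cases k : ∃ v, f.B v (x v) ≠ 0
  · obtain ⟨v, k⟩ := k
    have := plane (symp_Q f _) (symp_Q f _) k
    exact st _ (inv_sup' (sp (Submodule.mem_sup_right (m _))) (sp (h v ▸ Submodule.mem_sup_left (Submodule.smul_mem _ _ (m v))))) 1 this.1 one_pos
      (PD.one this.2)
  push Not at k
  by_cases k' : ∃ v, v ∉ F ∙ x v
  · obtain ⟨v, k'⟩ := k'
    obtain ⟨w, w1, w2⟩ := hf.exists_dual k'
    have w3 := w2 _ (m _)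
    have w4 : f.B (x w) v = 0 := by
      have := k (v + w)
      rw [map_add, B_add_left, B_add_right, B_add_right, k, k, f.B_zero_symm w3] at this
      exact f.B_zero_symm (by simpa using this)
    have p1 := plane (symp_Q f _) (symp_Q f _) (w1 ▸ one_ne_zero : f.B v w ≠ 0)
    have p2 := plane (symp_Q f _) (symp_Q f _) (by rw [hx.1, w1]; exact one_ne_zero : f.B (x v) (x w) ≠ 0)
    have o : (F ∙ x v) ⊔ (F ∙ x w) ≤ f.perp ((F ∙ v) ⊔ F ∙ w) := by
      simp [perp_sup, mem_perp_span, w3, w4, f.B_zero_symm (k _)]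
    have i1 := inv_sup' (sp (u := v) (Submodule.mem_sup_left (T := F ∙ x w) (m _))) (sp (u := w) (Submodule.mem_sup_right (m _)))
    have i2 := inv_sup' (sp (u := x v) (h v ▸ Submodule.mem_sup_left (T := F ∙ w) (Submodule.smul_mem _ _ (m v))))
      (sp (u := x w) (h w ▸ Submodule.mem_sup_right (Submodule.smul_mem _ _ (m w))))
    have i3 := inv_sup' (fun u a => Submodule.mem_sup_right (i1 u a)) fun u a => Submodule.mem_sup_left (i2 u a)
    exact st _ i3 2 (nd_sup p1.1 p2.1 o) two_pos (PD.pair (g := x.toLinearMap) i3 (by rw [finrank_sup_perp p1.1 o, p1.2, p2.2]) p1.2.le p2.2.le i1 i2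
        fun u a w b => ⟨f.mem_perp'.mp (o b) u a, o b u a⟩)
  push Not at k'
  obtain ⟨u, w, e⟩ := symp_exists_hyp hf (by omega)
  have := plane e.hx e.hy (e.hxy ▸ one_ne_zero)
  have i : ∀ v, x v ∈ F ∙ v := fun v => by
    obtain ⟨c, hc⟩ := Submodule.mem_span_singleton.mp (k' v)
    by_cases c0 : c = 0
    · rw [← hc, c0]; simp
    exact Submodule.mem_span_singleton.mpr ⟨c⁻¹, by rw [eq_comm, eq_inv_smul_iff₀ c0, hc]⟩
  exact st _ (inv_sup (g := x.toLinearMap) (sp (i u)) (sp (i w))) 1 this.1 one_pos (PD.one this.2)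

omit [FiniteDimensional F V] in
theorem inv_span {x : V ≃ₗ[F] V} {u : V} {W : Submodule F V} (a : x u ∈ W) : ∀ v ∈ F ∙ u, x v ∈ W := fun v b => by
  obtain ⟨c, rfl⟩ := Submodule.mem_span_singleton.mp b
  rw [map_smul]; exact Submodule.smul_mem _ _ a

theorem lag (hf : f.Nondeg) {x : V ≃ₗ[F] V} (hx : x ∈ f.Isom) (σ : Bool → Bool) {d : ℕ} (hd : finrank F V = 2 * d)
    (hs : ∀ W : Submodule F V, (f.res W).Nondeg → (∀ v ∈ W, x v ∈ W) → 2 ≤ finrank F W → Even (finrank F W) → ∃ u : Bool → V,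
      f.B (u false) (u true) ≠ 0 ∧ ∀ b, u b ∈ W ∧ f.Q (u b) = 0 ∧ x (u b) ∈ F ∙ u (σ b)) :
    ∃ D : Bool → Submodule F V, IsCompl (D false) (D true) ∧ ∀ b, f.TS (D b) ∧ ∀ v ∈ D b, x v ∈ D (σ b) := by
  have : ∀ k ≤ d, ∃ D : Bool → Submodule F V, (f.res (D false ⊔ D true)).Nondeg ∧ finrank F (D false ⊔ D true : Submodule F V) = 2 * k ∧
      ∀ b, finrank F (D b) ≤ k ∧ f.TS (D b) ∧ ∀ v ∈ D b, x v ∈ D (σ b) := fun k hk => by
    induction k with
    | zero => exact ⟨fun _ => ⊥, by simp [res_nondeg_iff], by simp, by simp [TS_bot]⟩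
    | succ k ih =>
      obtain ⟨D, a, b, c⟩ := ih (by omega)
      have le : ∀ b, D b ≤ D false ⊔ D true := by rintro (_ | _) <;> simp
      have := hf.finrank_perp (D false ⊔ D true)
      obtain ⟨u, u1, u2⟩ := hs _ (hf.res_perp a) (inv_perp hx (inv_sup' (fun v h => le _ ((c _).2.2 v h)) fun v h => le _ ((c _).2.2 v h)))
        (by omega) ⟨d - k, by omega⟩
      have p := plane (u2 _).2.1 (u2 _).2.1 u1
      have o : (F ∙ u false) ⊔ (F ∙ u true) ≤ f.perp (D false ⊔ D true) := by simp [(u2 _).1]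
      refine ⟨fun b => D b ⊔ F ∙ u b, by rw [sup_sup_sup_comm]; exact nd_sup a p.1 o,
        by rw [sup_sup_sup_comm, finrank_sup_perp a o, p.2, b]; rfl, fun b => ⟨?_, (c b).2.1.sup_span (u2 b).2.1 fun w hw =>
          f.mem_perp'.mp (u2 b).1 w (le b hw), inv_sup' (fun v h => Submodule.mem_sup_left ((c b).2.2 v h))
          (inv_span (Submodule.mem_sup_right (u2 b).2.2))⟩⟩
      exact (Submodule.finrank_add_le_finrank_add_finrank (D b) (F ∙ u b)).trans
        (add_le_add (c b).1 (by simpa using finrank_span_le_card (R := F) {u b}))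
  obtain ⟨D, -, b, c⟩ := this d le_rfl
  have := Submodule.finrank_sup_add_finrank_inf_eq (D false) (D true)
  have := (c false).1
  have := (c true).1
  exact ⟨D, ⟨disjoint_iff.mpr (Submodule.finrank_eq_zero.mp (by omega)), codisjoint_iff.mpr (Submodule.eq_top_of_finrank_eq (by omega))⟩,
    fun b => (c b).2⟩

theorem TS_half (hf : f.Nondeg) {K L : Submodule F V} (hK : f.TS K) (hL : f.TS L) (h : IsCompl K L) :
    finrank F V = 2 * finrank F K ∧ finrank F V = 2 * finrank F L ∧ f.perp K = K := by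
  have := hf.finrank_perp K
  have := hf.finrank_perp L
  have := Submodule.finrank_mono hK.le_perp
  have := Submodule.finrank_mono hL.le_perp
  have := Submodule.finrank_add_eq_of_isCompl h
  exact ⟨by omega, by omega, (Submodule.eq_of_le_of_finrank_eq hK.le_perp (by omega)).symm⟩

theorem pair_trans (hf : f.Nondeg) {K K' L L' : Submodule F V} (hK : f.TS K) (hK' : f.TS K') (h : IsCompl K K') (hL : f.TS L) (hL' : f.TS L')
    (h' : IsCompl L L') (A : K ≃ₗ[F] L) : ∃ g ∈ f.Isom, (∀ u : K, g u = A u) ∧ K.map g.toLinearMap = L ∧ K'.map g.toLinearMap = L' := by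
  obtain ⟨g, g1, g2⟩ := witt hf K (L.subtype ∘ₗ A.toLinearMap) (L.injective_subtype.comp A.injective)
    (fun u v => (hL.2 _ (A u).2 _ (A v).2).trans (hK.2 _ u.2 _ v.2).symm) fun v => (hL.1 _ (A v).2).trans (hK.1 _ v.2).symm
  have m : ∀ g : V ≃ₗ[F] V, (∀ u : K, g u = A u) → K.map g.toLinearMap = L := fun g e => Submodule.eq_of_le_of_finrank_eq
    (by rintro _ ⟨v, a, rfl⟩; exact (e ⟨v, a⟩).symm ▸ (A _).2) ((g.finrank_map_eq K).trans A.finrank_eq)
  have c : IsCompl L (K'.map g.toLinearMap) := m g g2 ▸ (Submodule.orderIsoMapComap g).isCompl h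
  have T := hK'.map g1
  let π : V →ₗ[F] V := L'.projection L h'.symm
  have π1 : ∀ v, v - π v ∈ L := Submodule.sub_projection_mem _
  let φ := LinearMap.ofIsCompl c L.subtype (π ∘ₗ Submodule.subtype _)
  have φ1 : ∀ (a : L) (b : K'.map g.toLinearMap), φ (a + b) = a + π b := fun a b => by simp [φ]
  have B1 : ∀ (a : L) b, f.B a (π b) = f.B a b := fun a b => by rw [eq_comm, ← sub_eq_zero, ← B_sub_right]; exact hL.2 _ a.2 _ (π1 b)
  have B2 : ∀ (a : L) b, f.B (π b) a = f.B b a := fun a b => by rw [f.B_symm, B1, ← f.B_symm]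
  have π2 : ∀ v, π v ∈ L' := Submodule.projection_apply_mem _
  have hB : ∀ u v, f.B (φ u) (φ v) = f.B u v := fun u v => by
    obtain ⟨a, b, rfl, -⟩ := Submodule.existsUnique_add_of_isCompl c u
    obtain ⟨a', b', rfl, -⟩ := Submodule.existsUnique_add_of_isCompl c v
    simp [φ1, B1, B2, hL'.2 _ (π2 _) _ (π2 _), T.2 _ b.2 _ b'.2]
  obtain ⟨k, k1, k2⟩ := witt hf ⊤ (φ ∘ₗ Submodule.subtype _) ((injective_iff_map_eq_zero _).mpr fun v e => Subtype.ext (hf _ fun u => by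
    rw [← hB, show φ v = 0 from e, B_zero_right])) (fun u v => hB u v) fun v => by
      obtain ⟨a, b, e, -⟩ := Submodule.existsUnique_add_of_isCompl c v.1
      show f.Q (φ v) = _
      rw [← e, φ1, f.Q_add, f.Q_add, B1, hL'.1 _ (π2 _), T.1 _ b.2]
  have e : ∀ u : K, (k * g) u = A u := fun u => by simpa [g2] using (k2 ⟨A u, trivial⟩).trans (by simpa using φ1 (A u) 0 : φ (A u) = A u)
  refine ⟨k * g, mul_mem k1 g1, e, m _ e, Submodule.eq_of_le_of_finrank_eq ?_ (((k * g).finrank_map_eq _).trans ?_)⟩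
  · rintro _ ⟨v, a, rfl⟩
    have := (k2 ⟨g v, trivial⟩).trans (by simpa using φ1 0 ⟨g v, v, a, rfl⟩ : φ (g v) = π (g v))
    exact this ▸ π2 _
  · have := TS_half hf hK hK' h
    have := TS_half hf hL hL' h'
    omega

theorem card_orb {G X : Type*} [Group G] [MulAction G X] (L : Subgroup G) (Ω : X → Prop) {w : X}
    (h : ∀ x, Ω x ↔ ∃ g ∈ L, g • w = x) : Nat.card {x // Ω x} * Nat.card (MulAction.stabilizer L w) = Nat.card L := by
  rw [Nat.card_congr (Equiv.subtypeEquivRight (q := (· ∈ MulAction.orbit L w)) fun x => (h x).trans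
    ⟨fun ⟨g, a, b⟩ => ⟨⟨g, a⟩, b⟩, fun ⟨g, b⟩ => ⟨g.1, g.2, b⟩⟩), Nat.card_congr (MulAction.orbitEquivQuotientStabilizer L w)]
  exact (Subgroup.card_eq_card_quotient_mul_card_subgroup _).symm

def LP (f : CForm P V) (D : Submodule F V × Submodule F V) : Prop := IsCompl D.1 D.2 ∧ f.TS D.1 ∧ f.TS D.2

theorem LP.orb (hf : f.Nondeg) {D : Submodule F V × Submodule F V} (h : LP f D) (E : Submodule F V × Submodule F V) :
    LP f E ↔ ∃ g ∈ f.Isom, g • D = E := by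
  refine ⟨fun k => ?_, ?_⟩
  · obtain ⟨g, a, -, b, c⟩ := pair_trans hf h.2.1 h.2.2 h.1 k.2.1 k.2.2 k.1 (LinearEquiv.ofFinrankEq _ _ (by
      have := TS_half hf h.2.1 h.2.2 h.1; have := TS_half hf k.2.1 k.2.2 k.1; omega))
    exact ⟨g, a, Prod.ext b c⟩
  · rintro ⟨g, a, rfl⟩
    exact ⟨(Submodule.orderIsoMapComap g).isCompl h.1, h.2.1.map a, h.2.2.map a⟩

theorem LP.ext (hf : f.Nondeg) {D : Submodule F V × Submodule F V} (h : LP f D) {a b : V ≃ₗ[F] V} (ha : a ∈ f.Isom) (hb : b ∈ f.Isom)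
    (h1 : ∀ v ∈ D.1, a v = b v) (h2 : D.1.map a.toLinearMap = D.1) (h3 : ∀ v ∈ D.2, a v ∈ D.2) (h4 : ∀ v ∈ D.2, b v ∈ D.2) : a = b :=
  ext_compl h.1 h1 fun v hv => sub_eq_zero.mp (Submodule.disjoint_def.mp h.1.disjoint _ ((TS_half hf h.2.1 h.2.2 h.1).2.2.le fun w hw => by
    obtain ⟨w, k, rfl⟩ := h2.ge hw
    rw [B_sub_left, LinearEquiv.coe_coe, ha.1, h1 w k, hb.1, sub_self]) (sub_mem (h3 v hv) (h4 v hv)))

theorem card_pair (hf : f.Nondeg) {D : Submodule F V × Submodule F V} (h : LP f D) :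
    Nat.card {D // LP f D} * Nat.card (D.1 ≃ₗ[F] D.1) = Nat.card f.Isom := by
  rw [← card_orb f.Isom (LP f) (h.orb hf)]
  congr 1
  have e := fun g : MulAction.stabilizer f.Isom D => Prod.ext_iff.mp (show g.1.1 • D = D from g.2)
  refine (Nat.card_congr (Equiv.ofBijective (fun g => rs g.1.1 fun u hu => (e g).1.le ⟨u, hu, rfl⟩) ⟨fun a b k => Subtype.ext (Subtype.ext
    (h.ext hf a.1.2 b.1.2 (fun v hv => congrArg Subtype.val (LinearEquiv.congr_fun k ⟨v, hv⟩)) (e a).1 (fun u hu => (e a).2.le ⟨u, hu, rfl⟩)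
      fun u hu => (e b).2.le ⟨u, hu, rfl⟩)), fun A => ?_⟩)).symm
  obtain ⟨g, a, b, c, d⟩ := pair_trans hf h.2.1 h.2.2 h.1 h.2.1 h.2.2 h.1 A
  exact ⟨⟨⟨g, a⟩, Prod.ext c d⟩, LinearEquiv.ext fun u => Subtype.ext (b u)⟩

theorem card_lin [Finite F] : Nat.card (V ≃ₗ[F] V) =
    Nat.card F ^ (finrank F V).choose 2 * ∏ i ∈ Finset.range (finrank F V), (Nat.card F ^ (i + 1) - 1) := by
  rw [card_linearEquiv, Nat.choose_two_right, ← Finset.sum_range_id, ← Finset.prod_pow_eq_pow_sum, ← Finset.prod_range_reflect (fun i => _ ^ (i + 1) - 1),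
    ← Finset.prod_mul_distrib, Finset.prod_range]
  exact Finset.prod_congr rfl fun i _ => by
    rw [Nat.mul_sub_one, ← pow_add]; congr 2; omega

theorem UP.sum_ty {σ : F →+* F} {r i : ℕ} {T : Finset F[X]} {sd : Prop} (_H : UP σ r T i sd) {ι : Type*} (S : Finset ι) (k : ι → ℕ)
    (w : ι → Multiset F[X]) : ∑ j ∈ S, ty (k j) (w j) = ty (∑ j ∈ S, k j) (∑ j ∈ S, w j) := by
  classical
  induction S using Finset.induction_on with
  | empty => simp [ty]
  | insert a S h ih => simp only [Finset.sum_insert h, ih, ty_add]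

theorem pd_ex [Fintype F] {p : ℕ} [Fact p.Prime] [CharP F p] {r i c : ℕ} {T : Finset F[X]} {sd : Prop} [Decidable sd] (hr : r.Prime) (hr2 : r ≠ 2)
    (hrp : r ≠ p) (H : UP (RingHom.id F) r T i sd) (hc : c = if sd then i else 2 * i) {a : ℕ} (ha : Even a) (t : ℕ) :
    ∀ {V : Type v} [AddCommGroup V] [Module F V] [FiniteDimensional F V] {f : CForm (FP.symp F) V}, f.Nondeg → finrank F V = t * a →
      ∀ k w j, SU (RingHom.id F) r T i c w j → k + j * c = t * a → j ≤ t * (a / c) →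
        ∃ y ∈ f.Isom, HT y.toLinearMap (ty k w) ∧ PD f.B y.toLinearMap a t := by
  induction t with
  | zero =>
    intro V _ _ _ f hf hd k w j hw h1 _
    obtain ⟨y, -, b⟩ := (rz_symp hr hr2 hrp H hf k w j hw (h1.trans hd.symm)).mpr (Or.inr trivial)
    exact ⟨y, y.2, b, PD.zero (by omega)⟩
  | succ t ih =>
    intro V _ _ _ f hf hd k w j hw h1 h2
    rw [add_mul, one_mul] at hd h1 h2
    have e := Nat.mod_add_div' a c
    obtain ⟨b, d, rfl, b1, b2, b3⟩ : ∃ b d, j = b + d ∧ b * c ≤ a ∧ d ≤ t * (a / c) ∧ a - b * c ≤ k := by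
      by_cases k : a / c ≤ j
      · obtain ⟨d, rfl⟩ := Nat.exists_eq_add_of_le k
        have := Nat.mul_le_mul_right c (show d ≤ t * (a / c) by omega)
        have := Nat.mul_le_mul_left t (show a / c * c ≤ a by omega)
        rw [add_mul] at h1
        exact ⟨_, d, rfl, by omega, by omega, by rw [mul_assoc] at *; omega⟩
      · exact ⟨j, 0, rfl, (Nat.mul_le_mul_right c (not_le.mp k).le).trans (by omega), by omega, by omega⟩
    obtain ⟨k', rfl⟩ := Nat.exists_eq_add_of_le b3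
    obtain ⟨w1, w2, rfl, s1, s2⟩ := H.su_sub hc hw
    obtain ⟨m, rfl⟩ := ha
    obtain ⟨K, k1, k2⟩ := symp_exists_TS hf (k := m) (by omega)
    obtain ⟨U, -, u1, u2⟩ := exists_hypU hf k1
    have := hf.finrank_perp U
    rw [add_mul] at h1
    obtain ⟨y, -, y1⟩ := (rz_symp hr hr2 hrp H u1 (m + m - b * c) w1 b s1 (by omega)).mpr (Or.inr trivial)
    obtain ⟨y', y2, y3, y4⟩ := ih (hf.res_perp u1) (by omega) k' w2 d s2 (by omega) b2
    have m1 := (sumHom_mem_Isom (nd_compl hf u1) (p := (y.1, y'))).mpr ⟨y.2, y2⟩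
    have i1 : ∀ u ∈ U, sumHom (nd_compl hf u1) (y.1, y') u ∈ U := fun u hu => (sumHom_left _ _ ⟨u, hu⟩).symm ▸ Subtype.prop _
    refine ⟨_, m1, ty_add _ k' w1 w2 ▸ HT_sum _ y1 y3 (H.ty_pp s1.1) (H.ty_pp s2.1), add_comm 1 t ▸ PD.step hf m1 u1 i1 (PD.one (by omega)) ?_⟩
    rwa [show rs _ (inv_perp m1 i1) = y' from LinearEquiv.ext fun v => Subtype.ext (sumHom_right _ _ v)]

omit [FiniteDimensional F V] in
theorem nd_of_orth (hf : f.Nondeg) {ι : Type*} {D : ι → Submodule F V} (h : iSup D = ⊤) (ho : ∀ i j, i ≠ j → ∀ u ∈ D i, ∀ v ∈ D j, f.B u v = 0) (j : ι) :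
    ∀ u ∈ D j, u ≠ 0 → ∃ v ∈ D j, f.B u v ≠ 0 := fun u hu u0 => by
  by_contra k
  push Not at k
  have : iSup D ≤ f.perp (F ∙ u) := iSup_le fun i v hv => f.mem_perp_span.mpr fun w hw => by
    obtain rfl : w = u := hw
    by_cases e : i = j
    exacts [f.B_zero_symm (k v (e ▸ hv)), ho i j e v hv w hu]
  exact u0 (hf u fun v => f.mem_perp_span.mp (this (h ▸ trivial)) u rfl)

theorem pd_fin {ι : Type} [Fintype ι] [DecidableEq ι] {f : CForm P (ι → F)} (hf : f.Nondeg) {a t : ℕ} (ha : 1 ≤ a) (ht : 2 ≤ t)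
    {g : (ι → F) ≃ₗ[F] (ι → F)} (h : PD f.B g.toLinearMap a t) : ∃ D : Fin t → Submodule F (ι → F), (Cfsg.Geo.IsMDecomposition a D ∧
    (∀ j, ∀ u ∈ D j, u ≠ 0 → ∃ v ∈ D j, f.B u v ≠ 0) ∧ (∀ j j', j ≠ j' → ∀ u ∈ D j, ∀ v ∈ D j', f.B u v = 0)) ∧
      ∃ σ : Equiv.Perm (Fin t), ∀ j, (D j).map g.toLinearMap = D (σ j) := by
  obtain ⟨D, σ, h1, h2, h3, h4, h5⟩ := h.fin g.injective
  exact ⟨D, ⟨⟨ht, ha, h1, h2, h3⟩, nd_of_orth hf h3 h5, h5⟩, σ, h4⟩

omit [FiniteDimensional F V] in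
theorem dec_trans {f : CForm (FP.symp F) V} {ι : Type*} [Fintype ι] {D E : ι → Submodule F V} (h1 : iSupIndep D) (h2 : iSup D = ⊤) (h3 : iSupIndep E)
    (h4 : iSup E = ⊤) (h5 : ∀ i j, i ≠ j → ∀ u ∈ D i, ∀ v ∈ D j, f.B u v = 0) (h6 : ∀ i j, i ≠ j → ∀ u ∈ E i, ∀ v ∈ E j, f.B u v = 0)
    (h : ∀ i, ∃ e, (f.res (D i)).IsIso (f.res (E i)) e) : ∃ g ∈ f.Isom, ∀ i, (D i).map g.toLinearMap = E i := by
  choose e he using h
  obtain ⟨g, a, b⟩ := exists_glue h1 h2 h3 h4 e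
  refine ⟨g, ⟨fun u v => ?_, fun v => by simp [symp_Q]⟩, b⟩
  induction (h2.ge trivial : u ∈ iSup D) using Submodule.iSup_induction' with
  | zero => simp
  | add _ _ _ _ k l => simp [k, l]
  | mem i u hu =>
    induction (h2.ge trivial : v ∈ iSup D) using Submodule.iSup_induction' with
    | zero => simp
    | add _ _ _ _ k l => simp [k, l]
    | mem j v hv =>
      by_cases c : i = j
      · subst c
        rw [a i ⟨u, hu⟩, a i ⟨v, hv⟩]; exact (he i).1 _ _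
      · exact (h6 i j c _ ((b i).le ⟨u, hu, rfl⟩) _ ((b j).le ⟨v, hv, rfl⟩)).trans (h5 i j c u hu v hv).symm

theorem Sy.le_ker {ι : Type*} {g : End F V} {D : ι → Submodule F V} {σ : Equiv.Perm ι} {a r : ℕ} (h : Sy g D σ a r) {j : ι} (hj : σ j ≠ j) :
    a ≤ finrank F (LinearMap.ker (g - 1)) := by
  have h2 := h.pr.two_le
  have := h.rank_poly hj (P := ∑ i ∈ Finset.range r, X ^ i) (monic_geom_sum_X (by omega)).ne_zero
    ((natDegree_sum_le_of_forall_le (n := r - 1) _ _ fun i hi => by have := Finset.mem_range.mp hi; simp; omega).trans_lt (by omega))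
  have k := Submodule.finrank_mono (show LinearMap.range (g - 1) ≤ LinearMap.ker (aeval g (∑ i ∈ Finset.range r, X ^ i : F[X])) from
    LinearMap.range_le_ker_iff.mpr (by simpa [h.pow, Module.End.mul_eq_comp] using geom_sum_mul g r))
  have := (g - 1).finrank_range_add_finrank_ker
  omega

end CfsgH5.El
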