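import Cfsg.Agent.H5.El17

set_option autoImplicit false

namespace CfsgH5.El
open Module Polynomial Gl Gc CForm Au Fm In Un

universe u v w
variable {F : Type u} [Field F] {P : FP F} {V : Type v} [AddCommGroup V] [Module F V] [FiniteDimensional F V] {f : CForm P V}

theorem B_top (hf : f.Nondeg) {x : V ≃ₗ[F] V} (hx : x ∈ f.Isom) {e : ℕ} (h : (x.toLinearMap - 1 : End F V) ^ (e + 1) = 0) (u v : V) :
    f.B (((x.toLinearMap - 1 : End F V) ^ e) u) v = (-1) ^ e * f.B u (((x.toLinearMap - 1 : End F V) ^ e) v) := by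
  rw [← B_adj hf, adj_sub_pow hf hx, End.mul_apply]
  have k : x.symm (((x.toLinearMap - 1 : End F V) ^ e) v) = ((x.toLinearMap - 1 : End F V) ^ e) v :=
    x.symm_apply_eq.mpr (Eq.symm (by simpa [pow_succ', sub_eq_zero] using LinearMap.congr_fun h v))
  generalize ((x.toLinearMap - 1 : End F V) ^ e) v = w at k
  clear h
  induction e with
  | zero => simp
  | succ e ih => rw [pow_succ, End.mul_apply, LinearMap.neg_apply, LinearEquiv.coe_coe, k, map_neg, B_neg_right, ih, pow_succ]; ring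

theorem split_block (hf : f.Nondeg) {x : V ≃ₗ[F] V} (hx : x ∈ f.Isom) {μ : Multiset ℕ} {e : ℕ} (h0 : ∀ a ∈ μ, 0 < a ∧ a ≤ e + 1)
    (h : HT x.toLinearMap (ut F μ)) (hN : (x.toLinearMap - 1 : End F V) ^ (e + 1) = 0) {S : Submodule F V}
    (hS : ∀ u ∈ S, u ≠ 0 → ∃ v ∈ S, f.B (((x.toLinearMap - 1 : End F V) ^ e) u) v ≠ 0) :
    ∃ (W : Submodule F V) (hW : ∀ v ∈ W, x v ∈ W) (ν : Multiset ℕ), (f.res W).Nondeg ∧ finrank F W = finrank F S * (e + 1) ∧
      μ = Multiset.replicate (finrank F S) (e + 1) + ν ∧ HT (rs x (inv_perp hx hW)).toLinearMap (ut F ν) := by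
  classical
  set N : End F V := x.toLinearMap - 1 with hN'
  let W := ⨆ i ∈ Finset.range (e + 1), S.map (N ^ i)
  have le : ∀ i, S.map (N ^ i) ≤ W := fun i => by
    by_cases k : i < e + 1
    · exact le_iSup₂_of_le i (Finset.mem_range.mpr k) le_rfl
    · rw [← Nat.sub_add_cancel (not_lt.mp k), pow_add, hN]; simp
  have s1 : S ≤ W := by simpa [End.one_eq_id] using le 0
  have s2 : W ≤ W.comap N := iSup₂_le fun i _ => by rintro _ ⟨v, a, rfl⟩; exact le (i + 1) ⟨v, a, by rw [pow_succ']; rfl⟩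
  have s3 : W ≤ S ⊔ W.map N := iSup₂_le fun i _ => by
    rintro _ ⟨v, a, rfl⟩
    rcases i with _ | i
    exacts [Submodule.mem_sup_left a, Submodule.mem_sup_right ⟨_, le i ⟨v, a, rfl⟩, by rw [pow_succ']; rfl⟩]
  have hW : ∀ v ∈ W, x v ∈ W := fun v a => by simpa [N] using W.add_mem (s2 a) a
  have s4 : ∀ k, ∀ v ∈ f.perp W, (N ^ k) v ∈ f.perp W := fun k => End.pow_apply_mem_of_forall_mem k fun v a => sub_mem (inv_perp hx hW v a) a
  have hn : (f.res W).Nondeg := (f.res_nondeg_iff W).mpr (eq_bot_iff.mpr fun w ⟨_, w2⟩ => by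
    have : ∀ j ≤ e + 1, w ∈ W.map (N ^ j) := fun j hj => by
      induction j with
      | zero => simpa [End.one_eq_id]
      | succ j ih =>
        obtain ⟨y, a, rfl⟩ := ih (by omega)
        obtain ⟨s, b, _, ⟨t, c, rfl⟩, rfl⟩ := Submodule.mem_sup.mp (s3 a)
        obtain rfl : s = 0 := by_contra fun k => by
          obtain ⟨v, v1, v2⟩ := hS s b k
          have := s4 (e - j) _ w2 v (s1 v1)
          rw [← End.mul_apply, ← pow_add, Nat.sub_add_cancel (by omega), map_add, ← End.mul_apply, ← pow_succ, hN] at this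
          exact v2 (by simpa using this)
        exact ⟨t, c, by rw [zero_add, pow_succ]; rfl⟩
    simpa [hN] using this _ le_rfl)
  obtain ⟨ν, ν', rfl, c1, c2⟩ := unip_nd hf hx (fun a ha => (h0 a ha).1) h hn hW
  have b : ∀ a ∈ ν, 0 < a ∧ a ≤ e + 1 := fun a ha => h0 a (by simp [ha])
  have d1 := ut_dim (fun a ha => (b a ha).1) c1
  have d2 := ut_ker (fun a ha => (b a ha).1) c1 e
  have d3 : finrank F W ≤ finrank F S * (e + 1) := (finrank_biSup_le _ _).trans (by
    simpa [mul_comm] using Finset.sum_le_card_nsmul (Finset.range (e + 1)) _ _ fun i _ => Submodule.finrank_map_le (N ^ i) S)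
  have d4 := Submodule.finrank_add_finrank_le_of_disjoint (s := S.comap W.subtype) (t := LinearMap.ker (((rs x hW).toLinearMap - 1 : End F W) ^ e))
    (Submodule.disjoint_def.mpr fun u a k => Subtype.ext (by_contra fun u0 => by
      obtain ⟨v, -, v2⟩ := hS u a u0
      have := aeval_restr (g := x.toLinearMap) hW ((X - C 1) ^ e) u
      simp only [map_pow, map_sub, aeval_X, aeval_C, map_one] at this
      exact v2 (by rw [← this, show ((x.toLinearMap.restrict hW - 1 : End F W) ^ e) u = 0 from k]; simp)))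
  rw [(Submodule.comapSubtypeEquivOfLe s1).finrank_eq, d1, d2] at d4
  have d5 : ν.sum = (ν.map (min · e)).sum + ν.count (e + 1) := by
    clear * - b
    induction ν using Multiset.induction_on with
    | empty => simp
    | cons a s ih =>
      have := b a (by simp)
      simp only [Multiset.sum_cons, Multiset.map_cons, Multiset.count_cons, ih fun a ha => b a (by simp [ha])]
      split_ifs <;> omega
  obtain ⟨t, rfl⟩ := Multiset.le_iff_exists_add.mp (Multiset.le_count_iff_replicate_le.mp (show finrank F S ≤ ν.count (e + 1) by omega))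
  rw [Multiset.sum_add, Multiset.sum_replicate, smul_eq_mul] at d1
  obtain rfl : t = 0 := Multiset.eq_zero_of_forall_notMem fun a ha => by
    have := Multiset.single_le_sum (fun _ _ => Nat.zero_le _) a ha
    have := (b a (by simp [ha])).1
    omega
  exact ⟨W, hW, ν', hn, by simpa using d1, by simp, c2⟩

/-- odd parts have even multiplicity -/
def Od (μ : Multiset ℕ) : Prop := ∀ a : ℕ, Odd a → Even (μ.count a)

theorem unip_sub (h2 : (2 : F) ≠ 0) (μ : Multiset ℕ) : ∀ {V : Type v} [AddCommGroup V] [Module F V] [FiniteDimensional F V] {f : CForm (FP.symp F) V},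
    f.Nondeg → ∀ {x : V ≃ₗ[F] V}, x ∈ f.Isom → (∀ a ∈ μ, 0 < a) → HT x.toLinearMap (ut F μ) → ∀ ν ≤ μ, Od ν →
      Fx (fun W => finrank F W = ν.sum ∧ (f.res W).Nondeg) x.toLinearMap := by
  induction μ using Multiset.strongInductionOn with | _ μ ih
  intro V _ _ _ f hf x hx h0 h ν hν ho
  rcases μ.empty_or_exists_mem with rfl | ⟨a, ha⟩
  · exact ⟨⊥, ⟨by simp [Multiset.le_zero.mp hν], by simp [res_nondeg_iff]⟩, by simp⟩
  obtain ⟨m, m1, m2⟩ := μ.toFinset.exists_max_image id ⟨a, by simpa⟩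
  simp only [Multiset.mem_toFinset, id] at m1 m2
  obtain ⟨e, rfl⟩ := Nat.exists_eq_add_of_le' (h0 m m1)
  have d := ut_dim h0 h
  have hN : (x.toLinearMap - 1 : End F V) ^ (e + 1) = 0 := LinearMap.ker_eq_top.mp (Submodule.eq_top_of_finrank_eq (by
    rw [ut_ker h0 h, d, Multiset.map_congr rfl fun a ha => min_eq_left (m2 a ha), Multiset.map_id']))
  set N : End F V := (x.toLinearMap - 1) ^ e with hN'
  have n0 : N ≠ 0 := fun k => by
    have := ut_ker h0 h e
    rw [← hN', k, LinearMap.ker_zero, finrank_top, d] at this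
    have := Multiset.sum_lt_sum (s := μ) (f := (min · e)) (g := id) (fun _ _ => min_le_left _ _) ⟨_, m1, by simp⟩
    simp at this; omega
  obtain ⟨S, s1, s2, s3⟩ : ∃ S : Submodule F V, (∀ u ∈ S, u ≠ 0 → ∃ v ∈ S, f.B (N u) v ≠ 0) ∧ 0 < finrank F S ∧
      ((Odd e ∧ finrank F S = 1) ∨ (Even e ∧ finrank F S = 2)) := by
    have t := B_top hf hx hN
    obtain ⟨u, hu⟩ := not_forall.mp (mt LinearMap.ext n0)
    obtain ⟨v, hv⟩ := hf.exists_B_eq_one hu
    rcases Nat.even_or_odd e with k | k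
    · let g : CForm (FP.symp F) V := ⟨fun u v => f.B (N u) v, fun _ => 0, by simp, by simp, fun u v => by
        rw [t, k.neg_one_pow, symp_B_symm]; simp [hN'], by simp, by simp, fun v => ⟨0, by simp, by
          have := t v v
          rw [k.neg_one_pow, symp_B_symm f (N v)] at this
          simpa using mul_left_cancel₀ h2 (show 2 * f.B (N v) v = 2 * 0 by linear_combination this)⟩⟩
      have := plane (f := g) (u := u) (w := v) rfl rfl (hv.trans_ne one_ne_zero)
      exact ⟨_, nd_iff.mpr this.1, by omega, Or.inr ⟨k, this.2⟩⟩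
    · obtain ⟨w, hw⟩ : ∃ w, f.B (N w) w ≠ 0 := by
        by_contra c
        push Not at c
        have := c (u + v)
        rw [map_add, B_add_left, B_add_right, B_add_right, c, c, t v, k.neg_one_pow, symp_B_symm f (N u), hv] at this
        exact h2 (by linear_combination this)
      have w0 : w ≠ 0 := by rintro rfl; simp at hw
      refine ⟨F ∙ w, fun u a b => ⟨w, Submodule.mem_span_singleton_self w, ?_⟩, by rw [finrank_span_singleton w0]; omega,
        Or.inl ⟨k, finrank_span_singleton w0⟩⟩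
      obtain ⟨c, rfl⟩ := Submodule.mem_span_singleton.mp a
      simpa [hw] using left_ne_zero_of_smul b
  obtain ⟨W, hW, μ', w1, w2, rfl, w3⟩ := split_block hf hx (fun a ha => ⟨h0 a ha, m2 a ha⟩) h hN s1
  have I := ih μ' (lt_add_of_pos_left _ (pos_iff_ne_zero.mpr fun c => by simpa [s2.ne'] using congrArg Multiset.card c)) (hf.res_perp w1) (rs_mem hx _) (fun a ha => h0 a (by simp [ha])) w3
  have up : ∀ ν, Fx (fun U => finrank F U = ν ∧ ((f.res (f.perp W)).res U).Nondeg) (rs x (inv_perp hx hW)).toLinearMap →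
      ∃ U ≤ f.perp W, finrank F U = ν ∧ (f.res U).Nondeg ∧ ∀ v ∈ U, x v ∈ U := fun ν ⟨U, ⟨a, b⟩, c⟩ =>
    ⟨_, Submodule.map_subtype_le _ U, (Submodule.finrank_map_subtype_eq _ _).trans a, nd_sub b, by rintro _ ⟨v, k, rfl⟩; exact ⟨_, c v k, rfl⟩⟩
  by_cases k : e + 1 ∈ ν
  · obtain ⟨ν', rfl⟩ := Multiset.le_iff_exists_add.mp (Multiset.le_count_iff_replicate_le.mp (show finrank F S ≤ ν.count (e + 1) by
      have := Multiset.count_pos.mpr k
      rcases s3 with s | s
      · omega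
      · have := Nat.even_iff.mp (ho _ s.1.add_one); omega))
    obtain ⟨U, a, b, c, d⟩ := up _ (I ν' ((add_le_add_iff_left _).mp hν) fun a o => by
      have := ho a o
      rw [Multiset.count_add, Multiset.count_replicate] at this
      simp only [Nat.even_iff, Nat.odd_iff] at *
      split_ifs at this <;> omega)
    exact ⟨W ⊔ U, ⟨by rw [finrank_sup_perp w1 a, w2, b]; simp, nd_sup w1 c a⟩, inv_sup hW d⟩
  · obtain ⟨U, -, b, c, d⟩ := up _ (I ν (Multiset.le_iff_count.mpr fun a => by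
      have := Multiset.count_le_of_le a hν
      rw [Multiset.count_add, Multiset.count_replicate] at this
      split_ifs at this with l
      · rw [← l, Multiset.count_eq_zero_of_notMem k]; omega
      · omega) ho)
    exact ⟨U, ⟨b, c⟩, d⟩

theorem ut_of_pow {p : ℕ} [Fact p.Prime] [CharP F p] {g : End F V} (k0 : g ^ p = 1) :
    ∃ μ : Multiset ℕ, (∀ a ∈ μ, 0 < a ∧ a ≤ p) ∧ HT g (ut F μ) := by
  obtain ⟨s, h1, h2⟩ := exists_HT g
  have k : ∀ a ∈ s, ∃ e, 1 ≤ e ∧ e ≤ p ∧ a = (X - C 1) ^ e := fun a ha =>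
    (h1 a ha).of_dvd_pow (monic_X_sub_C 1) (irreducible_X_sub_C 1) ((h2.aeval_eq_zero _).mp (pow_char_iff.mp k0) a ha)
  refine ⟨s.map natDegree, fun a ha => ?_, ?_⟩
  · obtain ⟨c, hc, rfl⟩ := Multiset.mem_map.mp ha
    obtain ⟨e, e1, e2, rfl⟩ := k c hc
    rw [(monic_X_sub_C 1).natDegree_pow, natDegree_X_sub_C, mul_one]; exact ⟨e1, e2⟩
  · rw [ut, Multiset.map_map, Multiset.map_congr rfl (g := id) fun a ha => ?_, Multiset.map_id]; exact h2
    obtain ⟨e, -, -, rfl⟩ := k a ha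
    rw [Function.comp, (monic_X_sub_C 1).natDegree_pow, natDegree_X_sub_C, mul_one]; rfl

theorem TS_le (hf : f.Nondeg) {K : Submodule F V} (h : f.TS K) : 2 * finrank F K ≤ finrank F V := by
  have := hf.finrank_perp K
  have := Submodule.finrank_mono h.le_perp
  omega

theorem nd_chain (hf : f.Nondeg) {x : V ≃ₗ[F] V} (hx : x ∈ f.Isom) {a : ℕ} (hs : ∀ W : Submodule F V, (f.res W).Nondeg → (∀ v ∈ W, x v ∈ W) →
    a ≤ finrank F W → ∃ U ≤ W, (f.res U).Nondeg ∧ finrank F U = a ∧ ∀ v ∈ U, x v ∈ U) (k : ℕ) (hk : k * a ≤ finrank F V) :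
    Fx (fun W => finrank F W = k * a ∧ (f.res W).Nondeg) x.toLinearMap := by
  induction k with
  | zero => exact ⟨⊥, ⟨by simp, by simp [res_nondeg_iff]⟩, by simp⟩
  | succ k ih =>
    rw [add_mul, one_mul] at *
    obtain ⟨W, ⟨a, b⟩, c⟩ := ih (by omega)
    have := hf.finrank_perp W
    obtain ⟨U, u1, u2, u3, u4⟩ := hs _ (hf.res_perp b) (inv_perp hx c) (by omega)
    exact ⟨W ⊔ U, ⟨by rw [finrank_sup_perp b u1, a, u3], nd_sup b u2 u1⟩, inv_sup c u4⟩

section
variable {f : CForm (FP.symp F) V}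

theorem TS_sp (hf : f.Nondeg) {m : ℕ} (hm : finrank F V = 2 * m) (k : ℕ) : (∃ K, f.TS K ∧ finrank F K = k) ↔ k ≤ m :=
  ⟨fun ⟨K, a, b⟩ => by have := TS_le hf a; omega, fun h => symp_exists_TS hf (by omega)⟩

theorem non_sp (hf : f.Nondeg) (h2 : (2 : F) = 0) {m : ℕ} (hm : finrank F V = 2 * m) (s : ℕ) (h1 : 1 ≤ s) (h : s ≤ m) :
    ∃ x, Iv f x ∧ finrank F (WW x) = s ∧ ¬ Alt f x := by
  obtain ⟨K, k1, k2⟩ := symp_exists_TS hf (k := s - 1) (by omega)
  have := hf.finrank_perp K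
  obtain ⟨u, u1, u2⟩ := SetLike.exists_of_lt (lt_of_le_of_ne k1.le_perp fun e => by rw [← e] at this; omega)
  obtain ⟨x, a, b, c⟩ := exists_non hf (fun _ => rfl) h2 k1 u2 u1 (by simp [symp_Q])
  exact ⟨x, a, by omega, c⟩

theorem ru_sp (hf : f.Nondeg) {μ : Multiset ℕ} (h0 : ∀ a ∈ μ, 0 < a) (h : Od μ) (hs : μ.sum = finrank F V) : Ru f μ := by
  classical
  obtain ⟨W, _, _, _, g, a1, x, a2, a3⟩ := real_of_count (P := FP.symp F) (fun _ => rfl) (ut F μ) (fun a ha => by
    obtain ⟨e, h, rfl⟩ := Multiset.mem_map.mp ha; exact ⟨e, h0 e h, rfl⟩) fun j hj => by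
      rcases Nat.even_or_odd j with ⟨l, rfl⟩ | e
      · exact Or.inl (show l + l = 2 * (l - 1) + 2 by omega ▸ reg_symp _)
      · exact Or.inr (ut_count (F := F) μ j ▸ h j e)
  obtain ⟨y, hy⟩ := exists_sim_of_isIso (symp_exists_isIso _ a1 hf (by rw [ut_dim h0 a3, hs]) rfl) a2
  exact ⟨y.1, y.2, a3.of_sim hy⟩

theorem od_of (hf : f.Nondeg) {x : V ≃ₗ[F] V} (hx : x ∈ f.Isom) {μ : Multiset ℕ} (h0 : ∀ a ∈ μ, 0 < a) (h : HT x.toLinearMap (ut F μ)) : Od μ := by
  classical
  exact fun a ha => ut_count (F := F) μ a ▸ symp_parity hf hx (pp_unip h0) h ha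

theorem sp_plane (t : (2 : F) ≠ 0) {g : V ≃ₗ[F] V} (hg : g ∈ f.Isom) (h : (∀ v, g (g v) = v) ∨ ∀ v, g (g v) = -v) (W : Submodule F V)
    (a : (f.res W).Nondeg) (b : ∀ v ∈ W, g v ∈ W) (c : 2 ≤ finrank F W) : ∃ U ≤ W, (f.res U).Nondeg ∧ finrank F U = 2 ∧ ∀ v ∈ U, g v ∈ U := by
  have m := fun u : V => Submodule.mem_span_singleton_self (R := F) u
  obtain ⟨v, v1, v0⟩ := W.ne_bot_iff.mp fun e => by rw [e, finrank_bot] at c; omega
  have pl : ∀ u ∈ W, ∀ w ∈ W, f.B u w ≠ 0 → g u ∈ (F ∙ u) ⊔ (F ∙ w) → g w ∈ (F ∙ u) ⊔ (F ∙ w) →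
      ∃ U ≤ W, (f.res U).Nondeg ∧ finrank F U = 2 ∧ ∀ v ∈ U, g v ∈ U := fun u a w b c d e =>
    have := plane (symp_Q f u) (symp_Q f w) c
    ⟨_, by simp [a, b], this.1, this.2, inv_sup' (inv_span d) (inv_span e)⟩
  rcases h with e | e
  · obtain ⟨u, s, u1, u0, s1, u2⟩ : ∃ (u : _) (s : F), u ∈ W ∧ u ≠ 0 ∧ s * s = 1 ∧ g u = s • u := by
      by_cases k : v + g v = 0
      exacts [⟨v, -1, v1, v0, by simp, by rw [eq_neg_of_add_eq_zero_right k]; simp⟩,
        ⟨_, 1, add_mem v1 (b v v1), k, by simp, by simp [e, add_comm]⟩]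
    obtain ⟨w, w1, w2⟩ := nd_iff.mpr a u u1 u0
    have := hg.1 u w
    rw [u2, B_smul_left] at this
    exact pl u u1 (w + s • g w) (add_mem w1 (W.smul_mem _ (b w w1))) (by simpa [this, ← two_mul, t] using w2)
      (u2 ▸ Submodule.mem_sup_left (Submodule.smul_mem _ _ (m u)))
      (Submodule.mem_sup_right (Submodule.mem_span_singleton.mpr ⟨s, by simp [e, smul_smul, s1, add_comm]⟩))
  · obtain ⟨u, u1, u2⟩ : ∃ u ∈ W, f.B u (g u) ≠ 0 := by
      by_contra k
      push Not at k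
      obtain ⟨w, w1, w2⟩ := nd_iff.mpr a (g v) (b v v1) (by simpa)
      have := k _ (add_mem v1 w1)
      have k' := hg.1 v (g w)
      rw [e, B_neg_right] at k'
      rw [map_add, B_add_left, B_add_right, B_add_right, k v v1, k w w1, ← k', symp_B_symm _ (g v) w] at this
      exact w2 (mul_left_cancel₀ t (by linear_combination -this))
    exact pl u u1 _ (b u u1) u2 (Submodule.mem_sup_right (m _)) (e u ▸ Submodule.mem_sup_left (Submodule.neg_mem _ (m u)))

end

end CfsgH5.El
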