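import Cfsg.Agent.H5.El18

set_option autoImplicit false

namespace CfsgH5.El
open Module Polynomial Gl Gc CForm Au Fm In Un

universe u v w

theorem cyc_nonpow {G : Type*} [Group G] [Finite G] [IsCyclic G] {r j : ℕ} (hr : r.Prime) (h : r ∣ Nat.card G) (hj : j ≠ 0) :
    (∃ w : G, (∀ b, b ^ r ≠ w) ∧ w ^ j = 1) ↔ padicValNat r (Nat.card G) ≤ padicValNat r j := by
  haveI := Fact.mk hr
  obtain ⟨g, hg⟩ := IsCyclic.exists_monoid_generator (α := G)
  have ho := orderOf_eq_card_of_forall_mem_powers hg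
  rw [← padicValNat_dvd_iff_le hj]
  constructor
  · rintro ⟨w, h1, h2⟩
    obtain ⟨a, rfl⟩ := hg w
    rw [← pow_mul, ← orderOf_dvd_iff_pow_eq_one, ho] at h2
    exact (Nat.Coprime.pow_left _ ((Nat.Prime.coprime_iff_not_dvd hr).mpr fun k =>
      ((pow_gen_iff hg h a).mpr k).elim h1)).dvd_of_dvd_mul_left (pow_padicValNat_dvd.trans h2)
  · intro k
    obtain ⟨a, ha⟩ := pow_padicValNat_dvd (p := r) (n := Nat.card G)
    refine ⟨g ^ a, fun b hb => pow_succ_padicValNat_not_dvd (p := r) (Nat.card_pos (α := G)).ne' ?_, ?_⟩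
    · conv_rhs => rw [ha]
      rw [pow_succ]; exact Nat.mul_dvd_mul_left _ ((pow_gen_iff hg h a).mp ⟨b, hb⟩)
    · rw [← pow_mul, ← orderOf_dvd_iff_pow_eq_one, ho, ha, mul_comm]; exact Nat.mul_dvd_mul_left _ k

variable {F : Type u} [Field F] {σ : F →+* F} {q : ℕ}

/-- norm one, and not an `r`-th power of an element of norm one -/
def NQ (σ : F →+* F) (r : ℕ) (z : F) : Prop := z * σ z = 1 ∧ ∀ b, b * σ b = 1 → b ^ r ≠ z

theorem N_all (H : UF σ q) {Pr : F → Prop} : (∀ a, a * σ a = 1 → Pr a) ↔ ∀ u : rootsOfUnity (q + 1) F, Pr u.1 :=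
  ⟨fun h u => h _ (by rw [H.norm_eq]; exact (mem_rootsOfUnity' _ _).mp u.2), fun h a ha =>
    h ⟨Units.mk0 a (left_ne_zero_of_mul_eq_one ha), (mem_rootsOfUnity' _ _).mpr (by rwa [H.norm_eq] at ha)⟩⟩

theorem N_ex (H : UF σ q) {Pr : F → Prop} : (∃ a, a * σ a = 1 ∧ Pr a) ↔ ∃ u : rootsOfUnity (q + 1) F, Pr u.1 := by
  rw [← not_iff_not, not_exists, not_exists, ← N_all H (Pr := fun a => ¬ Pr a)]; simp

theorem nq_iff (H : UF σ q) {r j : ℕ} (hr : r.Prime) (h : r ∣ q + 1) (hj : j ≠ 0) :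
    (∃ w, NQ σ r w ∧ w ^ j = 1) ↔ padicValNat r (q + 1) ≤ padicValNat r j := by
  haveI := H.fin
  refine Iff.trans ?_ (H.card_roots_succ ▸ cyc_nonpow (G := rootsOfUnity (q + 1) F) hr (H.card_roots_succ.symm ▸ h) hj)
  simp only [NQ, and_assoc, N_ex H, N_all H]
  refine exists_congr fun u => and_congr (forall_congr' fun b => not_congr ?_) ?_ <;>
    simp only [Subtype.ext_iff, Units.ext_iff, Subgroup.coe_pow, Units.val_pow_eq_pow_val, Subgroup.coe_one, Units.val_one]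

theorem N_pow {a : F} (h : a * σ a = 1) (k : ℕ) : a ^ k * σ (a ^ k) = 1 := by rw [map_pow, ← mul_pow, h, one_pow]

theorem N_root (H : UF σ q) {r : ℕ} (hr : r.Prime) (h : ¬ r ∣ q + 1) {z : F} (hz : z * σ z = 1) : ∃ b, b * σ b = 1 ∧ b ^ r = z := by
  obtain ⟨m, -, hm⟩ := Nat.exists_mul_mod_eq_one_of_coprime (hr.coprime_iff_not_dvd.mpr h) (by have := H.two_le; omega)
  exact ⟨z ^ m, N_pow hz m, by rw [← pow_mul, mul_comm, ← Nat.mod_add_div (r * m) (q + 1), hm, pow_add, pow_mul, ← H.norm_eq, hz]; simp⟩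

theorem N_one (H : UF σ q) {r : ℕ} (hr : r.Prime) (h : ¬ r ∣ q + 1) {z : F} (hz : z * σ z = 1) (h1 : z ^ r = 1) : z = 1 :=
  (pow_eq_one_iff_of_coprime (hr.coprime_iff_not_dvd.mpr h)).mp ⟨h1, H.norm_eq z ▸ hz⟩

theorem N_prim (H : UF σ q) {d : ℕ} (h : d ∣ q + 1) : ∃ b, b * σ b = 1 ∧ IsPrimitiveRoot b d := by
  haveI := H.fin
  obtain ⟨g, hg⟩ := IsCyclic.exists_ofOrder_eq_natCard (α := rootsOfUnity (q + 1) F)
  rw [H.card_roots_succ] at hg
  refine (N_ex H).mpr ⟨g ^ (orderOf g / d), ?_⟩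
  rw [IsPrimitiveRoot.coe_units_iff, IsPrimitiveRoot.coe_submonoidClass_iff, IsPrimitiveRoot.iff_orderOf]
  exact orderOf_pow_orderOf_div (by omega) (by rwa [hg])

theorem N_neg (H : UF σ q) (h2 : (2 : F) ≠ 0) {n : ℕ} (hn : n ≠ 0) :
    (∃ b, b * σ b = 1 ∧ b ^ n = -1) ↔ ¬ padicValNat 2 (q + 1) ≤ padicValNat 2 n := by
  have od : ∀ m ≠ 0, ∃ a, Odd a ∧ m = 2 ^ padicValNat 2 m * a := fun m m0 => by
    obtain ⟨a, ha⟩ := pow_padicValNat_dvd (p := 2) (n := m)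
    exact ⟨a, Nat.not_even_iff_odd.mp fun k => pow_succ_padicValNat_not_dvd (p := 2) m0 (by
      conv_rhs => rw [ha]
      rw [pow_succ]; exact Nat.mul_dvd_mul_left _ k.two_dvd), ha⟩
  constructor
  · rintro ⟨b, b1, b2⟩ k
    obtain ⟨a, a1, a2⟩ := od (q + 1) (by omega)
    obtain ⟨c, hc⟩ := (padicValNat_dvd_iff_le hn).mpr k
    have : (b ^ n) ^ a = 1 := by rw [hc, ← pow_mul, mul_right_comm, ← a2, pow_mul, ← H.norm_eq, b1, one_pow]
    rw [b2, a1.neg_one_pow] at this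
    exact h2 (by linear_combination -this)
  · intro k
    obtain ⟨b, b1, b2⟩ := N_prim H ((padicValNat_dvd_iff_le (p := 2) (by omega)).mpr (not_le.mp k))
    obtain ⟨a, a1, a2⟩ := od n hn
    refine ⟨b, b1, by rw [a2, pow_mul, (b2.pow (by simp) (pow_succ _ _)).eq_neg_one_of_two_right, a1.neg_one_pow]⟩

theorem NQ.odd (H : UF σ q) {r : ℕ} (hr : r.Prime) (h2 : r ≠ 2) (h : r ∣ q + 1) {z : F} (hz : NQ σ r z) (b : F) : b ^ r ≠ z := by
  rintro rfl
  have b0 : b * σ b ≠ 0 := fun e => by simpa [← mul_pow, e, hr.ne_zero] using hz.1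
  have := H.two_le
  refine hz.2 b ((pow_eq_one_iff_of_coprime (m := r) (n := q - 1) (hr.coprime_iff_not_dvd.mpr fun k => h2 ((Nat.prime_dvd_prime_iff_eq hr Nat.prime_two).mp
    (by simpa [show q + 1 - (q - 1) = 2 by omega] using Nat.dvd_sub h k)))).mp ⟨by simpa [mul_pow] using hz.1,
      (H.fix_iff b0).mp (by rw [map_mul, H.invol, mul_comm])⟩) rfl

theorem NQ.two (H : UF σ q) (ho : Odd q) {z : F} (hz : NQ σ 2 z) : ∃ b, b * b = z ∧ b * σ b = -1 := by
  haveI := H.fin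
  haveI := Fintype.ofFinite F
  have c := H.card
  rw [Nat.card_eq_fintype_card] at c
  obtain ⟨k, rfl⟩ := ho
  obtain ⟨b, rfl⟩ := (FiniteField.isSquare_iff (fun e => by have := FiniteField.even_card_of_char_two e; rw [c] at this; ring_nf at this; omega)
    (left_ne_zero_of_mul_eq_one hz.1)).mpr (by
      rw [c, show (2 * k + 1) ^ 2 / 2 = (2 * k + 1 + 1) * k by ring_nf; omega, pow_mul, ← H.norm_eq, hz.1, one_pow])
  exact ⟨b, rfl, (mul_self_eq_one_iff.mp (by rw [mul_mul_mul_comm, ← map_mul, hz.1])).resolve_left fun e => hz.2 b e (sq b)⟩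

theorem NQ.neg (H : UF σ q) (ho : Odd q) : NQ σ 2 (-1) ↔ q % 4 ≠ 3 := by
  have h2 : (2 : F) ≠ 0 := fun e => by
    haveI := H.fin
    haveI := Fintype.ofFinite F
    haveI : CharP F 2 := CharTwo.of_one_ne_zero_of_two_eq_zero one_ne_zero e
    have := FiniteField.even_card_of_char_two (ringChar.eq F 2)
    rw [← Nat.card_eq_fintype_card, H.card] at this
    have := Nat.odd_iff.mp (ho.pow (n := 2)); omega
  have := N_neg H h2 two_ne_zero
  rw [padicValNat_self, not_le, Nat.lt_iff_add_one_le, ← padicValNat_dvd_iff_le (by omega)] at this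
  rw [NQ, and_iff_right (by simp), ← not_iff_not]
  push Not
  rw [this]; omega

section
variable {V : Type v} [AddCommGroup V] [Module F V] [FiniteDimensional F V] {P : FP F} {f : CForm P V}

omit [FiniteDimensional F V] in
theorem scal_N {l : F} (h : l * P.σ l = 1) : ∃ s ∈ f.Isom, s.toLinearMap = l • 1 :=
  ⟨scal V (Units.mk0 l (left_ne_zero_of_mul_eq_one h)), ⟨fun u v => by simp [scal_apply, ← mul_assoc, mul_comm _ l, h],
    fun v => by simp [scal_apply, f.Q_smul, h]⟩, LinearMap.ext fun v => by simp [scal_apply]⟩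

omit [FiniteDimensional F V] in
theorem smul_N {l : F} (h : l * P.σ l = 1) {g : V ≃ₗ[F] V} (hg : g ∈ f.Isom) : ∃ s ∈ f.Isom, s.toLinearMap = l • g.toLinearMap := by
  obtain ⟨s, a, b⟩ := scal_N (f := f) h
  exact ⟨s * g, mul_mem a hg, LinearMap.ext fun v => LinearMap.congr_fun b (g v)⟩

theorem uni_red (hf : f.Nondeg) (h0 : 0 < finrank F V) {r : ℕ} {Pr : End F V → Prop} (hP : ∀ c : F, c ≠ 0 → ∀ g, Pr (c • g) → Pr g) :
    AllS f.SIsom r Pr ↔ (∀ y ∈ f.Isom, y ^ r = 1 → (∀ c : F, y.toLinearMap ≠ c • 1) →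
      (∃ b, b * P.σ b = 1 ∧ b ^ finrank F V * LinearMap.det y.toLinearMap = 1) → Pr y.toLinearMap) ∧
      ∀ x ∈ f.SIsom, ∀ z, NQ P.σ r z → (x.toLinearMap : End F V) ^ r = z • 1 → Pr x.toLinearMap := by
  refine ⟨fun h => ⟨fun y a b c ⟨l, l1, l2⟩ => ?_, fun x a z b c => h x a z c fun l e => ?_⟩, fun ⟨h, h'⟩ x a z b c => ?_⟩
  · obtain ⟨s, s1, s2⟩ := smul_N l1 a
    have l0 := left_ne_zero_of_mul_eq_one l1
    exact hP l l0 _ (s2 ▸ h s (mem_SIsom.mpr ⟨s1, by rw [s2, LinearMap.det_smul, l2]⟩) (l ^ r) (by rw [s2, _root_.smul_pow, pow_smul b, one_smul])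
      fun d e => c (l⁻¹ * d) (by rw [mul_smul, ← e, s2, inv_smul_smul₀ l0]))
  · obtain ⟨u, hu⟩ := finrank_pos_iff_exists_ne_zero.mp h0
    rw [e, _root_.smul_pow, one_pow] at c
    exact b.2 l (norm_of_pow hf h0 (mem_SIsom.mp a).1 (r := 1) (by rwa [pow_one])) (smul_left_injective F hu (LinearMap.congr_fun c u))
  by_cases k : NQ P.σ r z
  · exact h' x a z k b
  obtain ⟨a, a'⟩ := mem_SIsom.mp a
  simp only [NQ, norm_of_pow hf h0 a b, true_and, not_forall, not_not] at k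
  obtain ⟨l, l1, rfl⟩ := k
  have l0 := left_ne_zero_of_mul_eq_one l1
  obtain ⟨s, s1, s2⟩ := smul_N (l := l⁻¹) (by rw [map_inv₀, ← mul_inv, l1, inv_one]) a
  exact hP _ (inv_ne_zero l0) _ (s2 ▸ h s s1 (pow_coe_iff.mpr (by rw [s2, _root_.smul_pow, b, smul_smul, ← mul_pow, inv_mul_cancel₀ l0]; simp))
    (fun d e => c (l * d) (by rw [mul_smul, ← e, s2, smul_inv_smul₀ l0])) ⟨l, l1, by rw [s2, LinearMap.det_smul, a']; simp [l0]⟩)

theorem Fx.smul (Ω : Submodule F V → Prop) (c : F) (hc : c ≠ 0) (g : End F V) (h : Fx Ω (c • g)) : Fx Ω g :=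
  h.imp fun _ h => ⟨h.1, (inv_smul hc).mp h.2⟩

end

variable {V : Type v} [AddCommGroup V] [Module F V] [FiniteDimensional F V] {h : ∀ a, σ (σ a) = a} {f : CForm (FP.unit σ h) V}

theorem uni_cop (H : UF σ q) (hf : f.Nondeg) (h0 : 0 < finrank F V) {r : ℕ} (hr : r.Prime) (hq : ¬ r ∣ q + 1) {Pr : End F V → Prop}
    (hP : ∀ c : F, c ≠ 0 → ∀ g, Pr (c • g) → Pr g) : AllS f.SIsom r Pr ↔ AllO f.Isom r Pr := by
  rw [uni_red hf h0 hP, and_iff_left fun x _ z a _ => ((N_root H hr hq a.1).elim fun b k => a.2 b k.1 k.2).elim]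
  refine forall₃_congr fun y a b => ⟨fun k c => k (fun l e => c ?_) ⟨1, by simp, by
    rw [N_one H hr hq (det_norm hf a) (by rw [← map_pow, pow_smul b]; simp)]; simp⟩, fun k c _ => k fun e => c 1 (by rw [e, one_smul]; rfl)⟩
  obtain ⟨u, hu⟩ := finrank_pos_iff_exists_ne_zero.mp h0
  have b' := pow_smul b
  rw [e, _root_.smul_pow, one_pow] at b'
  rw [N_one H hr hq (norm_of_pow hf h0 a (r := 1) (by rwa [pow_one])) (smul_left_injective F hu (LinearMap.congr_fun b' u)), one_smul] at e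
  exact LinearEquiv.toLinearMap_injective e

theorem su_iff (H : UF σ q) {n r : ℕ} (Pr : End F (Fin n → F) → Prop) :
    (∀ x : Matrix.SpecialLinearGroup (Fin n) F, x ∈ Cfsg.SU n F q → (∃ z : F, ((x ^ r : Matrix.SpecialLinearGroup (Fin n) F) : Matrix (Fin n) (Fin n) F) = z • 1) →
      (∀ z : F, (x : Matrix (Fin n) (Fin n) F) ≠ z • 1) → Pr (Matrix.toLin' x.1)) ↔ AllS (hermC H n).SIsom r Pr := by
  have e : ∀ x : Cfsg.SU n F q, (suEquiv H n x).1.toLinearMap = Matrix.toLin' x.1.1 := fun x => LinearMap.ext fun v => by simp [suEquiv_apply]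
  constructor
  · intro h g hg z h1 h2
    obtain ⟨x, hx⟩ := (suEquiv H n).surjective ⟨g, hg⟩
    obtain rfl : (suEquiv H n x).1 = g := congrArg Subtype.val hx
    rw [e] at *
    exact h x x.2 ⟨z, pow_iff'.mpr h1⟩ fun c => mt scal_iff'.mp (h2 c)
  · rintro h x hx ⟨z, h1⟩ h2
    rw [← e ⟨x, hx⟩]
    exact h _ (suEquiv H n ⟨x, hx⟩).2 z (e ⟨x, hx⟩ ▸ pow_iff'.mp h1) fun c => e ⟨x, hx⟩ ▸ mt scal_iff'.mpr (h2 c)

theorem ord_sq {M : Type*} [Monoid M] {x : M} {i b : ℕ} (hi : i = orderOf x) (h0 : 0 < i) (hb : b = if Even i then i / 2 else i) : orderOf (x ^ 2) = b := by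
  rw [orderOf_pow' _ two_ne_zero, ← hi, hb]
  split_ifs with k
  · rw [Nat.gcd_eq_right k.two_dvd]
  · rw [(Nat.coprime_two_right.mpr (Nat.not_even_iff_odd.mp k)).gcd_eq_one, Nat.div_one]

theorem exists_UP_u (H : UF σ q) {p : ℕ} [Fact p.Prime] [CharP F p] {r : ℕ} (hr : r.Prime) (hr2 : r ≠ 2) (hrp : r ≠ p) {i b : ℕ}
    (hi : i = orderOf (q : ZMod r)) (hb : b = if Even i then i / 2 else i) : 0 < i ∧ (i = 2 ↔ r ∣ q + 1) ∧ ∃ T, UP σ r T b (i % 4 = 2) := by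
  haveI := H.fin
  haveI := Fintype.ofFinite F
  haveI := Fact.mk hr
  haveI : Fact (2 < r) := ⟨lt_of_le_of_ne hr.two_le (Ne.symm hr2)⟩
  have c := H.card
  rw [Nat.card_eq_fintype_card] at c
  obtain ⟨e, hp, he⟩ := FiniteField.card F p
  obtain ⟨j, -, hj⟩ := (Nat.dvd_prime_pow hp).mp (he ▸ c ▸ dvd_pow_self q two_ne_zero)
  obtain ⟨T, U⟩ := exists_UP (F := F) H.invol (fun x => hj ▸ H.pow x) hr hrp
  have q0 : (q : ZMod r) ≠ 0 := fun e => card_ne_zmod (F := F) hr hrp (by simp [c, e])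
  have i0 : 0 < i := hi ▸ (isOfFinOrder_iff_pow_eq_one.mpr ⟨r - 1, by have := hr.two_le; omega, ZMod.pow_card_sub_one_eq_one q0⟩).orderOf_pos
  have n1 := ZMod.neg_one_ne_one (n := r)
  rw [← hj, c, Nat.cast_pow, ord_sq hi i0 hb] at U
  refine ⟨i0, ⟨fun k => ?_, fun k => ?_⟩, T, (propext ⟨fun ⟨k, hk⟩ => ?_, fun k => ?_⟩ : (∃ k, ((q : ZMod r) ^ 2) ^ k = -q) = (i % 4 = 2)) ▸ U⟩
  · have := pow_orderOf_eq_one (q : ZMod r)
    rw [← hi, k, sq, mul_self_eq_one_iff] at this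
    rcases this with e | e
    · rw [e, orderOf_one] at hi; omega
    · exact (ZMod.natCast_eq_zero_iff _ _).mp (by simp [e])
  · rw [hi, eq_neg_of_add_eq_zero_left (by exact_mod_cast (ZMod.natCast_eq_zero_iff _ _).mpr k : (q : ZMod r) + 1 = 0)]
    exact orderOf_eq_prime (by simp) n1
  · have e : (q : ZMod r) ^ (2 * k + (i - 1)) = -1 := mul_right_cancel₀ q0 (by
      rw [← pow_succ, add_assoc, Nat.sub_add_cancel i0, pow_add, pow_mul, hk, hi, pow_orderOf_eq_one]; ring)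
    have e1 : i ∣ (2 * k + (i - 1)) * 2 := hi ▸ orderOf_dvd_of_pow_eq_one (by rw [← hi, pow_mul, e]; simp)
    have e2 : ¬ i ∣ 2 * k + (i - 1) := fun d => n1 (e.symm.trans (orderOf_dvd_iff_pow_eq_one.mp (hi ▸ d)))
    have e3 : Even i := by_contra fun o => e2 ((Nat.coprime_two_right.mpr (Nat.not_even_iff_odd.mp o)).dvd_of_dvd_mul_right e1)
    have := Nat.even_iff.mp e3
    by_contra k'
    have := (Nat.dvd_of_mod_eq_zero (show i % 4 = 0 by omega)).trans e1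
    omega
  · have e : ((q : ZMod r) ^ (i / 2)) * (q : ZMod r) ^ (i / 2) = 1 := by rw [← pow_add, show i / 2 + i / 2 = i by omega, hi, pow_orderOf_eq_one]
    refine ⟨(i / 2 + 1) / 2, by
      rw [← pow_mul, show 2 * ((i / 2 + 1) / 2) = i / 2 + 1 by omega, pow_succ, (mul_self_eq_one_iff.mp e).resolve_left
        (pow_ne_one_of_lt_orderOf (by omega) (by omega))]; simp⟩

theorem c_u {i b c : ℕ} (hb : b = if Even i then i / 2 else i) (hc : c = if i % 4 = 0 then i else if i % 4 = 2 then i / 2 else 2 * i) :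
    c = if i % 4 = 2 then b else 2 * b := by
  simp only [Nat.even_iff] at hb
  split_ifs at * <;> omega

theorem rz_unit (H : UF σ q) {r i c : ℕ} {T : Finset F[X]} {sd : Prop} (U : UP σ r T i sd) (h0 : (r : F) ≠ 0) (hf : f.Nondeg) :
    Rz f r T i c fun _ => True :=
  UP.rz (P := FP.unit σ h) U rfl fun s hs => (type_unit H hf U.two h0 hs).trans (by simp only [or_true, and_true]; rfl)

theorem UP.ts_true' {r i c n m : ℕ} {T : Finset F[X]} {sd : Prop} [Decidable sd] (H : UP σ r T i sd) (hc : c = if sd then i else 2 * i) (h2 : 2 * m ≤ n) :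
    (i ≤ m ∧ ∀ k w j, SU σ r T i c w j → (1 ≤ j ∧ k + j * c = n ∧ (0 < k ∨ True)) →
      ∃ a t, t + t.map (du σ r) ≤ w ∧ 2 * a ≤ k ∧ a + t.card * i = m ∧ (2 * a < k ∨ True)) ↔
      i ≤ m ∧ 2 * (m % i) ≤ n % c ∧ (¬ sd ∨ (r - 1) / i + 2 * (m / i) ≤ n / i) := by
  refine and_congr_right fun h1 => ?_
  by_cases h : sd
  · refine (H.tr_sd hc h (A := fun k j => 1 ≤ j ∧ k + j * c = n ∧ (0 < k ∨ True))
      (B := fun k _ a b => 2 * a ≤ k ∧ a + b * i = m ∧ (2 * a < k ∨ True))).trans ?_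
    rw [if_pos h] at hc
    subst hc
    simp only [or_true, and_true, and_imp, H.card_eq, h, not_true, false_or, and_left_comm (a := (_ + _ : Multiset F[X]) ≤ _)]
    rw [ar_even H.ne H.pos (by omega), or_iff_right (by omega)]
  · refine (H.tr_nsd hc h (A := fun k j => 1 ≤ j ∧ k + j * c = n ∧ (0 < k ∨ True))
      (B := fun k _ a b => 2 * a ≤ k ∧ a + b * i = m ∧ (2 * a < k ∨ True))).trans ?_
    rw [if_neg h] at hc
    subst hc
    rw [ar_nsd (d := n / 2) (e := n % 2) (R0 := fun _ => True) (R := fun _ => True) H.pos (by omega) (by omega) (by omega) (by omega)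
      (by simp; omega) (by simp; omega), and_iff_left (Or.inl h)]
    conv_rhs => rw [← Nat.div_add_mod n 2, mod_two_mul _ _ _ (by omega)]
    omega

theorem ru_unit (H : UF σ q) (hf : f.Nondeg) {μ : Multiset ℕ} (h0 : ∀ a ∈ μ, 0 < a) (hs : μ.sum = finrank F V) : Ru f μ := by
  haveI := H.fin
  obtain ⟨g, hg⟩ := exists_of_type (V := V) (ut F μ) (fun a ha => PP.ne (pp_unip h0 a ha)) (by rw [deg_unip, hs])
  have k : (g - 1) ^ μ.sum = 0 := LinearMap.ker_eq_top.mp (Submodule.eq_top_of_finrank_eq (by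
    rw [ut_ker h0 hg, ← hs, Multiset.map_congr rfl fun a ha => min_eq_left (Multiset.single_le_sum (fun _ _ => Nat.zero_le _) a ha), Multiset.map_id']))
  obtain ⟨A, rfl⟩ : ∃ A : V ≃ₗ[F] V, A.toLinearMap = g := ⟨LinearEquiv.ofBijective g ((End.isUnit_iff _).mp (by
    simpa using (IsNilpotent.isUnit_add_one ⟨_, k⟩))), rfl⟩
  obtain ⟨x, hx⟩ := unit_exists H hf (sim_adj_unip hf k)
  exact ⟨x.1, x.2, hg.of_sim hx⟩

theorem kum_sim {W : Type*} [AddCommGroup W] [Module F W] [FiniteDimensional F W] {r : ℕ} (hr : r.Prime) {z : F} (hz : ∀ b, b ^ r ≠ z) {x : End F V}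
    {y : End F W} (hx : x ^ r = z • 1) (hy : y ^ r = z • 1) (e : finrank F V = finrank F W) : Sim x y := by
  obtain ⟨j, a⟩ := HT_kummer hr hx hz
  obtain ⟨k, b⟩ := HT_kummer hr hy hz
  have n := fun j a (ha : a ∈ Multiset.replicate j (X ^ r - C z)) => Multiset.eq_of_mem_replicate ha ▸ PP.ne (pp_kummer hr hz)
  rw [a.dim (n j), b.dim (n k)] at e
  obtain rfl : j = k := by simpa [hr.ne_zero] using e
  exact a.sim b

theorem kum_dvd {r : ℕ} (hr : r.Prime) {z : F} (hz : ∀ b, b ^ r ≠ z) {x : End F V} (hx : x ^ r = z • 1) {W : Submodule F V} (hW : ∀ v ∈ W, x v ∈ W) :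
    r ∣ finrank F W := by
  obtain ⟨j, a⟩ := HT_kummer hr (f := x.restrict hW) (z := z) (LinearMap.ext fun v => Subtype.ext (by
    rw [End.pow_restrict _ hW]; exact LinearMap.congr_fun hx v)) hz
  rw [a.dim fun a ha => Multiset.eq_of_mem_replicate ha ▸ PP.ne (pp_kummer hr hz)]; simp

theorem kum_equiv {r : ℕ} (hr : r.Prime) {z : F} (hz : ∀ b, b ^ r ≠ z) (hd : r ∣ finrank F V) : ∃ A : V ≃ₗ[F] V, (A.toLinearMap : End F V) ^ r = z • 1 := by
  obtain ⟨j, hj⟩ := hd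
  rcases j.eq_zero_or_pos with rfl | j0
  · haveI := finrank_zero_iff.mp hj
    exact ⟨1, Subsingleton.elim _ _⟩
  obtain ⟨g, -, a, -⟩ := exists_kummer (V := V) hr hz j0.ne' (by rw [hj, mul_comm])
  have z0 : z ≠ 0 := fun e => hz 0 (by simp [e, hr.ne_zero])
  exact ⟨LinearEquiv.ofBijective g ((End.isUnit_iff _).mp ((isUnit_pow_iff hr.ne_zero).mp (by
    rw [a, ← Algebra.algebraMap_eq_smul_one]; exact (Ne.isUnit z0).map _))), a⟩

theorem kum_unit (H : UF σ q) (hf : f.Nondeg) {r : ℕ} (hr : r.Prime) {z : F} (h1 : z * σ z = 1) (hz : ∀ b, b ^ r ≠ z) (hd : r ∣ finrank F V) :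
    ∃ x ∈ f.Isom, (x.toLinearMap : End F V) ^ r = z • 1 := by
  haveI := H.fin
  obtain ⟨A, a⟩ := kum_equiv hr hz hd
  have b : (A.symm.toLinearMap : End F V) ^ r = σ z • 1 := by
    have : (A.symm.toLinearMap : End F V) ^ r * A.toLinearMap ^ r = 1 := by
      rw [← Commute.mul_pow (by ext; simp), show (A.symm.toLinearMap * A.toLinearMap : End F V) = 1 by ext; simp, one_pow]
    rw [a, mul_smul_comm, mul_one] at this
    rw [← this, smul_smul, mul_comm, h1, one_smul]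
  obtain ⟨x, e, he⟩ := unit_exists H hf (A := A) (kum_sim hr hz a (by rw [← adj_pow, b, adj_smul, adj_one]; simp [h]) rfl)
  refine ⟨x.1, x.2, (((HT_kummer hr a hz).choose_spec.of_sim ⟨e, he⟩).aeval_eq_zero (X ^ r - C z)).mpr
    (fun a ha => Multiset.eq_of_mem_replicate ha ▸ dvd_rfl) |> fun k => ?_⟩
  simpa [sub_eq_zero, Algebra.algebraMap_eq_smul_one] using k

end CfsgH5.El
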