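import Cfsg.Agent.H5.El19

set_option autoImplicit false

namespace CfsgH5.El
open Module Polynomial Gl Gc CForm Au Fm In Un

universe u v w
variable {F : Type u} [Field F] {V : Type v} [AddCommGroup V] [Module F V] [FiniteDimensional F V]

omit [FiniteDimensional F V] in
theorem pow_lin (x : V ≃ₗ[F] V) (k : ℕ) : (x.toLinearMap : End F V) ^ k = (x ^ k).toLinearMap :=
  LinearMap.ext fun v => by rw [End.pow_apply]; exact (LinearEquiv.pow_apply x k v).symm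

section
variable {P : FP F} {f : CForm P V}

theorem LP.hyp (hf : f.Nondeg) {D : Submodule F V × Submodule F V} (h : LP f D) (h0 : 0 < finrank F V) : ∃ u ∈ D.1, ∃ w ∈ D.2, f.IsHyp u w := by
  have := TS_half hf h.2.1 h.2.2 h.1
  obtain ⟨u, u1, u0⟩ := D.1.ne_bot_iff.mp fun e => by rw [e, finrank_bot] at this; omega
  obtain ⟨v, hv⟩ := hf.exists_B_eq_one u0
  obtain ⟨a, b, rfl, -⟩ := Submodule.existsUnique_add_of_isCompl h.1 v
  exact ⟨u, u1, b, b.2, h.2.1.1 _ u1, h.2.2.1 _ b.2, by simpa [h.2.1.2 u u1 a a.2] using hv⟩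

theorem eig_sing (h2 : (2 : F) ≠ 0) {x : V ≃ₗ[F] V} (hx : x ∈ f.Isom) {b : F} (hb : b * P.σ b = -1) {u v : V} (hu : x u = b • u) (hv : x v = b • v) :
    f.Q u = 0 ∧ f.B u v = 0 := by
  have a := hx.2 u
  have c := hx.1 u v
  rw [hu, f.Q_smul, hb] at a
  rw [hu, hv, B_smul_left, B_smul_right, ← mul_assoc, hb] at c
  exact ⟨mul_left_cancel₀ h2 (by linear_combination -a), mul_left_cancel₀ h2 (by linear_combination -c)⟩

theorem c2_pair (h2 : (2 : F) ≠ 0) {x : V ≃ₗ[F] V} (hx : x ∈ f.Isom) {b : F} (hb : b * P.σ b = -1) (h : ∀ v, x (x v) = (b * b) • v) :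
    ∃ D, LP f D ∧ (∀ v ∈ D.1, x v = b • v) ∧ ∀ v ∈ D.2, x v = -b • v := by
  have b0 : b ≠ 0 := by rintro rfl; simp at hb
  have m : ∀ c v, v ∈ End.eigenspace x.toLinearMap c ↔ x v = c • v := fun c v => End.mem_eigenspace_iff
  have t : ∀ c, c * P.σ c = -1 → f.TS (End.eigenspace x.toLinearMap c) := fun c k =>
    ⟨fun u a => (eig_sing h2 hx k ((m _ _).mp a) ((m _ _).mp a)).1, fun u a v b => (eig_sing h2 hx k ((m _ _).mp a) ((m _ _).mp b)).2⟩
  refine ⟨(End.eigenspace x.toLinearMap b, End.eigenspace x.toLinearMap (-b)), ⟨⟨Submodule.disjoint_def.mpr fun v a c => ?_,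
    codisjoint_iff.mpr (eq_top_iff.mpr fun v _ => Submodule.mem_sup.mpr ⟨(2 * b)⁻¹ • (b • v + x v), Submodule.smul_mem _ _ ((m _ _).mpr ?_),
      (2 * b)⁻¹ • (b • v - x v), Submodule.smul_mem _ _ ((m _ _).mpr ?_), ?_⟩)⟩, t b hb, t _ (by simpa)⟩, fun v => (m _ _).mp, fun v => (m _ _).mp⟩
  · have := ((m _ _).mp a).symm.trans ((m _ _).mp c)
    exact (smul_eq_zero.mp (show (2 * b) • v = 0 by linear_combination (norm := module) this)).resolve_left (mul_ne_zero h2 b0)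
  · rw [map_add, map_smul, h]; module
  · rw [map_sub, map_smul, h]; module
  · rw [← smul_add, inv_smul_eq_iff₀ (mul_ne_zero h2 b0)]; module

theorem det_pair {K L : Submodule F V} (hc : IsCompl K L) {x : End F V} {a b : F} (h1 : ∀ v ∈ K, x v = a • v) (h2 : ∀ v ∈ L, x v = b • v) :
    LinearMap.det x = a ^ finrank F K * b ^ finrank F L := by
  rw [← det_of_sim (sim_compl hc (fun v k => h1 v k ▸ K.smul_mem _ k) fun v k => h2 v k ▸ L.smul_mem _ k), LinearMap.det_prodMap,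
    show x.restrict _ = a • (1 : End F K) from LinearMap.ext fun v => Subtype.ext (h1 v v.2),
    show x.restrict _ = b • (1 : End F L) from LinearMap.ext fun v => Subtype.ext (h2 v v.2)]
  simp

theorem c2_det (hf : f.Nondeg) (h2 : (2 : F) ≠ 0) {x : V ≃ₗ[F] V} (hx : x ∈ f.Isom) {b : F} (hb : b * P.σ b = -1) (h : ∀ v, x (x v) = (b * b) • v) :
    ∃ j, finrank F V = 2 * j ∧ LinearMap.det x.toLinearMap = (-(b * b)) ^ j := by
  obtain ⟨D, a, c, d⟩ := c2_pair h2 hx hb h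
  have := TS_half hf a.2.1 a.2.2 a.1
  exact ⟨_, this.1, by rw [det_pair a.1 c d, show finrank F D.2 = finrank F D.1 by omega, ← mul_pow, mul_neg]⟩

theorem c2_ex {D : Submodule F V × Submodule F V} (h : LP f D) {b : F} (hb : b * P.σ b = -1) : ∃ x ∈ f.Isom, ∀ v, x (x v) = (b * b) • v := by
  have b0 : b ≠ 0 := by rintro rfl; simp at hb
  have e : ∀ (u : D.1) (w : D.2), sumHom h.1 (scal _ (Units.mk0 b b0), scal _ (-Units.mk0 b b0)) (u + w) = b • (u - w : V) := fun u w => by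
    simp [sumHom_apply, scal_apply, smul_sub, sub_eq_add_neg]
  refine ⟨sumHom h.1 (scal _ (Units.mk0 b b0), scal _ (-Units.mk0 b b0)), ⟨fun u v => ?_, fun v => ?_⟩, fun v => ?_⟩ <;>
    obtain ⟨c, d, rfl, -⟩ := Submodule.existsUnique_add_of_isCompl h.1 v
  · obtain ⟨c', d', rfl, -⟩ := Submodule.existsUnique_add_of_isCompl h.1 u
    rw [e, e, B_smul_left, B_smul_right, ← mul_assoc, hb]
    simp [h.2.1.2 _ c'.2 _ c.2, h.2.2.2 _ d'.2 _ d.2, add_comm]
  · rw [e, f.Q_smul, hb, f.Q_sub, f.Q_add, h.2.1.1 _ c.2, h.2.2.1 _ d.2]; simp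
  · rw [e, map_smul, sub_eq_add_neg, ← Submodule.coe_neg, e, smul_smul]; simp

theorem c2_nd (hf : f.Nondeg) (h2 : (2 : F) ≠ 0) {x : V ≃ₗ[F] V} (hx : x ∈ f.Isom) {b : F} (hb : b * P.σ b = -1) (h : ∀ v, x (x v) = (b * b) • v)
    {m : ℕ} (hm : m ≤ finrank F V) : Fx (fun W => finrank F W = m ∧ (f.res W).Nondeg) x.toLinearMap ↔ Even m := by
  refine ⟨fun ⟨W, ⟨a, c⟩, d⟩ => ?_, fun ⟨k, e⟩ => ?_⟩
  · obtain ⟨j, k, -⟩ := c2_det c h2 (rs_mem hx d) hb fun v => Subtype.ext (h v)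
    exact ⟨j, by omega⟩
  rw [e, ← mul_two]
  refine nd_chain hf hx (fun W a c d => ?_) k (by omega)
  obtain ⟨D, d1, d2, d3⟩ := c2_pair h2 (rs_mem hx c) hb fun v => Subtype.ext (h v)
  obtain ⟨u, u1, w, w1, e⟩ := d1.hyp a (by omega)
  have := plane (f := f) (u := u) (w := w) e.hx e.hy (e.hxy.trans_ne one_ne_zero)
  exact ⟨_, by simp, this.1, this.2, inv_sup (g := x.toLinearMap) (inv_span (Submodule.mem_span_singleton.mpr ⟨_, (congrArg Subtype.val (d2 u u1)).symm⟩))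
    (inv_span (Submodule.mem_span_singleton.mpr ⟨_, (congrArg Subtype.val (d3 w w1)).symm⟩))⟩

theorem det_rho {U : Submodule F V} (hc : IsCompl U (f.perp U)) : LinearMap.det (rho hc).toLinearMap = (-1) ^ finrank F U := by
  simpa using det_pair hc (x := (rho hc).toLinearMap) (a := -1) (b := 1) (fun v k => by simpa using rho_left hc k) fun v k => by simpa using rho_right hc k

/-- the map stabilizes a pair of complementary totally singular subspaces -/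
def SP (f : CForm P V) (g : End F V) : Prop := ∃ D, LP f D ∧ ((D.1.map g = D.1 ∧ D.2.map g = D.2) ∨ (D.1.map g = D.2 ∧ D.2.map g = D.1))

theorem SP.of_inv {x : V ≃ₗ[F] V} {D : Submodule F V × Submodule F V} (h : LP f D) (h1 : ∀ v ∈ D.1, x v ∈ D.1) (h2 : ∀ v ∈ D.2, x v ∈ D.2) :
    SP f x.toLinearMap := ⟨D, h, Or.inl ⟨mem_stabS_iff_map.mp (mem_stabS_of_le h1), mem_stabS_iff_map.mp (mem_stabS_of_le h2)⟩⟩

omit [FiniteDimensional F V] in
theorem SP.smul (c : F) (hc : c ≠ 0) (g : End F V) (h : SP f (c • g)) : SP f g := by simpa only [SP, Submodule.map_smul _ _ _ hc] using h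

theorem rank_one (hf : f.Nondeg) (h4 : 4 ≤ finrank F V) {x : V ≃ₗ[F] V} (hx : x ∈ f.Isom) (h1 : x ≠ 1) {a : V} (ha : ∀ v, x v - v ∈ F ∙ a) :
    ¬ SP f x.toLinearMap := by
  rintro ⟨D, h, k⟩
  have t := TS_half hf h.2.1 h.2.2 h.1
  rcases k with k | k
  · obtain ⟨v, hv⟩ := not_forall.mp (mt LinearEquiv.ext h1)
    have key : ∀ K : Submodule F V, f.perp K = K → K.map x.toLinearMap = K → x v - v ∈ K := fun K b c => by
      by_cases e : ∀ w ∈ K, x w = w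
      · exact b.le fun w hw => by rw [B_sub_left, ← e w hw, hx.1, e w hw, sub_self]
      push Not at e
      obtain ⟨w, w1, w2⟩ := e
      obtain ⟨s, hs⟩ := Submodule.mem_span_singleton.mp (ha w)
      obtain ⟨l, hl⟩ := Submodule.mem_span_singleton.mp (ha v)
      exact hl ▸ K.smul_mem l ((K.smul_mem_iff (by rintro rfl; exact w2 (sub_eq_zero.mp (by simpa using hs.symm)))).mp
        (hs ▸ sub_mem (c.le ⟨w, w1, rfl⟩) w1))
    exact hv (sub_eq_zero.mp (Submodule.disjoint_def.mp h.1.disjoint _ (key _ t.2.2 k.1) (key _ (TS_half hf h.2.2 h.2.1 h.1.symm).2.2 k.2)))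
  · have := (LinearMap.finrank_range_of_inj (f := (x.toLinearMap - 1 : End F V) ∘ₗ D.1.subtype) ((injective_iff_map_eq_zero _).mpr fun v e =>
      Subtype.ext (Submodule.disjoint_def.mp h.1.disjoint _ v.2 (k.1.le ⟨v, v.2, sub_eq_zero.mp e⟩)))).symm.trans_le
      (Submodule.finrank_mono (t := F ∙ a) (by rintro _ ⟨v, rfl⟩; exact ha v))
    have := finrank_span_le_card (R := F) {a}
    simp only [Set.toFinset_singleton, Finset.card_singleton] at this
    omega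

theorem lp_sum {U : Submodule F V} (hc : IsCompl U (f.perp U)) {D : Submodule F U × Submodule F U} {E : Submodule F (f.perp U) × Submodule F (f.perp U)}
    (h : LP (f.res U) D) (k : LP (f.res (f.perp U)) E) :
    LP f (D.1.map U.subtype ⊔ E.1.map (f.perp U).subtype, D.2.map U.subtype ⊔ E.2.map (f.perp U).subtype) := by
  have t : ∀ A B, (f.res U).TS A → (f.res (f.perp U)).TS B → f.TS (A.map U.subtype ⊔ B.map (f.perp U).subtype) := fun A B a b => by
    refine ⟨fun w hw => ?_, fun v hv w hw => ?_⟩ <;> obtain ⟨_, ⟨c, c1, rfl⟩, _, ⟨d, d1, rfl⟩, rfl⟩ := Submodule.mem_sup.mp hw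
    · exact (f.Q_add_of_perp (f.mem_perp'.mp d.2 _ c.2)).trans <| by simpa using congrArg₂ (· + ·) (a.1 c c1) (b.1 d d1)
    · obtain ⟨_, ⟨c', c2, rfl⟩, _, ⟨d', d2, rfl⟩, rfl⟩ := Submodule.mem_sup.mp hv
      simpa [f.mem_perp'.mp d.2 _ c'.2, d'.2 _ c.2] using congrArg₂ (· + ·) (a.2 c' c2 c c1) (b.2 d' d2 d d1)
  have s : (D.1.map U.subtype ⊔ E.1.map (f.perp U).subtype) ⊔ (D.2.map U.subtype ⊔ E.2.map (f.perp U).subtype) = ⊤ := by
    rw [sup_sup_sup_comm, ← Submodule.map_sup, ← Submodule.map_sup, h.1.sup_eq_top, k.1.sup_eq_top]; simpa using hc.sup_eq_top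
  refine ⟨⟨disjoint_iff.mpr (Submodule.finrank_eq_zero.mp ?_), codisjoint_iff.mpr s⟩, t _ _ h.2.1 k.2.1, t _ _ h.2.2 k.2.2⟩
  have a1 := Submodule.finrank_sup_add_finrank_inf_eq (D.1.map U.subtype ⊔ E.1.map (f.perp U).subtype) (D.2.map U.subtype ⊔ E.2.map (f.perp U).subtype)
  have a2 := Submodule.finrank_add_le_finrank_add_finrank (D.1.map U.subtype) (E.1.map (f.perp U).subtype)
  have a3 := Submodule.finrank_add_le_finrank_add_finrank (D.2.map U.subtype) (E.2.map (f.perp U).subtype)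
  have := Submodule.finrank_add_eq_of_isCompl hc
  have := Submodule.finrank_add_eq_of_isCompl h.1
  have := Submodule.finrank_add_eq_of_isCompl k.1
  rw [s, finrank_top] at a1
  simp only [Submodule.finrank_map_subtype_eq] at a2 a3 ⊢
  omega

end

variable {σ : F →+* F} {q : ℕ} {h : ∀ a, σ (σ a) = a} {f : CForm (FP.unit σ h) V}

theorem TS_un (H : UF σ q) (hf : f.Nondeg) (k : ℕ) : (∃ K, f.TS K ∧ finrank F K = k) ↔ 2 * k ≤ finrank F V :=
  ⟨fun ⟨_, a, b⟩ => b ▸ TS_le hf a, unit_exists_TS H hf⟩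

theorem lp_un (H : UF σ q) (hf : f.Nondeg) {d : ℕ} (hd : finrank F V = 2 * d) : ∃ D, LP f D := by
  obtain ⟨D, d1, d2⟩ := lag hf (one_mem _) id hd fun W a _ c _ => by
    obtain ⟨u, w, e⟩ := unit_exists_hyp H a c
    exact ⟨fun b => if b then w else u, e.hxy.trans_ne one_ne_zero, by
      rintro (_ | _); exacts [⟨u.2, e.hx, Submodule.mem_span_singleton_self _⟩, ⟨w.2, e.hy, Submodule.mem_span_singleton_self _⟩]⟩
  exact ⟨(D false, D true), d1, (d2 _).1, (d2 _).1⟩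

theorem LP.orbS (H : UF σ q) (hf : f.Nondeg) (h0 : 0 < finrank F V) {D : Submodule F V × Submodule F V} (k : LP f D) (E : Submodule F V × Submodule F V) :
    LP f E ↔ ∃ g ∈ f.SIsom, g • D = E := by
  refine (k.orb hf E).trans ⟨?_, fun ⟨g, a, b⟩ => ⟨g, (mem_SIsom.mp a).1, b⟩⟩
  rintro ⟨g, a, rfl⟩
  obtain ⟨u, u1, w, w1, e⟩ := k.hyp hf h0
  have n := det_norm hf a
  obtain ⟨l, l0, l1⟩ := exists_div_σ H.ne_id h (m := (LinearMap.det g.toLinearMap)⁻¹) (by rw [map_inv₀, ← mul_inv]; exact inv_eq_one.mpr n)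
  obtain ⟨t, ht⟩ := exists_tor e l0
  have iv : ∀ K : Submodule F V, f.TS K → u ∈ K ∨ w ∈ K → K.map t.toLinearMap = K := fun K b c => mem_stabS_iff_map.mp (mem_stabS_of_le fun v hv => by
    obtain ⟨y, y1, y2, y3⟩ := e.decomp v
    have : t v = v + ((l - 1) * f.B v w) • u + (((σ l)⁻¹ - 1) * f.B v u) • w := by
      conv_lhs => rw [y3]
      conv_rhs => enter [1, 1]; rw [y3]
      simp only [map_add, map_smul, ht.app_x, ht.app_y, ht.fix y1 y2, FP.unit_ε, FP.unit_σ]; module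
    rw [this]
    rcases c with c | c
    · simpa [b.2 v hv u c] using add_mem hv (K.smul_mem _ c)
    · simpa [b.2 v hv w c] using add_mem hv (K.smul_mem _ c))
  refine ⟨g * t, mem_SIsom.mpr ⟨mul_mem a ht.mem_Isom, ?_⟩, by
    rw [mul_smul, show t • D = D from Prod.ext (iv _ k.2.1 (Or.inl u1)) (iv _ k.2.2 (Or.inr w1))]⟩
  rw [show (g * t).toLinearMap = g.toLinearMap * t.toLinearMap from rfl, map_mul, ht.det, FP.unit_σ, l1, mul_inv_cancel₀ (left_ne_zero_of_mul_eq_one n)]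

theorem np_two (H : UF σ q) (hf : f.Nondeg) (ho : Odd q) (h2 : (2 : F) ≠ 0) {n : ℕ} (hn : finrank F V = n) (h0 : 0 < n) :
    (∃ x ∈ f.SIsom, ∃ z, NQ σ 2 z ∧ (x.toLinearMap : End F V) ^ 2 = z • 1) ↔ Even n ∧ ¬ (padicValNat 2 n ≤ padicValNat 2 (q + 1) ∧ q % 4 = 3) := by
  have key : ∀ j, n = 2 * j → ((∃ z, NQ σ 2 z ∧ (-z) ^ j = 1) ↔ ¬ (padicValNat 2 n ≤ padicValNat 2 (q + 1) ∧ q % 4 = 3)) := fun j e => by
    by_cases k : q % 4 = 3
    · have := mt (NQ.neg H ho).mp (not_not.mpr k)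
      simp only [NQ, not_and, not_forall, not_not] at this
      obtain ⟨c, c1, c2⟩ := this (by simp)
      have m : ∀ z, NQ σ 2 z → NQ σ 2 (-z) := fun z a => ⟨by simpa using a.1, fun b b1 b2 => a.2 (c * b)
        (by rw [map_mul, mul_mul_mul_comm, c1, b1, one_mul]) (by rw [mul_pow, c2, b2]; simp)⟩
      rw [and_iff_left k, e, padicValNat.mul two_ne_zero (by omega), padicValNat_self, not_le, add_comm 1, Nat.lt_succ_iff,
        ← nq_iff H Nat.prime_two ho.add_one.two_dvd (by omega)]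
      exact ⟨fun ⟨z, a, b⟩ => ⟨_, m z a, b⟩, fun ⟨z, a, b⟩ => ⟨_, m z a, by rwa [neg_neg]⟩⟩
    · exact iff_of_true ⟨-1, (NQ.neg H ho).mpr k, by simp⟩ fun a => k a.2
  constructor
  · rintro ⟨x, a, z, b, c⟩
    obtain ⟨l, rfl, l1⟩ := b.two H ho
    obtain ⟨j, j1, j2⟩ := c2_det hf h2 (mem_SIsom.mp a).1 l1 (sq_app c)
    exact ⟨⟨j, by omega⟩, (key j (by omega)).mp ⟨_, b, j2 ▸ (mem_SIsom.mp a).2⟩⟩
  · rintro ⟨⟨j, e⟩, a⟩
    obtain ⟨z, b, c⟩ := (key j (by omega)).mpr a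
    obtain ⟨l, rfl, l1⟩ := b.two H ho
    obtain ⟨D, d⟩ := lp_un H hf (d := j) (by omega)
    obtain ⟨x, x1, x2⟩ := c2_ex d l1
    obtain ⟨j', j1, j2⟩ := c2_det hf h2 x1 l1 x2
    exact ⟨x, mem_SIsom.mpr ⟨x1, by rwa [j2, show j' = j by omega]⟩, _, b, LinearMap.ext x2⟩

theorem np_odd (H : UF σ q) (hf : f.Nondeg) {r : ℕ} (hr : r.Prime) (h2 : r ≠ 2) (hq : r ∣ q + 1) {n : ℕ} (hn : finrank F V = n) (h0 : 0 < n) :
    (∃ x ∈ f.SIsom, ∃ z, NQ σ r z ∧ (x.toLinearMap : End F V) ^ r = z • 1) ↔ ¬ padicValNat r n ≤ padicValNat r (q + 1) := by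
  haveI := Fact.mk hr
  have key : ∀ (x : End F V) z, NQ σ r z → x ^ r = z • 1 → ∃ j, n = j * r ∧ LinearMap.det x = z ^ j := fun x z a b => by
    obtain ⟨j, c⟩ := HT_kummer hr b (a.odd H hr h2 hq)
    exact ⟨j, by rw [← hn, c.dim fun b hb => Multiset.eq_of_mem_replicate hb ▸ PP.ne (pp_kummer hr (a.odd H hr h2 hq))]; simp,
      by rw [det_kummer hr (a.odd H hr h2 hq) c, (hr.odd_of_ne_two h2).neg_one_pow]; simp⟩
  have k2 : ∀ j, n = j * r → ((∃ w, NQ σ r w ∧ w ^ j = 1) ↔ ¬ padicValNat r n ≤ padicValNat r (q + 1)) := fun j e => by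
    have : j ≠ 0 := by rintro rfl; omega
    rw [nq_iff H hr hq this, e, padicValNat.mul this hr.ne_zero, padicValNat_self]; omega
  constructor
  · rintro ⟨x, a, z, b, c⟩
    obtain ⟨j, j1, j2⟩ := key _ z b c
    exact (k2 j j1).mp ⟨z, b, j2 ▸ (mem_SIsom.mp a).2⟩
  · intro a
    obtain ⟨j, e⟩ : r ∣ n := dvd_of_one_le_padicValNat (by omega)
    obtain ⟨z, b, c⟩ := (k2 j (by rw [e, mul_comm])).mpr a
    obtain ⟨x, x1, x2⟩ := kum_unit H hf hr b.1 (b.odd H hr h2 hq) ⟨j, hn.trans e⟩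
    obtain ⟨j', j1, j2⟩ := key _ z b x2
    exact ⟨x, mem_SIsom.mpr ⟨x1, by rwa [j2, Nat.eq_of_mul_eq_mul_right hr.pos (j1.symm.trans (e.trans (mul_comm r j)))]⟩, z, b, x2⟩

theorem diag_nd (H : UF σ q) (hf : f.Nondeg) {r : ℕ} (hr : r.Prime) (hq : r ∣ q + 1) {y : V ≃ₗ[F] V} (hy : y ∈ f.Isom) (h1 : y ^ r = 1) {m : ℕ}
    (hm : m ≤ finrank F V) : Fx (fun W => finrank F W = m ∧ (f.res W).Nondeg) y.toLinearMap := by
  haveI := H.fin
  haveI := Fintype.ofFinite F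
  obtain ⟨p, _⟩ := CharP.exists F
  haveI := Fact.mk (CharP.char_is_prime F p)
  have c := H.card_units
  rw [Nat.card_eq_fintype_card] at c
  have d : r ∣ Fintype.card F - 1 := c ▸ hq.mul_left _
  have hrp : r ≠ p := ne_char (F := F) hr one_pos (zmod_of_dvd Fintype.card_pos (by rwa [pow_one]))
  rw [← mul_one m]
  refine nd_chain hf hy (fun W a b c => ?_) m (by omega)
  have e := pow_smul (rs_pow h1 b)
  obtain ⟨U, u1, u2⟩ := diag_inv (g := (rs y b).toLinearMap) hr hrp d one_ne_zero (by rwa [one_pow]) c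
  obtain ⟨v, v0, hv⟩ := finrank_eq_one_iff'.mp u1
  obtain ⟨l, hl⟩ := hv ⟨_, u2 v v.2⟩
  have e1 : (rs y b).toLinearMap v = l • v.1 := (congrArg Subtype.val hl).symm
  have v1 : v.1 ≠ 0 := fun k => v0 (Subtype.ext k)
  have e2 := End.HasEigenvector.pow_apply ⟨End.mem_eigenspace_iff.mpr e1, v1⟩ r
  rw [e] at e2
  have l1 : l⁻¹ ^ r = 1 := by rw [inv_pow, ← smul_left_injective F v1 e2, inv_one]
  obtain ⟨k, hk⟩ := hq
  obtain ⟨s, s1, s2⟩ := smul_N (l := l⁻¹) ((H.norm_eq _).trans (by rw [hk, pow_mul, l1, one_pow])) (rs_mem hy b)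
  have l0 : l ≠ 0 := by rintro rfl; simp [hr.ne_zero] at l1
  obtain ⟨w, w1⟩ := unit_exists_Q_ne H.ne_id (ker_nondeg a s1 (r := r) (pow_coe_iff.mpr (by rw [s2, _root_.smul_pow, l1, e]; simp)) (natCast_ne hr hrp))
    (finrank_pos_iff_exists_ne_zero.mpr ⟨⟨v.1, by rw [LinearMap.mem_ker, s2, LinearMap.sub_apply, LinearMap.smul_apply, e1]; simp [l0]⟩,
      fun k => v1 (congrArg Subtype.val k)⟩)
  have w2 : l⁻¹ • ((rs y b) w.1 : V) = w.1.1 := by simpa [s2, sub_eq_zero, Subtype.ext_iff] using w.2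
  rw [unit_Q] at w1
  exact ⟨F ∙ w.1.1, by simp, nd_span w1, finrank_span_singleton fun k => w1 (by simp [k]),
    inv_span (Submodule.mem_span_singleton.mpr ⟨l, ((inv_smul_eq_iff₀ l0).mp w2).symm⟩)⟩

theorem nd_un (H : UF σ q) (hf : f.Nondeg) {m : ℕ} (hm : m ≤ finrank F V) : ∃ U : Submodule F V, (f.res U).Nondeg ∧ finrank F U = m := by
  obtain ⟨U, ⟨a, b⟩, -⟩ := nd_chain hf (one_mem _) (a := 1) (fun W a _ c => by
    obtain ⟨w, w1⟩ := unit_exists_Q_ne H.ne_id a c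
    rw [unit_Q] at w1
    exact ⟨F ∙ w.1, by simp, nd_span w1, finrank_span_singleton fun k => w1 (by simp [k]), fun _ h => h⟩) m (by omega)
  exact ⟨U, b, by omega⟩

theorem sum_pow {U W : Submodule F V} (hc : IsCompl U W) {a : U ≃ₗ[F] U} {b : W ≃ₗ[F] W} {r : ℕ} {z : F} (h1 : (a.toLinearMap : End F U) ^ r = z • 1)
    (h2 : (b.toLinearMap : End F W) ^ r = z • 1) : ((sumHom hc (a, b)).toLinearMap : End F V) ^ r = z • 1 := LinearMap.ext fun v => by
  obtain ⟨c, d, rfl, -⟩ := Submodule.existsUnique_add_of_isCompl hc v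
  rw [pow_lin] at *
  rw [← map_pow, LinearEquiv.coe_coe, sumHom_apply]
  simpa using congrArg₂ (fun (x : U) (y : W) => x.1 + y.1) (LinearMap.congr_fun h1 c) (LinearMap.congr_fun h2 d)

theorem kum_fx (H : UF σ q) (hf : f.Nondeg) {r : ℕ} (hr : r.Prime) {z : F} (hz : ∀ b, b ^ r ≠ z) {x y : V ≃ₗ[F] V} (hx : x ∈ f.Isom) (hy : y ∈ f.Isom)
    (h1 : (x.toLinearMap : End F V) ^ r = z • 1) (h2 : (y.toLinearMap : End F V) ^ r = z • 1) {Ω : Submodule F V → Prop}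
    (hΩ : ∀ W, ∀ g ∈ f.Isom, Ω W → Ω (W.map g.toLinearMap)) (k : Fx Ω y.toLinearMap) : Fx Ω x.toLinearMap := by
  haveI := H.fin
  obtain ⟨u, hu⟩ := isConj_iff.mp ((unit_isConj H.ne_id hf (x := ⟨y, hy⟩) (y := ⟨x, hx⟩)).mpr (kum_sim hr hz h2 h1 rfl))
  obtain ⟨W, a, b⟩ := k
  refine ⟨_, hΩ W u.1 u.2 a, ?_⟩
  rintro _ ⟨v, c, rfl⟩
  exact ⟨_, b v c, LinearEquiv.congr_fun (congrArg Subtype.val (mul_inv_eq_iff_eq_mul.mp hu)) v⟩

theorem kum_nd (H : UF σ q) (hf : f.Nondeg) {r : ℕ} (hr : r.Prime) {z : F} (h0 : z * σ z = 1) (hz : ∀ b, b ^ r ≠ z) {x : V ≃ₗ[F] V} (hx : x ∈ f.Isom)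
    (h1 : (x.toLinearMap : End F V) ^ r = z • 1) {m : ℕ} (hm : m ≤ finrank F V) :
    Fx (fun W => finrank F W = m ∧ (f.res W).Nondeg) x.toLinearMap ↔ r ∣ m := by
  refine ⟨fun ⟨W, a, b⟩ => a.1 ▸ kum_dvd hr hz h1 b, fun k => ?_⟩
  obtain ⟨U, u1, rfl⟩ := nd_un H hf hm
  have := hf.finrank_perp U
  obtain ⟨a, a1, a2⟩ := kum_unit H u1 hr h0 hz k
  obtain ⟨b, b1, b2⟩ := kum_unit H (hf.res_perp u1) hr h0 hz ((Nat.dvd_add_right k).mp (by simpa [this] using kum_dvd hr hz h1 (W := ⊤) (by simp)))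
  exact kum_fx H hf hr hz hx ((sumHom_mem_Isom (nd_compl hf u1) (p := (a, b))).mpr ⟨a1, b1⟩) h1 (sum_pow _ a2 b2)
    (fun W g c d => ⟨(g.finrank_map_eq _).trans d.1, nd_map d.2 c⟩) ⟨U, ⟨rfl, u1⟩, fun v hv => (sumHom_left _ _ ⟨v, hv⟩).symm ▸ Subtype.prop _⟩

theorem kum_TS (H : UF σ q) (hf : f.Nondeg) {r : ℕ} (hr : r.Prime) {z : F} (h0 : z * σ z = 1) (hz : ∀ b, b ^ r ≠ z) {x : V ≃ₗ[F] V} (hx : x ∈ f.Isom)
    (h1 : (x.toLinearMap : End F V) ^ r = z • 1) {m : ℕ} (hm : 2 * m ≤ finrank F V) :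
    Fx (fun W => finrank F W = m ∧ f.TS W) x.toLinearMap ↔ r ∣ m := by
  refine ⟨fun ⟨W, a, b⟩ => a.1 ▸ kum_dvd hr hz h1 b, fun k => ?_⟩
  obtain ⟨U, u1, u2⟩ := nd_un H hf hm
  have := hf.finrank_perp U
  obtain ⟨D, d⟩ := lp_un H u1 u2
  have t := TS_half u1 d.2.1 d.2.2 d.1
  obtain ⟨A, a0⟩ := kum_equiv (V := D.1) hr hz (show finrank F D.1 = m by omega ▸ k)
  obtain ⟨a, a1, a2, a3, a4⟩ := pair_trans u1 d.2.1 d.2.2 d.1 d.2.1 d.2.2 d.1 A
  obtain ⟨s, s1, s2⟩ := scal_N (f := f.res U) h0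
  have a5 : ∀ k (u : D.1), (a ^ k) u = (A ^ k) u := fun k => by
    induction k with
    | zero => simp
    | succ k ih => intro u; rw [pow_succ', pow_succ', LinearEquiv.mul_apply, ih, a2]; rfl
  have a6 : a ^ r = s := d.ext u1 (pow_mem a1 r) s1 (fun v hv => (a5 r ⟨v, hv⟩).trans (by
      rw [pow_lin] at a0
      exact (congrArg Subtype.val (LinearMap.congr_fun a0 ⟨v, hv⟩)).trans (LinearMap.congr_fun s2 v).symm))
    (mem_stabS_iff_map.mp (pow_mem (mem_stabS_iff_map.mpr a3) r)) (fun v => ((pow_mem (mem_stabS_iff_map.mpr a4) r) v).mp)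
    fun v hv => (LinearMap.congr_fun s2 v).symm ▸ D.2.smul_mem _ hv
  obtain ⟨b, b1, b2⟩ := kum_unit H (hf.res_perp u1) hr h0 hz ((Nat.dvd_add_right (u2 ▸ k.mul_left 2)).mp
    (by simpa [this] using kum_dvd hr hz h1 (W := ⊤) (by simp)))
  refine kum_fx H hf hr hz hx ((sumHom_mem_Isom (nd_compl hf u1) (p := (a, b))).mpr ⟨a1, b1⟩) h1
    (sum_pow _ (by rw [pow_lin, a6, s2]) b2) (fun W g c d => ⟨(g.finrank_map_eq _).trans d.1, d.2.map c⟩)
    ⟨D.1.map U.subtype, ⟨by rw [Submodule.finrank_map_subtype_eq]; omega, TS_map_subtype d.2.1⟩, ?_⟩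
  rintro _ ⟨v, c, rfl⟩
  exact ⟨a v, a3.le ⟨v, c, rfl⟩, (sumHom_left (nd_compl hf u1) (a, b) v).symm⟩

theorem two_s (H : UF σ q) (hf : f.Nondeg) {r : ℕ} (h0 : (r : F) ≠ 0) (hq : r ∣ q + 1) {T : Finset F[X]} (U : UP σ r T 1 True) {s : ℕ} (h1 : 0 < s)
    (h2 : 2 * s < r) (h3 : 2 * s ≤ finrank F V) : ∃ x ∈ f.Isom, x ^ r = 1 ∧ LinearMap.det x.toLinearMap = 1 ∧ (∀ c : F, x.toLinearMap ≠ c • 1) ∧
      ∀ K, f.TS K → (∀ v ∈ K, x v ∈ K) → 2 * finrank F K + 2 * s ≤ finrank F V := by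
  classical
  obtain ⟨ζ, -, hζ⟩ := N_prim H hq
  let e : ℕ → ℕ := fun a => if a < s then a + 1 else r - (a - s + 1)
  let w : Multiset F[X] := (Finset.range (s + s)).val.map fun a => X - C (ζ ^ e a)
  have inj : ∀ a < r, ∀ b < r, (X - C (ζ ^ a) : F[X]) = X - C (ζ ^ b) → a = b := fun a ha b hb k => hζ.pow_inj ha hb (C_injective (sub_right_injective k))
  have el : ∀ a < s + s, 0 < e a ∧ e a < r := fun a ha => by simp only [e]; split_ifs <;> omega
  have nd : w.Nodup := (Finset.range _).nodup.map_on fun a ha b hb k => by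
    have := inj _ (el a (by simpa using ha)).2 _ (el b (by simpa using hb)).2 k
    simp only [Finset.mem_val, Finset.mem_range, e] at *
    split_ifs at this <;> omega
  have hw : ∀ a ∈ w, a ∈ T := fun a ha => by
    obtain ⟨b, hb, rfl⟩ := Multiset.mem_map.mp ha
    have := el b (by simpa using hb)
    exact ((U.mem _).mp ⟨pp_lin _, dvd_iff_isRoot.mpr (by simp [pow_right_comm ζ (e b) r, hζ.pow_eq_one, -map_pow])⟩).resolve_left
      fun k => this.1.ne' (inj _ this.2 0 (by omega) (by rwa [pow_zero]))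
  have sw : SU σ r T 1 1 w (s + s) := ⟨hw, U.map_sd trivial hw, by simp [w]⟩
  obtain ⟨x, x1, x2⟩ := (rz_unit H U h0 hf (finrank F V - 2 * s) w _ sw (by omega)).mpr (Or.inr trivial)
  have x3 : x.1 ^ r = 1 := congrArg Subtype.val x1
  refine ⟨x, x.2, x3, ?_, fun c k => ?_, fun K a b => ?_⟩
  · rw [HT_det x2 (U.ty_pp hw)]
    simp only [ty, w, Multiset.map_add, Multiset.map_replicate, Multiset.map_map, Function.comp, natDegree_X_sub_C, coeff_sub, coeff_X_zero, coeff_C_zero,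
      Multiset.prod_add, Multiset.prod_replicate, Finset.prod_map_val, Finset.prod_range_add, ← Finset.prod_mul_distrib]
    rw [Finset.prod_eq_one fun a ha => ?_]; · simp
    have := Finset.mem_range.mp ha
    simp only [e, this, if_true, add_lt_iff_neg_left, Nat.not_lt_zero, if_false, add_tsub_cancel_left, pow_one, zero_sub, neg_mul, one_mul, neg_neg]
    rw [← pow_add, Nat.add_sub_cancel' (by omega), hζ.pow_eq_one]
  · have := (k ▸ x2).unique (HT_scalar c) (U.ty_pp hw) fun a ha => Multiset.eq_of_mem_replicate ha ▸ pp_lin c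
    have m : ∀ a < s + s, X - C (ζ ^ e a) = X - C c := fun a ha => Multiset.eq_of_mem_replicate (by
      rw [← this]; exact Multiset.mem_add.mpr (Or.inr (Multiset.mem_map_of_mem _ (Finset.mem_range.mpr ha))))
    have := inj _ (el 0 (by omega)).2 _ (el s (by omega)).2 ((m 0 (by omega)).trans (m s (by omega)).symm)
    simp only [e, h1, if_true, lt_irrefl, if_false] at this
    omega
  · obtain ⟨c, c', t, t', -, -, e1, e2, e3, -⟩ := UP.ts_ty (P := FP.unit σ h) (c := 1) U (by simp) hf h0 x.2 x3 hw x2 a b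
    have ht : ∀ a ∈ t, a ∈ T := fun a ha => hw a (by simp [← e2, ha])
    rw [show t.map (du (FP.unit σ h).σ r) = t from U.map_sd trivial ht] at e2
    obtain rfl : t = 0 := Multiset.eq_zero_of_forall_notMem fun a ha =>
      Multiset.disjoint_left.mp (Multiset.nodup_add.mp (Multiset.nodup_add.mp (e2 ▸ nd)).1).2.2 ha ha
    simp at e3; omega

theorem uni_pair {r q m N : ℕ} (hr : r.Prime) (h2 : r ≠ 2) (hq : 2 ≤ q) (i0 : 0 < orderOf (q : ZMod r)) (h : r ∣ N)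
    (k : N * ((q ^ 2) ^ m.choose 2 * ∏ i ∈ Finset.range m, ((q ^ 2) ^ (i + 1) - 1)) = uOrd q (m + m)) :
    orderOf (q : ZMod r) % 4 = 2 ∧ orderOf (q : ZMod r) / 2 ≤ m + m := by
  haveI := Fact.mk hr
  haveI : Fact (2 < r) := ⟨lt_of_le_of_ne hr.two_le (Ne.symm h2)⟩
  have e : ∀ m, ∏ i ∈ Finset.range (m + m), (if Even i then q ^ (i + 1) + 1 else q ^ (i + 1) - 1) =
      (∏ i ∈ Finset.range m, (q ^ (i + i + 1) + 1)) * ∏ i ∈ Finset.range m, ((q ^ 2) ^ (i + 1) - 1) := fun m => by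
    induction m with
    | zero => simp
    | succ m ih =>
      rw [show m + 1 + (m + 1) = m + m + 1 + 1 by omega, Finset.prod_range_succ, Finset.prod_range_succ, ih, Finset.prod_range_succ, Finset.prod_range_succ,
        if_pos ⟨m, rfl⟩, if_neg (by simp [Nat.even_add_one]), ← pow_mul, show 2 * (m + 1) = m + m + 1 + 1 by omega]; ring
  rw [uOrd, e, ← mul_assoc, ← mul_assoc] at k
  replace k := Nat.eq_of_mul_eq_mul_right (Finset.prod_pos fun j _ => Nat.sub_pos_of_lt (Nat.one_lt_pow (by omega) (by nlinarith))) k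
  rcases (hr.dvd_mul).mp (k ▸ h.mul_right _) with e | e
  · have := pow_orderOf_eq_one (q : ZMod r)
    rw [(ZMod.natCast_eq_zero_iff _ _).mpr (hr.dvd_of_dvd_pow e)] at this i0
    rw [zero_pow i0.ne'] at this
    exact absurd this zero_ne_one
  obtain ⟨j, j1, j2⟩ := (Prime.dvd_finset_prod_iff hr.prime _).mp e
  have j3 : (q : ZMod r) ^ (j + j + 1) = -1 := eq_neg_of_add_eq_zero_left (by exact_mod_cast (ZMod.natCast_eq_zero_iff _ _).mpr j2)
  have j4 : orderOf (q : ZMod r) ∣ 2 * (j + j + 1) := orderOf_dvd_of_pow_eq_one (by rw [mul_comm, pow_mul, j3]; simp)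
  have := Finset.mem_range.mp j1
  have := Nat.le_of_dvd (by omega) j4
  have := Nat.even_iff.mp (by_contra fun o => ZMod.neg_one_ne_one (j3.symm.trans (orderOf_dvd_iff_pow_eq_one.mp
    ((Nat.coprime_two_right.mpr (Nat.not_even_iff_odd.mp o)).dvd_of_dvd_mul_left j4))))
  refine ⟨by_contra fun k' => ?_, by omega⟩
  have := (Nat.dvd_of_mod_eq_zero (show orderOf (q : ZMod r) % 4 = 0 by omega)).trans j4
  omega

end CfsgH5.El
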