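import Cfsg.Agent.H5.Mx8

set_option autoImplicit false

/-!
Triangular and block triangular subgroups of general linear groups.
-/

namespace CfsgH5.Gb

open Module Matrix Au Mx CForm

variable {F : Type*} [Field F] {ι : Type} [Fintype ι] [DecidableEq ι]

theorem card_GL [Fintype F] : Nat.card (GL ι F) =
    ∏ i : Fin (Fintype.card ι), (Fintype.card F ^ Fintype.card ι - Fintype.card F ^ (i : ℕ)) :=
  (Nat.card_congr (Units.mapEquiv (reindexAlgEquiv F F (Fintype.equivFin ι)).toMulEquiv).toEquiv).trans (card_GL_field _)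

theorem card_tri [LinearOrder ι] : Nat.card {g : GL ι F // ∀ i j, j < i → g.1 i j = 0} =
    Nat.card F ^ (Fintype.card ι).choose 2 * (Nat.card F - 1) ^ Fintype.card ι := by
  let M : ({p : ι × ι // p.1 < p.2} → F) × (ι → Fˣ) → Matrix ι ι F := fun x =>
    of fun i j => if h : i < j then x.1 ⟨(i, j), h⟩ else if i = j then x.2 i else 0
  have t : ∀ x i j, j < i → M x i j = 0 := fun x i j h => by simp [M, h.ne', h.not_gt]
  have d : ∀ x, (M x).det ≠ 0 := fun x => by
    rw [det_of_upperTriangular fun i j h => t x i j h]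
    simp [M, Finset.prod_ne_zero_iff]
  rw [← Nat.card_congr (Equiv.ofBijective (fun x => (⟨GeneralLinearGroup.mkOfDetNeZero _ (d x), t x⟩ :
    {g : GL ι F // ∀ i j, j < i → g.1 i j = 0})) ⟨fun x y h => ?_, fun g => ?_⟩), Nat.card_prod, Nat.card_fun,
    Nat.card_fun, Nat.card_units, Nat.card_eq_fintype_card (α := ι), Nat.card_eq_fintype_card (α := {p // _}),
    Fintype.card_subtype, Fintype.card_product_filter_lt]
  · have k := fun i j => congrArg (·.1.1 i j) h
    exact Prod.ext (funext fun p => by simpa [M, p.2] using k p.1.1 p.1.2) (funext fun i => Units.ext (by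
      simpa [M] using k i i))
  · have := g.1.det_ne_zero
    rw [det_of_upperTriangular fun i j h => g.2 i j h, Finset.prod_ne_zero_iff] at this
    refine ⟨(fun p => g.1.1 p.1.1 p.1.2, fun i => Units.mk0 _ (this i (Finset.mem_univ i))),
      Subtype.ext (Units.ext (Matrix.ext fun i j => ?_))⟩
    rcases lt_trichotomy i j with h | rfl | h
    · simp [M, h]
    · simp [M]
    · exact (t _ i j h).trans (g.2 i j h).symm

theorem card_block (p : ι → Prop) [DecidablePred p] : Nat.card {g : GL ι F // ∀ i j, ¬ p i → p j → g.1 i j = 0} =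
    Nat.card (Matrix {i // p i} {i // ¬ p i} F) * Nat.card (GL {i // p i} F) * Nat.card (GL {i // ¬ p i} F) := by
  let e := Equiv.sumCompl p
  let M : (Matrix {i // p i} {i // ¬ p i} F × GL {i // p i} F) × GL {i // ¬ p i} F → Matrix ι ι F := fun x =>
    reindex e e (fromBlocks x.1.2.1 x.1.1 0 x.2.1)
  have d : ∀ x, (M x).det ≠ 0 := fun x => by
    simp only [M, det_reindex_self, det_fromBlocks_zero₂₁]
    exact mul_ne_zero x.1.2.det_ne_zero x.2.det_ne_zero
  rw [← Nat.card_prod, ← Nat.card_prod]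
  refine (Nat.card_congr (Equiv.ofBijective (fun x => (⟨GeneralLinearGroup.mkOfDetNeZero _ (d x),
    fun i j a b => by simp [M, e, a, b]⟩ : {g : GL ι F // ∀ i j, ¬ p i → p j → g.1 i j = 0})) ⟨fun x y h => ?_, fun g => ?_⟩)).symm
  · obtain ⟨a, b, -, c⟩ := fromBlocks_inj.1 ((reindex e e).injective (congrArg (·.1.1) h))
    exact Prod.ext (Prod.ext b (Units.ext a)) (Units.ext c)
  · let A := (reindex e e).symm g.1.1
    have h : fromBlocks A.toBlocks₁₁ A.toBlocks₁₂ 0 A.toBlocks₂₂ = A := by
      rw [← show A.toBlocks₂₁ = 0 from Matrix.ext fun i j => g.2 _ _ i.2 j.2, fromBlocks_toBlocks]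
    have : A.det ≠ 0 := (det_reindex_self e.symm _).trans_ne g.1.det_ne_zero
    rw [← h, det_fromBlocks_zero₂₁, mul_ne_zero_iff] at this
    exact ⟨((_, .mkOfDetNeZero _ this.1), .mkOfDetNeZero _ this.2), Subtype.ext (Units.ext
      ((congrArg (reindex e e) h).trans (Equiv.apply_symm_apply _ _)))⟩

/-- coordinate subspaces -/
def cs (F : Type*) [Field F] (p : ι → Prop) : Submodule F (ι → F) where
  carrier := {v | ∀ i, p i → v i = 0}
  add_mem' ha hb i hi := by simp [ha i hi, hb i hi]
  zero_mem' _ _ := rfl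
  smul_mem' c v hv i hi := by simp [hv i hi]

theorem map_cs {p : ι → Prop} {A : Matrix ι ι F} : (∀ v ∈ cs F p, A *ᵥ v ∈ cs F p) ↔ ∀ i j, p i → ¬ p j → A i j = 0 := by
  refine ⟨fun h i j a b => by simpa using h (Pi.single j 1) (fun k c => Pi.single_eq_of_ne (by rintro rfl; exact b c) _) i a,
    fun h v hv i a => Finset.sum_eq_zero fun j _ => ?_⟩
  by_cases b : p j
  · simp [hv j b]
  · simp [h i j a b]

theorem mem_cs {H : Type*} [Group H] {y : H →* Matrix ι ι F} {p : ι → Prop} {g : H} :
    g ∈ Cfsg.stabilizing y {v | ∀ i, p i → v i = 0} ↔ ∀ i j, p i → ¬ p j → y g i j = 0 :=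
  Iff.trans ⟨fun h v => (h v).1, fun h => mem_stabS_of_le (W := cs F p) (g := toLinHom y g) h⟩ map_cs

theorem eq_of_stab {V : Type*} [AddCommGroup V] [Module F V] [FiniteDimensional F V] {U W : Submodule F V}
    (h : stabS F (U : Set V) ≤ stabS F (W : Set V)) (h1 : W ≠ ⊤) : W ≤ U := fun u hu => by
  by_contra hn
  have k : ∀ w, u ∉ U ⊔ F ∙ w → w ∈ W := fun w k => by
    obtain ⟨φ, a, b⟩ := exists_fun k
    obtain ⟨g, hg⟩ := exists_T (b w (Submodule.mem_sup_right (Submodule.mem_span_singleton_self w)))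
    have := (h (hg.stab (.inr fun w c => b w (Submodule.mem_sup_left c))) u).1 hu
    rwa [hg.app, a, one_smul, SetLike.mem_coe, W.add_mem_iff_right hu] at this
  refine h1 (eq_top_iff.2 fun w _ => by_contra fun c => c (k w fun e => ?_))
  obtain ⟨x, a, _, b, rfl⟩ := Submodule.mem_sup.1 e
  obtain ⟨l, rfl⟩ := Submodule.mem_span_singleton.1 b
  have := (W.add_mem_iff_right (k x (by rwa [sup_eq_left.2 ((Submodule.span_singleton_le_iff_mem _ _).2 a)]))).1 hu
  rcases eq_or_ne l 0 with rfl | l0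
  · exact hn (by simpa using a)
  · exact c ((W.smul_mem_iff l0).1 this)

end CfsgH5.Gb
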