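import Cfsg.Agent.H5.Fm2
import Cfsg.Agent.H5.Rk1
import Cfsg.Agent.H5.Orth7
import Cfsg.Agent.H5.Un1
import Cfsg.Agent.S2622

set_option autoImplicit false

/-! Involutory graph automorphisms of linear groups. -/

namespace CfsgH5.Gr

open Module Matrix CfsgH5 CfsgH5.CForm CfsgH5.Au CfsgH5.Au.Γ

universe u

variable {ι κ : Type} [Fintype ι] [DecidableEq ι] [Fintype κ] [DecidableEq κ] {F : Type u} [Field F]

/-- The graph automorphism attached to `a`. -/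
noncomputable def ga (a : (ι → F) ≃ₗ[F] (ι → F)) : MulAut (ProjectiveSpecialLinearGroup ι F) :=
  ΨL ι F (lin a) * grL ι F

/-- The bilinear form attached to `a`. -/
noncomputable def be (a : (ι → F) ≃ₗ[F] (ι → F)) : LinearMap.BilinForm F (ι → F) :=
  (Matrix.toBilin' 1).compRight a.symm.toLinearMap

theorem be_apply (a : (ι → F) ≃ₗ[F] (ι → F)) (u v : ι → F) : be a u v = u ⬝ᵥ a.symm v := by
  simp [be, Matrix.toBilin'_apply']

theorem be_nd (a : (ι → F) ≃ₗ[F] (ι → F)) : (be a).Nondegenerate := by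
  refine ⟨fun u h => funext fun i => ?_, fun v h => a.symm.map_eq_zero_iff.1 (funext fun i => ?_)⟩
  · simpa [be_apply] using h (a (Pi.single i 1))
  · simpa [be_apply] using h (Pi.single i 1)

theorem exists_be {B : LinearMap.BilinForm F (ι → F)} (h : ∀ v, (∀ u, B u v = 0) → v = 0) : ∃ a, be a = B := by
  have k : ∀ u v, u ⬝ᵥ toLin' (LinearMap.BilinForm.toMatrix' B) v = B u v := fun u v => by
    rw [toLin'_apply, ← Matrix.toBilin'_apply', Matrix.toBilin'_toMatrix']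
  refine ⟨(LinearEquiv.ofInjectiveEndo (toLin' (LinearMap.BilinForm.toMatrix' B))
    ((injective_iff_map_eq_zero _).2 fun v hv => h v fun u => by rw [← k, hv, dotProduct_zero])).symm, ?_⟩
  exact LinearMap.ext₂ fun u v => (be_apply _ _ _).trans (k u v)

theorem ne_of_sim {V W : Type*} [AddCommGroup V] [Module F V] [AddCommGroup W] [Module F W] [Nontrivial W]
    {B : LinearMap.BilinForm F W} (h : ∀ v, (∀ u, B u v = 0) → v = 0) {B' : V → V → F} {g : V ≃ₗ[F] W} {c : F}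
    (k : ∀ u v, B (g u) (g v) = c * B' u v) : c ≠ 0 := by
  rintro rfl
  obtain ⟨v, hv⟩ := exists_ne (0 : W)
  refine hv (h v fun u => ?_)
  simpa using k (g.symm u) (g.symm v)

theorem conj_ga (h2 : 2 ≤ Fintype.card ι) {a b g : (ι → F) ≃ₗ[F] (ι → F)} :
    ΨL ι F (lin g) * ga a * (ΨL ι F (lin g))⁻¹ = ga b ↔ ∃ c, ∀ u v, be b (g u) (g v) = c * be a u v := by
  rw [mul_inv_eq_iff_eq_mul, ga, ga, mul_assoc (ΨL ι F (lin b)), (isDual_lin g).gr_mul, ← mul_assoc, ← mul_assoc,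
    mul_left_inj, ← _root_.map_mul (ΨL ι F), ← _root_.map_mul (ΨL ι F), (pj_ΨL h2).eq_iff]
  simp only [MonoidHom.id_apply, mul_σ, lin_σ, mul_one, true_and, Γ.mul_apply, lin_apply, be_apply]
  refine exists_congr fun c => ⟨fun h u v => ?_, fun h v => b.symm.injective (dot_ext fun u => ?_)⟩
  · obtain ⟨v, rfl⟩ := a.surjective v
    simp [h, dl_dot]
  · obtain ⟨u, rfl⟩ := g.surjective u
    simp [h, dl_dot]

theorem conjUnder_ga (h2 : 2 ≤ Fintype.card ι) {a b : (ι → F) ≃ₗ[F] (ι → F)} :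
    Cfsg.IsConjUnder (DL ι F) (ga a) (ga b) ↔
      ∃ (g : (ι → F) ≃ₗ[F] (ι → F)) (c : F), ∀ u v, be b (g u) (g v) = c * be a u v :=
  ⟨fun ⟨_, ⟨g, rfl⟩, h⟩ => ⟨g, (conj_ga h2).1 h.symm⟩, fun ⟨g, h⟩ => ⟨_, ⟨g, rfl⟩, ((conj_ga h2).2 h).symm⟩⟩

theorem cent_ga (h2 : 2 ≤ Fintype.card ι) {a g : (ι → F) ≃ₗ[F] (ι → F)} :
    ΨL ι F (lin g) ∈ Subgroup.centralizer {ga a} ↔ ∃ c, ∀ u v, be a (g u) (g v) = c * be a u v := by
  rw [Subgroup.mem_centralizer_singleton_iff, ← conj_ga h2, mul_inv_eq_iff_eq_mul]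

theorem ga_sq (h2 : 2 ≤ Fintype.card ι) {a : (ι → F) ≃ₗ[F] (ι → F)} :
    ga a ^ 2 = 1 ↔ ∃ l, ∀ u v, be a u v = l * be a v u := by
  rw [ga, sq, mul_assoc, ← mul_assoc (grL _ F), (isDual_lin a).gr_mul, mul_assoc, grL_mul_grL, mul_one,
    ← _root_.map_mul, ΨL_eq_one h2]
  simp only [mul_σ, lin_σ, mul_one, true_and, Γ.mul_apply, lin_apply, be_apply]
  have k : ∀ u v, u ⬝ᵥ a.symm v = v ⬝ᵥ dl a u := fun u v => by rw [dotProduct_comm, ← dl_dot a]; simp
  refine exists_congr fun c => ⟨fun h u v => ?_, fun h v => a.symm.injective (dot_ext fun u => ?_)⟩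
  · rw [k, ← a.symm_apply_apply (dl a u), h]; simp
  · simp [← k, h v u]

theorem order_ga [Finite F] (h3 : 3 ≤ Fintype.card ι) {a : (ι → F) ≃ₗ[F] (ι → F)} :
    orderOf (ga a) = 2 ↔ (be a).IsSymm ∨ (be a).IsAlt := by
  have : Nonempty ι := Fintype.card_pos_iff.1 (by omega)
  have k : ga a ≠ 1 := fun h => ΨL_ne_gr h3 (lin a) (by rw [← grL_inv]; exact eq_inv_of_mul_eq_one_left h)
  rw [orderOf_eq_prime_iff, and_iff_left k, ga_sq (by omega)]
  constructor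
  · rintro ⟨l, h⟩
    obtain ⟨v, hv⟩ := exists_ne (0 : ι → F)
    obtain ⟨u, hu⟩ : ∃ u, be a u v ≠ 0 := by by_contra! k; exact hv ((be_nd a).2 v k)
    have : l * l = 1 := mul_right_cancel₀ hu (by rw [mul_assoc, ← h, ← h, one_mul])
    by_cases e : l = 1
    · exact Or.inl ⟨fun u v => by rw [h, e, one_mul]⟩
    · refine Or.inr fun v => (mul_eq_zero.1 (show (l - 1) * be a v v = 0 by linear_combination -h v v)).resolve_left
        (sub_ne_zero.2 e)
  · rintro (h | h)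
    exacts [⟨1, fun u v => by rw [one_mul, h.eq]⟩, ⟨-1, fun u v => by rw [neg_one_mul, h.neg_eq]⟩]

theorem graph_iff {n : ℕ} {γ : MulAut (ProjectiveSpecialLinearGroup (Fin n) F)} :
    Cfsg.IsGraphAutClassPSL γ ↔ 3 ≤ n ∧ ∃ a, γ = ga a := by
  refine and_congr_right' ⟨?_, ?_⟩
  · rintro ⟨δ, γ, h1, h2, rfl⟩
    obtain ⟨a, rfl⟩ := innerDiag_PSL.1 h1
    exact ⟨a, by rw [invTr_PSL.1 h2]; rfl⟩
  · rintro ⟨a, rfl⟩
    exact ⟨_, _, innerDiag_PSL.2 ⟨a, rfl⟩, invTr_PSL.2 rfl, rfl⟩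

theorem cent_hom (h2 : 2 ≤ Fintype.card ι) {a : (ι → F) ≃ₗ[F] (ι → F)} {V : Type*} [AddCommGroup V] [Module F V]
    {e : V ≃ₗ[F] (ι → F)} {B : V → V → F} {k : F} (he : ∀ u v, be a (e u) (e v) = k * B u v)
    {L : Type*} [Group L] (φ : L →* (V ≃ₗ[F] V)) (h1 : ∀ l, ∃ c, ∀ u v, B (φ l u) (φ l v) = c * B u v)
    (h3 : ∀ (g : V ≃ₗ[F] V) c, (∀ u v, B (g u) (g v) = c * B u v) → ∃ d l, g = scal V d * φ l)
    (N : Subgroup L) [N.Normal] (h4 : ∀ l, l ∈ N ↔ IsSc (φ l)) :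
    Nonempty (↥(DL ι F ⊓ Subgroup.centralizer {ga a}) ≃* L ⧸ N) := by
  have : Nonempty ι := Fintype.card_pos_iff.1 (by omega)
  have k0 := ne_of_sim (be_nd a).2 he
  have ce : ∀ (g : V ≃ₗ[F] V) v, conjEquiv e g (e v) = e (g v) := fun g v => by
    change e (g (e.symm (e v))) = _; rw [e.symm_apply_apply]
  refine equiv_quot_of_range ((((ΨL _ F).comp lin).comp (conjEquiv e).toMonoidHom).comp φ) ?_ ?_
  · ext β
    constructor
    · rintro ⟨l, rfl⟩
      obtain ⟨c, hc⟩ := h1 l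
      refine ⟨⟨_, rfl⟩, (cent_ga h2 (g := conjEquiv e (φ l))).2 ⟨c, fun u v => ?_⟩⟩
      obtain ⟨u, rfl⟩ := e.surjective u
      obtain ⟨v, rfl⟩ := e.surjective v
      rw [ce, ce, he, he, hc, mul_left_comm]
    · rintro ⟨⟨g, rfl⟩, hg⟩
      obtain ⟨g, rfl⟩ := (conjEquiv e).surjective g
      obtain ⟨c, hc⟩ := (cent_ga h2).1 hg
      obtain ⟨d, l, rfl⟩ := h3 g c fun u v => mul_left_cancel₀ k0 (by rw [← he, ← ce, ← ce, hc, he, mul_left_comm])
      have : conjEquiv e (scal V d * φ l) = scal _ d * conjEquiv e (φ l) := LinearEquiv.ext fun v => by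
        obtain ⟨v, rfl⟩ := e.surjective v
        simp [ce]
      refine ⟨l, ?_⟩
      rw [this, _root_.map_mul, MonoidHom.comp_apply (ΨL ι F) lin (scal _ d), ΨL_scal h2, one_mul]
      rfl
  · ext l
    rw [h4, MonoidHom.mem_ker]
    refine (ΨL_eq_one h2).trans ((and_iff_right rfl).trans (exists_congr fun c => ?_))
    refine e.surjective.forall.trans (forall_congr' fun v => ?_)
    change conjEquiv e _ _ = _ ↔ _
    rw [ce, ← _root_.map_smul, e.injective.eq_iff]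

theorem cent_proj (h2 : 2 ≤ Fintype.card ι) {a : (ι → F) ≃ₗ[F] (ι → F)} {e : (κ → F) ≃ₗ[F] (ι → F)}
    {B : (κ → F) → (κ → F) → F} {k : F} (he : ∀ u v, be a (e u) (e v) = k * B u v) :
    Nonempty (↥(DL ι F ⊓ Subgroup.centralizer {ga a}) ≃* Cfsg.projQuot (Cfsg.Geo.similarityGroup B)) := by
  have : Nonempty ι := Fintype.card_pos_iff.1 (by omega)
  refine cent_hom h2 he (gl.comp (Cfsg.Geo.similarityGroup B).subtype) (fun l => l.2.elim fun c h => ⟨c, h⟩) (fun g c h => ?_) _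
    fun l => Subgroup.mem_subgroupOf.trans isSc_gl.symm
  obtain ⟨g, rfl⟩ := gl_surjective g
  have : c ≠ 0 := fun z => ne_of_sim (be_nd a).2 (g := (gl g).trans e) (c := k * c) (B' := B)
    (fun u v => by rw [LinearEquiv.trans_apply, LinearEquiv.trans_apply, he, h, mul_assoc]) (by simp [z])
  exact ⟨1, ⟨g, Units.mk0 c this, h⟩, by simp⟩

theorem quadSim_eq (h2 : (2 : F) ≠ 0) (Q : QuadraticForm F (κ → F)) :
    Cfsg.Geo.quadSimilarityGroup ⇑Q = Cfsg.Geo.similarityGroup (ofQuad Q).B := by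
  ext g
  refine exists_congr fun c => ⟨fun h u v => ?_, fun h v => mul_left_cancel₀ h2 ?_⟩
  · rw [orth_B, orth_B, ← mulVec_add]; simp only [ofQuad_Q, h]; ring
  · simpa [orth_B_self, mul_left_comm] using h v v

theorem cent_orth (h : 2 ≤ Fintype.card ι) (h2 : (2 : F) ≠ 0) {a : (ι → F) ≃ₗ[F] (ι → F)} (hs : (be a).IsSymm)
    {Q : QuadraticForm F (κ → F)} {c : F} {e : (κ → F) ≃ₗ[F] (ι → F)}
    (he : ((ofQuad Q).scale c).IsIso (ofSymm (be a)) e) :
    Nonempty (↥(DL ι F ⊓ Subgroup.centralizer {ga a}) ≃* Cfsg.PGO F ⇑Q) := by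
  unfold Cfsg.PGO
  rw [quadSim_eq h2]
  refine cent_proj h (e := e) (k := c / 2) fun u v => ?_
  have := he.1 u v
  rw [ofSymm_B hs] at this
  field_simp
  rw [mul_comm, this]; rfl

theorem iso_scale {V W : Type*} [AddCommGroup V] [Module F V] [AddCommGroup W] [Module F W]
    {f : CForm (FP.orth F) V} {f' : CForm (FP.orth F) W} {e : V ≃ₗ[F] W} (h : f.IsIso f' e) :
    (f.scale 1).IsIso f' e := ⟨by simpa [scale] using h.1, by simpa [scale] using h.2⟩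

theorem cent_sp {m : ℕ} (hm : Fintype.card ι = 2 * m) (h : 1 ≤ m) {a : (ι → F) ≃ₗ[F] (ι → F)} (hs : (be a).IsAlt) :
    Nonempty (↥(DL ι F ⊓ Subgroup.centralizer {ga a}) ≃* Cfsg.PGSp m F) := by
  obtain ⟨e, he⟩ := symp_exists_isIso (2 * m) (spForm_nondeg (F := F) m) (ofAlt_nondeg hs (be_nd a))
    (finrank_sum_fun m) (by simpa using hm)
  exact cent_proj (by omega) (e := e) (k := 1) fun u v => (he.1 u v).trans (one_mul _).symm

theorem conj_alt (h : 2 ≤ Fintype.card ι) {a b : (ι → F) ≃ₗ[F] (ι → F)} (ha : (be a).IsAlt) (hb : (be b).IsAlt) :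
    Cfsg.IsConjUnder (DL ι F) (ga a) (ga b) := by
  obtain ⟨e, he⟩ := symp_exists_isIso _ (ofAlt_nondeg ha (be_nd a)) (ofAlt_nondeg hb (be_nd b)) rfl rfl
  exact (conjUnder_ga h).2 ⟨e, 1, fun u v => (he.1 u v).trans (one_mul _).symm⟩

theorem conj_symm (h : 2 ≤ Fintype.card ι) (h2 : (2 : F) ≠ 0) {a b : (ι → F) ≃ₗ[F] (ι → F)} (ha : (be a).IsSymm)
    (hb : (be b).IsSymm) : Cfsg.IsConjUnder (DL ι F) (ga a) (ga b) ↔
      ∃ c e, c ≠ 0 ∧ ((ofSymm (be a)).scale c).IsIso (ofSymm (be b)) e := by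
  have : Nonempty ι := Fintype.card_pos_iff.1 (by omega)
  rw [conjUnder_ga h]
  constructor
  · rintro ⟨g, c, k⟩
    exact ⟨c, g, ne_of_sim (be_nd b).2 k, fun u v => by simp [scale, ofSymm_B ha, ofSymm_B hb, k, mul_left_comm],
      fun v => k v v⟩
  · rintro ⟨c, g, -, k⟩
    exact ⟨g, c, fun u v => mul_left_cancel₀ h2 (by simpa [scale, ofSymm_B ha, ofSymm_B hb, mul_left_comm] using k.1 u v)⟩

theorem alt_of_conj (h : 2 ≤ Fintype.card ι) {a b : (ι → F) ≃ₗ[F] (ι → F)} (ha : (be a).IsAlt)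
    (k : Cfsg.IsConjUnder (DL ι F) (ga a) (ga b)) : (be b).IsAlt := fun v => by
  obtain ⟨g, c, k⟩ := (conjUnder_ga h).1 k
  obtain ⟨v, rfl⟩ := g.surjective v
  rw [k, ha, mul_zero]

theorem not_alt_symm [Nonempty ι] (h2 : (2 : F) ≠ 0) {a : (ι → F) ≃ₗ[F] (ι → F)} (ha : (be a).IsAlt)
    (hs : (be a).IsSymm) : False := by
  obtain ⟨v, hv⟩ := exists_ne (0 : ι → F)
  exact hv ((be_nd a).2 v fun u => (mul_eq_zero.1 (show 2 * be a u v = 0 by
    linear_combination hs.eq u v - ha.neg_eq u v)).resolve_left h2)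

theorem alt_even {a : (ι → F) ≃ₗ[F] (ι → F)} (ha : (be a).IsAlt) : Even (Fintype.card ι) := by
  obtain ⟨k, hk⟩ := Un.alt_even _ ha
  rw [LinearMap.ker_eq_bot'.2 fun u h => (be_nd a).1 u (LinearMap.congr_fun h)] at hk
  exact ⟨k, by simpa [two_mul] using hk⟩

theorem exists_alt {m : ℕ} (hm : Fintype.card ι = 2 * m) : ∃ a : (ι → F) ≃ₗ[F] (ι → F), (be a).IsAlt := by
  let e : (ι → F) ≃ₗ[F] (Fin m ⊕ Fin m → F) := LinearEquiv.ofFinrankEq _ _ (by simp [hm, two_mul])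
  obtain ⟨a, ha⟩ := exists_be (B := (Matrix.toBilin' (Matrix.J (Fin m) F)).comp e.toLinearMap e.toLinearMap)
    fun v h => e.map_eq_zero_iff.1 (spForm_nondeg m _ fun u => by
      simpa [Matrix.toBilin'_apply', spForm_B, Cfsg.sympForm] using h (e.symm u))
  exact ⟨a, fun v => by simpa [ha, Matrix.toBilin'_apply', spForm_B, Cfsg.sympForm] using symp_B_self (spForm F m) (e v)⟩

theorem exists_symm (h2 : (2 : F) ≠ 0) {Q : QuadraticForm F (κ → F)} (hQ : (ofQuad Q).Nondeg)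
    (h : Fintype.card κ = Fintype.card ι) : ∃ (a : (ι → F) ≃ₗ[F] (ι → F)) (e : (κ → F) ≃ₗ[F] (ι → F)),
      (be a).IsSymm ∧ ((ofQuad Q).scale 2).IsIso (ofSymm (be a)) e := by
  let e : (κ → F) ≃ₗ[F] (ι → F) := LinearEquiv.ofFinrankEq _ _ (by simp [h])
  obtain ⟨a, ha⟩ := exists_be (B := LinearMap.BilinForm.comp (QuadraticMap.polarBilin Q) e.symm.toLinearMap
    e.symm.toLinearMap) fun v h => e.symm.map_eq_zero_iff.1 (hQ _ fun u => by simpa [ofQuad_B] using h (e u))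
  have hs : (be a).IsSymm := ⟨fun u v => by simp [ha, QuadraticMap.polar_comm]⟩
  exact ⟨a, e, hs, fun u v => by rw [ofSymm_B hs]; simp [ha, scale, ofQuad_B],
    fun v => by simp [ofSymm_Q, ha, scale, QuadraticMap.polar_self]⟩

theorem split_ga [Finite F] (h2 : 2 ≤ Fintype.card ι) (a : (ι → F) ≃ₗ[F] (ι → F)) (M : Subgroup Fˣ)
    (h : ∀ x, x ∈ M ↔ ∃ (d : Fˣ) (g : (ι → F) ≃ₗ[F] (ι → F)), (∃ c, ∀ u v, be a (g u) (g v) = c * be a u v) ∧
      d ^ Fintype.card ι * LinearEquiv.det g = x) :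
    Cfsg.splitClassCount (DL ι F) (Cfsg.Inn _) (ga a) = M.index := by
  have : Nonempty ι := Fintype.card_pos_iff.1 (by omega)
  rw [split_hom _ LinearEquiv.det det_surj inn_le_DL _ (fun g => ΨL_lin_mem_inn h2)]
  congr 1
  ext x
  rw [h, Subgroup.mem_sup]
  constructor
  · rintro ⟨_, ⟨d, rfl⟩, _, ⟨g, hg, rfl⟩, rfl⟩
    exact ⟨d, g, (cent_ga h2).1 hg, rfl⟩
  · rintro ⟨d, g, hg, rfl⟩
    exact ⟨_, ⟨d, rfl⟩, _, ⟨g, (cent_ga h2).2 hg, rfl⟩, rfl⟩

theorem det_sq_be {a g : (ι → F) ≃ₗ[F] (ι → F)} {c : F} (h : ∀ u v, be a (g u) (g v) = c * be a u v) :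
    (LinearEquiv.det g : F) ^ 2 = c ^ Fintype.card ι := by
  have : (g : (ι → F) →ₗ[F] (ι → F)) = c • (a.toLinearMap ∘ₗ (dl g).toLinearMap ∘ₗ a.symm.toLinearMap) :=
    LinearMap.ext fun v => a.symm.injective (dot_ext fun u => by
      obtain ⟨u, rfl⟩ := g.surjective u
      simpa [be_apply, dl_dot] using h u v)
  have k := congrArg LinearMap.det this
  rw [LinearMap.det_smul, LinearMap.det_conj, ← LinearEquiv.coe_det, ← LinearEquiv.coe_det, det_dl] at k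
  rw [sq]; nth_rewrite 1 [k]; rw [mul_assoc, Units.inv_mul]; simp

theorem split_gen [Finite F] (h2 : 2 ≤ Fintype.card ι) (a : (ι → F) ≃ₗ[F] (ι → F))
    (h : Odd (Fintype.card ι) ∨ (2 : F) = 0) :
    Cfsg.splitClassCount (DL ι F) (Cfsg.Inn _) (ga a) = Nat.gcd (Fintype.card ι) (Nat.card F - 1) := by
  have : Nonempty ι := Fintype.card_pos_iff.1 (by omega)
  rw [split_ga h2 a (powMonoidHom (Fintype.card ι)).range, IsCyclic.index_powMonoidHom_range, Nat.card_units,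
    Nat.gcd_comm]
  refine fun x => ⟨fun ⟨d, e⟩ => ⟨d, 1, ⟨1, by simp⟩, by simpa using e⟩, ?_⟩
  rintro ⟨d, g, ⟨c, hc⟩, rfl⟩
  refine mul_mem ⟨d, rfl⟩ ?_
  have k := det_sq_be hc
  have c0 := ne_of_sim (be_nd a).2 hc
  rcases h with ⟨j, hj⟩ | h
  · refine ⟨LinearEquiv.det g / Units.mk0 c c0 ^ j, Units.ext ?_⟩
    simp only [powMonoidHom_apply, Units.val_pow_eq_pow_val, Units.val_div_eq_div_val, Units.val_mk0, div_pow]
    rw [← pow_mul, mul_comm j, pow_mul, ← k, hj, div_eq_iff (pow_ne_zero _ (pow_ne_zero _ (Units.ne_zero _)))]; ring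
  · obtain ⟨s, rfl⟩ := exists_sq_of_two_eq_zero h c
    refine ⟨Units.mk0 s (by rintro rfl; simp at c0), Units.ext ?_⟩
    rw [← pow_mul, mul_comm, pow_mul, sq_eq_sq_iff_eq_or_eq_neg] at k
    rcases k with k | k
    · exact k.symm
    · change s ^ _ = _; linear_combination -k + s ^ Fintype.card ι * h

theorem sp_det {V : Type*} [AddCommGroup V] [Module F V] [FiniteDimensional F V] {f : CForm (FP.symp F) V}
    (hf : f.Nondeg) {m : ℕ} (hm : finrank F V = 2 * m) {c : F} (c0 : c ≠ 0) :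
    (∃ g : V ≃ₗ[F] V, ∀ u v, f.B (g u) (g v) = c * f.B u v) ∧ ∀ g : V ≃ₗ[F] V,
      (∀ u v, f.B (g u) (g v) = c * f.B u v) → LinearMap.det (g : V →ₗ[F] V) = c ^ m := by
  obtain ⟨e, he⟩ := symp_exists_isIso (2 * m) (spForm_nondeg (F := F) m) hf (finrank_sum_fun m) hm
  let t := gl (Matrix.GeneralLinearGroup.mkOfDetNeZero (diagonal (Sum.elim (fun _ => c) fun _ => 1 :
    Fin m ⊕ Fin m → F)) (by simp [c0]))
  have ht : ∀ u v, f.B (conjEquiv e t u) (conjEquiv e t v) = c * f.B u v := fun u v => by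
    obtain ⟨u, rfl⟩ := e.surjective u
    obtain ⟨v, rfl⟩ := e.surjective v
    change f.B (e (t (e.symm (e u)))) (e (t (e.symm (e v)))) = _
    simp only [e.symm_apply_apply, he.1, t, gl_apply, spForm_B, Cfsg.sympForm]
    simp [Matrix.J, fromBlocks_mulVec, dotProduct, mulVec_diagonal, mul_add, Finset.mul_sum, neg_mulVec,
      Function.comp_def, mul_assoc, mul_left_comm, -mulVec_mulVec]
  refine ⟨⟨_, ht⟩, fun g hg => ?_⟩
  have : (conjEquiv e t)⁻¹ * g ∈ f.Isom := mem_Isom_symp.2 fun u v => mul_left_cancel₀ c0 (by rw [← ht]; simp [hg])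
  have k := E_det (symp_Isom_eq_E hf ▸ this)
  have k2 : LinearMap.det (conjEquiv e t : V →ₗ[F] V) = c ^ m := by
    rw [conjEquiv_det, ← LinearEquiv.coe_det, det_gl]; simp
  rw [← LinearEquiv.coe_det] at k k2 ⊢
  rw [_root_.map_mul, _root_.map_inv, Units.val_mul, Units.val_inv_eq_inv_val, k2] at k
  field_simp at k
  exact k

theorem split_alt [Finite F] {m : ℕ} (hm : Fintype.card ι = 2 * m) (h : 1 ≤ m) {a : (ι → F) ≃ₗ[F] (ι → F)}
    (ha : (be a).IsAlt) : Cfsg.splitClassCount (DL ι F) (Cfsg.Inn _) (ga a) = Nat.gcd m (Nat.card F - 1) := by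
  have : Nonempty ι := Fintype.card_pos_iff.1 (by omega)
  have k := fun c (c0 : c ≠ 0) => sp_det (ofAlt_nondeg ha (be_nd a)) (m := m) (by simpa using hm) c0
  rw [split_ga (by omega) a (powMonoidHom m).range, IsCyclic.index_powMonoidHom_range, Nat.card_units, Nat.gcd_comm]
  refine fun x => ⟨?_, ?_⟩
  · rintro ⟨c, rfl⟩
    obtain ⟨⟨g, hg⟩, k1⟩ := k c c.ne_zero
    exact ⟨1, g, ⟨c, hg⟩, Units.ext (by simpa [LinearEquiv.coe_det] using k1 g hg)⟩
  · rintro ⟨d, g, ⟨c, hc⟩, rfl⟩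
    have c0 := ne_of_sim (be_nd a).2 hc
    exact ⟨d ^ 2 * Units.mk0 c c0, Units.ext (by simp [hm, mul_pow, pow_mul, LinearEquiv.coe_det, (k c c0).2 g hc])⟩

theorem split_symm [Finite F] (h2 : (2 : F) ≠ 0) {m : ℕ} (hm : Fintype.card ι = 2 * m) (h : 1 ≤ m)
    {a : (ι → F) ≃ₗ[F] (ι → F)} (ha : (be a).IsSymm) :
    Cfsg.splitClassCount (DL ι F) (Cfsg.Inn _) (ga a) = Nat.gcd (2 * m) (Nat.card F - 1) / 2 := by
  have : Nonempty ι := Fintype.card_pos_iff.1 (by omega)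
  have hf := ofSymm_nondeg h2 ha (be_nd a)
  have sim : ∀ {g : (ι → F) ≃ₗ[F] (ι → F)} {c}, ((ofSymm (be a)).scale c).IsIso (ofSymm (be a)) g →
      ∀ u v, be a (g u) (g v) = c * be a u v := fun k u v =>
    mul_left_cancel₀ h2 (by simpa [scale, ofSymm_B ha, mul_left_comm] using k.1 u v)
  rw [split_ga (by omega) a ((powMonoidHom (2 * m)).range.comap (powMonoidHom 2)), Subgroup.index_comap]
  · have l : (powMonoidHom (2 * m) : Fˣ →* Fˣ).range ≤ (powMonoidHom 2).range := by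
      rintro _ ⟨x, rfl⟩; exact ⟨x ^ m, by simp [← pow_mul, mul_comm]⟩
    have := Subgroup.relIndex_mul_index l
    rw [IsCyclic.index_powMonoidHom_range, IsCyclic.index_powMonoidHom_range, Nat.card_units,
      Nat.gcd_eq_right (by have := card_odd_of_two_ne h2; omega)] at this
    rw [Nat.gcd_comm, ← this]; simp
  refine fun x => ⟨?_, ?_⟩
  · rintro ⟨c, hc⟩
    obtain ⟨g, k⟩ := orth_exists_isIso_even m (scale_nondeg hf c.ne_zero) hf (by simpa using hm) (by simpa using hm)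
      (scale_isPlus c.ne_zero)
    have k1 := det_sq_be (sim k)
    rw [hm, ← Units.val_pow_eq_pow_val c, show c ^ (2 * m) = x ^ 2 from hc, Units.val_pow_eq_pow_val,
      sq_eq_sq_iff_eq_or_eq_neg] at k1
    rcases k1 with k1 | k1
    · exact ⟨1, g, ⟨c, sim k⟩, Units.ext (by simpa using k1)⟩
    · obtain ⟨d, hd⟩ := orth_exists_Q_ne hf (by simp; omega)
      refine ⟨1, g * (ofSymm (be a)).rf d, ⟨c, fun u v => ?_⟩, Units.ext ?_⟩
      · rw [LinearEquiv.mul_apply, LinearEquiv.mul_apply, sim k, sim (Gr.iso_scale (rf_mem d)), one_mul]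
      · rw [one_pow, one_mul, _root_.map_mul, Units.val_mul, k1, LinearEquiv.coe_det, rf_det hd]; simp
  · rintro ⟨d, g, ⟨c, hc⟩, rfl⟩
    exact ⟨d ^ 2 * Units.mk0 c (ne_of_sim (be_nd a).2 hc), Units.ext (by
      simp only [powMonoidHom_apply, mul_pow, Units.val_mul, Units.val_pow_eq_pow_val, det_sq_be hc, hm, ← pow_mul,
        Units.val_mk0, mul_comm 2])⟩

end CfsgH5.Gr
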