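import Cfsg.Agent.H5.Gr1
import Cfsg.Agent.H5.Gc7

set_option autoImplicit false

/-! Involutory graph automorphisms of linear groups, continued. -/

namespace CfsgH5.Gr

open Module Matrix CfsgH5 CfsgH5.CForm CfsgH5.Au CfsgH5.Au.Γ

universe u

variable {ι κ : Type} [Fintype ι] [DecidableEq ι] [Fintype κ] [DecidableEq κ] {F : Type u} [Field F]

theorem cent_even [Finite F] {m : ℕ} (hm : Fintype.card ι = 2 * m) (h : 1 ≤ m) (h2 : (2 : F) ≠ 0)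
    {a : (ι → F) ≃ₗ[F] (ι → F)} (hs : (be a).IsSymm) {Q : QuadraticForm F (κ → F)} (hQ : (ofQuad Q).Nondeg)
    (hk : Fintype.card κ = 2 * m) (hp : (ofQuad Q).IsPlus ↔ (ofSymm (be a)).IsPlus) :
    Nonempty (↥(DL ι F ⊓ Subgroup.centralizer {ga a}) ≃* Cfsg.PGO F ⇑Q) := by
  obtain ⟨e, he⟩ := orth_exists_isIso_even m hQ (ofSymm_nondeg h2 hs (be_nd a)) (by simpa using hk)
    (by simpa using hm) hp
  exact cent_orth (by omega) h2 hs (Gr.iso_scale he)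

theorem conj_even [Finite F] {m : ℕ} (hm : Fintype.card ι = 2 * m) (h : 1 ≤ m) (h2 : (2 : F) ≠ 0)
    {a b : (ι → F) ≃ₗ[F] (ι → F)} (ha : (be a).IsSymm) (hb : (be b).IsSymm) :
    Cfsg.IsConjUnder (DL ι F) (ga a) (ga b) ↔ ((ofSymm (be a)).IsPlus ↔ (ofSymm (be b)).IsPlus) := by
  rw [conj_symm (by omega) h2 ha hb]
  constructor
  · rintro ⟨c, e, c0, he⟩
    rw [← scale_isPlus c0]
    exact ⟨he.isPlus, he.symm.isPlus⟩
  · intro k
    obtain ⟨e, he⟩ := orth_exists_isIso_even m (ofSymm_nondeg h2 ha (be_nd a)) (ofSymm_nondeg h2 hb (be_nd b))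
      (by simpa using hm) (by simpa using hm) k
    exact ⟨1, e, one_ne_zero, Gr.iso_scale he⟩

theorem exists_type (h2 : (2 : F) ≠ 0) {Q : QuadraticForm F (κ → F)} (hQ : (ofQuad Q).Nondeg)
    (h : Fintype.card κ = Fintype.card ι) : ∃ a : (ι → F) ≃ₗ[F] (ι → F),
      (be a).IsSymm ∧ ((ofQuad Q).IsPlus ↔ (ofSymm (be a)).IsPlus) := by
  obtain ⟨a, e, hs, he⟩ := exists_symm h2 hQ h
  exact ⟨a, hs, by rw [← scale_isPlus h2]; exact ⟨he.isPlus, he.symm.isPlus⟩⟩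

theorem ga_one : ga (1 : (ι → F) ≃ₗ[F] (ι → F)) = grL ι F := by simp [ga]

theorem be_one (u v : ι → F) : be (1 : (ι → F) ≃ₗ[F] (ι → F)) u v = u ⬝ᵥ v := be_apply _ _ _

theorem one_symm : (be (1 : (ι → F) ≃ₗ[F] (ι → F))).IsSymm := ⟨fun u v => by rw [be_one, be_one, dotProduct_comm]⟩

theorem one_plus [Fintype F] (h2 : (2 : F) ≠ 0) {m : ℕ} (hm : Fintype.card ι = 2 * m) :
    (ofSymm (be (1 : (ι → F) ≃ₗ[F] (ι → F)))).IsPlus ↔ Fintype.card F ^ m % 4 = 1 := by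
  rw [← Fm.isSquare_disc_iff (ofSymm_nondeg h2 one_symm (be_nd 1)) h2 (Pi.basisFun F ι) (by simpa using hm), Fm.disc_orth]
  · exact ⟨2 ^ m, by simp [ofSymm_Q, be_one, hm, two_mul, pow_add]⟩
  · intro i j hij
    rw [ofSymm_B one_symm, be_one]; simp [hij.symm]

end CfsgH5.Gr
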