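import Cfsg.Agent.H5.Gr2

set_option autoImplicit false

/-! Involutory graph automorphisms of linear groups: orders, characteristic two. -/

namespace CfsgH5.Gr

open Module Matrix CfsgH5 CfsgH5.CForm CfsgH5.Au CfsgH5.Au.Γ

universe u

variable {ι κ : Type} [Fintype ι] [DecidableEq ι] [Fintype κ] [DecidableEq κ] {F : Type u} [Field F]

theorem card_cent [Finite F] (h2 : 2 ≤ Fintype.card ι) {a : (ι → F) ≃ₗ[F] (ι → F)}
    (I : Subgroup ((ι → F) ≃ₗ[F] (ι → F))) (hI : ∀ g, g ∈ I ↔ ∀ u v, be a (g u) (g v) = be a u v)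
    (h : ∀ c : Fˣ, ∃ g : (ι → F) ≃ₗ[F] (ι → F), ∀ u v, be a (g u) (g v) = c * be a u v) :
    Nat.card ↥(DL ι F ⊓ Subgroup.centralizer {ga a}) = Nat.card I := by
  have : Nonempty ι := Fintype.card_pos_iff.1 (by omega)
  choose g hg using h
  let S := (Subgroup.centralizer {ga a}).comap ((ΨL ι F).comp lin)
  have hS : ∀ x, x ∈ S ↔ ∃ c, ∀ u v, be a (x u) (x v) = c * be a u v := fun x => cent_ga h2
  obtain ⟨v, hv⟩ := exists_ne (0 : ι → F)
  obtain ⟨u, hu⟩ : ∃ u, be a u v ≠ 0 := by by_contra! k; exact hv ((be_nd a).2 v k)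
  have k1 : Nat.card (Fˣ × I) = Nat.card S := by
    refine Nat.card_congr (Equiv.ofBijective (fun p => ⟨g p.1 * p.2, (hS _).2 ⟨p.1, fun u v => by
      rw [LinearEquiv.mul_apply, LinearEquiv.mul_apply, hg, (hI _).1 p.2.2]⟩⟩) ⟨?_, ?_⟩)
    · rintro ⟨c, x⟩ ⟨d, y⟩ e
      have e : g c * x = g d * y := congrArg Subtype.val e
      obtain rfl : c = d := Units.ext (mul_right_cancel₀ hu (by
        rw [← (hI _).1 x.2, ← hg, ← LinearEquiv.mul_apply, ← LinearEquiv.mul_apply, e, LinearEquiv.mul_apply,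
          LinearEquiv.mul_apply, hg, (hI _).1 y.2, (hI _).1 x.2]))
      rw [Subtype.ext (mul_left_cancel e)]
    · rintro ⟨x, hx⟩
      obtain ⟨c, hc⟩ := (hS _).1 hx
      have c0 := ne_of_sim (be_nd a).2 hc
      exact ⟨(Units.mk0 c c0, ⟨(g (Units.mk0 c c0))⁻¹ * x, (hI _).2 fun u v => mul_left_cancel₀ c0 (by
        rw [← hc u v]; simpa using (hg (Units.mk0 c c0) (((g (Units.mk0 c c0))⁻¹ * x) u)
          (((g (Units.mk0 c c0))⁻¹ * x) v)).symm)⟩), Subtype.ext (by simp)⟩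
  let π := ((ΨL ι F).comp lin).comp S.subtype
  have k2 : Nat.card Fˣ = Nat.card π.ker := by
    refine Nat.card_congr (Equiv.ofBijective (fun c => ⟨⟨scal _ c, (hS _).2 ⟨c * c, fun u v => by
      simp [mul_assoc]⟩⟩, ΨL_scal h2 c⟩) ⟨fun c d e => scal_injective (congrArg (·.1.1) e), ?_⟩)
    rintro ⟨⟨x, hx⟩, k⟩
    obtain ⟨-, l, hl⟩ := (ΨL_eq_one h2).1 k
    obtain ⟨c, -, rfl⟩ := exists_scal_of_smul (g := x) hl
    exact ⟨c, rfl⟩
  have k3 : π.range = DL ι F ⊓ Subgroup.centralizer {ga a} := by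
    rw [MonoidHom.range_comp, Subgroup.range_subtype, Subgroup.map_comap_eq]
  have := π.ker.card_mul_index
  rw [Subgroup.index_ker, k3, ← k1, ← k2, Nat.card_prod] at this
  exact Nat.eq_of_mul_eq_mul_left Nat.card_pos this

theorem card_ne [Finite F] (h2 : (2 : F) ≠ 0) {m : ℕ} (hm : Fintype.card ι = 2 * m) (h : 1 ≤ m)
    {a b : (ι → F) ≃ₗ[F] (ι → F)} (ha : (be a).IsSymm) (hb : (be b).IsAlt) :
    Nat.card ↥(DL ι F ⊓ Subgroup.centralizer {ga a}) ≠ Nat.card ↥(DL ι F ⊓ Subgroup.centralizer {ga b}) := by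
  have hf := ofSymm_nondeg h2 ha (be_nd a)
  have hr : finrank F (ι → F) = 2 * m := by simpa using hm
  have sim : ∀ {g : (ι → F) ≃ₗ[F] (ι → F)} {c}, ((ofSymm (be a)).scale c).IsIso (ofSymm (be a)) g →
      ∀ u v, be a (g u) (g v) = c * be a u v := fun k u v =>
    mul_left_cancel₀ h2 (by simpa [scale, ofSymm_B ha, mul_left_comm] using k.1 u v)
  rw [card_cent (by omega) (ofSymm (be a)).Isom (fun g => ⟨fun k u v => by simpa using sim (Gr.iso_scale k) u v,
      fun k => mem_Isom_orth.2 fun v => k v v⟩) fun c => (orth_exists_isIso_even m (scale_nondeg hf c.ne_zero) hf hr hr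
      (scale_isPlus c.ne_zero)).imp fun g => sim,
    card_cent (by omega) (ofAlt _ hb).Isom (fun g => mem_Isom_symp) fun c =>
      (sp_det (ofAlt_nondeg hb (be_nd b)) hr c.ne_zero).1, symp_card_Isom m (ofAlt_nondeg hb (be_nd b)) hr]
  obtain ⟨m, rfl⟩ : ∃ k, m = k + 1 := ⟨m - 1, by omega⟩
  intro e
  have k := orth_card_even m hf hr
  have q3 : 3 ≤ Nat.card F := by have := card_odd_of_two_ne h2; have := Finite.one_lt_card (α := F); omega
  have p : ∀ i, ((Nat.card F ^ (2 * (i + 1)) - 1 : ℕ) : ℤ) = (Nat.card F : ℤ) ^ (2 * (i + 1)) - 1 := fun i => by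
    rw [Nat.cast_sub (Nat.one_le_pow _ _ (by omega))]; simp
  rw [e, oOrd, Finset.prod_range_succ] at k
  simp only [Nat.cast_mul, Nat.cast_prod, p, Nat.add_sub_cancel, Nat.cast_pow] at k
  have s := (ofSymm (be a)).sgn_mul_sgn
  generalize (ofSymm (be a)).sgn = ε at k s
  have q3' : (3 : ℤ) ≤ Nat.card F := by exact_mod_cast q3
  generalize (Nat.card F : ℤ) = q at k q3'
  have P : 0 < ∏ i ∈ Finset.range m, (q ^ (2 * (i + 1)) - 1) :=
    Finset.prod_pos fun i _ => sub_pos.2 (one_lt_pow₀ (by omega) (by omega))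
  have Q : 3 ≤ q ^ (m + 1) := q3'.trans (le_self_pow₀ (by omega) (by omega))
  have R : 0 < q ^ ((m + 1) * m) := by positivity
  have : q ^ ((m + 1) * m) * (∏ i ∈ Finset.range m, (q ^ (2 * (i + 1)) - 1)) * (q ^ (m + 1) - ε) *
      (q ^ (m + 1) * (q ^ (m + 1) + ε) - 2) = 0 := by
    linear_combination k - q ^ ((m + 1) ^ 2) * (∏ i ∈ Finset.range m, (q ^ (2 * (i + 1)) - 1)) * s
  rcases Int.eq_one_or_neg_one_of_mul_eq_one s with rfl | rfl <;>
  exact absurd this (mul_ne_zero (mul_ne_zero (mul_pos R P).ne' (by omega)) (by nlinarith))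

end CfsgH5.Gr
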