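import Cfsg.Agent.H5.Gr3
import Cfsg.Agent.S0304

set_option autoImplicit false

/-! Involutory graph automorphisms of linear groups in characteristic two. -/

namespace CfsgH5.Gr

open Module Matrix CfsgH5 CfsgH5.CForm CfsgH5.Au CfsgH5.Au.Γ

universe u

variable {ι κ : Type} [Fintype ι] [DecidableEq ι] [Fintype κ] [DecidableEq κ] {F : Type u} [Field F]

theorem sq_inj2 (h2 : (2 : F) = 0) {a b : F} (h : a ^ 2 = b ^ 2) : a = b := by
  rcases sq_eq_sq_iff_eq_or_eq_neg.1 h with h | h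
  exacts [h, by linear_combination h - b * h2]

theorem iso_two [Finite F] [CharP F 2] {V W : Type*} [AddCommGroup V] [Module F V] [AddCommGroup W] [Module F W]
    [FiniteDimensional F V] [FiniteDimensional F W] (h : finrank F V = finrank F W)
    {B : LinearMap.BilinForm F V} {B' : LinearMap.BilinForm F W} (s : B.IsSymm) (s' : B'.IsSymm)
    (n : B.Nondegenerate) (n' : B'.Nondegenerate) (a : ¬ B.IsAlt) (a' : ¬ B'.IsAlt) :
    ∃ e : V ≃ₗ[F] W, ∀ u v, B' (e u) (e v) = B u v := by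
  obtain ⟨b, hb⟩ := Cfsg.Agent.S2622.result h B s n (not_forall.1 a)
  obtain ⟨b', hb'⟩ := Cfsg.Agent.S2622.result rfl B' s' n' (not_forall.1 a')
  have : B'.comp (b.equiv b' (Equiv.refl _)).toLinearMap (b.equiv b' (Equiv.refl _)).toLinearMap = B :=
    LinearMap.BilinForm.ext_basis b fun i j => by simp [hb, hb']
  exact ⟨b.equiv b' (Equiv.refl _), fun u v => LinearMap.congr_fun₂ this u v⟩

theorem conj_two [Finite F] [CharP F 2] (h : 2 ≤ Fintype.card ι) {a b : (ι → F) ≃ₗ[F] (ι → F)} (s : (be a).IsSymm)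
    (s' : (be b).IsSymm) (k : ¬ (be a).IsAlt) (k' : ¬ (be b).IsAlt) : Cfsg.IsConjUnder (DL ι F) (ga a) (ga b) := by
  obtain ⟨e, he⟩ := iso_two rfl s s' (be_nd a) (be_nd b) k k'
  exact (conjUnder_ga h).2 ⟨e, 1, fun u v => by rw [he, one_mul]⟩

theorem cent_two [Finite F] (h : 2 ≤ Fintype.card ι) (h2 : (2 : F) = 0) {a : (ι → F) ≃ₗ[F] (ι → F)} {V : Type*}
    [AddCommGroup V] [Module F V] {e : V ≃ₗ[F] (ι → F)} {B : V → V → F} (he : ∀ u v, be a (e u) (e v) = B u v)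
    {L : Type*} [Group L] (φ : L →* (V ≃ₗ[F] V)) (h0 : Function.Injective φ)
    (h1 : ∀ g, g ∈ φ.range ↔ ∀ u v, B (g u) (g v) = B u v) :
    Nonempty (↥(DL ι F ⊓ Subgroup.centralizer {ga a}) ≃* L) := by
  have : Nonempty ι := Fintype.card_pos_iff.1 (by omega)
  have sm : ∀ (c : F) u v, B (c • u) (c • v) = c ^ 2 * B u v := fun c u v => by simp [← he, sq, mul_assoc]
  obtain ⟨v, hv⟩ := exists_ne (0 : ι → F)
  obtain ⟨u, hu⟩ : ∃ u, be a u v ≠ 0 := by by_contra! k; exact hv ((be_nd a).2 v k)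
  rw [← e.apply_symm_apply u, ← e.apply_symm_apply v, he] at hu
  refine (cent_hom h (k := 1) (fun u v => by rw [he, one_mul]) φ
    (fun l => ⟨1, fun u v => by rw [(h1 _).1 ⟨l, rfl⟩, one_mul]⟩) (fun g c hg => ?_) ⊥ fun l => ⟨?_, ?_⟩).map
    fun f => f.trans QuotientGroup.quotientBot
  · obtain ⟨s, rfl⟩ := exists_sq_of_two_eq_zero h2 c
    have s0 : s ≠ 0 := by
      rintro rfl
      exact hu (by simpa using hg (g.symm (e.symm u)) (g.symm (e.symm v)))
    obtain ⟨l, hl⟩ := (h1 (scal V (Units.mk0 s s0)⁻¹ * g)).2 fun u v => by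
      simp only [LinearEquiv.mul_apply, scal_apply, sm, hg]; simp; field_simp
    exact ⟨Units.mk0 s s0, l, by rw [hl, ← mul_assoc, ← _root_.map_mul]; simp⟩
  · rintro rfl; exact ⟨1, by simp⟩
  · rintro ⟨c, hc⟩
    have := (h1 _).1 ⟨l, rfl⟩ (e.symm u) (e.symm v)
    rw [hc, hc, sm] at this
    obtain rfl : c = 1 := sq_inj2 h2 (mul_right_cancel₀ hu (by rw [this]; simp))
    exact h0 (LinearEquiv.ext fun v => by simp [hc])

theorem pgo_two [Finite F] (h2 : (2 : F) = 0) (Q : QuadraticForm F (κ → F)) {v : κ → F} (hv : Q v ≠ 0) :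
    Nonempty (Cfsg.isometryGroup F ⇑Q ≃* Cfsg.PGO F ⇑Q) := by
  have le : Cfsg.isometryGroup F ⇑Q ≤ Cfsg.Geo.quadSimilarityGroup ⇑Q := fun g hg => ⟨1, fun v => by simpa using hg v v⟩
  refine ⟨MulEquiv.ofBijective ((QuotientGroup.mk' _).comp (Subgroup.inclusion le)) ⟨?_, ?_⟩⟩
  · rw [injective_iff_map_eq_one]
    intro g hg
    obtain ⟨c, hc⟩ := isSc_gl.2 (Subgroup.mem_subgroupOf.1 ((QuotientGroup.eq_one_iff _).1 hg))
    have k : Q (gl g.1 v) = Q v := g.2 v v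
    erw [hc, QuadraticMap.map_smul] at k
    obtain rfl : c = 1 := sq_inj2 h2 (mul_right_cancel₀ hv (by simpa [sq] using k))
    exact Subtype.ext (Units.ext (Matrix.toLin'.injective (LinearMap.ext fun v => by simpa [gl_apply] using hc v)))
  · intro x
    obtain ⟨⟨g, c, hc⟩, rfl⟩ := QuotientGroup.mk_surjective x
    obtain ⟨s, hs⟩ := exists_sq_of_two_eq_zero h2 (c : F)
    have s0 : s ≠ 0 := by rintro rfl; exact c.ne_zero (by simp [← hs])
    obtain ⟨z, hz⟩ := gl_surjective (scal (κ → F) (Units.mk0 s s0)⁻¹)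
    refine ⟨⟨g * z, fun v _ => ?_⟩, QuotientGroup.eq.2 (Subgroup.mem_subgroupOf.2 ?_)⟩
    · change Q (gl (g * z) v) = Q v
      rw [_root_.map_mul, LinearEquiv.mul_apply, gl_apply, hc, hz, scal_apply, QuadraticMap.map_smul, ← hs]
      simp; field_simp
    · change (g * z)⁻¹ * g ∈ _
      rw [_root_.mul_inv_rev, inv_mul_cancel_right]
      exact inv_mem (isSc_gl.1 ⟨_, fun v => by rw [hz, scal_apply]⟩)

end CfsgH5.Gr
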