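import Cfsg.Agent.H5.Gr4
import Cfsg.Agent.H5.Op7

set_option autoImplicit false

/-! Involutory graph automorphisms of unitary groups, by descent to the linear group over the fixed field. -/

namespace CfsgH5.Gu

open Module Matrix CfsgH5 CfsgH5.CForm CfsgH5.Au CfsgH5.Au.Γ CfsgH5.Gr

universe u

variable {F : Type u} [Field F] {F₀ : Type*} [Field F₀] {j : F₀ →+* F} {ρ : F ≃+* F} {q n : ℕ}

theorem order_ρ (H : UF (ρ : F →+* F) q) : orderOf ρ = 2 :=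
  orderOf_eq_prime (RingEquiv.ext H.invol) fun h => H.ne_id (by rw [h]; rfl)

theorem exists_data [Fintype F] [Fintype F₀] (hF : Fintype.card F = q ^ 2) (h₀ : Fintype.card F₀ = q) :
    ∃ (ρ : F ≃+* F) (j : F₀ →+* F), UF (ρ : F →+* F) q ∧ Emb j ρ := by
  obtain ⟨σ, H⟩ := exists_UF hF
  have H' : UF (RingEquiv.ofBijective σ (Function.Involutive.bijective H.invol) : F →+* F) q := ⟨H.1, H.2, H.3⟩
  obtain ⟨j, E⟩ := exists_emb _ F₀ (by rw [order_ρ H', H.2, Nat.card_eq_fintype_card, h₀])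
  exact ⟨_, j, H', E⟩

theorem isSim_unit (H : UF (ρ : F →+* F) q) {V : Type*} [AddCommGroup V] [Module F V] [Nontrivial V]
    {f : CForm (FP.unit _ H.invol) V} (hf : f.Nondeg) {θ : Γ F V} {κ : F}
    (h : ∀ u v, f.B (θ u) (θ v) = κ * θ.σ (f.B u v)) : IsSim f θ κ := by
  obtain ⟨v, hv⟩ := exists_ne (0 : V)
  obtain ⟨u, hu⟩ : ∃ u, f.B u v ≠ 0 := by by_contra! k; exact hv (hf _ k)
  have k : f.B u v = κ * θ.σ (f.B (θ⁻¹ u) (θ⁻¹ v)) := by rw [← h]; simp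
  refine ⟨fun e => hu (by rw [k, e, zero_mul]), ?_, h, fun v => by rw [unit_Q, unit_Q, h]⟩
  have := h v u
  rw [unit_B_symm, h, unit_B_symm f u v, _root_.map_mul,
    show θ.σ ((ρ : F →+* F) _) = (ρ : F →+* F) _ from ((cm_unit H) θ.σ).1 _] at this
  exact mul_right_cancel₀ (by simpa using hu) this

theorem ext_B {P : FP F} {ι : Type} [Fintype ι] [DecidableEq ι] {V : Type*} [AddCommGroup V] [Module F V]
    (f : CForm P V) {g g' : (ι → F) ≃ₗ[F] V} {κ : F}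
    (h : ∀ u v : ι → F₀, f.B (g (j ∘ u)) (g (j ∘ v)) = κ * f.B (g' (j ∘ u)) (g' (j ∘ v))) (u v : ι → F) :
    f.B (g u) (g v) = κ * f.B (g' u) (g' v) := by
  have hu : u ∈ _ := (span_emb (j := j)).ge trivial
  have hv : v ∈ _ := (span_emb (j := j)).ge trivial
  induction hu, hv using Submodule.span_induction₂ with
  | mem_mem u v hu hv => obtain ⟨u, rfl⟩ := hu; obtain ⟨v, rfl⟩ := hv; exact h u v
  | zero_left => simp
  | zero_right => simp
  | add_left _ _ _ _ _ _ a b => simp [a, b, mul_add]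
  | add_right _ _ _ _ _ _ a b => simp [a, b, mul_add]
  | smul_left _ _ _ _ _ a => simp [a, mul_left_comm]
  | smul_right _ _ _ _ _ a => simp [a, mul_left_comm]

theorem desc {ι : Type} [Fintype ι] [DecidableEq ι] [Nonempty ι] {a : (ι → F₀) ≃ₗ[F₀] (ι → F₀)}
    {B : (ι → F₀) → (ι → F₀) → F₀} {m : F} (h : ∀ u v, j (B u v) = m * j (be a u v)) :
    ∃ k, j k = m ∧ ∀ u v, B u v = k * be a u v := by
  obtain ⟨v, hv⟩ := exists_ne (0 : ι → F₀)
  obtain ⟨u, hu⟩ : ∃ u, be a u v ≠ 0 := by by_contra! k; exact hv ((be_nd a).2 v k)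
  have : j (B u v / be a u v) = m := by rw [map_div₀, h, mul_div_cancel_right₀ _ ((map_ne_zero j).2 hu)]
  exact ⟨_, this, fun u v => j.injective (by rw [_root_.map_mul, this, h])⟩

variable (j) in
/-- Descent data of a semilinear similarity. -/
structure D (H : UF (ρ : F →+* F) q) (θ : Sim (hermC H n) (cm_unit H)) (P : (Fin n → F) ≃ₗ[F] (Fin n → F)) (ζ : F)
    (a : (Fin n → F₀) ≃ₗ[F₀] (Fin n → F₀)) : Prop where
  ne : ζ ≠ 0
  σ : θ.1.σ = ρ
  app : ∀ v, θ.1 (P v) = P (std _ ρ v)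
  B : ∀ u v, (hermC H n).B (P (j ∘ u)) (P (j ∘ v)) = ζ * j (be a u v)

variable {H : UF (ρ : F →+* F) q} {θ θ' : Sim (hermC H n) (cm_unit H)} {P P' : (Fin n → F) ≃ₗ[F] (Fin n → F)}
  {ζ ζ' : F} {a b : (Fin n → F₀) ≃ₗ[F₀] (Fin n → F₀)}

theorem D.key (E : Emb j ρ) (hn : 3 ≤ n) (h : D j H θ P ζ a) (h' : D j H θ' P' ζ' b)
    (g : LS (hermC H n) (cm_unit H)) :
    πS _ (suE H (by omega)) g * ΨSU H (by omega) θ * (πS _ (suE H (by omega)) g)⁻¹ = ΨSU H (by omega) θ' ↔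
      ∃ c g₀, g.1 = scal _ c * (P' * ex j g₀ * P⁻¹) := by
  have : Nonempty (Fin n) := ⟨⟨0, by omega⟩⟩
  have := H.fin
  rw [mul_inv_eq_iff_eq_mul, πS_def, ← _root_.map_mul, ← _root_.map_mul, eq_comm, (pj_ΨS _ _ (KS_su H hn)).eq_iff]
  constructor
  · rintro ⟨-, l, hl⟩
    obtain ⟨c, g₀, k⟩ := E.exists_ex' (g := P'⁻¹ * g.1 * P) (l := l) fun v => P'.injective (by
      rw [← h'.app]; simpa [h.app] using hl (P v))
    refine ⟨c, g₀, LinearEquiv.ext fun v => ?_⟩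
    simpa using congrArg (fun x => P' (x (P.symm v))) k
  · rintro ⟨c, g₀, k⟩
    refine ⟨by simp [h.σ, h'.σ], ρ c / c, fun v => ?_⟩
    obtain ⟨v, rfl⟩ := P.surjective v
    simp [k, h.app, h'.app, h'.σ, E.ex_comm, smul_smul, -_root_.map_inv, -_root_.map_mul]

theorem D.sim (h : D j H θ P ζ a) (h' : D j H θ' P' ζ' b) {g₀ : GL (Fin n) F₀} {k : F₀}
    (hk : ∀ u v, be b (gl g₀ u) (gl g₀ v) = k * be a u v) (u v : Fin n → F) :
    (hermC H n).B ((P' * ex j g₀ * P⁻¹) u) ((P' * ex j g₀ * P⁻¹) v) = ζ' * j k / ζ * (hermC H n).B u v := by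
  obtain ⟨u, rfl⟩ := P.surjective u
  obtain ⟨v, rfl⟩ := P.surjective v
  have := ext_B (j := j) (hermC H n) (g := P' * ex j g₀) (g' := P) (κ := ζ' * j k / ζ) (fun u v => by
    rw [LinearEquiv.mul_apply, LinearEquiv.mul_apply, ex_apply, ex_apply, h'.B, h.B, hk, _root_.map_mul]
    have := h.ne
    field_simp) u v
  simpa using this

theorem D.mem [Nonempty (Fin n)] (h : D j H θ P ζ a) (h' : D j H θ' P' ζ' b) {g₀ : GL (Fin n) F₀} {k : F₀}
    (hk : ∀ u v, be b (gl g₀ u) (gl g₀ v) = k * be a u v) : P' * ex j g₀ * P⁻¹ ∈ LS (hermC H n) (cm_unit H) :=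
  ⟨_, isSim_unit H (hermC_nondeg H n) (h.sim h' hk)⟩

theorem D.of_mem [Nonempty (Fin n)] (h : D j H θ P ζ a) (h' : D j H θ' P' ζ' b) {g₀ : GL (Fin n) F₀} {c : Fˣ}
    (hg : scal _ c * (P' * ex j g₀ * P⁻¹) ∈ LS (hermC H n) (cm_unit H)) :
    ∃ k, ∀ u v, be b (gl g₀ u) (gl g₀ v) = k * be a u v := by
  obtain ⟨κ, hκ⟩ : P' * ex j g₀ * P⁻¹ ∈ LS (hermC H n) (cm_unit H) := by
    simpa using mul_mem (inv_mem (scal_mem_LS (cm_unit H) c)) hg
  refine (desc (j := j) (m := κ * ζ / ζ') fun u v => ?_).imp fun k h => h.2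
  have := hκ.lin_B (P (j ∘ u)) (P (j ∘ v))
  simp only [LinearEquiv.mul_apply, LinearEquiv.coe_inv, LinearEquiv.symm_apply_apply, ex_apply, h.B, h'.B] at this
  have := h'.ne
  field_simp
  linear_combination ‹_ = _›

theorem D.conj (E : Emb j ρ) (hn : 3 ≤ n) (h : D j H θ P ζ a) (h' : D j H θ' P' ζ' b) :
    Cfsg.IsConjUnder (DSU H (by omega)) (ΨSU H (by omega) θ) (ΨSU H (by omega) θ') ↔
      Cfsg.IsConjUnder (DL _ F₀) (ga a) (ga b) := by
  have : Nonempty (Fin n) := ⟨⟨0, by omega⟩⟩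
  rw [conjUnder_ga (by simp; omega)]
  constructor
  · rintro ⟨_, ⟨⟨g, hg⟩, rfl⟩, k⟩
    obtain ⟨c, g₀, rfl⟩ := (h.key E hn h' _).1 k.symm
    exact ⟨_, h.of_mem h' hg⟩
  · rintro ⟨g, c, k⟩
    obtain ⟨g, rfl⟩ := gl_surjective g
    exact ⟨_, ⟨⟨_, h.mem h' k⟩, rfl⟩, ((h.key E hn h' _).2 ⟨1, g, by simp⟩).symm⟩

theorem D.cent_iff (E : Emb j ρ) (hn : 3 ≤ n) (h : D j H θ P ζ a) (g : LS (hermC H n) (cm_unit H)) :
    πS _ (suE H (by omega)) g ∈ Subgroup.centralizer {ΨSU H (by omega) θ} ↔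
      ∃ c g₀, g.1 = scal _ c * (P * ex j g₀ * P⁻¹) := by
  rw [Subgroup.mem_centralizer_singleton_iff, ← h.key E hn h, mul_inv_eq_iff_eq_mul]

theorem D.cent (E : Emb j ρ) (hn : 3 ≤ n) (h : D j H θ P ζ a) :
    Nonempty (↥(DSU H (by omega) ⊓ Subgroup.centralizer {ΨSU H (by omega) θ}) ≃*
      ↥(DL _ F₀ ⊓ Subgroup.centralizer {ga a})) := by
  have : Nonempty (Fin n) := ⟨⟨0, by omega⟩⟩
  obtain ⟨e⟩ := cent_proj (a := a) (e := LinearEquiv.refl _ _) (B := fun u v => be a u v) (k := 1) (by simp; omega)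
    (by simp)
  refine (equiv_quot_of_range ((πS _ (suE H (by omega))).comp (((MulAut.conj P).toMonoidHom.comp ((ex j).comp
    (Cfsg.Geo.similarityGroup fun u v => be a u v).subtype)).codRestrict _ fun g => g.2.elim fun c k => h.mem h k)) ?_ ?_).map fun f => f.trans e.symm
  · ext β
    constructor
    · rintro ⟨g, rfl⟩
      exact ⟨⟨_, rfl⟩, (h.cent_iff E hn _).2 ⟨1, g, by simp⟩⟩
    · rintro ⟨⟨⟨g, hg⟩, rfl⟩, k⟩
      obtain ⟨c, g₀, rfl⟩ := (h.cent_iff E hn _).1 k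
      obtain ⟨k, hk⟩ := h.of_mem h hg
      exact ⟨⟨g₀, Units.mk0 k (ne_of_sim (be_nd a).2 hk), hk⟩, (πS_scal _ _ c ⟨_, h.mem h hk⟩).symm⟩
  · ext g
    rw [MonoidHom.mem_ker, MonoidHom.comp_apply, πS_eq_one _ _ (KS_su H hn), Subgroup.mem_subgroupOf, ← isSc_gl,
      ← ex_isSc (j := j)]
    refine exists_congr fun c => P.surjective.forall.trans (forall_congr' fun v => ?_)
    simp [← _root_.map_smul]

theorem graph_iffU (hn : 3 ≤ n) {γ : MulAut (Cfsg.PSU n F q)} (h2 : γ ^ 2 = 1) :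
    Cfsg.IsGraphAutClassPSU γ ↔ ∃ θ, θ.1.σ = ρ ∧ γ = ΨSU H (Nat.le_of_succ_le hn) θ := by
  have := H.fin
  constructor
  · rintro ⟨-, δ, φ, τ, h1, h3, h4, rfl⟩
    obtain ⟨g, hg, rfl⟩ := (innerDiag_PSU H (by omega)).1 h3
    obtain rfl := (stdField_PSU H (by omega)).1 h4
    rw [← _root_.map_mul] at h2 ⊢
    refine ⟨_, ?_, rfl⟩
    have := ((pj_ΨS _ _ (KS_su H hn) _).1 ((map_pow _ _ _).trans h2)).1
    have k : τ ^ 2 = 1 := by simpa [sq] using this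
    have : orderOf τ = 2 := by
      rcases (Nat.dvd_prime Nat.prime_two).1 (orderOf_dvd_of_pow_eq_one k) with k | k
      exacts [absurd (k ▸ h1) (by simp), k]
    exact RingEquiv.ext fun a => by simpa using Op.eq_σ_of_two H this a
  · rintro ⟨θ, h, rfl⟩
    obtain ⟨g, hg, k⟩ := ΨSU_decomp H (by omega) θ
    exact ⟨hn, _, _, _, by rw [h, order_ρ H]; simp, (innerDiag_PSU H _).2 ⟨g, hg, rfl⟩, (stdField_PSU H _).2 rfl, k⟩

theorem D.order (hn : 3 ≤ n) (h : D j H θ P ζ a) : orderOf (ΨSU H (by omega) θ) = 2 := by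
  refine orderOf_eq_prime ?_ fun k => H.ne_id ?_
  · rw [← map_pow, show θ ^ 2 = 1 from Subtype.ext (Γ.ext' (fun a => by simpa [sq, h.σ] using H.invol a) fun v => ?_),
      _root_.map_one]
    obtain ⟨v, rfl⟩ := P.surjective v
    have : std _ ρ (std _ ρ v) = v := funext fun i => H.invol _
    simp [sq, h.app, this]
  · rw [← h.σ, show θ.1.σ = 1 from ((pj_ΨS _ _ (KS_su H hn) _).1 k).1]; rfl

theorem D.graph (hn : 3 ≤ n) (h : D j H θ P ζ a) : Cfsg.IsGraphAutClassPSU (ΨSU H (by omega) θ) :=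
  (graph_iffU hn (orderOf_dvd_iff_pow_eq_one.1 (h.order hn).dvd)).2 ⟨θ, h.σ, rfl⟩

theorem D.order' [Finite F₀] (E : Emb j ρ) (hn : 3 ≤ n) (h : D j H θ P ζ a) : orderOf (ga a) = 2 := by
  have : Nonempty (Fin n) := ⟨⟨0, by omega⟩⟩
  refine orderOf_eq_prime ((ga_sq (by simp; omega)).2 ?_) fun k => ΨL_ne_gr (by simpa using hn) (lin a)
    (by rw [← grL_inv]; exact eq_inv_of_mul_eq_one_left k)
  refine (desc (j := j) (B := fun v u => be a u v) (m := ρ ζ / ζ) fun u v => ?_).imp fun k h u v => h.2 v u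
  have := unit_B_symm (hermC H n) (P (j ∘ u)) (P (j ∘ v))
  rw [h.B, h.B, _root_.map_mul, RingHom.coe_coe, E.fix] at this
  have := h.ne
  field_simp
  linear_combination ‹_ = _›

theorem exists_D (E : Emb j ρ) (hn : 3 ≤ n) {γ : MulAut (Cfsg.PSU n F q)} (h : Cfsg.IsGraphAutClassPSU γ)
    (h2 : orderOf γ = 2) : ∃ θ P ζ a, D j H θ P ζ a ∧ γ = ΨSU H (Nat.le_of_succ_le hn) θ := by
  have : Nonempty (Fin n) := ⟨⟨0, by omega⟩⟩
  have := H.fin
  have h2' : γ ^ 2 = 1 := h2 ▸ pow_orderOf_eq_one _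
  obtain ⟨θ, hθ, rfl⟩ := (graph_iffU (H := H) hn h2').1 h
  obtain ⟨c, P, hP⟩ := (pj_ΨS _ _ (KS_su H hn)).pow_desc (θ := θ) (by simpa [hθ, order_ρ H] using h2')
  simp only [Subgroup.coe_subtype, hθ] at hP
  let θ' : Sim (hermC H n) (cm_unit H) := ⟨lin (scal _ c), _, isSim_scal c⟩ * θ
  have a' : ∀ v, θ'.1 (P v) = P (std _ ρ v) := hP
  have s' : θ'.1.σ = ρ := by simp [θ', hθ]
  obtain ⟨κ, hκ⟩ := θ'.2
  have fx : ∀ u v : Fin n → F₀, (hermC H n).B (P (j ∘ u)) (P (j ∘ v)) = κ * ρ ((hermC H n).B (P (j ∘ u)) (P (j ∘ v))) :=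
    fun u v => by simpa only [a', E.std_fix, s'] using hκ.B (P (j ∘ u)) (P (j ∘ v))
  have nd : ∀ v : Fin n → F₀, (∀ u, (hermC H n).B (P (j ∘ u)) (P (j ∘ v)) = 0) → v = 0 := fun v h => by
    have : P (j ∘ v) = 0 := hermC_nondeg H n _ fun u => by
      obtain ⟨u, rfl⟩ := P.surjective u
      have hu : u ∈ _ := (span_emb (j := j)).ge trivial
      induction hu using Submodule.span_induction with
      | mem u hu => obtain ⟨u, rfl⟩ := hu; exact h u
      | zero => simp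
      | add _ _ _ _ a b => simp [a, b]
      | smul _ _ _ a => simp [a]
    exact funext fun i => by simpa using congrFun (P.map_eq_zero_iff.1 this) i
  obtain ⟨v, hv⟩ := exists_ne (0 : Fin n → F₀)
  obtain ⟨u, hu⟩ := not_forall.1 (mt (nd v) hv)
  set ζ := (hermC H n).B (P (j ∘ u)) (P (j ∘ v)) with hζ
  choose β hβ using fun u v : Fin n → F₀ => (E ((hermC H n).B (P (j ∘ u)) (P (j ∘ v)) / ζ)).1 (by
    rw [map_div₀, ← mul_div_mul_left _ _ hκ.ne, ← fx, hζ, ← fx])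
  obtain ⟨a, ha⟩ := exists_be (B := LinearMap.mk₂ F₀ β
    (fun _ _ _ => j.injective (by simp [hβ, comp_add', add_div]))
    (fun _ _ _ => j.injective (by simp [hβ, comp_smul', mul_div_assoc]))
    (fun _ _ _ => j.injective (by simp [hβ, comp_add', add_div]))
    (fun _ _ _ => j.injective (by simp [hβ, comp_smul', mul_div_assoc, E.fix])))
    fun v h => nd v fun u => by simpa [hβ, hu] using congrArg j (h u)
  exact ⟨θ', P, ζ, a, ⟨hu, s', a', fun u v => by simp [ha, hβ, mul_div_cancel₀ _ hu]⟩,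
    by rw [_root_.map_mul, ΨS_scal, one_mul]⟩

theorem exists_D' [Finite F₀] (H : UF (ρ : F →+* F) q) (E : Emb j ρ) (hn : 3 ≤ n)
    {a : (Fin n → F₀) ≃ₗ[F₀] (Fin n → F₀)} (h : orderOf (ga a) = 2) : ∃ θ P ζ, D j H θ P ζ a := by
  have : Nonempty (Fin n) := ⟨⟨0, by omega⟩⟩
  obtain ⟨ζ, h0, hζ⟩ : ∃ ζ : F, ζ ≠ 0 ∧ ∀ u v, ζ * j (be a v u) = ρ ζ * j (be a u v) := by
    rcases (order_ga (by simpa using hn)).1 h with k | k
    · exact ⟨1, one_ne_zero, fun u v => by rw [k.eq, _root_.map_one]⟩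
    · obtain ⟨x, hx⟩ := not_forall.1 fun e => H.ne_id (RingHom.ext e)
      exact ⟨ρ x - x, sub_ne_zero.2 hx, fun u v => by
        rw [← k.neg_eq, _root_.map_sub, show ρ (ρ x) = x from H.invol x, _root_.map_neg]; ring⟩
  obtain ⟨A, hA⟩ := gl_surjective a.symm
  have hA' : ∀ i k, be a (Pi.single i 1) (Pi.single k 1) = A.1 i k := fun i k => by simp [be_apply, ← hA]
  let f := CForm.ofHerm H.ne_id H.invol (fun u v : Fin n → F => ζ * (u ⬝ᵥ ex j A (std _ ρ v)))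
    (fun u v w => by simp [mul_add]) (fun c u w => by simp [mul_left_comm]) fun u v => by
      simp only [ex, MonoidHom.comp_apply, gl_apply, dotProduct, mulVec, Finset.mul_sum, _root_.map_sum, _root_.map_mul,
        std_apply, RingHom.coe_coe]
      rw [Finset.sum_comm]
      refine Finset.sum_congr rfl fun i _ => Finset.sum_congr rfl fun k _ => ?_
      have := hζ (Pi.single i 1) (Pi.single k 1)
      rw [hA', hA'] at this
      change ζ * (_ * (j _ * _)) = _ * (_ * (ρ (j _) * _))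
      rw [E.fix, show ρ (ρ (v k)) = v k from H.invol _]
      linear_combination v k * ρ (u i) * this
  have fB : ∀ u v, f.B u v = ζ * (u ⬝ᵥ ex j A (std _ ρ v)) := fun _ _ => rfl
  have nd : f.Nondeg := fun v h => by
    have : ex j A (std _ ρ v) = 0 := funext fun i => by simpa [fB, h0] using h (Pi.single i 1)
    exact funext fun i => by simpa using congrFun ((ex j A).map_eq_zero_iff.1 this) i
  obtain ⟨P, hP⟩ := unit_exists_isIso H n nd (hermC_nondeg H n) (by simp) (by simp)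
  refine ⟨⟨lin P * std _ ρ * (lin P)⁻¹, ζ / ρ ζ, isSim_unit H (hermC_nondeg H n) fun u v => ?_⟩, P, ζ, h0, by simp,
    fun v => by simp [← _root_.map_inv], fun u v => ?_⟩
  · obtain ⟨u, rfl⟩ := P.surjective u
    obtain ⟨v, rfl⟩ := P.surjective v
    have : ρ ζ ≠ 0 := by simpa using h0
    simp only [← _root_.map_inv, Γ.mul_apply, lin_apply, LinearEquiv.coe_inv, LinearEquiv.symm_apply_apply, hP.1, fB,
      mul_σ, lin_σ, std_σ, one_mul, mul_one, _root_.map_mul, ← E.ex_comm]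
    field_simp
    simp [dotProduct]
  · rw [hP.1, fB, E.std_fix, ex_apply, hA, be_apply]
    simp [dotProduct]

theorem D.split (E : Emb j ρ) (hn : 3 ≤ n) (h : D j H θ P ζ a) (M : Subgroup (rootsOfUnity (q + 1) F))
    (hM : ∀ x, x ∈ M ↔ ∃ (c : Fˣ) (g : (Fin n → F₀) ≃ₗ[F₀] (Fin n → F₀)) (k : F₀),
      (∀ u v, be a (g u) (g v) = k * be a u v) ∧ c * ρ c * j k = 1 ∧ c ^ n * j (LinearEquiv.det g) = x.1) :
    Cfsg.splitClassCount (DSU H (by omega)) (Cfsg.Inn _) (ΨSU H (by omega) θ) = M.index := by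
  have : Nonempty (Fin n) := ⟨⟨0, by omega⟩⟩
  have := H.fin
  rw [DSU_eq, split_hom _ _ (detU_surj H (by omega)) (DSU_eq H _ ▸ inn_le_πS _ _) _ (πU_mem_inn H hn)]
  congr 1
  have dt : ∀ (c : Fˣ) g, (LinearEquiv.det (scal _ c * (P * ex j g * P⁻¹)) : F) = c ^ n * j (LinearEquiv.det (gl g)) :=
    fun c g => by simp [det_scal, det_ex, det_gl]
  have sm : ∀ (c : Fˣ) g k, (∀ u v, be a (gl g u) (gl g v) = k * be a u v) →
      IsSim (hermC H n) (lin (scal _ c * (P * ex j g * P⁻¹))) (c * ρ c * j k) := fun c g k hk => by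
    simpa [mul_div_cancel_left₀ _ h.ne] using
      (isSim_scal c).mul (cm_unit H) (isSim_unit H (hermC_nondeg H n) (θ := lin (P * ex j g * P⁻¹)) (h.sim h hk))
  refine le_antisymm (sup_le ?_ ?_) fun x hx => Subgroup.mem_sup_right ?_
  · rintro _ ⟨d, rfl⟩
    exact (hM _).2 ⟨d, 1, 1, by simp, by simpa [← H.norm_eq] using (mem_rootsOfUnity' _ _).1 d.2, by simp⟩
  · rintro _ ⟨⟨g, hg⟩, k, rfl⟩
    obtain ⟨c, g₀, e⟩ := (h.cent_iff E hn ⟨g, Isom_le_LS _ hg⟩).1 k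
    obtain rfl : g = _ := e
    obtain ⟨k, hk⟩ := h.of_mem h (Isom_le_LS _ hg)
    exact (hM _).2 ⟨c, _, k, hk, (sm c _ k hk).uniq (hermC_nondeg H n) (isSim_lin hg), (dt c g₀).symm⟩
  · obtain ⟨c, g, k, hk, h1, h2⟩ := (hM _).1 hx
    obtain ⟨g, rfl⟩ := gl_surjective g
    exact ⟨⟨_, IsSim.mem_Isom (h1 ▸ sm c g k hk)⟩, (h.cent_iff E hn _).2 ⟨c, g, rfl⟩,
      Subtype.ext (Units.ext ((dt c g).trans h2))⟩

theorem exists_root (H : UF (ρ : F →+* F) q) {c : Fˣ} {k : F} (h : c * ρ c * k = 1) :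
    ∃ y : rootsOfUnity (q + 1) F, (y.1 : F) = c ^ 2 * k ∧ (y.1 : F) = c / ρ c := by
  have : ρ c ≠ 0 := by simp
  refine ⟨⟨Units.mk0 (c / ρ c) (by simp), ?_⟩, ?_, rfl⟩
  · rw [mem_rootsOfUnity', ← H.norm_eq]
    simp only [Units.val_mk0, map_div₀, RingHom.coe_coe, show ρ (ρ c) = c from H.invol _]
    field_simp
  · simp only [Units.val_mk0]; field_simp; linear_combination -h

theorem exists_ck (H : UF (ρ : F →+* F) q) (E : Emb j ρ) (y : rootsOfUnity (q + 1) F) :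
    ∃ (c : Fˣ) (k : F₀), k ≠ 0 ∧ c * ρ c * j k = 1 ∧ c ^ 2 * j k = y.1 := by
  obtain ⟨c, c0, hc⟩ := exists_div_σ H.ne_id H.invol (m := y.1) (by
    rw [H.norm_eq]; exact (mem_rootsOfUnity' _ _).1 y.2)
  obtain ⟨k, hk⟩ := (E (c * ρ c)⁻¹).1 (by simp [show ρ (ρ c) = c from H.invol _, mul_comm])
  have : ρ c ≠ 0 := by simpa using c0
  refine ⟨Units.mk0 c c0, k, ?_, by simp [hk]; field_simp, by rw [hk, ← hc]; simp; field_simp⟩
  rintro rfl
  exact inv_ne_zero (mul_ne_zero c0 this) (by rw [← hk, _root_.map_zero])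

theorem D.split_gen [Finite F₀] (E : Emb j ρ) (hn : 3 ≤ n) (h : D j H θ P ζ a) (k : Odd n ∨ Even q) :
    Cfsg.splitClassCount (DSU H (by omega)) (Cfsg.Inn _) (ΨSU H (by omega) θ) = Nat.gcd n (q + 1) := by
  have := H.fin
  rw [h.split E hn (powMonoidHom n).range, IsCyclic.index_powMonoidHom_range, H.card_roots_succ, Nat.gcd_comm]
  refine fun x => ⟨fun ⟨d, e⟩ => ⟨d, 1, 1, by simp, by simpa [← H.norm_eq] using (mem_rootsOfUnity' _ _).1 d.2,
    by simp [← e]⟩, ?_⟩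
  rintro ⟨c, g, l, h1, h2, h3⟩
  obtain ⟨y, hy, -⟩ := exists_root H h2
  have : x ^ 2 = y ^ n := Subtype.ext (Units.ext (by
    simp only [SubmonoidClass.coe_pow, Units.val_pow_eq_pow_val, ← h3, hy, mul_pow, ← map_pow, det_sq_be h1,
      Fintype.card_fin]; ring))
  rcases k with ⟨i, hi⟩ | ⟨i, hi⟩
  · refine ⟨x / y ^ i, ?_⟩
    rw [powMonoidHom_apply, div_pow, ← pow_mul, mul_comm i, pow_mul, ← this, ← pow_mul, hi, pow_succ', mul_div_cancel_right]
  · refine ⟨y ^ (i + 1), ?_⟩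
    rw [powMonoidHom_apply, ← pow_mul, mul_comm, pow_mul, ← this, ← pow_mul, show 2 * (i + 1) = q + 1 + 1 by omega,
      pow_succ, show x ^ (q + 1) = 1 from Subtype.ext x.2, one_mul]

theorem D.split_alt [Finite F₀] (E : Emb j ρ) (hn : 3 ≤ n) (h : D j H θ P ζ a) {m : ℕ} (hm : n = 2 * m)
    (ha : (be a).IsAlt) :
    Cfsg.splitClassCount (DSU H (by omega)) (Cfsg.Inn _) (ΨSU H (by omega) θ) = Nat.gcd m (q + 1) := by
  have := H.fin
  have : Nonempty (Fin n) := ⟨⟨0, by omega⟩⟩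
  have k := fun c (c0 : c ≠ 0) => sp_det (ofAlt_nondeg ha (be_nd a)) (m := m) (by simpa using hm) c0
  rw [h.split E hn (powMonoidHom m).range, IsCyclic.index_powMonoidHom_range, H.card_roots_succ, Nat.gcd_comm]
  refine fun x => ⟨?_, ?_⟩
  · rintro ⟨y, rfl⟩
    obtain ⟨c, l, l0, h1, h2⟩ := exists_ck H E y
    obtain ⟨⟨g, hg⟩, k1⟩ := k l l0
    exact ⟨c, g, l, hg, h1, by simp [LinearEquiv.coe_det, k1 g hg, ← h2, hm, mul_pow, pow_mul]⟩
  · rintro ⟨c, g, l, h1, h2, h3⟩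
    obtain ⟨y, hy, -⟩ := exists_root H h2
    exact ⟨y, Subtype.ext (Units.ext (by
      simp [hy, ← h3, LinearEquiv.coe_det, (k l (ne_of_sim (be_nd a).2 h1)).2 g h1, hm, mul_pow, pow_mul]))⟩

theorem symm_det [Finite F₀] (h2 : (2 : F₀) ≠ 0) {m : ℕ} (hm : n = 2 * m) (h : 1 ≤ m) (ha : (be a).IsSymm) {c s : F₀}
    (c0 : c ≠ 0) (hs : s ^ 2 = c ^ n) : ∃ g : (Fin n → F₀) ≃ₗ[F₀] (Fin n → F₀),
      (∀ u v, be a (g u) (g v) = c * be a u v) ∧ LinearEquiv.det g = s := by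
  have hf := ofSymm_nondeg h2 ha (be_nd a)
  have sim : ∀ {g : (Fin n → F₀) ≃ₗ[F₀] (Fin n → F₀)} {c}, ((ofSymm (be a)).scale c).IsIso (ofSymm (be a)) g →
      ∀ u v, be a (g u) (g v) = c * be a u v := fun k u v =>
    mul_left_cancel₀ h2 (by simpa [scale, ofSymm_B ha, mul_left_comm] using k.1 u v)
  obtain ⟨g, k⟩ := orth_exists_isIso_even m (scale_nondeg hf c0) hf (by simpa using hm) (by simpa using hm)
    (scale_isPlus c0)
  have k1 := det_sq_be (sim k)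
  rw [Fintype.card_fin, ← hs, sq_eq_sq_iff_eq_or_eq_neg] at k1
  rcases k1 with k1 | k1
  · exact ⟨g, sim k, k1⟩
  · obtain ⟨d, hd⟩ := orth_exists_Q_ne hf (by simp; omega)
    refine ⟨g * (ofSymm (be a)).rf d, fun u v => ?_, ?_⟩
    · rw [LinearEquiv.mul_apply, LinearEquiv.mul_apply, sim k, sim (Gr.iso_scale (rf_mem d)), one_mul]
    · rw [_root_.map_mul, Units.val_mul, k1, LinearEquiv.coe_det, rf_det hd]; simp

theorem D.split_symm [Finite F₀] (E : Emb j ρ) (hn : 3 ≤ n) (h : D j H θ P ζ a) (h2 : (2 : F₀) ≠ 0) (hq : Odd q)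
    {m : ℕ} (hm : n = 2 * m) (ha : (be a).IsSymm) :
    Cfsg.splitClassCount (DSU H (by omega)) (Cfsg.Inn _) (ΨSU H (by omega) θ) = Nat.gcd n (q + 1) / 2 := by
  have := H.fin
  rw [h.split E hn ((powMonoidHom n).range.comap (powMonoidHom 2)), Subgroup.index_comap]
  · have l : (powMonoidHom n : rootsOfUnity (q + 1) F →* _).range ≤ (powMonoidHom 2).range := by
      rintro _ ⟨x, rfl⟩; exact ⟨x ^ m, by simp [← pow_mul, mul_comm, hm]⟩
    have := Subgroup.relIndex_mul_index l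
    rw [IsCyclic.index_powMonoidHom_range, IsCyclic.index_powMonoidHom_range, H.card_roots_succ,
      Nat.gcd_eq_right hq.add_one.two_dvd] at this
    rw [Nat.gcd_comm, ← this]; simp
  refine fun x => ⟨?_, ?_⟩
  · rintro ⟨y, hy⟩
    obtain ⟨c, l, l0, h1, h3⟩ := exists_ck H E y
    have : (x.1 : F) ^ 2 = (c ^ n * j (l ^ m)) ^ 2 := by
      have := congrArg (fun z => (z.1 : F)) hy
      simp only [powMonoidHom_apply, SubmonoidClass.coe_pow, Units.val_pow_eq_pow_val, ← h3] at this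
      rw [← this, map_pow, hm]; ring
    obtain ⟨s, hs, k⟩ : ∃ s, s ^ 2 = l ^ n ∧ c ^ n * j s = x.1 := by
      rcases sq_eq_sq_iff_eq_or_eq_neg.1 this with k | k
      exacts [⟨l ^ m, by rw [hm]; ring, k.symm⟩, ⟨-l ^ m, by rw [hm]; ring, by simp [k]⟩]
    obtain ⟨g, hg, rfl⟩ := symm_det h2 hm (by omega) ha l0 hs
    exact ⟨c, g, l, hg, h1, k⟩
  · rintro ⟨c, g, l, h1, h2, h3⟩
    obtain ⟨y, hy, -⟩ := exists_root H h2
    exact ⟨y, Subtype.ext (Units.ext (by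
      simp only [powMonoidHom_apply, SubmonoidClass.coe_pow, Units.val_pow_eq_pow_val, ← h3, hy, mul_pow, ← map_pow,
        det_sq_be h1, Fintype.card_fin]; ring))⟩

end CfsgH5.Gu
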