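import Cfsg.Agent.H5.Orth7
import Cfsg.Agent.H5.Symp2
import Mathlib.NumberTheory.Zsqrtd.GaussianInt

set_option autoImplicit false

/-!
The permutation module of the symmetric group over the field with two elements and its heart.
-/

namespace CfsgH5.Ht

open Module CForm

section Heart

variable {F : Type*} [Field F] {P : FP F} {V : Type*} [AddCommGroup V] [Module F V] {f : CForm P V}

theorem exists_heart {x y : V} (h : f.IsHyp x y) {G : Type*} [Group G] (φ : G →* (V ≃ₗ[F] V)) (h1 : ∀ g, φ g ∈ f.Isom)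
    (h2 : ∀ g, φ g x = x) : ∃ ρ : G →* (f.res (f.perp (Submodule.span F {x, y}))).Isom,
      ∀ g, ρ g = 1 → ∀ v, f.B v x = 0 → ∃ c : F, φ g v = v + c • x := by
  have b : ∀ g v, f.B (φ g v) x = f.B v x := fun g v => by rw [← f.Isom_B (h1 g) v, h2]
  let L : G →* End F (f.perp (Submodule.span F {x, y})) :=
    { toFun g :=
        { toFun w := ⟨φ g w - f.B (φ g w) y • x, IsHyp.mem_perp.2 ⟨by simp [b, h.hxx, (IsHyp.mem_perp.1 w.2).1], by simp [h.hxy]⟩⟩
          map_add' u w := Subtype.ext (by simp [add_smul]; abel)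
          map_smul' a w := Subtype.ext (by simp [smul_sub, mul_smul]) }
      map_one' := LinearMap.ext fun w => Subtype.ext (by simp [(IsHyp.mem_perp.1 w.2).2])
      map_mul' g k := LinearMap.ext fun w => Subtype.ext (by simp [h2, h.hxy, sub_smul]) }
  have x0 : ∀ v, f.B v x = 0 → f.B x v = 0 := fun v k => by rw [f.B_symm, k]; simp
  refine ⟨((LinearMap.GeneralLinearGroup.generalLinearEquiv F _).toMonoidHom.comp L.toHomUnits).codRestrict _ fun g =>
    ⟨fun u w => ?_, fun w => ?_⟩, fun g k v l => ?_⟩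
  · change f.B (φ g u - _ • x) (φ g w - _ • x) = _
    simp [b, h.hxx, (IsHyp.mem_perp.1 u.2).1, x0 _ ((b g w).trans (IsHyp.mem_perp.1 w.2).1), f.Isom_B (h1 g), res_B]
  · change f.Q (φ g w - _ • x) = _
    simp [sub_eq_add_neg, ← neg_smul, f.Q_add, f.Q_smul, h.hx, b, (IsHyp.mem_perp.1 w.2).1, f.Isom_Q (h1 g), res_Q]
  have := congrArg (fun z => (z.1 ⟨v - f.B v y • x, IsHyp.mem_perp.2 ⟨by simp [l, h.hxx], by simp [h.hxy]⟩⟩).1) k
  change φ g (v - _ • x) - _ • x = v - _ • x at this
  rw [_root_.map_sub, _root_.map_smul, h2, sub_right_comm, sub_left_inj, sub_eq_iff_eq_add] at this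
  exact ⟨_, this⟩

end Heart

variable {F : Type*} [Field F] {N : ℕ}

theorem key (u v : Fin N → F) : (∑ i, u i) * (∑ i, v i) - ∑ i, u i * v i =
    (∑ i, ∑ j, if i < j then u i * v j else 0) + ∑ i, ∑ j, if i < j then v i * u j else 0 := by
  have : ∑ i, u i * v i = ∑ i, ∑ j, if i = j then u i * v j else 0 := by simp
  rw [Finset.sum_mul_sum, this, Finset.sum_comm (f := fun i j => if i < j then v i * u j else 0)]
  simp only [← Finset.sum_add_distrib, ← Finset.sum_sub_distrib]
  refine Finset.sum_congr rfl fun i _ => Finset.sum_congr rfl fun j _ => ?_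
  rcases lt_trichotomy i j with h | rfl | h
  · simp [h, h.ne, h.not_gt]
  · simp
  · simp [h, h.ne', h.not_gt, mul_comm]

variable (F N) in
/-- the second elementary symmetric function -/
def e2 : CForm (FP.orth F) (Fin N → F) where
  B u v := (∑ i, u i) * (∑ i, v i) - ∑ i, u i * v i
  Q v := ∑ i, ∑ j, if i < j then v i * v j else 0
  B_add_left u v w := by simp [Finset.sum_add_distrib, add_mul]; ring
  B_smul_left a u w := by simp [Finset.mul_sum, mul_sub, mul_assoc, Finset.sum_mul]
  B_symm u v := by simp [mul_comm]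
  Q_add u v := by
    rw [FP.orth_t, key]
    simp only [← Finset.sum_add_distrib]
    refine Finset.sum_congr rfl fun i _ => Finset.sum_congr rfl fun j _ => ?_
    split_ifs <;> simp; ring
  Q_smul a v := by simp [Finset.mul_sum, mul_mul_mul_comm]
  Q_diag v := ⟨∑ i, ∑ j, if i < j then v i * v j else 0, rfl, by simp [key]⟩

variable (F N) in
/-- the polar form -/
def s2 (h2 : (2 : F) = 0) : CForm (FP.symp F) (Fin N → F) where
  B := (e2 F N).B
  Q _ := 0
  B_add_left := by simp
  B_smul_left := by simp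
  B_symm u v := by simp [(e2 F N).orth_B_symm u v, eq_neg_iff_add_eq_zero, ← two_mul, h2]
  Q_add := by simp
  Q_smul := by simp
  Q_diag v := ⟨0, rfl, by simp [orth_B_self, h2]⟩

theorem e2_B (u v : Fin N → F) : (e2 F N).B u v = (∑ i, u i) * (∑ i, v i) - ∑ i, u i * v i := rfl

theorem e2_Q (v : Fin N → F) : (e2 F N).Q v = ∑ i, ∑ j, if i < j then v i * v j else 0 := rfl

theorem e2_nondeg (h : (N : F) = 0) : (e2 F N).Nondeg := fun v k => by
  have a : ∀ i, v i = ∑ i, v i := fun i => by simpa [e2_B, Pi.single_apply, sub_eq_zero, eq_comm] using k (Pi.single i 1)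
  have := Finset.sum_congr rfl fun i (_ : i ∈ Finset.univ) => a i
  exact funext fun i => by simpa [← a i, h] using this

variable (F N) in
/-- permutation matrices -/
def pm : Equiv.Perm (Fin N) →* ((Fin N → F) ≃ₗ[F] (Fin N → F)) :=
  MonoidHom.mk' (fun σ => LinearEquiv.funCongrLeft F F σ.symm) fun _ _ => rfl

theorem pm_apply (σ : Equiv.Perm (Fin N)) (v : Fin N → F) (i : Fin N) : pm F N σ v i = v (σ.symm i) := rfl

theorem pm_B (σ : Equiv.Perm (Fin N)) (u v : Fin N → F) : (e2 F N).B (pm F N σ u) (pm F N σ v) = (e2 F N).B u v := by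
  simp only [e2_B, pm_apply]
  rw [σ.symm.sum_comp u, σ.symm.sum_comp v, σ.symm.sum_comp fun i => u i * v i]

theorem e2_single (i : Fin N) : (e2 F N).Q (Pi.single i 1) = 0 :=
  (e2_Q _).trans <| Finset.sum_eq_zero fun a _ => Finset.sum_eq_zero fun b _ => by
    split_ifs with h
    · by_cases k : a = i
      · simp [(k ▸ h).ne']
      · simp [k]
    · rfl

theorem pm_mem (σ : Equiv.Perm (Fin N)) : pm F N σ ∈ (e2 F N).Isom := by
  refine ⟨pm_B σ, fun v => ?_⟩
  induction v using Pi.single_induction with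
  | zero => simp
  | add u v a b => simp [orth_Q_add, a, b, pm_B]
  | single i a =>
    have : ∀ i, (Pi.single i a : Fin N → F) = a • Pi.single i 1 := fun i => by simp [← Pi.single_smul]
    rw [show pm F N σ (Pi.single i a) = Pi.single (σ i) a from funext fun j => by
      simp [pm_apply, Pi.single_apply, Equiv.symm_apply_eq], this, this, orth_Q_smul, orth_Q_smul, e2_single, e2_single]

theorem pm_inj (h2 : (2 : F) = 0) (h : 5 ≤ N) {σ : Equiv.Perm (Fin N)}
    (k : ∀ v : Fin N → F, ∑ i, v i = 0 → ∃ c : F, pm F N σ v = v + c • 1) : σ = 1 := Equiv.ext fun i => by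
  by_contra e
  obtain ⟨j, -, hj⟩ := Finset.exists_mem_notMem_of_card_lt_card (s := {i, σ.symm i}) (t := Finset.univ)
    (Finset.card_le_two.trans_lt (by simp; omega))
  obtain ⟨l, -, hl⟩ := Finset.exists_mem_notMem_of_card_lt_card (s := {i, j, σ i, σ j}) (t := Finset.univ)
    (Finset.card_le_four.trans_lt (by simp; omega))
  obtain ⟨c, hc⟩ := k (Pi.single i 1 + Pi.single j 1) (by simp [Finset.sum_add_distrib, one_add_one_eq_two, h2])
  simp only [Finset.mem_insert, Finset.mem_singleton, not_or] at hj hl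
  have a := congrFun hc l
  have b := congrFun hc i
  simp [pm_apply, Pi.single_apply, Equiv.symm_apply_eq, hl] at a
  simp [pm_apply, Pi.single_apply, ← a, Ne.symm hj.1, Ne.symm hj.2, show σ.symm i ≠ i from
    fun z => e ((σ.symm_apply_eq.1 z).symm)] at b

theorem e2_cons (a : F) (v : Fin N → F) : (e2 F (N + 1)).Q (Fin.cons a v) = a * ∑ i, v i + (e2 F N).Q v := by
  simp [e2_Q, Fin.sum_univ_succ, Finset.mul_sum]

theorem e2_one : (e2 F N).Q 1 = N.choose 2 := by
  induction N with
  | zero => simp [e2_Q]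
  | succ n ih => rw [show (1 : Fin (n + 1) → F) = Fin.cons 1 1 from funext fun i => by cases i using Fin.cases <;> rfl, e2_cons, ih, Nat.choose_succ_succ]; simp

theorem e2_sgn [Finite F] (hF : Nat.card F = 2) (k : ℕ) : (e2 F (4 * k)).sgn = (-1) ^ k := by
  classical
  have := Fintype.ofFinite F
  have z : ∀ a : F, a = 0 ∨ a = 1 := fun a => by
    have := FiniteField.pow_card a
    rw [← Nat.card_eq_fintype_card, hF] at this
    exact (mul_eq_zero.1 (show a * (a - 1) = 0 by linear_combination this)).imp_right sub_eq_zero.1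
  have h2 : (1 : F) + 1 = 0 := (z _).resolve_right (by simp)
  let c : F → GaussianInt := fun a => if a = 0 then 1 else ⟨0, 1⟩
  have a : ∀ N (v : Fin N → F), ∏ i, c (v i) = (if (e2 F N).Q v = 0 then 1 else -1) * c (∑ i, v i) := fun N => by
    induction N with
    | zero => simp [e2_Q, c]
    | succ n ih =>
      intro v
      induction v using Fin.consCases with | cons a v => ?_
      rw [Fin.prod_univ_succ, Fin.sum_univ_succ, e2_cons]
      simp only [Fin.cons_zero, Fin.cons_succ, ih]
      rcases z a with rfl | rfl <;> rcases z (∑ i, v i) with h | h <;> rcases z ((e2 F n).Q v) with l | l <;>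
        simp [h, l, c, h2] <;> rfl
  have b := Finset.prod_univ_sum (fun _ : Fin (4 * k) => (Finset.univ : Finset F)) fun _ => c
  have u : (Finset.univ : Finset F) = {0, 1} := by ext a; simpa using z a
  rw [Fintype.piFinset_univ, u, Finset.sum_pair zero_ne_one, Finset.prod_const, Finset.card_univ, Fintype.card_fin,
    pow_mul, show (c 0 + c 1) ^ 4 = ((-4 : ℤ) : GaussianInt) by simp [c]; rfl, ← Int.cast_pow] at b
  have d : ∑ v : Fin (4 * k) → F, (if (e2 F _).Q v = 0 then 1 else -1 : ℤ) = (-4) ^ k := by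
    let τ : GaussianInt →+ ℤ := AddMonoidHom.mk' (fun w => w.re + w.im) fun a b => by simp; ring
    have := congrArg τ b
    rw [map_sum] at this
    refine Eq.trans (Finset.sum_congr rfl fun v _ => ?_) (this.symm.trans (add_zero _))
    rw [a]
    rcases z (∑ i, v i) with h | h <;> split_ifs <;> simp [τ, c, h]
  have e := (orth_nQ_even (2 * k) (e2_nondeg (F := F) (N := 4 * k) (by
    rw [← one_add_one_eq_two] at *; push_cast; linear_combination (2 * k : F) * h2)) (by simp; ring)).1
  rw [hF, nQ, Nat.card_eq_fintype_card, Fintype.card_subtype] at e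
  have t := Finset.card_filter_add_card_filter_not (s := Finset.univ) fun v => (e2 F (4 * k)).Q v = 0
  rw [Finset.card_univ, Fintype.card_fun, ← Nat.card_eq_fintype_card (α := F), hF, Fintype.card_fin] at t
  rw [Finset.sum_ite] at d
  simp only [Finset.sum_const, nsmul_eq_mul] at d
  zify at t
  refine mul_right_cancel₀ (b := 4 ^ k) (by simp) ?_
  rw [← mul_pow, show (-1 : ℤ) * 4 = -4 from rfl, ← d, show (4 : ℤ) = 2 ^ 2 from rfl, ← pow_mul]
  rw [show 2 * (2 * k) = 4 * k by ring] at e
  push_cast at e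
  linear_combination t - e

theorem heart_sp (h2 : (2 : F) = 0) {n : ℕ} (h : 3 ≤ n) :
    ∃ φ : Equiv.Perm (Fin (2 * n)) →* Matrix.symplecticGroup (Fin (n - 1)) F, Function.Injective φ := by
  have nd : (s2 F (2 * n) h2).Nondeg := e2_nondeg (by simp [h2])
  have : Nonempty (Fin (2 * n)) := ⟨⟨0, by omega⟩⟩
  obtain ⟨y, hy⟩ := nd.exists_hyp' (x := 1) rfl one_ne_zero
  obtain ⟨ρ, hρ⟩ := exists_heart hy (pm F _) (fun σ => mem_Isom_symp.2 (pm_B σ)) fun _ => rfl
  obtain ⟨e⟩ := symp_isom_equiv (hy.nondeg_perp nd) (m := n - 1) (by have := hy.finrank_perp; simp at this; omega)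
  exact ⟨e.toMonoidHom.comp ρ, e.injective.comp ((injective_iff_map_eq_one _).2 fun σ k =>
    pm_inj h2 (by omega) fun v l => hρ σ k v (by simp [s2, e2_B, l]))⟩

theorem heart_orth [Finite F] (hF : Nat.card F = 2) {k : ℕ} (h : 1 ≤ k) {ι : Type} [Fintype ι] [DecidableEq ι]
    {Q : QuadraticForm F (ι → F)} (hQ : (ofQuad Q).Nondeg) (hd : Fintype.card ι = 4 * k + 2)
    (hp : (ofQuad Q).IsPlus ↔ Odd k) :
    ∃ φ : Equiv.Perm (Fin (4 * k + 4)) →* Cfsg.isometryGroup F Q, Function.Injective φ := by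
  have h2 : (2 : F) = 0 := by have := Fintype.ofFinite F; simpa [← Nat.card_eq_fintype_card, hF] using FiniteField.cast_card_eq_zero F
  have nd : (e2 F (4 * k + 4)).Nondeg := e2_nondeg (by push_cast; linear_combination (2 * k + 2 : F) * h2)
  obtain ⟨y, hy⟩ := nd.exists_hyp' (x := 1) (by
    rw [e2_one, Nat.choose_two_right, show (4 * k + 4) * (4 * k + 4 - 1) = 2 * (2 * ((k + 1) * (4 * k + 3))) by
      rw [show 4 * k + 4 - 1 = 4 * k + 3 from rfl]; ring]
    simp [h2]) one_ne_zero
  obtain ⟨ρ, hρ⟩ := exists_heart hy (pm F _) pm_mem fun _ => rfl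
  obtain ⟨e, he⟩ := orth_exists_isIso_even (2 * k + 1) (hy.nondeg_perp nd) hQ
    (by have := hy.finrank_perp; simp at this; omega) (by simp; omega) (by
      rw [hy.isPlus_iff nd, hp, ← sgn_eq_one, show (e2 F (4 * k + 4)).sgn = _ from e2_sgn hF (k + 1),
        neg_one_pow_eq_one_iff_even (by decide), Nat.even_add_one, Nat.not_even_iff_odd])
  exact ⟨(he.isomEquiv.trans (orthEquiv Q).symm).toMonoidHom.comp ρ, (he.isomEquiv.trans (orthEquiv Q).symm).injective.comp
    ((injective_iff_map_eq_one _).2 fun σ k => pm_inj h2 (by omega) fun v l => hρ σ k v (by simp [e2_B, l]))⟩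

end CfsgH5.Ht
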