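import Cfsg.Agent.H5.Op4

set_option autoImplicit false

/-!
Exceptional isomorphisms of low-dimensional orthogonal groups, part 1: the general mechanism.
-/

namespace CfsgH5.Lx

open Module Au Au.Γ CForm Matrix

section Gen

variable {F : Type*} [Field F] {V : Type*} [AddCommGroup V] [Module F V] {G P : Type*} [Group G] [Group P]

/-- the elements acting as scalars -/
def scK (φ : G →* (V ≃ₗ[F] V)) : Subgroup G where
  carrier := {g | IsSc (φ g)}
  one_mem' := by simpa using isSc_one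
  mul_mem' a b := by simpa using Op.IsSc.mul a b
  inv_mem' {g} := fun ⟨l, h⟩ => ⟨l⁻¹, fun v => by
    rcases eq_or_ne l 0 with rfl | l0
    · simpa using h v
    · simp [LinearEquiv.symm_apply_eq, h, smul_smul, l0]⟩

theorem sc_iff [IsSimpleGroup P] {π : G →* P} (hπ : Function.Surjective π) {φ : G →* (V ≃ₗ[F] V)}
    (h1 : ∀ g, π g = 1 → IsSc (φ g)) (h2 : ∃ g, ¬ IsSc (φ g)) (g : G) : π g = 1 ↔ IsSc (φ g) := by
  have n : (scK φ).Normal := ⟨fun a h g => by
    change IsSc (φ _)
    rwa [_root_.map_mul, _root_.map_mul, IsSc.comm h, ← _root_.map_mul, ← _root_.map_mul, mul_inv_cancel_right]⟩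
  refine ⟨h1 g, fun h => ((n.map π hπ).eq_bot_or_eq_top.resolve_right fun k => ?_).le ⟨g, h, rfl⟩⟩
  obtain ⟨g, h⟩ := h2
  obtain ⟨a, b, c⟩ := k.ge (Subgroup.mem_top (π g))
  exact h (show g ∈ scK φ by simpa using (scK φ).mul_mem b (h1 (a⁻¹ * g) (by simp [c])))

variable {f : CForm (FP.orth F) V}

/-- the projective orthogonal group -/
abbrev PO (f : CForm (FP.orth F) V) := commutator f.Isom ⧸ Subgroup.center (commutator f.Isom)

theorem mem_comm {s : f.Isom} : s ∈ commutator f.Isom ↔ s.1 ∈ ⁅f.Isom, f.Isom⁆ := by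
  rw [← Subgroup.map_subtype_commutator]
  exact (Subgroup.mem_map_iff_mem (Subgroup.subtype_injective _)).symm

theorem mem_of_perfect (h : commutator G = ⊤) (φ : G →* f.Isom) (g : G) : φ g ∈ commutator f.Isom :=
  Subgroup.commutator_mono le_top le_top ((Subgroup.map_commutator _ _ φ).le ⟨g, h.ge trivial, rfl⟩)

variable [Finite F] [FiniteDimensional F V]

theorem sq_mem (hf : f.Nondeg) (hs : f.Split) (s : f.Isom) : s * s ∈ commutator f.Isom := by
  have := hom_ext_rf hf hs (φ := (powMonoidHom 2).comp Abelianization.of) (ψ := 1) fun d _ => by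
    rw [MonoidHom.comp_apply, powMonoidHom_apply, ← _root_.map_pow, pow_two]
    exact congrArg _ (Subtype.ext (rf_mul_rf d))
  exact pow_two s ▸ (QuotientGroup.eq_one_iff _).1 ((map_pow Abelianization.of _ _).trans (DFunLike.congr_fun this s))

theorem mem_SL2 (hf : f.Nondeg) (hs : f.Split) {K : Type*} [Field K] [Fintype K] (h : 3 ≤ Fintype.card K)
    (φ : SpecialLinearGroup (Fin 2) K →* f.Isom) (g : SpecialLinearGroup (Fin 2) K) : φ g ∈ commutator f.Isom := by
  classical
  by_cases h2 : (2 : K) = 0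
  · obtain ⟨a, -, k⟩ := Finset.exists_mem_notMem_of_card_lt_card (s := {(0 : K), 1}) (t := Finset.univ)
      (Finset.card_le_two.trans_lt h)
    simp only [Finset.mem_insert, Finset.mem_singleton, not_or] at k
    exact mem_of_perfect (SL2.commutator_eq_top k.1 fun e => k.2 (sub_eq_zero.1
      (pow_eq_zero_iff two_ne_zero |>.1 (by linear_combination e + (1 - a) * h2)))) φ g
  induction g using SL_transvection_induction with
  | ht i j h c =>
    rw [show c = c / 2 + c / 2 by field_simp; ring, SpecialLinearGroup.transvection_add, _root_.map_mul]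
    exact sq_mem hf hs _
  | hmul A B a b => exact _root_.map_mul φ A B ▸ mul_mem a b

theorem exists_inj (hf : f.Nondeg) (h3 : 3 ≤ finrank F V) (hs : f.Split) {π : G →* P} (hπ : Function.Surjective π)
    (φ : G →* f.Isom) (h1 : ∀ g, φ g ∈ commutator f.Isom) (h2 : ∀ g, π g = 1 ↔ IsSc (φ g).1) :
    ∃ ψ : P →* PO f, Function.Injective ψ := by
  let χ : G →* PO f := (QuotientGroup.mk' _).comp (φ.codRestrict _ h1)
  have : π.ker = χ.ker := Subgroup.ext fun g => (h2 g).trans (Iff.trans ⟨fun h => Subgroup.mem_center_iff.2 fun s =>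
    Subtype.ext (Subtype.ext (h.comm _)), fun h => (KS_orth hf h3).center fun s k => congrArg (·.1.1)
      (Subgroup.mem_center_iff.1 h ⟨⟨s, E_le_Isom k⟩, mem_comm.2 (E_le_comm hf hs k)⟩)⟩ (QuotientGroup.eq_one_iff _).symm)
  let e := (QuotientGroup.quotientKerEquivOfSurjective π hπ).symm.trans (QuotientGroup.quotientMulEquivOfEq this)
  exact ⟨(QuotientGroup.kerLift χ).comp e.toMonoidHom, (QuotientGroup.kerLift_injective χ).comp e.injective⟩

theorem equiv_of_inj {ψ : P →* PO f} (h : Function.Injective ψ) (k : Nat.card (PO f) = Nat.card P) :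
    Nonempty (PO f ≃* P) :=
  have : Finite V := Module.finite_of_finite F
  have : Finite (V ≃ₗ[F] V) := DFunLike.finite _
  ⟨(MulEquiv.ofBijective ψ ((Nat.bijective_iff_injective_and_card _).2 ⟨h, k.symm⟩)).symm⟩

omit [Finite F] [FiniteDimensional F V] in
theorem po_equiv {V' : Type*} [AddCommGroup V'] [Module F V'] {f' : CForm (FP.orth F) V'} {e : V ≃ₗ[F] V'}
    (h : f.IsIso f' e) : Nonempty (PO f ≃* PO f') :=
  ⟨quotCenterEquiv ((h.isomEquiv.subgroupMap _).trans (MulEquiv.subgroupCongr ((Subgroup.map_commutator _ _ _).trans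
    (by rw [Subgroup.map_top_of_surjective _ h.isomEquiv.surjective]; rfl))))⟩

end Gen

theorem exists_desc_hom {F K : Type*} [Field F] [Field K] [Finite K] {ι : Type} [Fintype ι] [DecidableEq ι] [Nonempty ι]
    {f : CForm (FP.orth K) (ι → K)} (hf : f.Nondeg) {θ : Γ K (ι → K)} (hθ : IsSim f θ 1) (h : θ ^ orderOf θ.σ = 1)
    {j : F →+* K} (E : Emb j θ.σ) {G : Type*} [Group G] (φ : G →* f.Isom) (k : ∀ g v, θ ((φ g).1 v) = (φ g).1 (θ v)) :
    ∃ f₀ : CForm (FP.orth F) (ι → F), f₀.Nondeg ∧ ∃ ψ : G →* f₀.Isom, ∀ g, IsSc (ψ g).1 ↔ IsSc (φ g).1 := by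
  obtain ⟨g, hg⟩ := exists_conj_std (orderOf_pos _) h
  obtain ⟨μ, h0, hμ, f₀, X⟩ := exists_desc_form (fpe_orth j) cm_orth E hf hθ rfl hg
  choose a ha using fun s => E.exists_ex (g := g⁻¹ * (φ s).1 * g) fun v => g.injective (by simp [← hg, k])
  have b : ∀ s, Op.exC j g (gl (a s)) = (φ s).1 := fun s => by simp [Op.exC, exL_gl, ha, mul_assoc]
  have i : Function.Injective (Op.exC j g) := (injective_iff_map_eq_one _).2 fun a k => LinearEquiv.ext fun v =>
    funext fun i => j.injective (congrFun ((Op.exL_apply a v).symm.trans (g.injective (a₂ := j ∘ v) (by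
      rw [← Op.exC_apply, k]; rfl))) i)
  refine ⟨f₀, X.nondeg (tw_nondeg hf g hμ h0), MonoidHom.mk' (fun s => ⟨gl (a s), mem_Isom_orth.2 fun v =>
    j.injective ?_⟩) fun s t => Subtype.ext (i (by simp [b])), fun s => by rw [← b, Op.exC_isSc]; rfl⟩
  rw [X.2, X.2, ← ex_apply, ha]
  simp [tw, f.Isom_Q (φ s).2]

end CfsgH5.Lx
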