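import Cfsg.Agent.H5.Lx1

set_option autoImplicit false

/-!
Exceptional isomorphisms of low-dimensional orthogonal groups, part 2: the representations.
-/

namespace CfsgH5.Lx

open Module CForm Matrix

variable {F : Type*} [Field F]

/-- the symmetric square -/
def y3 : Matrix (Fin 2) (Fin 2) F →* Matrix (Unit ⊕ (Fin 1 ⊕ Fin 1)) (Unit ⊕ (Fin 1 ⊕ Fin 1)) F where
  toFun A := fromBlocks (of fun _ _ => A 0 0 * A 1 1 + A 0 1 * A 1 0)
    (of fun _ => Sum.elim (fun _ => A 0 0 * A 1 0) fun _ => -(A 0 1 * A 1 1))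
    (of (Sum.elim (fun _ _ => 2 * A 0 0 * A 0 1) fun _ _ => -(2 * A 1 0 * A 1 1)))
    (fromBlocks (of fun _ _ => A 0 0 ^ 2) (of fun _ _ => -A 0 1 ^ 2) (of fun _ _ => -A 1 0 ^ 2) (of fun _ _ => A 1 1 ^ 2))
  map_one' := by ext (i | i | i) (j | j | j) <;> simp [one_apply] <;> simp [Subsingleton.elim i j]
  map_mul' A B := by ext (i | i | i) (j | j | j) <;> simp [mul_apply] <;> ring

theorem y3_Q (A : Matrix (Fin 2) (Fin 2) F) (v : Unit ⊕ (Fin 1 ⊕ Fin 1) → F) :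
    oddQ F 1 (y3 A *ᵥ v) = A.det ^ 2 * oddQ F 1 v := by
  simp [oddQ_coe, Cfsg.quadFormOdd, y3, mulVec, dotProduct, det_fin_two]
  ring

/-- the tensor product -/
def y4 : Matrix (Fin 2) (Fin 2) F × Matrix (Fin 2) (Fin 2) F →* Matrix (Fin 2 ⊕ Fin 2) (Fin 2 ⊕ Fin 2) F where
  toFun A := fromBlocks (of fun i j => A.1 0 0 * A.2 i j) (of fun i j => A.1 0 1 * ![A.2 i 1, -A.2 i 0] j)
    (of fun i j => A.1 1 0 * ![A.2 1 j, -A.2 0 j] i) (of fun i j => A.1 1 1 * !![A.2 1 1, -A.2 1 0; -A.2 0 1, A.2 0 0] i j)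
  map_one' := by ext (i | i) (j | j) <;> fin_cases i <;> fin_cases j <;> simp
  map_mul' A B := by ext (i | i) (j | j) <;> fin_cases i <;> fin_cases j <;> simp [mul_apply] <;> ring

theorem y4_Q (A : Matrix (Fin 2) (Fin 2) F × Matrix (Fin 2) (Fin 2) F) (v : Fin 2 ⊕ Fin 2 → F) :
    plusQ F 2 (y4 A *ᵥ v) = A.1.det * A.2.det * plusQ F 2 v := by
  simp [plusQ_coe, Cfsg.quadFormPlus, y4, mulVec, dotProduct, det_fin_two]
  ring

/-- the index pairs of the exterior square -/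
abbrev px : Fin 3 ⊕ Fin 3 → Fin 4 × Fin 4 := Sum.elim ![(0, 1), (0, 2), (0, 3)] ![(2, 3), (3, 1), (1, 2)]

/-- the exterior square -/
def y6 : Matrix (Fin 4) (Fin 4) F →* Matrix (Fin 3 ⊕ Fin 3) (Fin 3 ⊕ Fin 3) F where
  toFun A := of fun i j => A (px i).1 (px j).1 * A (px i).2 (px j).2 - A (px i).1 (px j).2 * A (px i).2 (px j).1
  map_one' := by ext (i | i) (j | j) <;> fin_cases i <;> fin_cases j <;> simp [px, one_apply]
  map_mul' A B := by
    ext i j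
    simp [mul_apply, Fin.sum_univ_succ, show ∀ i, px (.inl i) = _ from fun _ => rfl,
      show ∀ i, px (.inr i) = _ from fun _ => rfl]
    ring

theorem y6_Q (A : Matrix (Fin 4) (Fin 4) F) (v : Fin 3 ⊕ Fin 3 → F) : plusQ F 3 (y6 A *ᵥ v) = A.det * plusQ F 3 v := by
  simp [plusQ_coe, Cfsg.quadFormPlus, y6, px, mulVec, dotProduct, det_succ_row_zero, Fin.sum_univ_succ, Fin.succAbove]
  ring

theorem y6_transpose (A : Matrix (Fin 4) (Fin 4) F) : y6 Aᵀ = (y6 A)ᵀ := by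
  ext i j; simp [y6]; ring

theorem y6_map (A : Matrix (Fin 4) (Fin 4) F) (σ : F →+* F) : y6 (A.map σ) = (y6 A).map σ := by
  ext i j; simp [y6]

end CfsgH5.Lx
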