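import Cfsg.Agent.H5.Lx2

set_option autoImplicit false

/-!
Exceptional isomorphisms of low-dimensional orthogonal groups, part 3: matrix versions of the mechanism.
-/

namespace CfsgH5.Lx

open Module Au CForm Matrix

variable {F : Type*} [Field F] {ι : Type} [Fintype ι] [DecidableEq ι] {G P : Type*} [Group G] [Group P]

/-- a matrix representation preserving a quadratic form -/
def isoH {Q : QuadraticForm F (ι → F)} (y : G →* Matrix ι ι F) (h : ∀ g v, Q (y g *ᵥ v) = Q v) : G →* (ofQuad Q).Isom :=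
  (toLinHom y).codRestrict _ fun g => mem_Isom_orth.2 (h g)

theorem isSc_isoH {Q : QuadraticForm F (ι → F)} {y : G →* Matrix ι ι F} (h : ∀ g v, Q (y g *ᵥ v) = Q v) (g : G) :
    IsSc (isoH y h g).1 ↔ ∃ l : F, y g = l • (1 : Matrix ι ι F) :=
  exists_congr fun l => ⟨fun k => Matrix.ext_of_mulVec_single fun i => (k _).trans (by rw [smul_mulVec, one_mulVec]),
    fun k v => (congrArg (· *ᵥ v) k).trans (by simp [smul_mulVec])⟩

theorem mk_eq_one {A : SpecialLinearGroup ι F} :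
    QuotientGroup.mk' (Subgroup.center _) A = 1 ↔ ∃ l : F, A.1 = l • (1 : Matrix ι ι F) :=
  (QuotientGroup.eq_one_iff _).trans (Matrix.SpecialLinearGroup.mem_center_iff.trans (exists_congr fun l =>
    ⟨fun h => by rw [← h.2, scalar_apply, smul_one_eq_diagonal], fun h => ⟨by simpa [h] using A.2,
      by rw [h, scalar_apply, smul_one_eq_diagonal]⟩⟩))

theorem plain [Finite F] {Q : QuadraticForm F (ι → F)} (hf : (ofQuad Q).Nondeg) (h3 : 3 ≤ Fintype.card ι)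
    (hs : (ofQuad Q).Split) {π : G →* P} (hπ : Function.Surjective π) {y : G →* Matrix ι ι F}
    (h : ∀ g v, Q (y g *ᵥ v) = Q v) (h1 : ∀ g, isoH y h g ∈ commutator _)
    (h2 : ∀ g, π g = 1 ↔ ∃ l : F, y g = l • (1 : Matrix ι ι F)) (k : Nat.card (PO (ofQuad Q)) = Nat.card P) :
    Nonempty (Cfsg.POmega F Q ≃* P) := by
  obtain ⟨ψ, i⟩ := exists_inj hf (by simpa) hs hπ _ h1 fun g => (h2 g).trans (isSc_isoH h g).symm
  obtain ⟨e⟩ := equiv_of_inj i k
  exact ⟨(pomegaEquiv Q).trans e⟩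

theorem twisted [Fintype F] {K : Type*} [Field K] {σ : K →+* K} {q : ℕ} (H : UF σ q) (hF : Fintype.card F = q)
    {m : ℕ} (hm : 1 ≤ m) {a b : F} (hab : ∀ z₁ z₂ : F, z₁ ^ 2 + a * z₁ * z₂ + b * z₂ ^ 2 = 0 → z₁ = 0 ∧ z₂ = 0)
    (hG : commutator G = ⊤) {π : G →* P} (hπ : Function.Surjective π)
    {y : G →* Matrix (Fin (m + 1) ⊕ Fin (m + 1)) (Fin (m + 1) ⊕ Fin (m + 1)) K}
    (h : ∀ g v, plusQ K _ (y g *ᵥ v) = plusQ K _ v)
    (h2 : ∀ g, π g = 1 ↔ ∃ l : K, y g = l • (1 : Matrix _ _ K))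
    {T : Matrix (Fin (m + 1) ⊕ Fin (m + 1)) (Fin (m + 1) ⊕ Fin (m + 1)) K} (t1 : T * T = 1) (t2 : T.map σ = T)
    (t3 : ∀ v, plusQ K _ (T *ᵥ v) = plusQ K _ v) (t4 : ∀ g, T * (y g).map σ = y g * T)
    (k1 : ¬ (Nat.card P : ℤ) ∣ 2 * oOrd q 1 (m + 1))
    (k2 : (Int.gcd 4 ((q : ℤ) ^ (m + 1) - -1) : ℤ) * Nat.card P = oOrd q (-1) (m + 1)) :
    Nonempty (Cfsg.POmega F (Cfsg.quadFormMinus m F a b) ≃* P) := by
  have := H.fin
  let ρ : K ≃+* K := RingEquiv.ofRingHom σ σ (RingHom.ext H.invol) (RingHom.ext H.invol)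
  have o : orderOf ρ = 2 := orderOf_eq_prime (RingEquiv.ext H.invol) fun e => H.ne_id (RingHom.ext fun a => DFunLike.congr_fun e a)
  obtain ⟨j, E⟩ := exists_emb ρ F (by rw [o, H.card, Nat.card_eq_fintype_card, hF])
  let t : GL _ K := ⟨T, T, t1, t1⟩
  have m1 : ∀ A : Matrix (Fin (m + 1) ⊕ Fin (m + 1)) (Fin (m + 1) ⊕ Fin (m + 1)) K, A.map ρ = A.map σ := fun _ => rfl
  obtain ⟨f, hf, ψ, s⟩ := exists_desc_hom (plusQ_nondeg K (m + 1)) (θ := mkΓ t ρ) (isSim_orth one_ne_zero fun v =>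
    (t3 _).trans ((Oe.isSim_std_plus _ ρ).Q v)) (by
      rw [mkΓ_σ, o, pow_two]
      refine Γ.ext' H.invol fun v => ?_
      change T *ᵥ std _ ρ (T *ᵥ std _ ρ v) = v
      rw [std_mulVec, mulVec_mulVec, m1, t2, t1, one_mulVec]
      exact funext fun i => H.invol _) E (isoH y h) fun g v => by
      change T *ᵥ std _ ρ (y g *ᵥ v) = y g *ᵥ T *ᵥ std _ ρ v
      rw [std_mulVec, mulVec_mulVec, mulVec_mulVec, m1, t4]
  have d : finrank F (Fin (m + 1) ⊕ Fin (m + 1) → F) = 2 * (m + 1) := by simp; ring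
  have s' : ∀ g, π g = 1 ↔ IsSc (ψ g).1 := fun g => (h2 g).trans ((isSc_isoH h g).symm.trans (s g).symm)
  have np : ¬ f.IsPlus := fun p => k1 (by
    have := orth_card_even m hf d
    rw [sgn_eq_one.2 p, Nat.card_eq_fintype_card (α := F), hF] at this
    rw [← this, ← Subgroup.card_top (G := P), ← MonoidHom.range_eq_top.2 hπ, ← Subgroup.index_ker]
    exact Int.natCast_dvd_natCast.2 ((Subgroup.index_dvd_of_le (H := ψ.ker) fun g k => (s' g).2
      (by rw [show ψ g = 1 from k]; exact isSc_one)).trans (Subgroup.index_ker ψ ▸ Subgroup.card_subgroup_dvd_card _)))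
  obtain ⟨χ, i⟩ := exists_inj hf (by omega) (split_of_not_plus hf np) hπ ψ (mem_of_perfect hG ψ) s'
  have c := card_POmega_even hf (split_of_not_plus hf np) d hm
  rw [sgn_of_not np, hF, ← k2] at c
  obtain ⟨e⟩ := equiv_of_inj i (Nat.cast_injective (R := ℤ) (mul_left_cancel₀ (by simp) c))
  obtain ⟨u, hu⟩ := orth_exists_isIso_even (m + 1) (minusQ_nondeg m hab) hf (by simp; ring) d
    (iff_of_false (minusQ_not_isPlus m hab) np)
  obtain ⟨e'⟩ := po_equiv hu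
  exact ⟨((pomegaEquiv (minusQ m a b)).trans e').trans e⟩

end CfsgH5.Lx
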