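import Cfsg.Agent.H5.Lx3

set_option autoImplicit false

/-!
Exceptional isomorphisms of low-dimensional orthogonal groups, part 4: arithmetic and kernels.
-/

namespace CfsgH5.Lx

open Module Au CForm Matrix

theorem gcd_mod {n x y : ℤ} (h : x ≡ y [ZMOD n]) : Int.gcd n x = Int.gcd n y := by
  obtain ⟨c, h⟩ := h.dvd
  rw [show y = x + n * c by omega, Int.gcd_add_mul_left_right]

theorem gcds (q : ℤ) : Int.gcd 4 (q ^ 2 - 1) = Int.gcd 2 (q - 1) * Int.gcd 2 (q - 1) ∧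
    Int.gcd 4 (q ^ 2 - -1) = Int.gcd 2 (q ^ 2 - 1) ∧ Int.gcd 4 (q ^ 3 - 1) = Int.gcd 4 (q - 1) ∧
    Int.gcd 4 (q ^ 3 - -1) = Int.gcd 4 (q + 1) := by
  have a := (Int.mod_modEq q 4).symm
  have b := a.of_dvd (m := 2) (by decide)
  rw [gcd_mod ((a.pow 2).sub_right 1), gcd_mod (b.sub_right 1), gcd_mod ((a.pow 2).sub_right (-1)),
    gcd_mod ((b.pow 2).sub_right 1), gcd_mod ((a.pow 3).sub_right 1), gcd_mod (a.sub_right 1),
    gcd_mod ((a.pow 3).sub_right (-1)), gcd_mod (a.add_right 1)]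
  obtain h | h | h | h : q % 4 = 0 ∨ q % 4 = 1 ∨ q % 4 = 2 ∨ q % 4 = 3 := by omega
  all_goals rw [h]; decide

variable {F : Type*} [Field F]

theorem card_PSL' [Fintype F] (n : ℕ) (hn : 1 ≤ n) : (Int.gcd n ((Fintype.card F : ℤ) - 1) : ℤ) *
    (((Fintype.card F : ℤ) - 1) * Nat.card (ProjectiveSpecialLinearGroup (Fin n) F)) =
    ∏ i : Fin n, ((Fintype.card F : ℤ) ^ n - Fintype.card F ^ (i : ℕ)) := by
  have h := Fintype.card_pos (α := F)
  have := congrArg (Nat.cast : ℕ → ℤ) (card_PSL (F := F) n hn)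
  rw [Nat.cast_prod, Finset.prod_congr rfl fun i _ => Nat.cast_sub (Nat.pow_le_pow_right h i.2.le)] at this
  rw [show (Fintype.card F : ℤ) - 1 = (Fintype.card F - 1 : ℕ) by omega, Int.gcd_natCast_natCast]
  exact_mod_cast this

theorem q_ne [Fintype F] : (Fintype.card F : ℤ) - 1 ≠ 0 := by have := Fintype.one_lt_card (α := F); omega

theorem card_PSL2 [Fintype F] : (Int.gcd 2 ((Fintype.card F : ℤ) - 1) : ℤ) *
    Nat.card (ProjectiveSpecialLinearGroup (Fin 2) F) = Fintype.card F * (Fintype.card F ^ 2 - 1) := by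
  have := card_PSL' (F := F) 2 (by omega)
  simp only [Fin.prod_univ_succ, Fin.prod_univ_zero, Fin.val_succ, Fin.val_zero, Nat.cast_ofNat] at this
  exact mul_left_cancel₀ (q_ne (F := F)) (by linear_combination this)

theorem card_PSL4 [Fintype F] : (Int.gcd 4 ((Fintype.card F : ℤ) - 1) : ℤ) *
    Nat.card (ProjectiveSpecialLinearGroup (Fin 4) F) = oOrd (Fintype.card F) 1 3 := by
  have := card_PSL' (F := F) 4 (by omega)
  simp only [Fin.prod_univ_succ, Fin.prod_univ_zero, Fin.val_succ, Fin.val_zero, Nat.cast_ofNat] at this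
  exact mul_left_cancel₀ (q_ne (F := F)) (by simp only [oOrd, Finset.prod_range_succ]; linear_combination this)

theorem card_PSU4 {σ : F →+* F} {q : ℕ} (H : UF σ q) : (Int.gcd 4 ((q : ℤ) + 1) : ℤ) *
    Nat.card (Cfsg.PSU 4 F q) = oOrd q (-1) 3 := by
  have := congrArg (Nat.cast : ℕ → ℤ) (card_PSU H (n := 4) (by omega))
  have h : 1 ≤ q := by have := H.two_le; omega
  rw [uOrd_succ h, uOrd_succ h, uOrd_succ h, uOrd_succ h] at this
  rw [show (q : ℤ) + 1 = (q + 1 : ℕ) by omega, show (4 : ℤ) = (4 : ℕ) from rfl, Int.gcd_natCast_natCast]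
  refine mul_left_cancel₀ (show (q : ℤ) + 1 ≠ 0 by omega) ?_
  simp only [oOrd, uOrd, Finset.prod_range_succ] at this ⊢
  push_cast at this ⊢
  linear_combination this

theorem sc2 {A : Matrix (Fin 2) (Fin 2) F} : (∃ l : F, A = l • 1) ↔ A 0 1 = 0 ∧ A 1 0 = 0 ∧ A 1 1 = A 0 0 :=
  ⟨by rintro ⟨l, rfl⟩; simp, fun h => ⟨A 0 0, by ext i j; fin_cases i <;> fin_cases j <;> simp [h]⟩⟩

theorem y3_sc {A : Matrix (Fin 2) (Fin 2) F} (h : A.det = 1) : (∃ l : F, A = l • 1) ↔ ∃ l : F, y3 A = l • 1 := by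
  rw [sc2]
  refine ⟨fun k => ⟨A 0 0 ^ 2, by
    ext (i | i | i) (j | j | j) <;> simp [y3, one_apply, k, pow_two] <;> simp [Subsingleton.elim i j]⟩, fun ⟨l, k⟩ => ?_⟩
  have a := congrFun₂ k (.inr (.inl 0)) (.inr (.inr 0))
  have b := congrFun₂ k (.inr (.inr 0)) (.inr (.inl 0))
  have c := congrFun₂ k (.inl ()) (.inl ())
  have d := congrFun₂ k (.inr (.inl 0)) (.inr (.inl 0))
  simp [y3] at a b c d
  rw [det_fin_two] at h
  grind

theorem y4_sc {A B : Matrix (Fin 2) (Fin 2) F} (h : A.det = 1) (h' : B.det = 1) :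
    ((∃ l : F, A = l • 1) ∧ ∃ l : F, B = l • 1) ↔ ∃ l : F, y4 (A, B) = l • 1 := by
  rw [sc2, sc2]
  refine ⟨fun k => ⟨A 0 0 * B 0 0, by
    ext (i | i) (j | j) <;> fin_cases i <;> fin_cases j <;> simp [y4, k]⟩, fun ⟨l, k⟩ => ?_⟩
  have k := fun i j => congrFun₂ k i j
  simp [y4, Fin.forall_fin_two, -mul_eq_zero] at k
  rw [det_fin_two] at *
  grind

theorem y6_sc {A : Matrix (Fin 4) (Fin 4) F} (h : ∃ l : F, A = l • 1) : ∃ l : F, y6 A = l • 1 := by
  obtain ⟨l, rfl⟩ := h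
  exact ⟨l * l, by ext (i | i) (j | j) <;> fin_cases i <;> fin_cases j <;> simp [y6, px, one_apply]⟩

end CfsgH5.Lx
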