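import Cfsg.Agent.H5.Mx8

set_option autoImplicit false

/-!
Non-maximal geometric subgroups, part 1: subspace stabilisers.
-/

namespace CfsgH5.Nm

open Module Matrix Au Mx CForm Cfsg.Geo

/-- `H ⊓ G` is not maximal in `G` -/
def NM {A : Type*} [Group A] (G H : Subgroup A) : Prop := ∃ K, H ⊓ G < K ∧ K < G

theorem nm_of {A : Type*} [Group A] {G H : Subgroup A} (L : Subgroup A) (h1 : ∀ g ∈ G, g ∈ H → g ∈ L) (h2 : ¬ G ≤ L)
    (h3 : ∃ g ∈ G, g ∈ L ∧ g ∉ H) : NM G H :=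
  let ⟨_, a, b, c⟩ := h3
  ⟨L ⊓ G, ⟨fun g h => ⟨h1 g h.2 h.1, h.2⟩, fun h => c (h ⟨b, a⟩).1⟩, inf_le_right, fun h => h2 fun _ k => (h k).1⟩

theorem NM.gl {ι : Type} [Fintype ι] [DecidableEq ι] {F : Type*} [Field F] {G' H' : Subgroup ((ι → F) ≃ₗ[F] (ι → F))}
    (h : NM G' H') {G H : Subgroup (GL ι F)} (hG : ∀ g, g ∈ G ↔ gl g ∈ G') (hH : ∀ g ∈ G, g ∈ H ↔ gl g ∈ H') :
    NM G H := by
  obtain ⟨K, h1, h2⟩ := h
  obtain ⟨a, a1, a2⟩ := SetLike.exists_of_lt h1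
  obtain ⟨b, b1, b2⟩ := SetLike.exists_of_lt h2
  obtain ⟨a, rfl⟩ := gl_surjective a
  obtain ⟨b, rfl⟩ := gl_surjective b
  exact nm_of (K.comap Au.gl) (fun g u v => h1.le ⟨(hH g u).1 v, (hG g).1 u⟩) (fun k => b2 (k ((hG b).2 b1)))
    ⟨a, (hG a).2 (h2.le a1), a1, fun k => a2 ⟨(hH a ((hG a).2 (h2.le a1))).1 k, h2.le a1⟩⟩

variable {F : Type*} [Field F] {P : FP F} {V : Type*} [AddCommGroup V] [Module F V] [FiniteDimensional F V]

theorem le_of_stab {U W : Submodule F V} (h : ∀ g ∈ LinearEquiv.det.ker, g ∈ stabS F (U : Set V) → g ∈ stabS F (W : Set V))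
    (h1 : W ≠ ⊤) : W ≤ U := fun u hu => by
  by_contra hn
  have k : ∀ w, u ∉ U ⊔ F ∙ w → w ∈ W := fun w k => by
    obtain ⟨φ, a, b⟩ := exists_fun k
    obtain ⟨g, hg⟩ := exists_T (b w (Submodule.mem_sup_right (Submodule.mem_span_singleton_self w)))
    have := (h g hg.det (hg.stab (.inr fun w c => b w (Submodule.mem_sup_left c))) u).1 hu
    rwa [hg.app, a, one_smul, SetLike.mem_coe, W.add_mem_iff_right hu] at this
  refine h1 (eq_top_iff.2 fun w _ => by_contra fun c => c (k w fun e => c ?_))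
  refine sup_le (fun x a => k x ?_) ((Submodule.span_singleton_le_iff_mem _ _).2 hu) (exchange hn e)
  rwa [sup_eq_left.2 ((Submodule.span_singleton_le_iff_mem _ _).2 a)]

theorem nm_sub {U W : Submodule F (V)} (h0 : W ≠ ⊥) (h1 : W ≠ ⊤) (h2 : U ≠ ⊤) (h : ¬ U ≤ W) :
    NM LinearEquiv.det.ker (stabS F (W : Set V) ⊓ stabS F (U : Set V)) :=
  nm_of _ (fun _ _ h => h.1) (SL_not_le h0 h1) (by
    by_contra! k
    exact h (le_of_stab (fun g a b => (k g a b).2) h2))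

variable {f : CForm P V}

theorem exists_eich' {x a : V} (hx : f.Q x = 0) (ha : f.B a x = 0) : ∃ g c, f.IsEich g x a c :=
  let ⟨c, h, _⟩ := f.Q_diag a
  let ⟨g, k⟩ := exists_eich hx ha h
  ⟨g, c, k⟩

theorem stab_of_E [Finite F] {f : CForm (FP.orth F) V} (hf : f.Nondeg) (h5 : 5 ≤ finrank F V) {U : Submodule F V}
    (hU : f.TS U) (hd : 2 * finrank F U = finrank F V) {g : V ≃ₗ[F] V} (hg : g ∈ f.E) :
    Even (finrank F U - finrank F (U ⊓ U.map g.toLinearMap : Submodule F V)) :=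
  have hs := split_of_finrank hf (by omega)
  (Fm.dick_iff_par hf hs hd hU rfl ⟨g, E_le_Isom hg⟩).2 ((Fm.mem_comm hf hs).1 ((mem_E_iff hf h5).1 hg)).1

theorem nm_pred [Finite F] {f : CForm (FP.orth F) V} (hf : f.Nondeg) (h7 : 7 ≤ finrank F V) (hp : f.IsPlus)
    {W : Submodule F V} (hW : f.TS W) (hd : 2 * (finrank F W + 1) = finrank F V) : NM f.E (stabS F (W : Set V)) := by
  obtain ⟨x, y, h, hx, hy⟩ := hW.exists_hyp_of_succ hf hp hd
  have xW : x ∉ W := fun k => one_ne_zero (h.hxy.symm.trans (hy x k))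
  have hU := hW.sup_span h.hx hx
  have r : finrank F (W ⊔ F ∙ x : Submodule F V) = finrank F W + 1 := Submodule.finrank_sup_span_singleton xW
  have mx : x ∈ W ⊔ F ∙ x := Submodule.mem_sup_right (Submodule.mem_span_singleton_self x)
  refine nm_of (stabS F (W ⊔ F ∙ x : Submodule F V)) (fun g a b => mem_stabS_iff_map.2 ?_) (not_stab (i3_orth f) hf h7
    (fun e => h.x_ne (e.le mx)) (TS_ne_top hf (by omega) hU)) ?_
  · have e := stab_of_E hf (by omega) hU (by omega) a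
    have l := Submodule.finrank_mono (le_inf le_sup_left ((mem_stabS_iff_map.1 b).ge.trans
      (Submodule.map_mono le_sup_left)) : W ≤ (W ⊔ F ∙ x) ⊓ (W ⊔ F ∙ x).map g.toLinearMap)
    obtain ⟨k, e⟩ := e
    exact (Submodule.eq_of_le_of_finrank_le (inf_eq_left.1 (Submodule.eq_of_le_of_finrank_le inf_le_left (by omega)))
      (LinearEquiv.finrank_map_eq _ _).le).symm
  obtain ⟨w, hw, w0⟩ := exists_not_mem (W := W) (U := ⊥) (by rw [finrank_bot]; omega)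
  obtain ⟨a, a1, a2⟩ := hf.exists_dual (W := F ∙ x) (x := w) fun k => xW (by
    simpa using exchange w0 (Submodule.mem_sup_right k) |> sup_le bot_le ((Submodule.span_singleton_le_iff_mem _ _).2 hw))
  obtain ⟨g, c, hg⟩ := exists_eich' h.hx (f.B_zero_symm (a2 x (Submodule.mem_span_singleton_self x)))
  refine ⟨g, hg.mem_E, mem_stabS_of_le fun v hv => ?_, fun k => xW ?_⟩
  · rw [hg.app_perp (hU.2 v hv x mx)]
    exact add_mem hv (Submodule.smul_mem _ _ mx)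
  · have := (k w).1 hw
    rwa [hg.app_perp (hx w hw), a1, one_smul, SetLike.mem_coe, W.add_mem_iff_right hw] at this

theorem nm_pair [Finite F] {f : CForm (FP.orth F) V} (hf : f.Nondeg) {D : Fin 2 → Submodule F V} (h : Pr f (D 0) (D 1))
    (h7 : 7 ≤ finrank F V) (ho : Odd (finrank F (D 0))) : NM f.E (dS D) := by
  have e1 := h.ts.two_mul_finrank_le hf
  have e2 := h.ts'.two_mul_finrank_le hf
  have e3 := Submodule.finrank_add_eq_of_isCompl h.compl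
  obtain ⟨a, ha, v, hv, k⟩ := h.hyp hf
  have d : ∀ x ∈ D 0, x ∈ D 1 → x = 0 := fun x a b => h.compl.inf_eq_bot.le ⟨a, b⟩
  refine nm_of (stabS F (D 0)) (fun g a b => mem_stabS_iff_map.2 ((mem_dS_two.1 b).resolve_right fun e => ?_).1)
    (not_stab (i3_orth f) hf h7 (fun e => k.x_ne (e.le ha)) (TS_ne_top hf (by omega) h.ts)) ?_
  · have := stab_of_E hf (by omega) h.ts (by omega) a
    rw [e.1, h.compl.inf_eq_bot, finrank_bot] at this
    exact Nat.not_even_iff_odd.2 ho this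
  have := fr_perp hf (D 0) (F ∙ v)
  rw [finrank_span_singleton k.y_ne] at this
  obtain ⟨x, hx, x0⟩ := exists_not_mem (W := D 0 ⊓ f.perp (F ∙ v)) (U := ⊥) (by rw [finrank_bot]; omega)
  obtain ⟨g, c, hg⟩ := exists_eich' (h.ts.1 x hx.1) (h.ts.2 a ha x hx.1)
  have fx : ∀ w ∈ D 0, g w = w := fun w b => hg.fix (h.ts.2 w b x hx.1) (h.ts.2 w b a ha)
  refine ⟨g, hg.mem_E, mem_stabS_of_le fun w b => by rwa [fx w b], fun k' => x0 (d x hx.1 ?_)⟩
  rcases mem_dS_two.1 k' with e | e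
  · have := e.2.le (Submodule.mem_map_of_mem hv)
    rwa [LinearEquiv.coe_coe, hg.app_perp (f.B_zero_symm (mem_perp_single.1 hx.2)), f.orth_B_symm, k.hxy, one_smul,
      (D 1).add_mem_iff_right hv] at this
  · exact e.1.le ⟨x, hx.1, fx x hx.1⟩

theorem exists_B_in {W : Submodule F V} (hW : W ⊓ f.perp W = ⊥) {a : V} (ha : a ∈ W) (a0 : a ≠ 0) :
    ∃ w ∈ W, f.B w a ≠ 0 := by
  by_contra! k
  exact a0 (hW.le ⟨ha, f.mem_perp'.2 k⟩)

theorem exists_sing (h3 : I3 f) (hf : f.Nondeg) {W : Submodule F V} (hW : W ⊓ f.perp W = ⊥)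
    (hd : finrank F W + 3 ≤ finrank F V) : ∃ x, x ∉ W ∧ f.Q x = 0 ∧ ∀ w ∈ W, f.B w x = 0 := by
  obtain ⟨x, -, a, b, c⟩ := h3.sing hf ⊤ W ⊥ (by simpa)
  exact ⟨x, fun k => a (hW.le ⟨k, f.mem_perp'.2 c⟩), b, c⟩

theorem exists_perp_in (hf : f.Nondeg) {W : Submodule F V} (hd : 2 ≤ finrank F W) (u : V) :
    ∃ a ∈ W, a ≠ 0 ∧ f.B u a = 0 := by
  have := fr_perp hf W (F ∙ u)
  have := finrank_span_le_card (R := F) ({u} : Set V)
  obtain ⟨x, hx, x0⟩ := exists_not_mem (W := W ⊓ f.perp (F ∙ u)) (U := ⊥) (by simp at *; omega)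
  exact ⟨x, hx.1, x0, f.B_zero_symm (mem_perp_single.1 hx.2)⟩

theorem nm_fix (h3 : I3 f) (hf : f.Nondeg) (h7 : 7 ≤ finrank F V) {W : Submodule F V} (hW : W ⊓ f.perp W = ⊥)
    (h2 : 2 ≤ finrank F W) (hd : finrank F W + 3 ≤ finrank F V) {u : V} (hu : u ∈ W) (u0 : u ≠ 0)
    (h : ∀ v ∈ W, f.Q v = f.Q u → v ∈ F ∙ u) : NM f.E (stabS F (W : Set V)) := by
  refine nm_of (stabS F (F ∙ u : Submodule F V)) (fun g a b => mem_stabS_of_le fun v hv => ?_) (not_stab h3 hf h7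
    (by simpa) fun e => by have := finrank_span_singleton (K := F) u0; rw [e, finrank_top] at this; omega) ?_
  · obtain ⟨l, rfl⟩ := Submodule.mem_span_singleton.1 hv
    rw [map_smul]
    exact Submodule.smul_mem _ _ (h _ ((b u).1 hu) (f.Isom_Q (E_le_Isom a) u))
  obtain ⟨x, x1, x2, x3⟩ := exists_sing h3 hf hW hd
  obtain ⟨a, a1, a2, a3⟩ := exists_perp_in hf h2 u
  obtain ⟨w, w1, w2⟩ := exists_B_in hW a1 a2
  obtain ⟨g, c, hg⟩ := exists_eich' x2 (x3 a a1)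
  refine ⟨g, hg.mem_E, mem_stabS_of_le fun v hv => ?_, fun k => x1 ?_⟩
  · obtain ⟨l, rfl⟩ := Submodule.mem_span_singleton.1 hv
    rwa [map_smul, hg.fix (x3 u hu) a3]
  · have := (k w).1 w1
    rwa [hg.app_perp (x3 w w1), SetLike.mem_coe, W.add_mem_iff_right w1, W.smul_mem_iff w2] at this

theorem plane_coord (hf : f.Nondeg) {W : Submodule F V} (hW : W ⊓ f.perp W = ⊥) (h2 : finrank F W = 2)
    (hp : (f.res W).IsPlus) : ∃ x ∈ W, ∃ y ∈ W, f.IsHyp x y ∧ ∀ v ∈ W, ∃ a b : F, v = a • x + b • y := by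
  obtain ⟨U, hU, d⟩ := hp
  obtain ⟨x, hx, x0⟩ := exists_not_mem (W := U) (U := ⊥) (by rw [finrank_bot]; omega)
  obtain ⟨y, h⟩ := ((f.res_nondeg_iff W).2 hW).exists_hyp' (hU.1 x hx) x0
  have h' : f.IsHyp x y := ⟨h.hx, h.hy, h.hxy⟩
  refine ⟨x, x.2, y, y.2, h', fun v hv => ?_⟩
  have : Submodule.span F {x.1, y.1} = W := Submodule.eq_of_le_of_finrank_eq (Submodule.span_le.2 (by
    rintro _ (rfl | rfl); exacts [x.2, y.2])) (h'.finrank_span.trans h2.symm)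
  obtain ⟨a, b, e⟩ := Submodule.mem_span_pair.1 (this.ge hv)
  exact ⟨a, b, e.symm⟩

theorem nm_plane [Fintype F] (hq : Fintype.card F ≤ 3) {f : CForm (FP.orth F) V} (hf : f.Nondeg) (h7 : 7 ≤ finrank F V)
    {W : Submodule F V} (hW : W ⊓ f.perp W = ⊥) (h2 : finrank F W = 2) (hp : (f.res W).IsPlus) :
    NM f.E (stabS F (W : Set V)) := by
  obtain ⟨x, hx, y, hy, h, k⟩ := plane_coord hf hW h2 hp
  have q : f.Q (x + y) = 1 := by simp [f.Q_add, h.hx, h.hy, h.hxy]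
  refine nm_fix (i3_orth f) hf h7 hW h2.ge (by omega) (add_mem hx hy) (fun e => by simp [e] at q) fun v hv e => ?_
  obtain ⟨a, b, rfl⟩ := k v hv
  have e : a * b = 1 := by simpa [q, f.Q_add, f.Q_smul, h.hx, h.hy, h.hxy, mul_comm] using e
  have : a ^ 2 = 1 := by
    have := FiniteField.pow_card_sub_one_eq_one a (left_ne_zero_of_mul_eq_one e)
    have := Fintype.one_lt_card (α := F)
    obtain c | c : Fintype.card F - 1 = 1 ∨ Fintype.card F - 1 = 2 := by omega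
    all_goals simp_all
  exact Submodule.mem_span_singleton.2 ⟨a, by rw [show b = a by grind, smul_add]⟩

end CfsgH5.Nm
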