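import Cfsg.Agent.H5.Nm1
import Cfsg.Agent.H5.As12

set_option autoImplicit false

/-!
Non-maximal geometric subgroups, part 2: orthogonal decompositions.
-/

namespace CfsgH5.Nm

open Module Matrix Au Mx CForm Cfsg.Geo

variable {F : Type*} [Field F] {P : FP F} {V : Type*} [AddCommGroup V] [Module F V] [FiniteDimensional F V]
  {f : CForm P V} {t m : ℕ} {D : Fin t → Submodule F V}

variable (f D m) in
/-- orthogonal decompositions with small members -/
structure OD : Prop where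
  nd : ∀ i, D i ⊓ f.perp (D i) = ⊥
  ort : ∀ i j, i ≠ j → ∀ u ∈ D i, ∀ v ∈ D j, f.B u v = 0
  rk : ∀ i, finrank F (D i) = m
  three : 3 ≤ t
  big : m + 3 ≤ finrank F V

theorem od_of {ι : Type} [Fintype ι] [DecidableEq ι] {f : CForm P (ι → F)} {D : Fin t → Submodule F (ι → F)}
    (h : IsNondegenerateMDecomposition f.B m D) (hm : m ≤ 4) (hn : 13 ≤ Fintype.card ι) : OD f m D :=
  have := As.IsMDecomposition.card h.decomp
  ⟨fun i => nd_of_on f (h.nondegenerate i), h.orthogonal, h.decomp.finrank_eq, by nlinarith, by simp; omega⟩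

omit [FiniteDimensional F V] in
theorem stab_of_maps [Finite F] [Module.Finite F V] {S : Set V} {g : V ≃ₗ[F] V} (h : ∀ v ∈ S, g v ∈ S) : g ∈ stabS F S :=
  have : Finite V := Module.finite_of_finite F
  fun v => ⟨h v, fun k => by
    obtain ⟨w, a, b⟩ := ((Set.toFinite S).injOn_iff_bijOn_of_mapsTo h |>.1 g.injective.injOn).surjOn k
    exact g.injective b ▸ a⟩

omit [FiniteDimensional F V] in
theorem dS_map {g : V ≃ₗ[F] V} (h : g ∈ dS D) (i : Fin t) : ∃ j, ∀ v ∈ D i, g v ∈ D j :=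
  let ⟨σ, h⟩ := h
  ⟨σ i, fun _ k => (h i).le (Submodule.mem_map_of_mem k)⟩

variable (f D) in
/-- the vectors of given norm in the members of a decomposition -/
def fr (c : F) : Set V := {v | (∃ i, v ∈ D i) ∧ f.Q v = c}

omit [FiniteDimensional F V] in
theorem fr_map {g : V ≃ₗ[F] V} (h : g ∈ dS D) (k : g ∈ f.Isom) {c : F} {v : V} (hv : v ∈ fr f D c) : g v ∈ fr f D c :=
  let ⟨⟨i, a⟩, b⟩ := hv
  let ⟨j, h⟩ := dS_map h i
  ⟨⟨j, h v a⟩, (f.Isom_Q k v).trans b⟩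

namespace OD

omit [FiniteDimensional F V] in
theorem eq_of_mem (h : OD f m D) {i j : Fin t} {v : V} (a : v ∈ D i) (b : v ∈ D j) (v0 : v ≠ 0) : i = j :=
  by_contra fun e => v0 ((h.nd i).le ⟨a, f.mem_perp'.2 fun w k => h.ort i j e w k v b⟩)

omit [FiniteDimensional F V] in
theorem not_mem (h : OD f m D) {g : V ≃ₗ[F] V} {i : Fin t} {w s : V} (a : w ∈ D i) (w0 : w ≠ 0) (b : g w = w)
    (c : s ∈ D i) (d : g s ∉ D i) : g ∉ dS D := fun k =>
  let ⟨j, k⟩ := dS_map k i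
  d (h.eq_of_mem a (b ▸ k w a) w0 ▸ k s c)

theorem nm [Finite F] (h : OD f m D) (h3 : I3 f) (hf : f.Nondeg) {c : F} {i : Fin t} {s : V} (hs : s ∈ D i) (s0 : s ≠ 0)
    (q : f.Q s = c) (k : ∃ g ∈ f.E, (∀ v ∈ fr f D c, ∃ j, g v ∈ D j) ∧ g ∉ dS D) : NM f.E (dS D) := by
  refine nm_of (stabS F (fr f D c)) (fun g a b => stab_of_maps fun v => fr_map b (E_le_Isom a)) (fun e => ?_)
    (k.imp fun g k => ⟨k.1, stab_of_maps fun v a => ⟨k.2.1 v a, (f.Isom_Q (E_le_Isom k.1) v).trans a.2⟩, k.2.2⟩)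
  obtain ⟨x, x1, x2, x3⟩ := exists_sing h3 hf (h.nd i) (h.rk i ▸ h.big)
  obtain ⟨a, a1, a2⟩ := exists_B_in (h.nd i) hs s0
  have a2 : f.B s a ≠ 0 := fun e => a2 (f.B_zero_symm e)
  obtain ⟨g, d, hg⟩ := exists_eich' x2 (x3 a a1)
  obtain ⟨⟨j, k⟩, -⟩ := (e hg.mem_E s).1 ⟨⟨i, hs⟩, q⟩
  rw [hg.app_perp (x3 s hs)] at k
  by_cases e : j = i
  · exact x1 (by rwa [e, (D i).add_mem_iff_right hs, (D i).smul_mem_iff a2] at k)
  · simpa [a2, f.B_zero_symm (x3 a a1)] using h.ort j i e _ k a a1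

omit [FiniteDimensional F V] in
theorem swap (h : OD f m D) {c : F} {i j : Fin t} {U W : Submodule F V} (hU : U ≤ D i) (hW : W ≤ D j)
    (u : ∀ s ∈ D i, f.Q s = c → s ∈ U ∨ s ∈ f.perp U) (w : ∀ s ∈ D j, f.Q s = c → s ∈ W ∨ s ∈ f.perp W) (e : i ≠ j)
    {g : V ≃ₗ[F] V} (g1 : ∀ v ∈ U, g v ∈ D j) (g2 : ∀ v ∈ W, g v ∈ D i)
    (g3 : ∀ v ∈ f.perp U, v ∈ f.perp W → g v = v) : ∀ v ∈ fr f D c, ∃ j, g v ∈ D j := by
  rintro v ⟨⟨k, a⟩, b⟩
  have o : ∀ {l} {X : Submodule F V}, X ≤ D l → k ≠ l → v ∈ f.perp X := fun x e => f.mem_perp.2 fun w c =>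
    h.ort _ _ e v a w (x c)
  by_cases c : v ∈ U
  · exact ⟨j, g1 v c⟩
  by_cases d : v ∈ W
  · exact ⟨i, g2 v d⟩
  refine ⟨k, (g3 v ?_ ?_).symm ▸ a⟩
  · by_cases e : k = i
    exacts [(u v (e ▸ a) b).resolve_left c, o hU e]
  · by_cases e : k = j
    exacts [(w v (e ▸ a) b).resolve_left d, o hW e]

omit [FiniteDimensional F V] in
theorem swap1 (h : OD f m D) {c : F} (hc : ∀ i, ∀ s ∈ D i, ∀ s' ∈ D i, f.Q s = c → f.Q s' = c → s' ∈ F ∙ s ∨ f.B s' s = 0)
    {i j : Fin t} (e : i ≠ j) {a b : V} (ha : a ∈ D i) (hb : b ∈ D j) (qa : f.Q a = c) (qb : f.Q b = c) {g : V ≃ₗ[F] V}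
    (g1 : g a = b) (g2 : g b = a) (g3 : ∀ v, f.B v a = 0 → f.B v b = 0 → g v = v) :
    ∀ v ∈ fr f D c, ∃ j, g v ∈ D j :=
  h.swap ((Submodule.span_singleton_le_iff_mem _ _).2 ha) ((Submodule.span_singleton_le_iff_mem _ _).2 hb)
    (fun s x y => (hc i a ha s x qa y).imp_right mem_perp_single.2)
    (fun s x y => (hc j b hb s x qb y).imp_right mem_perp_single.2) e
    (fun v k => by obtain ⟨l, rfl⟩ := Submodule.mem_span_singleton.1 k; exact map_smul g l a ▸ g1 ▸ (D j).smul_mem l hb)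
    (fun v k => by obtain ⟨l, rfl⟩ := Submodule.mem_span_singleton.1 k; exact map_smul g l b ▸ g2 ▸ (D i).smul_mem l ha)
    fun v x y => g3 v (mem_perp_single.1 x) (mem_perp_single.1 y)

omit [FiniteDimensional F V] in
theorem idx (h : OD f m D) : ∃ i j k : Fin t, i ≠ j ∧ i ≠ k ∧ j ≠ k :=
  have := h.three
  ⟨⟨0, by omega⟩, ⟨1, by omega⟩, ⟨2, by omega⟩, by simp, by simp, by simp⟩

theorem nm_frame [Finite F] {f : CForm (FP.orth F) V} (h : OD f m D) (hf : f.Nondeg) (h2 : (2 : F) ≠ 0) (hm : 2 ≤ m)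
    {c : F} (c0 : c ≠ 0) (ex : ∀ i, ∃ s ∈ D i, f.Q s = c)
    (hc : ∀ i, ∀ s ∈ D i, ∀ s' ∈ D i, f.Q s = c → f.Q s' = c → s' ∈ F ∙ s ∨ f.B s' s = 0) : NM f.E (dS D) := by
  choose s hs q using ex
  have s0 : ∀ i, s i ≠ 0 := fun i e => c0 (by simpa [e] using (q i).symm)
  have o : ∀ i j, i ≠ j → f.B (s i) (s j) = 0 := fun i j e => h.ort i j e _ (hs i) _ (hs j)
  have q2 : ∀ i j, i ≠ j → f.Q (s i - s j) = 2 * c := fun i j e => by simp [f.Q_sub, q, o i j e, two_mul]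
  have r : ∀ i j, i ≠ j → f.rf (s i - s j) (s i) = s j ∧ f.rf (s i - s j) (s j) = s i := fun i j e => by
    simp [rf_apply, q2 i j e, o i j e, o j i e.symm, f.orth_B_self, q,
      show c⁻¹ * 2⁻¹ * (2 * c) = 1 by field_simp]
  have a : ∀ i j, i ≠ j → ∀ v ∈ fr f D c, f.rf (s i - s j) v ∈ fr f D c := fun i j e v k =>
    ⟨h.swap1 hc e (hs i) (hs j) (q i) (q j) (r i j e).1 (r i j e).2 (fun v a b => rf_fix (by simp [a, b])) v k,
      (f.Isom_Q (rf_mem _) v).trans k.2⟩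
  obtain ⟨i, j, k, ij, ik, jk⟩ := h.idx
  obtain ⟨w, w1, w2, w3⟩ := exists_perp_in hf (h.rk i ▸ hm) (s i)
  have big := h.big
  refine h.nm (i3_orth f) hf (hs i) (s0 i) (q i) ⟨f.rf (s i - s j) * f.rf (s i - s k), ?_,
    fun v x => (a i j ij _ (a i k ik v x)).1, h.not_mem w1 w2 ?_ (hs i) fun e => ik (h.eq_of_mem ?_ (hs k) (s0 k))⟩
  · exact (mem_E_iff hf (by omega) (g := ⟨_, mul_mem (rf_mem _) (rf_mem _)⟩)).2 (by
      rw [← Subgroup.mem_map_iff_mem (Subgroup.subtype_injective _), Subgroup.map_subtype_commutator]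
      exact rf_mul_rf_mem_comm hf (q2 i j ij ▸ mul_ne_zero h2 c0) one_ne_zero (by simp [q2, ij, ik]))
  · have := f.B_zero_symm w3
    rw [LinearEquiv.mul_apply, rf_fix (v := w), rf_fix] <;> simp [this, h.ort _ _ ij w w1 _ (hs j), h.ort _ _ ik w w1 _ (hs k)]
  · rwa [LinearEquiv.mul_apply, (r i k ik).1, rf_fix (by simp [o k i ik.symm, o k j jk.symm])] at e

theorem rad (h : OD f 2 D) {i : Fin t} {s s' : V} (a : s ∈ D i) (b : s' ∈ D i) (s0 : s ≠ 0) (l : F)
    (h1 : f.B (s' + l • s) s = 0) (h2 : f.B (s' + l • s) s' = 0) : s' ∈ F ∙ s := by_contra fun k => by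
  have : (F ∙ s) ⊔ F ∙ s' = D i := Submodule.eq_of_le_of_finrank_eq (by simp [a, b]) (by
    rw [Submodule.finrank_sup_span_singleton k, finrank_span_singleton s0, h.rk])
  have := (h.nd i).le ⟨add_mem b ((D i).smul_mem l a), f.mem_perp'.2 (this ▸ perp_sup_line.2
    ⟨perp_line.2 (f.B_zero_symm h1), f.B_zero_symm h2⟩)⟩
  exact k (Submodule.mem_span_singleton.2 ⟨-l, by rw [neg_smul, neg_eq_iff_add_eq_zero, add_comm]; exact this⟩)

theorem nm_unit {σ : F →+* F} (H : UF σ 2) {f : CForm (FP.unit σ H.invol) V} (h : OD f 2 D) (hf : f.Nondeg) :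
    NM f.E (dS D) := by
  have := H.fin
  have h2 : (2 : F) = 0 := by
    have := (H.pow (-1)).symm.trans (map_neg σ 1)
    simp only [_root_.map_one] at this
    linear_combination this
  choose s q using fun i => unit_exists_Q_one H ((f.res_nondeg_iff _).2 (h.nd i)) (by rw [h.rk]; omega)
  have b : ∀ v, f.Q v = 1 → f.B v v = 1 := fun v k => (f.unit_Q v).symm.trans k
  obtain ⟨i, j, -, ij, -⟩ := h.idx
  have o := h.ort i j ij _ (s i).2 _ (s j).2
  have o' := f.B_zero_symm o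
  obtain ⟨g, hg⟩ := exists_eich (f := f) (x := s i + s j) (a := 0) (c := 1)
    (by simpa [f.Q_add, o, show ∀ i, f.Q (s i) = 1 from q, one_add_one_eq_two]) (by simp) (by simpa [one_add_one_eq_two])
  have n : ∀ v : V, -v = v := fun v => by rw [neg_eq_iff_add_eq_zero, ← two_smul F, h2, zero_smul]
  have g1 : g (s i) = s j := by simp [hg.app, o, b (s i) (q i), n]
  obtain ⟨w, w1, w2, w3⟩ := exists_perp_in hf (h.rk i).ge (s i)
  have s0 : ∀ i, (s i : V) ≠ 0 := fun i e => by simpa [e] using b _ (q i)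
  refine h.nm (i3_unit H f) hf (s i).2 (s0 i) (q i) ⟨g, hg.mem_E, h.swap1 (fun i s a s' c x y => or_iff_not_imp_right.2
    fun k => h.rad a c (by rintro rfl; simp at x) (f.B s' s) (by simpa [b s x, ← two_mul, h2]) ?_) ij (s i).2 (s j).2 (q i)
    (q j) g1 (by simp [hg.app, o', b (s j) (q j), n]) fun v a b => hg.fix (by simp [a, b]) (by simp), h.not_mem w1 w2
    (hg.fix (by simp [f.B_zero_symm w3, h.ort i j ij w w1 _ (s j).2]) (by simp)) (s i).2 fun e =>
    ij (h.eq_of_mem (g1 ▸ e) (s j).2 (s0 j))⟩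
  have := (H.fix_iff (a := f.B s' s * σ (f.B s' s)) (by simpa)).1 (by simp [H.invol, mul_comm])
  simp only [f.B_add_left, f.B_smul_left, b s' y, f.unit_B_symm s' s]
  linear_combination this + h2

theorem univ [Finite F] {f : CForm (FP.orth F) V} (h : OD f m D) (hm : 2 ≤ m) (i : Fin t) : ∃ s ∈ D i, f.Q s = 1 :=
  let ⟨s, k⟩ := orth_universal ((f.res_nondeg_iff _).2 (h.nd i)) (h.rk i ▸ hm) one_ne_zero
  ⟨s, s.2, k⟩

theorem nm_three [Fintype F] (hq : Fintype.card F = 3) {f : CForm (FP.orth F) V} (h : OD f 2 D) (hf : f.Nondeg) :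
    NM f.E (dS D) := by
  have h3 : (3 : F) = 0 := by simpa [hq] using FiniteField.cast_card_eq_zero F
  refine h.nm_frame hf (two_ne_of_odd (by simp [hq, Nat.odd_iff])) le_rfl one_ne_zero (fun i => ?_)
    fun i s a s' c x y => or_iff_not_imp_right.2 fun k => h.rad a c (by rintro rfl; simp at x) (f.B s' s) ?_ ?_
  · exact h.univ le_rfl i
  · simp only [f.B_add_left, f.B_smul_left, f.orth_B_self, x]
    linear_combination f.B s' s * h3
  · simp only [f.B_add_left, f.B_smul_left, f.orth_B_self, y, f.orth_B_symm s' s]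
    linear_combination As.mul_self_of_card hq.le k + h3

theorem nm_five [Fintype F] (hq : Fintype.card F = 5) {f : CForm (FP.orth F) V} (h : OD f 2 D) (hf : f.Nondeg)
    (hp : ∀ i, (f.res (D i)).IsPlus) : NM f.E (dS D) := by
  choose x hx y hy k e using fun i => plane_coord hf (h.nd i) (h.rk i) (hp i)
  have q : ∀ i (a b : F), f.Q (a • x i + b • y i) = a * b := fun i a b => by
    simp [f.Q_add, f.Q_smul, (k i).hx, (k i).hy, (k i).hxy, mul_comm]
  refine h.nm_frame hf (two_ne_of_odd (by simp [hq, Nat.odd_iff])) le_rfl one_ne_zero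
    (h.univ le_rfl)
    fun i s c s' d u v => or_iff_not_imp_right.2 fun n => ?_
  obtain ⟨a, a', rfl⟩ := e i s c
  obtain ⟨b, b', rfl⟩ := e i s' d
  rw [q] at u v
  have := FiniteField.pow_card_sub_one_eq_one (a * b')
    (mul_ne_zero (left_ne_zero_of_mul_eq_one u) (right_ne_zero_of_mul_eq_one v))
  simp [(k i).hxy, (k i).hyx, f.B_self_of_Q_zero (k i).hx, f.B_self_of_Q_zero (k i).hy, -mul_eq_zero] at n
  rw [hq] at this
  exact Submodule.mem_span_singleton.2 ⟨b * a', by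
    rw [smul_add, smul_smul, smul_smul, show b * a' * a = b by grind, show b * a' * a' = b' by grind]⟩

theorem nm_add [Finite F] {f : CForm (FP.orth F) V} (h : OD f m D) (hf : f.Nondeg) (h7 : 7 ≤ finrank F V)
    (h2 : (2 : F) = 0) (ex : ∀ i, ∃ s ∈ D i, f.Q s = 1) {T : AddSubgroup F} (t1 : T ≠ ⊤) (t2 : ∀ a ∈ T, a = 0 ∨ a = 1)
    (hc : ∀ i, ∀ s ∈ D i, ∀ s' ∈ D i, f.Q s = 1 → f.Q s' = 1 → f.B s s' ∈ T) : NM f.E (dS D) := by
  choose s hs q using ex
  have s0 : ∀ i, s i ≠ 0 := fun i e => by simpa [e] using q i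
  let A := AddSubgroup.closure (fr f D 1)
  have m : ∀ i, s i ∈ A := fun i => AddSubgroup.subset_closure ⟨⟨i, hs i⟩, q i⟩
  have b : ∀ u ∈ A, ∀ v ∈ A, f.B u v ∈ T := fun u a v b => by
    induction a, b using AddSubgroup.closure_induction₂ with
    | mem u v a b =>
      obtain ⟨⟨⟨i, a⟩, c⟩, ⟨j, b⟩, d⟩ := And.intro a b
      by_cases e : i = j
      exacts [hc i u a v (e ▸ b) c d, h.ort i j e u a v b ▸ zero_mem _]
    | _ => simp_all [add_mem]
  have sm : ∀ u ∈ A, ∀ v ∈ A, ∀ w ∈ A, f.B u v • w ∈ A := fun u a v c w d => by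
    rcases t2 _ (b u a v c) with e | e <;> simp [e, d]
  obtain ⟨i, j, k, ij, ik, jk⟩ := h.idx
  have o : ∀ i j, i ≠ j → f.B (s i) (s j) = 0 := fun i j e => h.ort i j e _ (hs i) _ (hs j)
  refine nm_of (stabS F A) (fun g a c => stab_of_maps fun v d => ?_) (fun e => t1 (eq_top_iff.2 fun c _ => ?_)) ?_
  · exact (AddSubgroup.closure_le (A.comap g.toAddEquiv.toAddMonoidHom)).2
      (fun v d => AddSubgroup.subset_closure (fr_map c (E_le_Isom a) d)) d
  · have := E_irred (i3_orth f) hf h7 A (m i) (s0 i) fun g a u => (e a u).1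
    obtain ⟨y, hy⟩ := hf.exists_B_eq_one (s0 i)
    simpa [hy] using b _ (this (c • s i)) _ (this y)
  obtain ⟨g, hg⟩ := exists_eich (f := f) (x := s i + s j) (a := s k) (c := 1)
    (by simpa [f.Q_add, o, ij, q, one_add_one_eq_two]) (by simp [o, ik.symm, jk.symm]) (by simp [q])
  obtain ⟨w, w1, w2⟩ := exists_B_in (h.nd i) (hs i) (s0 i)
  obtain ⟨u, u1, u2⟩ := exists_B_in (h.nd k) (hs k) (s0 k)
  have x := add_mem (m i) (m j)
  refine ⟨g, hg.mem_E, stab_of_maps fun v a => ?_, h.not_mem (hs i) (s0 i)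
    (hg.fix (by simp [f.orth_B_self, h2, o, ij]) (o _ _ ik)) w1 fun e => ?_⟩
  · simpa [hg.app, -B_add_right] using sub_mem (sub_mem (add_mem a (sm v a _ (m k) _ x)) (sm v a _ x _ (m k))) (sm v a _ x _ x)
  · simpa [hg.app, h.ort _ _ ik.symm u u1 w w1, h.ort _ _ ik.symm u u1 _ (hs i), h.ort _ _ jk.symm u u1 _ (hs j), u2, w2,
      h.ort _ _ ij w w1 _ (hs j)] using h.ort k i ik.symm u u1 _ e

theorem nm_small [Fintype F] (hq : Fintype.card F = 2 ∨ Fintype.card F = 4) {f : CForm (FP.orth F) V} (h : OD f 2 D)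
    (hf : f.Nondeg) (h7 : 7 ≤ finrank F V) (hp : ∀ i, (f.res (D i)).IsPlus) : NM f.E (dS D) := by
  choose x hx y hy k e using fun i => plane_coord hf (h.nd i) (h.rk i) (hp i)
  have h2 : (2 : F) = 0 := not_not.1 (As.two_ne_zero_iff.not.2 (by rcases hq with e | e <;> simp [e, Nat.odd_iff]))
  have b : ∀ i, ∀ s ∈ D i, ∀ s' ∈ D i, f.Q s = 1 → f.Q s' = 1 → ∃ u v, u * v = 1 ∧ f.B s s' = u + v := fun i s c s' d u v => by
    obtain ⟨a, a', rfl⟩ := e i s c
    obtain ⟨b, b', rfl⟩ := e i s' d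
    simp [f.Q_add, f.Q_smul, (k i).hx, (k i).hy, (k i).hxy] at u v
    exact ⟨a' * b, a * b', by grind, by
      simp [(k i).hxy, (k i).hyx, f.B_self_of_Q_zero (k i).hx, f.B_self_of_Q_zero (k i).hy, mul_comm]⟩
  rcases hq with hq | hq
  · refine h.nm_add hf h7 h2 (h.univ le_rfl) bot_ne_top (fun a => .inl) fun i s c s' d u v => ?_
    obtain ⟨u, v, a, b⟩ := b i s c s' d u v
    have := As.eq_zero_or_one hq u
    have := As.eq_zero_or_one hq v
    rw [AddSubgroup.mem_bot]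
    grind
  let T : AddSubgroup F :=
    { carrier := {a | a = 0 ∨ a = 1}, add_mem' := by grind, zero_mem' := .inl rfl, neg_mem' := by grind }
  refine h.nm_add hf h7 h2 (h.univ le_rfl) (T := T) (fun e => ?_) (fun a => id) fun i s c s' d u v => ?_
  · classical
    have := Finset.card_le_card (s := Finset.univ) (t := ({0, 1} : Finset F)) fun a _ => by
      simpa [T] using e.ge (AddSubgroup.mem_top a)
    exact absurd (this.trans Finset.card_le_two) (by simp [hq])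
  obtain ⟨u, v, a, b⟩ := b i s c s' d u v
  have := FiniteField.pow_card_sub_one_eq_one u (left_ne_zero_of_mul_eq_one a)
  rw [hq] at this
  change _ ∨ _
  by_cases e : u = 1 <;> grind

theorem nm_four [Fintype F] (hq : Fintype.card F = 2) {f : CForm (FP.orth F) V} (h : OD f 4 D) (hf : f.Nondeg)
    (hp : ∀ i, (f.res (D i)).IsPlus) : NM f.E (dS D) := by
  have h2 : (2 : F) = 0 := not_not.1 (As.two_ne_zero_iff.not.2 (by simp [hq]))
  have ex : ∀ i, ∃ s ∈ D i, ∃ s' ∈ D i, ∃ w ∈ D i, f.Q s = 1 ∧ f.Q s' = 1 ∧ f.B s s' = 1 ∧ w ≠ 0 ∧ f.B w s = 0 ∧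
      f.B w s' = 0 ∧ ∀ v ∈ D i, f.Q v = 1 → v ∈ Submodule.span F {s, s'} ∨ v ∈ f.perp (Submodule.span F {s, s'}) := fun i => by
    obtain ⟨e, a, b⟩ := orth_exists_isIso_even 2 (plusQ_nondeg F 2) ((f.res_nondeg_iff _).2 (h.nd i)) (by simp) (h.rk i)
      (iff_of_true (plusQ_isPlus _) (hp i))
    replace a : ∀ u v, f.B (e u) (e v) = u (.inl 0) * v (.inr 0) + u (.inl 1) * v (.inr 1) +
        u (.inr 0) * v (.inl 0) + u (.inr 1) * v (.inl 1) := fun u v => (a u v).trans (by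
      simp [orth_B, Fm.plusQ_apply]; ring)
    replace b : ∀ u, f.Q (e u) = u (.inl 0) * u (.inr 0) + u (.inl 1) * u (.inr 1) := fun u => (b u).trans (by
      simp [Fm.plusQ_apply])
    refine ⟨_, (e (Sum.elim ![1, 0] ![1, 0])).2, _, (e (Sum.elim ![0, 1] ![1, 1])).2, _, (e (Sum.elim ![0, 1] ![0, 1])).2,
      by simp [b], by simp [b], by simp [a], by simp [funext_iff], by simp [a], by simpa [a, one_add_one_eq_two],
      fun v c d => ?_⟩
    obtain ⟨v, rfl⟩ : ∃ u, (e u : V) = v := ⟨e.symm ⟨v, c⟩, by simp⟩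
    rw [f.mem_perp_span, or_iff_not_imp_right]
    refine fun n => Submodule.mem_span_pair.2 ⟨v (.inl 0), v (.inl 1), ?_⟩
    rw [← Submodule.coe_smul, ← Submodule.coe_smul, ← Submodule.coe_add, ← map_smul, ← map_smul, ← map_add]
    congr 2
    simp [a, b] at d n
    have := As.eq_zero_or_one hq (v (.inl 0))
    have := As.eq_zero_or_one hq (v (.inl 1))
    have := As.eq_zero_or_one hq (v (.inr 0))
    have := As.eq_zero_or_one hq (v (.inr 1))
    ext (i | i) <;> fin_cases i <;> simp <;> grind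
  choose s hs s' hs' w hw q q' b w0 w1 w2 k using ex
  obtain ⟨i, j, -, ij, -⟩ := h.idx
  have o := h.ort i j ij
  have o' := h.ort j i ij.symm
  have b' : ∀ i, f.B (s' i) (s i) = 1 := fun i => (f.orth_B_symm _ _).trans (b i)
  have n : ∀ v : V, -v = v := fun v => by rw [neg_eq_iff_add_eq_zero, ← two_smul F, h2, zero_smul]
  have n' : ∀ v : V, v + v = 0 := fun v => by rw [← two_smul F, h2, zero_smul]
  obtain ⟨g, hg⟩ := exists_eich (f := f) (x := s i + s j) (a := s' i + s' j) (c := 0)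
    (by simpa [f.Q_add, o, hs, q, one_add_one_eq_two]) (by simpa [o, o', hs, hs', b', one_add_one_eq_two])
    (by simp [f.Q_add, o, hs', q', one_add_one_eq_two, h2])
  have sp : ∀ {i j}, g (s i) ∈ D j → g (s' i) ∈ D j → ∀ v ∈ Submodule.span F {s i, s' i}, g v ∈ D j := fun a b v c => by
    obtain ⟨x, y, rfl⟩ := Submodule.mem_span_pair.1 c
    simpa using add_mem (Submodule.smul_mem _ x a) (Submodule.smul_mem _ y b)
  have le : ∀ i, Submodule.span F {s i, s' i} ≤ D i := fun i => Submodule.span_le.2 (by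
    rintro _ (rfl | rfl); exacts [hs i, hs' i])
  have g1 : g (s i) = s j := by simp [hg.app, o, hs, hs', b, f.orth_B_self, h2, ← add_assoc, n']
  have s0 : ∀ i, s i ≠ 0 := fun i e => by simpa [e] using q i
  refine h.nm (i3_orth f) hf (hs i) (s0 i) (q i) ⟨g, hg.mem_E, h.swap (le i) (le j) (k i) (k j) ij (sp (g1 ▸ hs j) ?_)
    (sp ?_ ?_) fun v a b => ?_, h.not_mem (hw i) (w0 i) (hg.fix ?_ ?_) (hs i) fun e => ij (h.eq_of_mem (g1 ▸ e) (hs j) (s0 j))⟩
  · simpa [hg.app, o, hs, hs', b', f.orth_B_self, h2] using hs' j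
  · simpa [hg.app, o', hs, hs', b, f.orth_B_self, h2, add_left_comm, n'] using hs i
  · simpa [hg.app, o', hs, hs', b', f.orth_B_self, h2] using hs' i
  · simp only [f.mem_perp_span, Set.mem_insert_iff, Set.mem_singleton_iff, forall_eq_or_imp, forall_eq] at a b
    exact hg.fix (by simp [a, b]) (by simp [a, b])
  · simp [w1, o, hw, hs]
  · simp [w2, o, hw, hs']

theorem nm_33 [Fintype F] (hq : Fintype.card F = 3) {f : CForm (FP.orth F) V} (h : OD f 3 D) (hf : f.Nondeg)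
    (hi : ∀ i j, ∃ e : D i ≃ₗ[F] D j, ∀ w, f.Q (e w) = f.Q w) : NM f.E (dS D) := by
  have h2 : (2 : F) ≠ 0 := two_ne_of_odd (by simp [hq, Nat.odd_iff])
  obtain ⟨i, -⟩ := h.idx
  obtain ⟨c, e, c0, -, a⟩ := orth_exists_similar_odd 1 (oddQ_nondeg h2 1) ((f.res_nondeg_iff _).2 (h.nd i)) (by simp) (h.rk i)
  choose φ hφ using hi i
  have q : ∀ j u, f.Q (φ j (e u)) = c * (u (.inl ()) ^ 2 + u (.inr (.inl 0)) * u (.inr (.inr 0))) := fun j u =>
    (hφ j _).trans ((a u).trans (by simp [scale, oddQ_coe, Cfsg.quadFormOdd]))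
  refine h.nm_frame hf h2 (by omega) (neg_ne_zero.2 c0) (fun j => ⟨_, (φ j (e (Sum.elim 0 (Sum.elim 1 (-1))))).2,
    by simp [q]⟩) fun j s x s' y u v => ?_
  obtain ⟨s, rfl⟩ : ∃ u, (φ j (e u) : V) = s := ⟨e.symm ((φ j).symm ⟨s, x⟩), by simp⟩
  obtain ⟨s', rfl⟩ : ∃ u, (φ j (e u) : V) = s' := ⟨e.symm ((φ j).symm ⟨s', y⟩), by simp⟩
  have k : ∀ a b c a' b' c' : F, a ^ 2 + b * c = -1 → a' ^ 2 + b' * c' = -1 → (∃ l, l * a = a' ∧ l * b = b' ∧ l * c = c') ∨
      (a' + a) ^ 2 + (b' + b) * (c' + c) + 1 + 1 = 0 := by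
    have e := ZMod.ringEquivOfPrime F Nat.prime_three hq
    simp only [e.surjective.forall, e.surjective.exists, ← map_one e, ← map_zero e, ← map_pow, ← _root_.map_mul,
      ← map_add, ← map_neg, e.injective.eq_iff]
    decide +kernel
  rw [q, ← mul_neg_one, mul_right_inj' c0] at u v
  refine (k _ _ _ _ _ _ u v).imp (fun ⟨l, k⟩ => Submodule.mem_span_singleton.2 ⟨l, ?_⟩) fun k => ?_
  · rw [f.orth_B, ← Submodule.coe_add, ← map_add, ← map_add, q, q, q, u, v]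
    simp only [Pi.add_apply]
    linear_combination c * k
  · rw [← Submodule.coe_smul, ← map_smul, ← map_smul]
    congr 3
    ext (i | i | i) <;> simp [k, Subsingleton.elim i 0]

end OD

end CfsgH5.Nm
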