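import Cfsg.Agent.H5.Nm2
import Cfsg.Agent.H5.As15

set_option autoImplicit false

/-!
Non-maximal geometric subgroups, part 3: tensor decompositions.
-/

namespace CfsgH5.Nm

open Module Matrix Au Mx CForm Cfsg.Geo
open scoped Kronecker

theorem NM.gl' {ι : Type} [Fintype ι] [DecidableEq ι] {F : Type*} [Field F] {G' : Subgroup ((ι → F) ≃ₗ[F] (ι → F))}
    {G H : Subgroup (GL ι F)} (h : NM G' (H.map Au.gl)) (hG : ∀ g, g ∈ G ↔ Au.gl g ∈ G') : NM G H :=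
  h.gl hG fun _ _ => (Subgroup.mem_map_iff_mem gl_injective).symm

variable {F : Type*} [Field F] {P : FP F} {V V₁ V₂ : Type*} [AddCommGroup V] [Module F V] [AddCommGroup V₁] [Module F V₁]
  [AddCommGroup V₂] [Module F V₂] {τ : V₁ →ₗ[F] V₂ →ₗ[F] V}

variable (τ) in
/-- contractions -/
def Ct : Prop := ∀ u₀, u₀ ≠ 0 → ∃ (κ : V →+ V₂) (φ : V₁ → F), φ u₀ = 1 ∧ ∀ u w, κ (τ u w) = φ u • w

variable (τ) in
/-- tensor product structures -/
structure Tn : Prop where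
  l : Ct τ
  r : Ct τ.flip
  sp : ∀ p : Submodule F V, (∀ u w, τ u w ∈ p) → ∀ v, v ∈ p

theorem Tn.flip (h : Tn τ) : Tn τ.flip := ⟨h.r, h.l, fun p k => h.sp p fun u w => k w u⟩

theorem Tn.ext (h : Tn τ) {W : Type*} [AddCommGroup W] [Module F W] {a b : V →ₗ[F] W} (k : ∀ u w, a (τ u w) = b (τ u w)) :
    a = b := LinearMap.ext (h.sp (LinearMap.eqLocus a b) k)

theorem Ct.inj (h : Ct τ) {u : V₁} (u0 : u ≠ 0) : Function.Injective (τ u) := fun w w' e => by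
  obtain ⟨κ, φ, a, b⟩ := h u u0
  simpa [a, b] using congrArg κ e

theorem Ct.left (h : Ct τ) {g : V → V} {a : V₁ → V₁} {b : V₂ → V₂} (k : ∀ u w, g (τ u w) = τ (a u) (b w)) {u₀ : V₁}
    (u0 : u₀ ≠ 0) (e : ∀ w, g (τ u₀ w) = τ u₀ w) : ∃ a' : V₁ → V₁, ∀ u w, g (τ u w) = τ (a' u) w := by
  obtain ⟨κ, φ, x, y⟩ := h u₀ u0
  have e : ∀ w, φ (a u₀) • b w = w := fun w => by simpa [x, y, k] using congrArg κ (e w)
  by_cases m : φ (a u₀) = 0
  · exact ⟨id, fun u w => by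
      have : ∀ w : V₂, w = 0 := fun w => by simpa [m] using (e w).symm
      rw [k, this (b w), this w, map_zero, map_zero]⟩
  · exact ⟨fun u => (φ (a u₀))⁻¹ • a u, fun u w => by rw [k, ← congrArg (τ _) (e w)]; simp [smul_smul, m]⟩

section Coord

variable {ι : Type} [Fintype ι] [DecidableEq ι] {k l : ℕ}

/-- pure tensors in coordinates -/
def tn (e : ι ≃ Fin k × Fin l) (Q : GL ι F) : (Fin k → F) →ₗ[F] (Fin l → F) →ₗ[F] (ι → F) :=
  LinearMap.mk₂ F (fun u w => Q.1 *ᵥ ((fun p : Fin k × Fin l => u p.1 * w p.2) ∘ e))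
    (fun _ _ _ => by rw [← mulVec_add]; congr 1; ext; simp [add_mul])
    (fun _ _ _ => by rw [← mulVec_smul]; congr 1; ext; simp [mul_assoc])
    (fun _ _ _ => by rw [← mulVec_add]; congr 1; ext; simp [mul_add])
    fun _ _ _ => by rw [← mulVec_smul]; congr 1; ext; simp [mul_left_comm]

theorem tn_tn (e : ι ≃ Fin k × Fin l) (Q : GL ι F) : Tn (tn e Q) := by
  refine ⟨fun u h => ?_, fun u h => ?_, fun p h v => ?_⟩
  · obtain ⟨i, h⟩ := Function.ne_iff.1 h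
    exact ⟨AddMonoidHom.mk' (fun v j => (u i)⁻¹ * ((Q⁻¹).1 *ᵥ v) (e.symm (i, j))) fun _ _ => by
      ext; simp [mulVec_add, mul_add], fun x => (u i)⁻¹ * x i, inv_mul_cancel₀ h, fun x w => by ext; simp [tn, mul_assoc]⟩
  · obtain ⟨i, h⟩ := Function.ne_iff.1 h
    exact ⟨AddMonoidHom.mk' (fun v j => (u i)⁻¹ * ((Q⁻¹).1 *ᵥ v) (e.symm (j, i))) fun _ _ => by
      ext; simp [mulVec_add, mul_add], fun x => (u i)⁻¹ * x i, inv_mul_cancel₀ h, fun x w => by ext; simp [tn]; ring⟩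
  have : v = ∑ i, tn e Q (Pi.single i 1) fun j => ((Q⁻¹).1 *ᵥ v) (e.symm (i, j)) := by
    simp only [tn, LinearMap.mk₂_apply, ← mulVec_sum]
    rw [← As.mulVec_inv_mulVec Q v]
    congr 1
    ext x
    simp [Pi.single_apply]
  exact this ▸ p.sum_mem fun i _ => h _ _

theorem tn_app (e : ι ≃ Fin k × Fin l) (Q : GL ι F) (a : GL (Fin k) F) (b : GL (Fin l) F) (u : Fin k → F) (w : Fin l → F) :
    gl (As.tpG e Q (As.kronG _ _ F (a, b))) (tn e Q u w) = tn e Q (a.1 *ᵥ u) (b.1 *ᵥ w) := by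
  simp only [gl_apply, tn, LinearMap.mk₂_apply, As.tpG_coe, As.tp_mulVec, As.kronG_coe, As.kron_mulVec]

theorem tn_mem {e : ι ≃ Fin k × Fin l} {Q : GL ι F} {g : (ι → F) ≃ₗ[F] (ι → F)}
    (h : g ∈ (tensorProductSubgroup k l e Q).map gl) :
    ∃ (a : GL (Fin k) F) (b : GL (Fin l) F), ∀ u w, g (tn e Q u w) = tn e Q (a.1 *ᵥ u) (b.1 *ᵥ w) := by
  obtain ⟨_, h, rfl⟩ := h
  obtain ⟨a, b, rfl⟩ := As.mem_tensor_iff.1 h
  exact ⟨a, b, tn_app e Q a b⟩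

theorem tn_B {σ : F →+* F} {f : (ι → F) → (ι → F) → F} {Γ₁ : Matrix (Fin k) (Fin k) F} {Γ₂ : Matrix (Fin l) (Fin l) F}
    {e : ι ≃ Fin k × Fin l} {Q : GL ι F} (h : IsTensorFormStructure σ f (As.fm σ Γ₁) (As.fm σ Γ₂) e Q) :
    ∃ c, c ≠ 0 ∧ ∀ u w u' w', f (tn e Q u w) (tn e Q u' w') = c * (As.fm σ Γ₁ u u' * As.fm σ Γ₂ w w') :=
  h.imp fun c h => ⟨h.1, fun u w u' w' => (h.2 _ _).trans (by
    rw [As.gram_fm, As.gram_fm, ← As.fm_kron, As.fm_eq_sum]; rfl)⟩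

end Coord

variable [FiniteDimensional F V] {f : CForm P V} {f₁ : V₁ → V₁ → F} {f₂ : V₂ → V₂ → F} {c : F}

omit [FiniteDimensional F V] in
theorem sim_left (c0 : c ≠ 0) (hB : ∀ u w u' w', f.B (τ u w) (τ u' w') = c * (f₁ u u' * f₂ w w')) {w w' : V₂}
    (h : f₂ w w' ≠ 0) {g : V ≃ₗ[F] V} (hg : g ∈ f.Isom) {a : V₁ → V₁} {b : V₂ → V₂}
    (k : ∀ u w, g (τ u w) = τ (a u) (b w)) : ∃ l, ∀ u u', l * f₁ (a u) (a u') = f₁ u u' :=
  ⟨f₂ (b w) (b w') / f₂ w w', fun u u' => by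
    have := f.Isom_B hg (τ u w) (τ u' w')
    rw [k, k, hB, hB, mul_right_inj' c0] at this
    field_simp
    linear_combination this⟩

theorem nm_tens [Finite F] (T : Tn τ) (h3 : I3 f) (hf : f.Nondeg) (c0 : c ≠ 0)
    (hB : ∀ u w u' w', f.B (τ u w) (τ u' w') = c * (f₁ u u' * f₂ w w')) (n2 : ∀ w, w ≠ 0 → ∃ w', f₂ w' w ≠ 0)
    {s u₀ : V₁} (s0 : f₁ s s ≠ 0) (hs : ∀ s', f₁ s' s' = f₁ s s → s' ∈ F ∙ s ∨ f₁ s' s = 0) (u0 : u₀ ≠ 0)
    (us : f₁ u₀ s = 0) (d1 : 3 ≤ finrank F V₂) (d2 : finrank F V₂ + 3 ≤ finrank F V) {H : Subgroup (V ≃ₗ[F] V)}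
    (hH : ∀ g ∈ f.E, g ∈ H → ∃ (a : V₁ → V₁) (b : V₂ → V₂), (∀ u w, g (τ u w) = τ (a u) (b w)) ∧
      ∀ s', f₁ s' s' = f₁ s s → f₁ (a s') (a s') = f₁ s s) : NM f.E H := by
  let W := LinearMap.range (τ s)
  have nW : W ⊓ f.perp W = ⊥ := eq_bot_iff.2 (by
    rintro _ ⟨⟨w, rfl⟩, h⟩
    by_contra k
    obtain ⟨w', k⟩ := n2 w (by rintro rfl; simp at k)
    simpa [hB, c0, s0, k] using f.mem_perp'.1 h _ ⟨w', rfl⟩)
  have : Nontrivial V₂ := nontrivial_of_finrank_pos (R := F) (by omega)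
  have s1 : s ≠ 0 := by
    rintro rfl
    obtain ⟨w, k⟩ := exists_ne (0 : V₂)
    obtain ⟨w', k⟩ := n2 w k
    simpa [c0, s0, k] using hB 0 w' 0 w
  have rW : finrank F W = finrank F V₂ := LinearMap.finrank_range_of_inj (T.l.inj s1)
  have fr : ∀ s' w, f₁ s' s' = f₁ s s → τ s' w ∈ W ∨ ∀ v ∈ W, f.B (τ s' w) v = 0 := fun s' w h => (hs s' h).imp
    (fun h => by obtain ⟨l, rfl⟩ := Submodule.mem_span_singleton.1 h; exact ⟨l • w, by simp⟩) fun h => by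
      rintro _ ⟨w', rfl⟩; simp [hB, h]
  obtain ⟨x, x1, x0, x2⟩ := h3 W (by omega)
  refine nm_of (stabS F {v | ∃ s' w, f₁ s' s' = f₁ s s ∧ τ s' w = v}) (fun g a b => stab_of_maps ?_) (fun e => ?_) ?_
  · obtain ⟨a, b, k, k'⟩ := hH g a b
    rintro _ ⟨s', w, h, rfl⟩
    exact ⟨_, _, k' s' h, (k _ _).symm⟩
  · obtain ⟨y, y1, y2, y3⟩ := exists_sing h3 hf nW (by omega)
    obtain ⟨a, a1, a2⟩ := exists_B_in nW x1 x0
    have a2 : f.B x a ≠ 0 := fun e => a2 (f.B_zero_symm e)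
    obtain ⟨g, d, hg⟩ := exists_eich' y2 (y3 a a1)
    obtain ⟨s', w, h, k⟩ := (e hg.mem_E x).1 (let ⟨w, h⟩ := x1; ⟨s, w, rfl, h⟩)
    rw [hg.app_perp (y3 x x1)] at k
    rcases fr s' w h with h | h <;> rw [k] at h
    · exact y1 (by rwa [W.add_mem_iff_right x1, W.smul_mem_iff a2] at h)
    · simpa [a2, f.B_zero_symm (y3 a a1)] using h a a1
  have nW' := (f.res_nondeg_iff W).2 nW
  have := fr_perp hf W (F ∙ x)
  have r := finrank_span_singleton (K := F) x0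
  obtain ⟨a, a1, a2⟩ := exists_not_mem (W := W ⊓ f.perp (F ∙ x)) (U := F ∙ x) (by omega)
  obtain ⟨v, v1, v2⟩ := nW'.exists_dual (W := F ∙ (⟨x, x1⟩ : W)) (x := ⟨a, a1.1⟩) fun k => a2 (by
    obtain ⟨l, k⟩ := Submodule.mem_span_singleton.1 k
    exact Submodule.mem_span_singleton.2 ⟨l, congrArg Subtype.val k⟩)
  obtain ⟨g, d, hg⟩ := exists_eich' x2 (mem_perp_single.1 a1.2)
  refine ⟨g, hg.mem_E, stab_of_maps ?_, fun k => x0 ?_⟩
  · rintro _ ⟨s', w, h, rfl⟩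
    rcases fr s' w h with k | k
    · obtain ⟨w', k⟩ : g (τ s' w) ∈ W := hg.app _ ▸ sub_mem (sub_mem (add_mem k (W.smul_mem _ x1)) (W.smul_mem _ a1.1))
        (W.smul_mem _ x1)
      exact ⟨s, w', rfl, k⟩
    · exact ⟨s', w, h, (hg.fix (k x x1) (k a a1.1)).symm⟩
  obtain ⟨a', b, k, -⟩ := hH g hg.mem_E k
  have o : ∀ w, ∀ v ∈ W, f.B (τ u₀ w) v = 0 := by rintro w _ ⟨w', rfl⟩; simp [hB, us]
  obtain ⟨a', k⟩ := T.l.left k u0 fun w => hg.fix (o w x x1) (o w a a1.1)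
  obtain ⟨w, rfl⟩ := x1
  have e : a' s = s := T.r.inj (u := w) (by rintro rfl; simp at x0) ((k s w).symm.trans hg.fix_x)
  obtain ⟨_, w', rfl⟩ := v
  have := (k s w').trans (congrArg (τ · w') e)
  rw [hg.app_perp (v := τ s w') (f.B_zero_symm (v2 _ (Submodule.mem_span_singleton_self _))),
    f.B_one_symm (show f.B a (τ s w') = 1 from v1)] at this
  rcases P.hε with e | e <;> simpa [e] using this

theorem frame3 [Fintype F] (hq : Fintype.card F = 3) {Γ : GL (Fin 3) F} (h : As.HF (RingHom.id F) 1 Γ) :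
    ∃ s u₀, As.fm (RingHom.id F) Γ.1 s s ≠ 0 ∧ (∀ s', As.fm (RingHom.id F) Γ.1 s' s' = As.fm (RingHom.id F) Γ.1 s s →
      s' ∈ F ∙ s ∨ As.fm (RingHom.id F) Γ.1 s' s = 0) ∧ u₀ ≠ 0 ∧ As.fm (RingHom.id F) Γ.1 u₀ s = 0 := by
  have h2 : (2 : F) ≠ 0 := two_ne_of_odd (by simp [hq, Nat.odd_iff])
  have b : ∀ u v, toBilin' Γ.1 u v = As.fm (RingHom.id F) Γ.1 u v := fun u v => toBilin'_apply' _ _ _
  have sy : (toBilin' Γ.1).IsSymm := ⟨fun u v => by simpa [b] using h.fm_symm v u⟩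
  have hf := ofSymm_nondeg h2 sy (nondegenerate_toBilin'_iff.2 (nondegenerate_of_det_ne_zero Γ.det_ne_zero))
  obtain ⟨c, e, c0, -, a⟩ := orth_exists_similar_odd 1 (oddQ_nondeg h2 1) hf (by simp) (by simp)
  have q : ∀ u, (ofSymm (toBilin' Γ.1)).Q (e u) = c * (u (.inl ()) ^ 2 + u (.inr (.inl 0)) * u (.inr (.inr 0))) :=
    fun u => (a u).trans (by simp [scale, oddQ_coe, Cfsg.quadFormOdd])
  have p : ∀ u v, As.fm (RingHom.id F) Γ.1 (e u) (e v) = c * (u (.inl ()) * v (.inl ()) - u (.inr (.inl 0)) * v (.inr (.inr 0))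
      - u (.inr (.inr 0)) * v (.inr (.inl 0))) := fun u v => mul_left_cancel₀ h2 (by
    have h3 : (3 : F) = 0 := by simpa [hq] using FiniteField.cast_card_eq_zero F
    rw [← b, ← ofSymm_B sy, orth_B, ← map_add, q, q, q]
    simp only [Pi.add_apply]
    grind)
  refine ⟨e (Sum.elim 0 (Sum.elim 1 (-1))), e (Sum.elim 1 0), by simp [p, c0, ← two_mul, h2], fun s' => ?_,
    by simp [funext_iff], by simp [p]⟩
  obtain ⟨s, rfl⟩ := e.surjective s'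
  have k : ∀ a b c : F, a * a - b * c - c * b = 1 + 1 → (a = 0 ∧ c = -b) ∨ b - c = 0 := by
    have e := ZMod.ringEquivOfPrime F Nat.prime_three hq
    simp only [e.surjective.forall, ← map_one e, ← map_zero e, ← _root_.map_mul, ← map_add, ← map_neg, ← map_sub,
      e.injective.eq_iff]
    decide
  simp only [p, mul_right_inj' c0]
  refine fun x => (k _ _ _ (by simpa using x)).imp (fun k => Submodule.mem_span_singleton.2 ⟨s (.inr (.inl 0)), ?_⟩)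
    fun k => by simpa [c0]
  rw [← map_smul]
  congr 1
  ext (i | i | i) <;> simp [k, Subsingleton.elim i 0]

theorem nm_tens3 [Fintype F] (hq : Fintype.card F = 3) {τ : (Fin 3 → F) →ₗ[F] V₂ →ₗ[F] V} (T : Tn τ) (h3 : I3 f)
    (hf : f.Nondeg) (c0 : c ≠ 0) {Γ : GL (Fin 3) F} (h : As.HF (RingHom.id F) 1 Γ)
    (hB : ∀ u w u' w', f.B (τ u w) (τ u' w') = c * (As.fm (RingHom.id F) Γ.1 u u' * f₂ w w'))
    (n2 : ∀ w, w ≠ 0 → ∃ w', f₂ w' w ≠ 0) (d1 : 3 ≤ finrank F V₂) (d2 : finrank F V₂ + 3 ≤ finrank F V)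
    {H : Subgroup (V ≃ₗ[F] V)} (hH : ∀ g ∈ H, ∃ (a : GL (Fin 3) F) (b : V₂ → V₂), ∀ u w, g (τ u w) = τ (a.1 *ᵥ u) (b w)) :
    NM f.E H := by
  obtain ⟨s, u, a1, a2, a3, a4⟩ := frame3 hq h
  refine nm_tens T h3 hf c0 hB n2 a1 a2 a3 a4 d1 d2 fun g x y => ?_
  obtain ⟨a, b, k⟩ := hH g y
  have : Nontrivial V₂ := nontrivial_of_finrank_pos (R := F) (by omega)
  obtain ⟨w, w0⟩ := exists_ne (0 : V₂)
  obtain ⟨w', w0⟩ := n2 w w0
  obtain ⟨l, e⟩ := sim_left c0 hB w0 (E_le_Isom x) k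
  have d := congrArg det (As.fm_ext (Γ := l • As.pull (RingHom.id F) Γ.1 a.1) (Γ' := Γ.1) fun u v => by
    rw [As.fm_smul_gram, As.fm_pull, e])
  have := FiniteField.pow_card l
  simp [As.pull, hq] at d this
  have := As.mul_self_of_card hq.le a.det_ne_zero
  have := Γ.det_ne_zero
  obtain rfl : l = 1 := by grind
  exact ⟨_, b, k, fun s' k => by simpa [k] using e s' s'⟩

theorem nm_tens2 {σ : F →+* F} (U : UF σ 2) {τ : (Fin 2 → F) →ₗ[F] V₂ →ₗ[F] V} (T : Tn τ) (h3 : I3 f)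
    (hf : f.Nondeg) (c0 : c ≠ 0) {Γ : GL (Fin 2) F} (h : As.HF σ 1 Γ)
    (hB : ∀ u w u' w', f.B (τ u w) (τ u' w') = c * (As.fm σ Γ.1 u u' * f₂ w w'))
    (n2 : ∀ w, w ≠ 0 → ∃ w', f₂ w' w ≠ 0) (d1 : 3 ≤ finrank F V₂) (d2 : finrank F V₂ + 3 ≤ finrank F V)
    {H : Subgroup (V ≃ₗ[F] V)} (hH : ∀ g ∈ H, ∃ (a : GL (Fin 2) F) (b : V₂ → V₂), ∀ u w, g (τ u w) = τ (a.1 *ᵥ u) (b w)) :
    NM f.E H := by
  have := U.fin
  let f₁ := ofHerm U.ne_id U.invol (As.fm σ Γ.1) (As.fm_add_left _) (As.fm_smul_left _) fun u v => by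
    simpa using h.fm_symm u v
  have n : f₁.Nondeg := fun v k => by_contra fun e => let ⟨x, e⟩ := (As.fm_nondeg (σ := σ) Γ v e).1; e (k x)
  have h2 : (2 : F) = 0 := by
    have := (U.pow (-1)).symm.trans (map_neg σ 1)
    simp only [_root_.map_one] at this
    linear_combination this
  have fx : ∀ a, σ a = a → a ≠ 0 → a = 1 := fun a x y => by simpa using (U.fix_iff y).1 x
  obtain ⟨s, q⟩ := unit_exists_Q_one U n (by simp)
  obtain ⟨u, -, u0, us⟩ := exists_perp_in n (W := ⊤) (by simp) s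
  have q' : As.fm σ Γ.1 s s = 1 := q
  refine nm_tens T h3 hf c0 hB n2 (q'.trans_ne one_ne_zero) (fun s' y => or_iff_not_imp_right.2 fun k => by_contra fun e => ?_)
    u0 (f₁.B_zero_symm us) d1 d2 fun g x y => ?_
  · have s0 : s ≠ 0 := by rintro rfl; simp at q
    have : (F ∙ s) ⊔ F ∙ s' = ⊤ := Submodule.eq_top_of_finrank_eq (by
      rw [Submodule.finrank_sup_span_singleton e, finrank_span_singleton s0]; simp)
    have b := fx (f₁.B s' s * σ (f₁.B s' s)) (by simp [U.invol, mul_comm]) (by simpa)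
    have y : f₁.B s' s' = 1 := y.trans q
    have q : f₁.B s s = 1 := q
    have := n (s' + f₁.B s' s • s) fun w => perp_sup_line.2 ⟨perp_line.2 (f₁.B_zero_symm (by simp [q, ← two_mul, h2])),
      f₁.B_zero_symm (by
        simp only [f₁.B_add_left, f₁.B_smul_left, y, f₁.unit_B_symm s' s]
        linear_combination b + h2)⟩ w (this.ge trivial)
    exact e (Submodule.mem_span_singleton.2 ⟨-f₁.B s' s, by rw [neg_smul, neg_eq_iff_add_eq_zero, add_comm]; exact this⟩)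
  obtain ⟨a, b, k⟩ := hH g y
  have : Nontrivial V₂ := nontrivial_of_finrank_pos (R := F) (by omega)
  obtain ⟨w, w0⟩ := exists_ne (0 : V₂)
  obtain ⟨w', w0⟩ := n2 w w0
  obtain ⟨l, e⟩ := sim_left c0 hB w0 (E_le_Isom x) k
  exact ⟨_, b, k, fun s' k => (fx _ (f₁.unit_σ_Q _) (right_ne_zero_of_mul_eq_one ((e s' s').trans (k.trans q')))).trans q'.symm⟩

theorem hf_of_symm {k : ℕ} {f : (Fin k → F) → (Fin k → F) → F} (h : IsSymmetricForm f) :
    ∃ Γ : GL (Fin k) F, As.HF (RingHom.id F) 1 Γ ∧ f = As.fm (RingHom.id F) Γ.1 :=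
  As.exists_of_herm (fun _ => rfl) h.bilinear.add_left h.bilinear.smul_left h.symm h.nondegenerate

/-- an element of order three -/
def J3 (F : Type*) [Field F] : GL (Fin 2) F :=
  ⟨!![0, -1; 1, -1], !![-1, 1; -1, 0], by simp [← one_fin_two], by simp [← one_fin_two]⟩

theorem J3_conj [Fintype F] (hq : Fintype.card F = 2) (a : GL (Fin 2) F) : a * J3 F = J3 F * a ∨ a * J3 F = J3 F ^ 2 * a := by
  have h2 : (2 : F) = 0 := not_not.1 (As.two_ne_zero_iff.not.2 (by simp [hq]))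
  have := a.det_ne_zero
  have := As.eq_zero_or_one hq (a.1 0 0)
  have := As.eq_zero_or_one hq (a.1 0 1)
  have := As.eq_zero_or_one hq (a.1 1 0)
  have := As.eq_zero_or_one hq (a.1 1 1)
  simp [Units.ext_iff, ← Matrix.ext_iff, J3, pow_two, mul_apply, det_fin_two, vecMul, dotProduct] at *
  grind

theorem J3_ne [Fintype F] (hq : Fintype.card F = 2) {u : Fin 2 → F} {l : F} (h : (J3 F).1 *ᵥ u = l • u) : u = 0 := by
  have h2 : (2 : F) = 0 := not_not.1 (As.two_ne_zero_iff.not.2 (by simp [hq]))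
  have := As.eq_zero_or_one hq l
  simp [funext_iff, J3, mulVec, dotProduct] at *
  grind

theorem nm_field [Fintype F] (hq : Fintype.card F = 2) {τ : (Fin 2 → F) →ₗ[F] V₂ →ₗ[F] V} (T : Tn τ)
    {j : V ≃ₗ[F] V} (hj : ∀ u w, j (τ u w) = τ ((J3 F).1 *ᵥ u) w) {G H : Subgroup (V ≃ₗ[F] V)}
    (hH : ∀ g ∈ H, ∃ (a : GL (Fin 2) F) (b : V₂ → V₂), ∀ u w, g (τ u w) = τ (a.1 *ᵥ u) (b w))
    (h1 : ∃ g ∈ G, ∃ v, g v = v ∧ g (j v) ∉ Submodule.span F {v, j v})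
    (h2 : ∃ g ∈ G, g * j = j * g ∧ ∃ u w₁ w₂ w₃ w₄, u ≠ 0 ∧ w₁ ≠ 0 ∧ w₂ ≠ 0 ∧ (∀ u, g (τ u w₁) = τ u w₁) ∧
      g (τ u w₃) = τ u w₄ + τ ((J3 F).1 *ᵥ u) w₂) : NM G H := by
  have : Finite V := Module.finite_of_finite F
  have : Finite (V ≃ₗ[F] V) := DFunLike.finite _
  have n : ∀ g : V ≃ₗ[F] V, g * j * g⁻¹ ∈ Subgroup.zpowers j → g ∈ Subgroup.normalizer (Subgroup.zpowers j : Set _) :=
    fun g h => Subgroup.mem_normalizer_fintype (by rintro _ ⟨i, rfl⟩; simpa using zpow_mem h i)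
  refine nm_of (Subgroup.normalizer (Subgroup.zpowers j : Set _)) (fun g _ b => n g ?_) (fun e => ?_) ?_
  · obtain ⟨a, b, k⟩ := hH g b
    rcases J3_conj hq a with e | e
    · exact ⟨1, eq_mul_inv_of_mul_eq (LinearEquiv.toLinearMap_injective (T.ext fun u w => by
        simp only [LinearEquiv.coe_coe, LinearEquiv.mul_apply, zpow_one, k, hj, mulVec_mulVec, ← Units.val_mul, e]))⟩
    · exact ⟨2, eq_mul_inv_of_mul_eq (LinearEquiv.toLinearMap_injective (T.ext fun u w => by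
        simp only [LinearEquiv.coe_coe, LinearEquiv.mul_apply, zpow_two, k, hj, mulVec_mulVec, ← Units.val_mul, e,
          pow_two, mul_assoc]))⟩
  · obtain ⟨g, a, v, b, c⟩ := h1
    have m : v ∈ Submodule.span F {v, j v} := Submodule.subset_span (by simp)
    have m' : j v ∈ Submodule.span F {v, j v} := Submodule.subset_span (by simp)
    have jj : ∀ v, j (j v) = -v - j v := DFunLike.congr_fun (T.ext (a := j.toLinearMap ∘ₗ j.toLinearMap)
      (b := -LinearMap.id - j.toLinearMap) fun u w => by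
        have : (J3 F).1 *ᵥ (J3 F).1 *ᵥ u = -u - (J3 F).1 *ᵥ u := by
          ext i; fin_cases i <;> simp [J3, vecHead, vecTail]; ring
        change j (j _) = -_ - j _
        rw [hj, hj, this, map_sub, map_neg]; rfl)
    have := Subgroup.zpowers_le.2 (mem_stabS_of_le (W := Submodule.span F {v, j v}) (g := j) fun w k => by
      obtain ⟨x, y, rfl⟩ := Submodule.mem_span_pair.1 k
      simpa [jj] using add_mem (Submodule.smul_mem _ x m') (Submodule.smul_mem _ y (sub_mem (neg_mem m) m')))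
    have := (this ((e a j).1 (Subgroup.mem_zpowers j)) v).1 m
    exact c (by rwa [← b, show (g * j * g⁻¹) (g v) = g (j v) by simp, b] at this)
  obtain ⟨g, a, b, u, w₁, w₂, w₃, w₄, u0, x1, x2, c, d⟩ := h2
  refine ⟨g, a, n g (by simp [b]), fun k => u0 ?_⟩
  obtain ⟨a, b, k⟩ := hH g k
  obtain ⟨b, k⟩ := T.r.left (b := (a.1 *ᵥ ·)) (fun w u => k u w) x1 c
  obtain ⟨κ, φ, x, y⟩ := T.r w₂ x2
  have := congrArg κ (d.symm.trans (k w₃ u))
  simp only [LinearMap.flip_apply] at y this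
  simp only [map_add, y, x, one_smul] at this
  exact J3_ne hq (l := φ (b w₃) - φ w₄) (by rw [sub_smul, ← this, add_sub_cancel_left])

end CfsgH5.Nm
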