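import Cfsg.Agent.H5.Nse

/-! Same-order element counts of small alternating groups. -/

set_option autoImplicit false
open Subgroup CfsgCnt Equiv

namespace CfsgH5.Nse

theorem sO_alt (n m : ℕ) (hm : 0 < m) : sO (alternatingGroup (Fin n)) m =
    (Finset.univ.filter fun g : Perm (Fin n) =>
      Perm.sign g = 1 ∧ g ^ m = 1 ∧ ∀ k < m, 0 < k → g ^ k ≠ 1).card := by
  rw [← Fintype.card_subtype, ← Nat.card_eq_fintype_card]
  refine Nat.card_congr ⟨fun g => ⟨g.1.1, g.1.2, ?_⟩, fun g => ⟨⟨g.1, g.2.1⟩, ?_⟩, fun _ => rfl, fun _ => rfl⟩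
  · rw [← orderOf_eq_iff hm, Subgroup.orderOf_coe]; exact g.2
  · rw [← Subgroup.orderOf_coe, orderOf_eq_iff hm]; exact g.2.2

theorem vo_of {G : Type*} [Group G] [Finite G] (D : Finset ℕ) (h : ∑ d ∈ D, sO G d = Nat.card G)
    (h0 : ∀ d ∈ D, sO G d ≠ 0) : VO G = sO G '' D := by
  unfold VO
  congr 1
  ext d
  refine ⟨fun ⟨g, hg⟩ => ?_, fun hd => sO_ne_zero.1 (h0 d hd)⟩
  by_contra e
  have := sum_le_top (G := G) (insert d D)
  rw [Finset.sum_insert e, h] at this
  exact sO_ne_zero.2 ⟨g, hg⟩ (by omega)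

theorem card_alt (n : ℕ) : 2 * Nat.card (alternatingGroup (Fin (n + 2))) = (n + 2).factorial := by
  rw [Nat.card_eq_fintype_card, two_mul_card_alternatingGroup, Fintype.card_perm, Fintype.card_fin]

set_option maxRecDepth 100000 in
theorem c4 : ([1, 2, 3].map fun m => (Finset.univ.filter fun g : Perm (Fin 4) =>
    Perm.sign g = 1 ∧ g ^ m = 1 ∧ ∀ k < m, 0 < k → g ^ k ≠ 1).card) = [1, 3, 8] := by decide +kernel

set_option maxRecDepth 100000 in
theorem c5 : ([1, 2, 3, 5].map fun m => (Finset.univ.filter fun g : Perm (Fin 5) =>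
    Perm.sign g = 1 ∧ g ^ m = 1 ∧ ∀ k < m, 0 < k → g ^ k ≠ 1).card) = [1, 15, 20, 24] := by decide +kernel

set_option maxRecDepth 100000 in
theorem c6 : ([1, 2, 3, 4, 5].map fun m => (Finset.univ.filter fun g : Perm (Fin 6) =>
    Perm.sign g = 1 ∧ g ^ m = 1 ∧ ∀ k < m, 0 < k → g ^ k ≠ 1).card) = [1, 45, 80, 90, 144] := by
  decide +kernel

theorem vo4 : VO (alternatingGroup (Fin 4)) = {1, 3, 8} := by
  have h := c4
  simp only [List.map_cons, List.map_nil, List.cons.injEq, and_true] at h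
  rw [← sO_alt 4 1 (by norm_num), ← sO_alt 4 2 (by norm_num), ← sO_alt 4 3 (by norm_num)] at h
  obtain ⟨a, b, c⟩ := h
  have k : 2 * Nat.card (alternatingGroup (Fin 4)) = 24 := card_alt 2
  rw [vo_of {1, 2, 3}]
  · simp [Set.image_insert_eq, a, b, c]
  · rw [Finset.sum_insert (by decide), Finset.sum_pair (by decide), a, b, c]
    omega
  · simp [a, b, c]

theorem vo5 : VO (alternatingGroup (Fin 5)) = {1, 15, 20, 24} := by
  have h := c5
  simp only [List.map_cons, List.map_nil, List.cons.injEq, and_true] at h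
  rw [← sO_alt 5 1 (by norm_num), ← sO_alt 5 2 (by norm_num), ← sO_alt 5 3 (by norm_num),
    ← sO_alt 5 5 (by norm_num)] at h
  obtain ⟨a, b, c, d⟩ := h
  have k : 2 * Nat.card (alternatingGroup (Fin 5)) = 120 := card_alt 3
  rw [vo_of {1, 2, 3, 5}]
  · simp [Set.image_insert_eq, a, b, c, d]
  · rw [Finset.sum_insert (by decide), Finset.sum_insert (by decide), Finset.sum_pair (by decide), a, b, c, d]
    omega
  · simp [a, b, c, d]

theorem vo6 : VO (alternatingGroup (Fin 6)) = {1, 45, 80, 90, 144} := by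
  have h := c6
  simp only [List.map_cons, List.map_nil, List.cons.injEq, and_true] at h
  rw [← sO_alt 6 1 (by norm_num), ← sO_alt 6 2 (by norm_num), ← sO_alt 6 3 (by norm_num),
    ← sO_alt 6 4 (by norm_num), ← sO_alt 6 5 (by norm_num)] at h
  obtain ⟨a, b, c, d, e⟩ := h
  have k : 2 * Nat.card (alternatingGroup (Fin 6)) = 720 := card_alt 4
  rw [vo_of {1, 2, 3, 4, 5}]
  · simp [Set.image_insert_eq, a, b, c, d, e]
  · rw [Finset.sum_insert (by decide), Finset.sum_insert (by decide), Finset.sum_insert (by decide),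
      Finset.sum_pair (by decide), a, b, c, d, e]
    omega
  · simp [a, b, c, d, e]

end CfsgH5.Nse
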