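import Cfsg.Agent.H5.Nse
import Cfsg.Agent.S3994
import Cfsg.Agent.S0228
import Cfsg.Agent.S0494
import Cfsg.Agent.S0497

/-! Groups with the same-order element counts of small alternating groups. -/

set_option autoImplicit false
open Subgroup CfsgCnt

namespace CfsgH5.Nse

variable {G : Type*} [Group G] [Finite G]

theorem div5 (h : ∀ p, p.Prime → p ∣ Nat.card G → p = 2 ∨ p = 3 ∨ p = 5) (h5 : 5 ∣ Nat.card G)
    (h25 : ¬ 5 ^ 2 ∣ Nat.card G) (h10 : sO G 10 = 0) (h15 : sO G 15 = 0) : Nat.card G ∣ 5 * sO G 5 := by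
  have p5 : Nat.Prime 5 := by norm_num
  have e : Nat.card {g : G // 5 ∣ orderOf g} = sO G 5 := by
    refine Nat.card_congr (Equiv.subtypeEquivRight fun g => ⟨fun ⟨c, hc⟩ => ?_, fun e => e ▸ dvd_rfl⟩)
    by_contra e
    have c1 : c ≠ 1 := by rintro rfl; exact e hc
    obtain ⟨q, hq, d, rfl⟩ := Nat.exists_prime_and_dvd c1
    have g0 : sO G (5 * (q * d)) ≠ 0 := sO_ne_zero.2 ⟨g, hc⟩
    rcases h q hq ((Dvd.intro (5 * d) (by ring) : q ∣ 5 * (q * d)).trans (dvd_of_ne g0)) with rfl | rfl | rfl
    · exact ne_of_dvd g0 (k := 10) ⟨d, by ring⟩ h10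
    · exact ne_of_dvd g0 (k := 15) ⟨d, by ring⟩ h15
    · exact h25 ((Dvd.intro d (by ring)).trans (dvd_of_ne g0))
  rcases Cfsg.Agent.S3994.result (G := G) 5 (by norm_num) with a | a
  · exact absurd (e ▸ a) (sO_prime p5 h5)
  · rw [e] at a
    have g : Nat.gcd (Nat.card G) (5 ^ Nat.card G) = 5 := by
      obtain ⟨j, -, hj⟩ := (Nat.dvd_prime_pow p5).1 (Nat.gcd_dvd_right (Nat.card G) (5 ^ Nat.card G))
      have a1 : 5 ^ 1 ∣ 5 ^ j := hj ▸ Nat.dvd_gcd h5 (pow_dvd_pow 5 Nat.card_pos)
      have a2 : ¬ 5 ^ 2 ∣ 5 ^ j := fun e => h25 (e.trans (hj ▸ Nat.gcd_dvd_left _ _))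
      rw [Nat.pow_dvd_pow_iff_le_right (by norm_num)] at a1 a2
      rw [hj, show j = 1 by omega, pow_one]
    rw [g] at a
    obtain ⟨c, hc⟩ := h5
    rw [hc, Nat.mul_div_cancel_left _ (by norm_num)] at a
    rw [hc]
    exact Nat.mul_dvd_mul_left 5 a

theorem case4 (h : VO G = {1, 3, 8}) : Nonempty (G ≃* alternatingGroup (Fin 4)) := by
  have p2 := Nat.prime_two
  have p3 := Nat.prime_three
  have hv : ∀ m, 2 < m → sO G m = 0 ∨ sO G m = 8 := fun m hm => by
    by_cases e : sO G m = 0
    · exact Or.inl e
    · have a := mem_VO e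
      have := two_dvd (G := G) hm
      rw [h] at a
      simp only [Set.mem_insert_iff, Set.mem_singleton_iff] at a
      omega
  have s1 : sO G 1 = 1 := sO_one
  have s2 : sO G 2 = 3 := two_of_odd (by simp [h]) (by norm_num) (by norm_num)
  have lb : 12 ≤ Nat.card G := by simpa using vo_le (G := G) {1, 3, 8} (by simp [h])
  have hp : ∀ p, p.Prime → p ∣ Nat.card G → p = 2 ∨ p = 3 ∨ p = 5 := fun p hp hd => by
    by_cases e : p = 2
    · exact Or.inl e
    have a := F1 hp hd
    rw [(hv p (lt_of_le_of_ne hp.two_le (Ne.symm e))).resolve_left (sO_prime hp hd)] at a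
    exact Or.inr (Or.inl ((Nat.prime_dvd_prime_iff_eq hp p3).1 (hp.dvd_of_dvd_pow (n := 2) a)))
  have n5 : ¬ 5 ^ (0 + 1) ∣ Nat.card G := fun e => by
    have a := F1 (p := 5) (by norm_num) e
    have := hv 5 (by norm_num)
    omega
  have n8 : ¬ 2 ^ (2 + 1) ∣ Nat.card G := fun e => by
    have a := Fk p2 e
    simp only [Finset.sum_range_succ, Finset.range_zero, Finset.sum_empty] at a
    norm_num at a
    have := hv 4 (by norm_num)
    have := hv 8 (by norm_num)
    omega
  have s4 : sO G 4 = 0 := by
    by_contra e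
    obtain ⟨n, a, -, b, -⟩ := cyc (k := 2) p2 n8 e
    have : Nat.totient (2 ^ 2) = 2 := by decide
    rw [this] at b
    have := hv 4 (by norm_num)
    unfold Nat.ModEq at a
    norm_num at b
    omega
  have s9 : sO G 9 = 0 := by
    have : 6 ∣ sO G 9 := tot 9
    have := hv 9 (by norm_num)
    omega
  have n27 : ¬ 3 ^ (2 + 1) ∣ Nat.card G := fun e => by
    have a := Fexp p3 e s9
    have := hv 3 (by norm_num)
    omega
  have d := dvd3 hp n8 n27 n5
  have c := card_eq (G := G)
  have z : ∀ m k, k ∣ m → sO G k = 0 → sO G m = 0 := fun m k hd hk => by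
    by_contra e; exact ne_of_dvd e hd hk
  have := z 12 4 (by norm_num) s4
  have := z 18 9 (by norm_num) s9
  have := z 36 9 (by norm_num) s9
  have := hv 3 (by norm_num)
  have := hv 6 (by norm_num)
  have hc : Nat.card G = 12 ∨ Nat.card G = 18 ∨ Nat.card G = 36 := by
    have m : Nat.card G ∈ Nat.divisors 36 := Nat.mem_divisors.2 ⟨d, by norm_num⟩
    rw [show Nat.divisors 36 = {1, 2, 3, 4, 6, 9, 12, 18, 36} by decide] at m
    simp only [Finset.mem_insert, Finset.mem_singleton] at m
    omega
  rcases hc with hc | hc | hc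
  · rw [hc, show Nat.divisors 12 = {1, 2, 3, 4, 6, 12} by decide] at c
    simp only [Finset.sum_insert, Finset.mem_insert, Finset.mem_singleton, Finset.sum_singleton,
      OfNat.ofNat_eq_ofNat, Nat.reduceEqDiff, or_self, not_false_eq_true] at c
    obtain ⟨y, hy⟩ := sO_ne_zero.1 (sO_prime p3 (by rw [hc]; norm_num) : sO G 3 ≠ 0)
    have s3 : sO G 3 ≠ 0 := sO_ne_zero.2 ⟨y, hy⟩
    refine Cfsg.Agent.S0228.result hc fun x hx hz => ?_
    have := sO_comm (x := x) (y := y) (mem_center_iff.1 hz y).symm (by rw [hx, hy]; norm_num)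
    rw [hx, hy] at this
    norm_num at this
    omega
  · rw [hc, show Nat.divisors 18 = {1, 2, 3, 6, 9, 18} by decide] at c
    simp only [Finset.sum_insert, Finset.mem_insert, Finset.mem_singleton, Finset.sum_singleton,
      OfNat.ofNat_eq_ofNat, Nat.reduceEqDiff, or_self, not_false_eq_true] at c
    omega
  · rw [hc, show Nat.divisors 36 = {1, 2, 3, 4, 6, 9, 12, 18, 36} by decide] at c
    simp only [Finset.sum_insert, Finset.mem_insert, Finset.mem_singleton, Finset.sum_singleton,
      OfNat.ofNat_eq_ofNat, Nat.reduceEqDiff, or_self, not_false_eq_true] at c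
    omega

theorem case5 (h : VO G = {1, 15, 20, 24}) : Nonempty (G ≃* alternatingGroup (Fin 5)) := by
  have p2 := Nat.prime_two
  have p3 := Nat.prime_three
  have p5 : Nat.Prime 5 := by norm_num
  have hv : ∀ m, 2 < m → sO G m = 0 ∨ sO G m = 20 ∨ sO G m = 24 := fun m hm => by
    by_cases e : sO G m = 0
    · exact Or.inl e
    · have a := mem_VO e
      have := two_dvd (G := G) hm
      rw [h] at a
      simp only [Set.mem_insert_iff, Set.mem_singleton_iff] at a
      omega
  have z : ∀ m k, k ∣ m → sO G k = 0 → sO G m = 0 := fun m k hd hk => by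
    by_contra e; exact ne_of_dvd e hd hk
  have s1 : sO G 1 = 1 := sO_one
  have s2 : sO G 2 = 15 := two_of_odd (by simp [h]) (by norm_num) (by norm_num)
  have d2 : 2 ∣ Nat.card G := dvd_of_ne (by omega)
  have lb : 60 ≤ Nat.card G := by simpa using vo_le (G := G) {1, 15, 20, 24} (by simp [h])
  have hp : ∀ p, p.Prime → p ∣ Nat.card G → p = 2 ∨ p = 3 ∨ p = 5 := fun p hp hd => by
    by_cases e : p = 2
    · exact Or.inl e
    have a := F1 hp hd
    have t := tot (G := G) p
    rcases (hv p (lt_of_le_of_ne hp.two_le (Ne.symm e))).resolve_left (sO_prime hp hd) with b | b <;>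
      rw [b] at a t
    · rcases (Nat.Prime.dvd_mul hp).1 (show p ∣ 3 * 7 from a) with c | c
      · exact Or.inr (Or.inl ((Nat.prime_dvd_prime_iff_eq hp p3).1 c))
      · rw [(Nat.prime_dvd_prime_iff_eq hp (by norm_num)).1 c] at t
        exact absurd t (by decide)
    · exact Or.inr (Or.inr ((Nat.prime_dvd_prime_iff_eq hp p5).1 (hp.dvd_of_dvd_pow (n := 2) a)))
  have s3 : 3 ∣ Nat.card G → sO G 3 = 20 := fun e => by
    have a := F1 p3 e
    have := hv 3 (by norm_num)
    omega
  have s9 : sO G 9 = 0 := by
    by_contra e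
    have t : 6 ∣ sO G 9 := tot 9
    have := hv 9 (by norm_num)
    have a3 := s3 ((by norm_num : 3 ∣ 9).trans (dvd_of_ne e))
    have n27 : ¬ 3 ^ (2 + 1) ∣ Nat.card G := fun e => by
      have a := Fk p3 e
      simp only [Finset.sum_range_succ, Finset.range_zero, Finset.sum_empty] at a
      norm_num at a
      have t : 18 ∣ sO G 27 := tot 27
      have := hv 27 (by norm_num)
      omega
    obtain ⟨n, -, -, b, c⟩ := cyc (k := 2) p3 n27 e
    have c := c 3 (by norm_num)
    rw [show Nat.totient (3 ^ 2) = 6 by decide] at b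
    rw [show Nat.totient 3 = 2 by decide] at c
    norm_num at b
    omega
  have n9 : ¬ 3 ^ (1 + 1) ∣ Nat.card G := fun e => by
    have a := Fexp p3 e s9
    have := hv 3 (by norm_num)
    omega
  have d5 : 5 ∣ Nat.card G := by
    by_contra n5
    have n3 : ¬ 3 ∣ Nat.card G := fun e => by
      obtain ⟨n, -, a, b, -⟩ := cyc (k := 1) p3 n9 (sO_prime p3 e)
      rw [show Nat.totient (3 ^ 1) = 2 by decide, pow_one, s3 e] at b
      exact n5 ((show 5 ∣ n by omega).trans a)
    have s32 : sO G 32 = 0 := by
      have t : 16 ∣ sO G 32 := tot 32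
      have := hv 32 (by norm_num)
      omega
    have s64 := z 64 32 (by norm_num) s32
    have t16 : 8 ∣ sO G 16 := tot 16
    obtain ⟨d, ⟨g, hg⟩, hd⟩ : 20 ∈ VO G := by simp [h]
    have d0 : sO G d ≠ 0 := by omega
    have dd : d ∣ 2 ^ 4 * 3 ^ 0 * 5 ^ 0 := dvd3 (fun p a b => hp p a (b.trans (dvd_of_ne d0)))
      (fun e => ne_of_dvd d0 e s32) (fun e => n3 (e.trans (dvd_of_ne d0))) (fun e => n5 (e.trans (dvd_of_ne d0)))
    have m : d ∈ Nat.divisors 16 := Nat.mem_divisors.2 ⟨dd, by norm_num⟩
    rw [show Nat.divisors 16 = {1, 2, 4, 8, 16} by decide] at m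
    simp only [Finset.mem_insert, Finset.mem_singleton] at m
    have n64 : ¬ 2 ^ (5 + 1) ∣ Nat.card G := fun e => by
      have a := Fk p2 e
      simp only [Finset.sum_range_succ, Finset.range_zero, Finset.sum_empty] at a
      norm_num at a
      have := hv 4 (by norm_num)
      have := hv 8 (by norm_num)
      have := hv 16 (by norm_num)
      rcases m with rfl | rfl | rfl | rfl | rfl <;> omega
    have := Nat.le_of_dvd (by norm_num) (dvd3 (b := 0) (c := 0) hp n64 n3 n5)
    omega
  have s5 : sO G 5 = 24 := by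
    have a := F1 p5 d5
    have := hv 5 (by norm_num)
    omega
  have n25 : ¬ 5 ^ 2 ∣ Nat.card G := fun e => by
    have s25 : sO G 25 = 0 := by
      have a := Fk p5 e
      simp only [Finset.sum_range_succ, Finset.range_zero, Finset.sum_empty] at a
      norm_num at a
      have := hv 25 (by norm_num)
      omega
    have a := Fsq p5 p2 (by norm_num) e d2
    norm_num at a
    have := z 50 25 (by norm_num) s25
    have := hv 10 (by norm_num)
    omega
  have s10 : sO G 10 = 0 := by
    by_contra e
    have a := F2 p5 p2 (by norm_num) d5 d2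
    have b := le_mul (m := 2) p5 n25 (by norm_num) e
    have := hv 10 (by norm_num)
    norm_num at a b
    omega
  have s15 : sO G 15 = 0 := by
    by_contra e
    have d3 := (by norm_num : 3 ∣ 15).trans (dvd_of_ne e)
    have a := F2 p5 p3 (by norm_num) d5 d3
    have := hv 15 (by norm_num)
    have := s3 d3
    norm_num at a
    omega
  have d := div5 hp d5 n25 s10 s15
  rw [s5] at d
  have c := card_eq (G := G)
  have hc : Nat.card G = 60 := by
    have m : Nat.card G ∈ Nat.divisors 120 := Nat.mem_divisors.2 ⟨d, by norm_num⟩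
    rw [show Nat.divisors 120 = {1, 2, 3, 4, 5, 6, 8, 10, 12, 15, 20, 24, 30, 40, 60, 120} by decide] at m
    simp only [Finset.mem_insert, Finset.mem_singleton] at m
    by_contra e
    have hc : Nat.card G = 120 := by omega
    have a3 := s3 (by rw [hc]; norm_num)
    have s8 : sO G 8 = 0 := by
      by_contra e
      obtain ⟨n, -, -, b, c⟩ := cyc (k := 3) p2 (by rw [hc]; norm_num) e
      have c := c 2 (by norm_num)
      rw [show Nat.totient (2 ^ 3) = 4 by decide] at b
      rw [show Nat.totient 2 = 1 by decide] at c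
      have := hv 8 (by norm_num)
      norm_num at b
      omega
    have a := Fk (k := 3) p2 (by rw [hc]; norm_num : 2 ^ 3 ∣ Nat.card G)
    simp only [Finset.sum_range_succ, Finset.range_zero, Finset.sum_empty] at a
    norm_num at a
    rw [hc, show Nat.divisors 120 = {1, 2, 3, 4, 5, 6, 8, 10, 12, 15, 20, 24, 30, 40, 60, 120} by decide] at c
    simp only [Finset.sum_insert, Finset.mem_insert, Finset.mem_singleton, Finset.sum_singleton,
      OfNat.ofNat_eq_ofNat, Nat.reduceEqDiff, or_self, not_false_eq_true] at c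
    have := z 20 10 (by norm_num) s10
    have := z 30 10 (by norm_num) s10
    have := z 40 10 (by norm_num) s10
    have := z 60 10 (by norm_num) s10
    have := z 120 10 (by norm_num) s10
    have := z 24 8 (by norm_num) s8
    have := hv 4 (by norm_num)
    have := hv 6 (by norm_num)
    have := hv 12 (by norm_num)
    omega
  have a3 := s3 (by rw [hc]; norm_num)
  obtain ⟨x, hx⟩ := sO_ne_zero.1 (sO_prime p5 d5)
  haveI : Nontrivial G := Finite.one_lt_card_iff_nontrivial.1 (by omega)
  haveI : IsSimpleGroup G := ⟨fun N hN => by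
    have i := N.card_mul_index
    rw [hc] at i
    by_cases e5 : 5 ∣ Nat.card N
    · right
      have i5 : ¬ 5 ∣ N.index := fun e => n25 (by rw [← N.card_mul_index]; exact Nat.mul_dvd_mul e5 e)
      have a := sum_le N {1, 5} (by
        simp only [Finset.mem_insert, Finset.mem_singleton, forall_eq_or_imp, forall_eq]
        exact ⟨Nat.coprime_one_left _, (Nat.Prime.coprime_iff_not_dvd p5).2 i5⟩)
      rw [Finset.sum_pair (by decide)] at a
      have l : N.index ≤ 2 := by nlinarith
      rw [← index_eq_one]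
      by_contra e
      have i2 : N.index = 2 := by have := N.index_ne_zero_of_finite; omega
      have a := sum_le N {1, 3, 5} (by rw [i2]; decide)
      rw [Finset.sum_insert (by decide), Finset.sum_pair (by decide)] at a
      rw [i2] at i
      omega
    · left
      have b2 := norm_dvd (m := 2) N p5 hx (by norm_num) s10
      have b3 := norm_dvd (m := 3) N p5 hx (by norm_num) s15
      have dN : Nat.card N ∣ 12 := by
        have : Nat.card N ∣ 5 * 12 := Dvd.intro _ i
        exact (Nat.Coprime.dvd_mul_left ((Nat.Prime.coprime_iff_not_dvd p5).2 e5).symm).1 this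
      have n3 : ¬ 3 ∣ Nat.card N := fun e => by
        have i3 : ¬ 3 ∣ N.index := fun e' => n9 (by rw [← N.card_mul_index]; exact Nat.mul_dvd_mul e e')
        have a := sum_le N {3} (by
          simp only [Finset.mem_singleton, forall_eq]
          exact (Nat.Prime.coprime_iff_not_dvd p3).2 i3)
        rw [Finset.sum_singleton] at a
        have := Nat.le_of_dvd (by norm_num) dN
        omega
      have dN : Nat.card N ∣ 4 := by
        have : Nat.card N ∣ 3 * 4 := dN
        exact (Nat.Coprime.dvd_mul_left ((Nat.Prime.coprime_iff_not_dvd p3).2 n3).symm).1 this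
      have n2 : ¬ 2 ∣ Nat.card N := fun e => by
        have a := sum_le_top (G := N) {2}
        rw [Finset.sum_singleton] at a
        have := sO_prime p2 e
        have := Nat.le_of_dvd (by norm_num) dN
        omega
      rw [← card_eq_one]
      have m : Nat.card N ∈ Nat.divisors 4 := Nat.mem_divisors.2 ⟨dN, by norm_num⟩
      rw [show Nat.divisors 4 = {1, 2, 4} by decide] at m
      simp only [Finset.mem_insert, Finset.mem_singleton] at m
      omega⟩
  exact Cfsg.Agent.S0494.result hc

theorem case6 (h : VO G = {1, 45, 80, 90, 144}) : Nonempty (G ≃* alternatingGroup (Fin 6)) := by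
  have p2 := Nat.prime_two
  have p3 := Nat.prime_three
  have p5 : Nat.Prime 5 := by norm_num
  have p7 : Nat.Prime 7 := by norm_num
  have hv : ∀ m, 2 < m → sO G m = 0 ∨ sO G m = 80 ∨ sO G m = 90 ∨ sO G m = 144 := fun m hm => by
    by_cases e : sO G m = 0
    · exact Or.inl e
    · have a := mem_VO e
      have := two_dvd (G := G) hm
      rw [h] at a
      simp only [Set.mem_insert_iff, Set.mem_singleton_iff] at a
      omega
  have z : ∀ m k, k ∣ m → sO G k = 0 → sO G m = 0 := fun m k hd hk => by
    by_contra e; exact ne_of_dvd e hd hk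
  have s1 : sO G 1 = 1 := sO_one
  have s2 : sO G 2 = 45 := two_of_odd (by simp [h]) (by norm_num) (by norm_num)
  have d2 : 2 ∣ Nat.card G := dvd_of_ne (by omega)
  have lb : 360 ≤ Nat.card G := by simpa using vo_le (G := G) {1, 45, 80, 90, 144} (by simp [h])
  have n7 : ¬ 7 ∣ Nat.card G := fun e => by
    have a := F1 p7 e
    have := hv 7 (by norm_num)
    have s7 : sO G 7 = 90 := by omega
    have s49 : sO G 49 = 0 := by
      have t : 42 ∣ sO G 49 := (by decide : Nat.totient 49 = 42) ▸ tot 49
      have := hv 49 (by norm_num)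
      omega
    have n49 : ¬ 7 ^ 2 ∣ Nat.card G := fun e => by
      have a := Fexp p7 e s49
      omega
    have b := F2 p7 p2 (by norm_num) e d2
    have := hv 14 (by norm_num)
    norm_num at b
    have s14 : sO G 14 = 144 := by omega
    obtain ⟨n, -, dn, c, -⟩ := cyc (k := 1) p7 n49 (sO_prime p7 e)
    rw [show Nat.totient (7 ^ 1) = 6 by decide, pow_one, s7] at c
    have d5 : 5 ∣ Nat.card G := (show 5 ∣ n by omega).trans dn
    have a5 := F1 p5 d5
    have := hv 5 (by norm_num)
    have b := F2 p7 p5 (by norm_num) e d5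
    have t : 24 ∣ sO G 35 := (by decide : Nat.totient 35 = 24) ▸ tot 35
    have := hv 35 (by norm_num)
    norm_num at b
    omega
  have hp : ∀ p, p.Prime → p ∣ Nat.card G → p = 2 ∨ p = 3 ∨ p = 5 := fun p hp hd => by
    by_cases e : p = 2
    · exact Or.inl e
    have a := F1 hp hd
    have t := tot (G := G) p
    rcases (hv p (lt_of_le_of_ne hp.two_le (Ne.symm e))).resolve_left (sO_prime hp hd) with b | b | b <;>
      rw [b] at a t
    · exact Or.inr (Or.inl ((Nat.prime_dvd_prime_iff_eq hp p3).1 (hp.dvd_of_dvd_pow (n := 4) a)))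
    · rcases (Nat.Prime.dvd_mul hp).1 (show p ∣ 7 * 13 from a) with c | c
      · rw [(Nat.prime_dvd_prime_iff_eq hp p7).1 c] at hd
        exact absurd hd n7
      · rw [(Nat.prime_dvd_prime_iff_eq hp (by norm_num)).1 c] at t
        exact absurd t (by decide)
    · rcases (Nat.Prime.dvd_mul hp).1 (show p ∣ 5 * 29 from a) with c | c
      · exact Or.inr (Or.inr ((Nat.prime_dvd_prime_iff_eq hp p5).1 c))
      · rw [(Nat.prime_dvd_prime_iff_eq hp (by norm_num)).1 c] at t
        exact absurd t (by decide)
  have s3 : 3 ∣ Nat.card G → sO G 3 = 80 := fun e => by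
    have a := F1 p3 e
    have := hv 3 (by norm_num)
    omega
  have s9 : sO G 9 = 0 := by
    by_contra e
    have t : 6 ∣ sO G 9 := tot 9
    have := hv 9 (by norm_num)
    have a3 := s3 ((by norm_num : 3 ∣ 9).trans (dvd_of_ne e))
    have n27 : ¬ 3 ^ (2 + 1) ∣ Nat.card G := fun e => by
      have a := Fk p3 e
      simp only [Finset.sum_range_succ, Finset.range_zero, Finset.sum_empty] at a
      norm_num at a
      have t : 18 ∣ sO G 27 := tot 27
      have := hv 27 (by norm_num)
      omega
    obtain ⟨n, c, -, b, -⟩ := cyc (k := 2) p3 n27 e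
    rw [show Nat.totient (3 ^ 2) = 6 by decide] at b
    unfold Nat.ModEq at c
    norm_num at b
    omega
  have t8 : 4 ∣ sO G 8 := tot 8
  have v4 := hv 4 (by norm_num)
  have v8 := hv 8 (by norm_num)
  have s4 : 4 ∣ Nat.card G → sO G 4 = 90 := fun e => by
    have a := Fk (k := 2) p2 e
    simp only [Finset.sum_range_succ, Finset.range_zero, Finset.sum_empty] at a
    norm_num at a
    omega
  have n16 : ¬ 2 ^ (3 + 1) ∣ Nat.card G := fun e => by
    have a := Fk p2 e
    simp only [Finset.sum_range_succ, Finset.range_zero, Finset.sum_empty] at a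
    norm_num at a
    have := s4 ((by norm_num : 4 ∣ 2 ^ (3 + 1)).trans e)
    have t : 8 ∣ sO G 16 := tot 16
    have := hv 16 (by norm_num)
    omega
  have s8 : sO G 8 = 0 := by
    by_contra e
    obtain ⟨n, c, -, b, -⟩ := cyc (k := 3) p2 n16 e
    rw [show Nat.totient (2 ^ 3) = 4 by decide] at b
    unfold Nat.ModEq at c
    norm_num at b
    omega
  have d5 : 5 ∣ Nat.card G := by
    by_contra n5
    have n243 : ¬ 3 ^ (4 + 1) ∣ Nat.card G := fun e => by
      have a := Fexp p3 e s9
      have := hv 3 (by norm_num)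
      omega
    have d : Nat.card G ∣ 648 := dvd3 (c := 0) hp n16 n243 n5
    have e : Nat.divisors 648 = {1, 2, 3, 4, 6, 8, 9, 12, 18, 24, 27, 36, 54, 72, 81, 108, 162, 216, 324, 648} := by
      decide +kernel
    have m : Nat.card G ∈ Nat.divisors 648 := Nat.mem_divisors.2 ⟨d, by norm_num⟩
    rw [e] at m
    simp only [Finset.mem_insert, Finset.mem_singleton] at m
    have hc : Nat.card G = 648 := by omega
    have c := card_eq (G := G)
    rw [hc, e] at c
    simp only [Finset.sum_insert, Finset.mem_insert, Finset.mem_singleton, Finset.sum_singleton,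
      OfNat.ofNat_eq_ofNat, Nat.reduceEqDiff, or_self, not_false_eq_true] at c
    have := z 18 9 (by norm_num) s9
    have := z 27 9 (by norm_num) s9
    have := z 36 9 (by norm_num) s9
    have := z 54 9 (by norm_num) s9
    have := z 72 9 (by norm_num) s9
    have := z 81 9 (by norm_num) s9
    have := z 108 9 (by norm_num) s9
    have := z 162 9 (by norm_num) s9
    have := z 216 9 (by norm_num) s9
    have := z 324 9 (by norm_num) s9
    have := z 648 9 (by norm_num) s9
    have := z 24 8 (by norm_num) s8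
    have := s3 (by rw [hc]; norm_num)
    have := s4 (by rw [hc]; norm_num)
    have := hv 6 (by norm_num)
    have := hv 12 (by norm_num)
    omega
  have s5 : sO G 5 = 144 := by
    have a := F1 p5 d5
    have := hv 5 (by norm_num)
    omega
  have s25 : sO G 25 = 0 := by
    by_contra e
    have t : 20 ∣ sO G 25 := (by decide : Nat.totient 25 = 20) ▸ tot 25
    have := hv 25 (by norm_num)
    have n125 : ¬ 5 ^ (2 + 1) ∣ Nat.card G := fun e => by
      have a := Fk p5 e
      simp only [Finset.sum_range_succ, Finset.range_zero, Finset.sum_empty] at a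
      norm_num at a
      have t : 100 ∣ sO G 125 := (by decide +kernel : Nat.totient 125 = 100) ▸ tot 125
      have := hv 125 (by norm_num)
      omega
    obtain ⟨n, c, -, b, -⟩ := cyc (k := 2) p5 n125 e
    rw [show Nat.totient (5 ^ 2) = 20 by decide] at b
    unfold Nat.ModEq at c
    norm_num at b
    omega
  have n25 : ¬ 5 ^ 2 ∣ Nat.card G := fun e => by
    have a := Fexp p5 e s25
    omega
  have s10 : sO G 10 = 0 := by
    by_contra e
    have a := F2 p5 p2 (by norm_num) d5 d2
    have b := le_mul (m := 2) p5 n25 (by norm_num) e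
    have := hv 10 (by norm_num)
    norm_num at a b
    omega
  have s15 : sO G 15 = 0 := by
    by_contra e
    have d3 := (by norm_num : 3 ∣ 15).trans (dvd_of_ne e)
    have a := F2 p5 p3 (by norm_num) d5 d3
    have t : 8 ∣ sO G 15 := tot 15
    have := hv 15 (by norm_num)
    have := s3 d3
    norm_num at a
    omega
  have d := div5 hp d5 n25 s10 s15
  rw [s5] at d
  have hc : Nat.card G = 360 := by
    obtain ⟨c, hc⟩ := d
    have : c ≤ 2 := by nlinarith
    interval_cases c
    · omega
    · exact absurd (show 2 ^ (3 + 1) ∣ Nat.card G by omega) n16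
    · omega
  have a3 := s3 (by rw [hc]; norm_num)
  obtain ⟨x, hx⟩ := sO_ne_zero.1 (sO_prime p5 d5)
  haveI : Nontrivial G := Finite.one_lt_card_iff_nontrivial.1 (by omega)
  haveI : IsSimpleGroup G := ⟨fun N hN => by
    have i := N.card_mul_index
    rw [hc] at i
    by_cases e5 : 5 ∣ Nat.card N
    · right
      have i5 : ¬ 5 ∣ N.index := fun e => n25 (by rw [← N.card_mul_index]; exact Nat.mul_dvd_mul e5 e)
      have a := sum_le N {1, 5} (by
        simp only [Finset.mem_insert, Finset.mem_singleton, forall_eq_or_imp, forall_eq]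
        exact ⟨Nat.coprime_one_left _, (Nat.Prime.coprime_iff_not_dvd p5).2 i5⟩)
      rw [Finset.sum_pair (by decide)] at a
      have l : N.index ≤ 2 := by nlinarith
      rw [← index_eq_one]
      by_contra e
      have i2 : N.index = 2 := by have := N.index_ne_zero_of_finite; omega
      have a := sum_le N {1, 3, 5} (by rw [i2]; decide)
      rw [Finset.sum_insert (by decide), Finset.sum_pair (by decide)] at a
      rw [i2] at i
      omega
    · left
      have dN : Nat.card N ∣ 72 := by
        have : Nat.card N ∣ 5 * 72 := Dvd.intro _ i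
        exact (Nat.Coprime.dvd_mul_left ((Nat.Prime.coprime_iff_not_dvd p5).2 e5).symm).1 this
      have n9 : ¬ 9 ∣ Nat.card N := fun e => by
        have i3 : ¬ 3 ∣ N.index := fun e' => by
          have : 9 * 3 ∣ 360 := i ▸ Nat.mul_dvd_mul e e'
          omega
        have a := sum_le N {3} (by
          simp only [Finset.mem_singleton, forall_eq]
          exact (Nat.Prime.coprime_iff_not_dvd p3).2 i3)
        rw [Finset.sum_singleton] at a
        have := Nat.le_of_dvd (by norm_num) dN
        omega
      have b : ∀ m, m ≠ 1 → m ∣ 72 → 5 ∣ sO N m := fun m m1 hm => by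
        refine norm_dvd N p5 hx (Nat.Coprime.coprime_dvd_right hm (by norm_num)) ?_
        obtain ⟨q, hq, hd⟩ := Nat.exists_prime_and_dvd m1
        rcases (Nat.Prime.dvd_mul hq).1 (show q ∣ 2 ^ 3 * 3 ^ 2 from hd.trans hm) with c | c
        · rw [(Nat.prime_dvd_prime_iff_eq hq p2).1 (hq.dvd_of_dvd_pow c)] at hd
          exact z _ 10 (Nat.mul_dvd_mul_left 5 hd) s10
        · rw [(Nat.prime_dvd_prime_iff_eq hq p3).1 (hq.dvd_of_dvd_pow c)] at hd
          exact z _ 15 (Nat.mul_dvd_mul_left 5 hd) s15
      have c := card_eq (G := N)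
      rw [← Finset.add_sum_erase _ _ (Nat.one_mem_divisors.2 Nat.card_pos.ne'), sO_one] at c
      have c5 : 5 ∣ ∑ d ∈ (Nat.card N).divisors.erase 1, sO N d := Finset.dvd_sum fun d hd =>
        b d (Finset.ne_of_mem_erase hd) ((Nat.dvd_of_mem_divisors (Finset.mem_of_mem_erase hd)).trans dN)
      rw [← card_eq_one]
      have m : Nat.card N ∈ Nat.divisors 72 := Nat.mem_divisors.2 ⟨dN, by norm_num⟩
      rw [show Nat.divisors 72 = {1, 2, 3, 4, 6, 8, 9, 12, 18, 24, 36, 72} by decide] at m
      simp only [Finset.mem_insert, Finset.mem_singleton] at m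
      by_contra e
      have e6 : Nat.card N = 6 := by omega
      have a := sum_le_top (G := N) {3}
      rw [Finset.sum_singleton] at a
      have := sO_prime (G := N) p3 (by rw [e6]; norm_num)
      have := b 3 (by norm_num) (by norm_num)
      have := two_dvd (G := N) (m := 3) (by norm_num)
      omega⟩
  exact Cfsg.Agent.S0497.result hc

end CfsgH5.Nse
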