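import Cfsg.Agent.H5.El19

set_option autoImplicit false

/-! Counting classes of elements of prime order in central quotients. -/

namespace CfsgH5.Pc

open Subgroup

variable {G : Type*} [Group G]

theorem conj_mul (c : center G) {x y : G} (h : IsConj x y) : IsConj (c.1 * x) (c.1 * y) := by
  obtain ⟨g, rfl⟩ := isConj_iff.1 h
  exact isConj_iff.2 ⟨g, by rw [← mul_assoc g, mem_center_iff.1 c.2 g]; group⟩

theorem cpow (c : center G) (x : G) (r : ℕ) : (c.1 * x) ^ r = c.1 ^ r * x ^ r :=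
  Commute.mul_pow (mem_center_iff.1 c.2 x).symm r

theorem pow_eq_of_conj {x y : G} {r : ℕ} (h : IsConj x y) (hx : x ^ r ∈ center G) : y ^ r = x ^ r := by
  obtain ⟨g, rfl⟩ := isConj_iff.1 h
  rw [conj_pow, mem_center_iff.1 hx g, mul_inv_cancel_right]

/-- Multiplication of a class by a central element. -/
def sm (c : center G) : ConjClasses G → ConjClasses G := Quotient.map (fun x => c.1 * x) fun _ _ h => conj_mul c h

theorem sm_mk (c : center G) (x : G) : sm c (ConjClasses.mk x) = ConjClasses.mk (c.1 * x) := rfl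

variable (G) in
/-- Classes with central `r`-th power. -/
abbrev Om (r : ℕ) : Type _ := {C : ConjClasses G // ∃ x, ConjClasses.mk x = C ∧ x ^ r ∈ center G}

instance (r : ℕ) : MulAction (center G) (Om G r) where
  smul c C := ⟨sm c C.1, by
    obtain ⟨x, h, k⟩ := C.2
    exact ⟨c.1 * x, by rw [← h, sm_mk], by rw [cpow]; exact mul_mem (pow_mem c.2 _) k⟩⟩
  one_smul C := Subtype.ext (by
    obtain ⟨C, x, rfl, -⟩ := C
    exact congrArg ConjClasses.mk (one_mul x))
  mul_smul a b C := Subtype.ext (by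
    obtain ⟨C, x, rfl, -⟩ := C
    exact congrArg ConjClasses.mk (mul_assoc a.1 b.1 x))

theorem smul_val {r : ℕ} (c : center G) (C : Om G r) : (c • C).1 = sm c C.1 := rfl

theorem conj_quot {x y : G} : IsConj (x : G ⧸ center G) y ↔ ∃ c : center G, IsConj (c.1 * x) y := by
  constructor
  · intro h
    obtain ⟨g, hg⟩ := isConj_iff.1 h
    obtain ⟨g, rfl⟩ := QuotientGroup.mk_surjective g
    have : (g * x * g⁻¹)⁻¹ * y ∈ center G := QuotientGroup.eq.1 hg
    refine ⟨⟨_, this⟩, isConj_iff.2 ⟨g, ?_⟩⟩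
    have k := mem_center_iff.1 this
    rw [← mul_assoc, k g, mul_assoc _ g, mul_assoc _ (g * x), ← k]; group
  · rintro ⟨c, h⟩
    have := (QuotientGroup.mk' (center G)).map_isConj h
    rwa [map_mul, QuotientGroup.mk'_apply, (QuotientGroup.eq_one_iff _).2 c.2, one_mul] at this

theorem card_orb (r : ℕ) : Nat.card (MulAction.orbitRel.Quotient (center G) (Om G r)) =
    Nat.card {C : ConjClasses (G ⧸ center G) // ∃ g, ConjClasses.mk g = C ∧ g ^ r = 1} := by
  let φ : Om G r → {C : ConjClasses (G ⧸ center G) // ∃ g, ConjClasses.mk g = C ∧ g ^ r = 1} := fun C =>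
    ⟨ConjClasses.map (QuotientGroup.mk' _) C.1, by
      obtain ⟨x, h, k⟩ := C.2
      exact ⟨x, by rw [← h]; rfl, (QuotientGroup.eq_one_iff _).2 k⟩⟩
  have hφ : Function.Surjective φ := by
    rintro ⟨_, g, rfl, h⟩
    obtain ⟨x, rfl⟩ := QuotientGroup.mk_surjective g
    exact ⟨⟨_, x, rfl, (QuotientGroup.eq_one_iff _).1 h⟩, rfl⟩
  rw [← Nat.card_congr (Setoid.quotientKerEquivOfSurjective φ hφ)]
  refine Nat.card_congr (Quotient.congrRight ?_)
  rintro ⟨_, x, rfl, hx⟩ ⟨_, y, rfl, hy⟩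
  rw [MulAction.orbitRel_apply, Setoid.ker_def, Subtype.ext_iff]
  refine Iff.trans ?_ (eq_comm.trans (ConjClasses.mk_eq_mk_iff_isConj.trans conj_quot)).symm
  exact exists_congr fun c => Subtype.ext_iff.trans ConjClasses.mk_eq_mk_iff_isConj

/-- Classes with given `r`-th power fixed by `c`. -/
noncomputable def NN (r : ℕ) (c z : center G) : ℕ :=
  Nat.card {C : ConjClasses G // ∃ x, ConjClasses.mk x = C ∧ x ^ r = z ∧ IsConj (c.1 * x) x}

theorem card_fix [Fintype (center G)] [Finite G] (r : ℕ) (c : center G) :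
    Nat.card (MulAction.fixedBy (Om G r) c) = ∑ z, NN r c z := by
  unfold NN
  rw [← Nat.card_sigma]
  refine (Nat.card_congr (Equiv.ofBijective (fun C => ⟨⟨C.2.1, by
    obtain ⟨x, h, k, -⟩ := C.2.2
    exact ⟨x, h, k ▸ C.1.2⟩⟩, by
    obtain ⟨z, _, x, rfl, k, l⟩ := C
    exact Subtype.ext (ConjClasses.mk_eq_mk_iff_isConj.2 l)⟩) ⟨?_, ?_⟩)).symm
  · rintro ⟨z, _, x, rfl, k, l⟩ ⟨z', _, y, rfl, k', l'⟩ h
    have h1 : ConjClasses.mk x = ConjClasses.mk y := congrArg (fun C => C.1.1) h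
    obtain rfl : z = z' := Subtype.ext (by
      rw [← k, ← k', pow_eq_of_conj (ConjClasses.mk_eq_mk_iff_isConj.1 h1) (k ▸ z.2)])
    congr 1
    exact Subtype.ext h1
  · rintro ⟨⟨_, x, rfl, k⟩, l⟩
    exact ⟨⟨⟨_, k⟩, _, x, rfl, rfl, ConjClasses.mk_eq_mk_iff_isConj.1 (congrArg Subtype.val l)⟩, rfl⟩

theorem NN_le [Finite G] (r : ℕ) (c z d : center G) : NN r c z ≤ NN r c (d ^ r * z) := by
  refine Nat.card_le_card_of_injective (fun C => ⟨sm d C.1, ?_⟩) ?_
  · obtain ⟨_, x, rfl, k, l⟩ := C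
    refine ⟨d.1 * x, rfl, by rw [cpow, k]; rfl, ?_⟩
    rw [← mul_assoc, mem_center_iff.1 d.2 c, mul_assoc]
    exact conj_mul d l
  · rintro ⟨_, x, rfl, hx⟩ ⟨_, y, rfl, hy⟩ h
    have := conj_mul d⁻¹ (ConjClasses.mk_eq_mk_iff_isConj.1 (congrArg Subtype.val h))
    exact Subtype.ext (ConjClasses.mk_eq_mk_iff_isConj.2 (by simpa using this))

theorem NN_pow [Finite G] (r : ℕ) (c d : center G) : NN r c (d ^ r) = NN r c 1 :=
  le_antisymm (by simpa using NN_le r c (d ^ r) d⁻¹) (by simpa using NN_le r c 1 d)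

theorem NN_zero {r : ℕ} {c : center G} (h : c ^ r ≠ 1) (z : center G) : NN r c z = 0 := by
  refine Nat.card_eq_zero.2 (Or.inl ⟨?_⟩)
  rintro ⟨_, x, rfl, k, l⟩
  have := pow_eq_of_conj l.symm (k ▸ z.2)
  rw [cpow, mul_eq_right] at this
  exact h (Subtype.ext this)

open scoped IsMulCommutative in
theorem burn [Finite G] [IsCyclic (center G)] {r M δ : ℕ} (hr : r.Prime) (hd : r ∣ Nat.card (center G))
    (H1 : NN r (1 : center G) 1 = M) (H2 : ∀ c : center G, c ≠ 1 → c ^ r = 1 → NN r c 1 = δ)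
    (H3 : ∀ c z : center G, c ^ r = 1 → (∀ d, d ^ r ≠ z) → NN r c z = δ) :
    r * Nat.card {C : ConjClasses (G ⧸ center G) // ∃ g, ConjClasses.mk g = C ∧ g ^ r = 1} + δ =
      M + r * r * δ := by
  classical
  have := Fintype.ofFinite (center G)
  have := fun c : center G => Fintype.ofFinite (MulAction.fixedBy (Om G r) c)
  have := Fintype.ofFinite (MulAction.orbitRel.Quotient (center G) (Om G r))
  have B := MulAction.sum_card_fixedBy_eq_card_orbits_mul_card_group (center G) (Om G r)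
  simp only [← Nat.card_eq_fintype_card, card_fix, card_orb] at B
  have k1 : (Finset.univ.filter fun c : center G => c ^ r = 1).card = r := by
    have := IsCyclic.card_powMonoidHom_ker (center G) r
    rw [Nat.gcd_eq_right hd, Nat.card_eq_fintype_card, Fintype.card_subtype] at this
    simpa using this
  obtain ⟨k, hk⟩ := hd
  have k2 : (Finset.univ.filter fun z : center G => ∃ d, d ^ r = z).card = k := by
    have := IsCyclic.card_powMonoidHom_range (center G) r
    rw [hk, Nat.gcd_mul_right_left, Nat.mul_div_cancel_left _ hr.pos, Nat.card_eq_fintype_card,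
      Fintype.card_subtype] at this
    simpa using this
  obtain ⟨s, rfl⟩ : ∃ s, r = s + 1 := ⟨r - 1, by have := hr.pos; omega⟩
  have k3 : ∀ z : center G, ∑ c, NN (s + 1) c z =
      if ∃ d, d ^ (s + 1) = z then M + s * δ else (s + 1) * δ := fun z => by
    rw [← Finset.sum_filter_add_sum_filter_not _ fun c => c ^ (s + 1) = 1,
      Finset.sum_eq_zero fun c hc => NN_zero (Finset.mem_filter.1 hc).2 z, add_zero]
    split_ifs with h
    · obtain ⟨d, rfl⟩ := h
      rw [← Finset.add_sum_erase _ _ (a := 1) (by simp), NN_pow, H1, Finset.sum_congr rfl fun c hc =>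
        (NN_pow _ c d).trans (H2 c (Finset.ne_of_mem_erase hc) (by simpa using Finset.mem_of_mem_erase hc)),
        Finset.sum_const, Finset.card_erase_of_mem (by simp), k1]
      rfl
    · rw [Finset.sum_congr rfl fun c hc => H3 c z (by simpa using hc) (by simpa using h), Finset.sum_const, k1]
      rfl
  rw [Finset.sum_comm, Finset.sum_congr rfl fun z _ => k3 z, Finset.sum_ite, Finset.sum_const, Finset.sum_const,
    k2, hk] at B
  have k4 := Finset.card_filter_add_card_filter_not (s := Finset.univ) fun z : center G => ∃ d, d ^ (s + 1) = z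
  rw [k2, Finset.card_univ, ← Nat.card_eq_fintype_card, hk] at k4
  have k0 : 0 < k := Nat.pos_of_mul_pos_left (hk ▸ Nat.card_pos)
  rw [show (Finset.univ.filter fun z : center G => ¬ ∃ d, d ^ (s + 1) = z).card = s * k by
    rw [add_mul] at k4; omega] at B
  refine Nat.eq_of_mul_eq_mul_left k0 ?_
  simp only [smul_eq_mul] at B
  linear_combination -B

open Module Polynomial Matrix CfsgH5.Gl CfsgH5.El

variable {K : Type*} [Field K] {n : ℕ}

theorem HT_diag (d : Fin n → K) :
    HT (toLin' (diagonal d)) ((Finset.univ.val.map d).map fun a => X - C a) := by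
  rw [Multiset.map_map]
  refine HT.of_fintype _ (LinearEquiv.ofAEval _ (LinearEquiv.piCongrRight fun i =>
    (quotientSpanXSubCAlgEquiv (d i)).symm.toLinearEquiv) fun v => funext fun i => ?_)
  apply (quotientSpanXSubCAlgEquiv (d i)).injective
  have : ∀ y : K[X] ⧸ Ideal.span {X - C (d i)}, quotientSpanXSubCAlgEquiv (d i) ((X : K[X]) • y) =
      d i * quotientSpanXSubCAlgEquiv (d i) y := fun y => by
    obtain ⟨y, rfl⟩ := Ideal.Quotient.mk_surjective y
    change quotientSpanXSubCAlgEquiv (d i) (Ideal.Quotient.mk _ (X * y)) = _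
    simp
  erw [Pi.smul_apply, this]
  simp [mulVec_diagonal]

theorem pp_lin (D : Multiset K) : ∀ a ∈ D.map fun a => (X - C a : K[X]), PP a := fun a ha => by
  obtain ⟨b, -, rfl⟩ := Multiset.mem_map.1 ha
  exact ⟨_, monic_X_sub_C b, irreducible_X_sub_C b, 1, le_rfl, (pow_one _).symm⟩

theorem lin_inj : Function.Injective fun D : Multiset K => D.map fun a => (X - C a : K[X]) :=
  Multiset.map_injective fun a b h => by simpa using h

theorem exists_fun {D : Multiset K} (h : D.card = n) : ∃ d : Fin n → K, Finset.univ.val.map d = D := by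
  subst h
  induction D using Quotient.inductionOn with
  | _ l => exact ⟨l.get, (Fin.univ_val_map _).trans (by simp)⟩

theorem lin_type {r : ℕ} {ζ : K} (hζ : IsPrimitiveRoot ζ r) (hr : 0 < r) {s : Multiset K[X]}
    (hs : ∀ a ∈ s, PP a) (h : ∀ a ∈ s, a ∣ X ^ r - 1) :
    ∃ D : Multiset K, (∀ b ∈ D, b ^ r = 1) ∧ D.map (fun a => X - C a) = s := by
  have key : ∀ a ∈ s, ∃ b, b ^ r = 1 ∧ X - C b = a := fun a ha => by
    have : NeZero r := ⟨hr.ne'⟩
    have sq : Squarefree (X ^ r - 1 : K[X]) :=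
      (X_pow_sub_one_separable_iff.2 (hζ.neZero'.1)).squarefree
    have ir := (hs a ha).irr_of_sqf sq (h a ha)
    have k := h a ha
    rw [X_pow_sub_one_eq_prod hr hζ] at k
    obtain ⟨b, hb, k⟩ := (ir.prime.dvd_finset_prod_iff _).1 k
    exact ⟨b, (mem_nthRootsFinset hr 1).1 hb, eq_of_monic_of_associated (monic_X_sub_C b) (hs a ha).monic
      (ir.associated_of_dvd (irreducible_X_sub_C b) k).symm⟩
  clear hs h
  induction s using Multiset.induction_on with
  | empty => exact ⟨0, by simp, rfl⟩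
  | cons a s ih =>
    obtain ⟨D, h1, rfl⟩ := ih fun b hb => key b (Multiset.mem_cons_of_mem hb)
    obtain ⟨b, h2, rfl⟩ := key a (Multiset.mem_cons_self _ _)
    exact ⟨b ::ₘ D, by simpa [h2] using h1, by simp⟩

theorem smul_diag (a : K) (d : Fin n → K) : a • (1 : Matrix (Fin n) (Fin n) K) * diagonal d =
    diagonal fun i => a * d i := by
  rw [smul_mul_assoc, one_mul, ← diagonal_smul]; rfl

theorem diag_conj {d e : Fin n → K} :
    IsConj (diagonal d) (diagonal e) ↔ Finset.univ.val.map d = Finset.univ.val.map e := by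
  rw [isConj_iff_sim]
  exact ⟨fun h => lin_inj (((HT_diag d).of_sim h).unique (HT_diag e) (pp_lin _) (pp_lin _)),
    fun h => (HT_diag d).sim (h ▸ HT_diag e)⟩

theorem conj_smul (a : K) {A B : Matrix (Fin n) (Fin n) K} (h : IsConj A B) :
    IsConj (a • 1 * A) (a • 1 * B) := by
  obtain ⟨c, hc⟩ := h
  exact ⟨c, by simp only [SemiconjBy, smul_mul_assoc, one_mul, mul_smul_comm] at hc ⊢; rw [hc]⟩

theorem NN_lin {ρ : G →* Matrix (Fin n) (Fin n) K} (hρ : Function.Injective ρ)
    (hc : ∀ a b, IsConj a b ↔ IsConj (ρ a) (ρ b)) {r : ℕ} {ζ : K} (hζ : IsPrimitiveRoot ζ r) (hr : 0 < r)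
    (hd : ∀ d : Fin n → K, (∀ i, d i ^ r = 1) → ∃ x, ρ x = diagonal d) {c : center G} {a : K}
    (ha : ρ c = a • 1) : NN r c 1 = Nat.card {D : Multiset K //
      ((∀ b ∈ D, b ∈ nthRootsFinset r (1 : K)) ∧ D.card = n) ∧ D.map (a * ·) = D} := by
  unfold NN
  rw [card_classes (fun g => toLin' (ρ g)) _ fun a b _ _ => (hc a b).trans isConj_iff_sim]
  refine (Nat.card_eq_of_bijective (fun D => ⟨D.1.map fun a => X - C a, pp_lin _, by
    obtain ⟨D, ⟨h1, h2⟩, h3⟩ := D
    obtain ⟨d, rfl⟩ := exists_fun h2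
    have h4 : ∀ i, d i ^ r = 1 := fun i => (mem_nthRootsFinset hr 1).1 (h1 _ (by simp))
    obtain ⟨x, hx⟩ := hd d h4
    refine ⟨x, ⟨hρ ?_, ?_⟩, hx ▸ HT_diag d⟩
    · rw [map_pow, hx, diagonal_pow]; simp [funext_iff, h4, ← diagonal_one]
    · rw [hc, map_mul, ha, hx, smul_diag, diag_conj]; rw [Multiset.map_map] at h3; exact h3⟩)
    ⟨fun D E h => Subtype.ext (lin_inj (congrArg Subtype.val h)), ?_⟩).symm
  rintro ⟨s, hs, x, ⟨h1, h2⟩, h3⟩
  obtain ⟨D, k1, rfl⟩ := lin_type hζ hr hs ((h3.aeval_eq_zero _).1 (by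
    rw [aeval_toLin', map_sub, map_pow, aeval_X, ← map_pow, h1]; simp))
  have k2 : D.card = n := by
    simpa using (h3.dim fun a ha => (hs a ha).monic.ne_zero).symm
  obtain ⟨d, rfl⟩ := exists_fun k2
  have k3 : IsConj (ρ x) (diagonal d) := isConj_iff_sim.2 (h3.sim (HT_diag d))
  refine ⟨⟨_, ⟨fun b hb => (mem_nthRootsFinset hr 1).2 (k1 b hb), k2⟩, ?_⟩, rfl⟩
  rw [hc, map_mul, ha] at h2
  have := ((conj_smul a k3).symm.trans h2).trans k3
  rw [smul_diag, diag_conj] at this
  rw [Multiset.map_map]; exact this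

theorem card_fixed {r : ℕ} (hr : r.Prime) {a : K} (ha : IsPrimitiveRoot a r) :
    Nat.card {D : Multiset K // ((∀ b ∈ D, b ∈ nthRootsFinset r (1 : K)) ∧ D.card = n) ∧ D.map (a * ·) = D} =
      if r ∣ n then 1 else 0 := by
  classical
  have : NeZero r := ⟨hr.ne_zero⟩
  have a0 := ha.ne_zero hr.ne_zero
  have key : ∀ D : Multiset K, (∀ b ∈ D, b ∈ nthRootsFinset r (1 : K)) → D.map (a * ·) = D →
      D = D.count 1 • (nthRootsFinset r (1 : K)).val := fun D h1 h2 => by
    have k : ∀ i, D.count (a ^ i) = D.count 1 := fun i => by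
      induction i with
      | zero => simp
      | succ i ih => rw [← ih, pow_succ']; conv_lhs => rw [← h2]
                     exact Multiset.count_map_eq_count' _ _ (mul_right_injective₀ a0) _
    ext b
    rw [Multiset.count_nsmul]
    by_cases hb : b ∈ nthRootsFinset r (1 : K)
    · obtain ⟨i, -, rfl⟩ := ha.eq_pow_of_pow_eq_one ((mem_nthRootsFinset hr.pos 1).1 hb)
      rw [k, Multiset.count_eq_one_of_mem (Finset.nodup _) hb, mul_one]
    · rw [Multiset.count_eq_zero.2 fun h => hb (h1 b h), Multiset.count_eq_zero.2 hb, mul_zero]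
  have key' : ∀ D : Multiset K, (∀ b ∈ D, b ∈ nthRootsFinset r (1 : K)) → D.map (a * ·) = D →
      D.card = r * D.count 1 := fun D h1 h2 => by
    conv_lhs => rw [key D h1 h2, Multiset.card_nsmul, ← Finset.card_def, ha.card_nthRootsFinset, mul_comm]
  split_ifs with h
  · obtain ⟨m, rfl⟩ := h
    refine Nat.card_eq_one_iff_unique.2 ⟨⟨fun D E => Subtype.ext ?_⟩, ⟨m • (nthRootsFinset r (1 : K)).val,
      ⟨fun b hb => Multiset.mem_of_mem_nsmul hb, ?_⟩, ?_⟩⟩
    · rw [key _ D.2.1.1 D.2.2, key _ E.2.1.1 E.2.2, Nat.eq_of_mul_eq_mul_left hr.pos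
        ((key' _ D.2.1.1 D.2.2).symm.trans ((D.2.1.2.trans E.2.1.2.symm).trans (key' _ E.2.1.1 E.2.2)))]
    · rw [Multiset.card_nsmul, ← Finset.card_def, ha.card_nthRootsFinset, mul_comm]
    · rw [Multiset.map_nsmul]
      congr 1
      refine Multiset.eq_of_le_of_card_le ((Multiset.le_iff_subset
        ((Finset.nodup _).map (mul_right_injective₀ a0))).2 fun b hb => ?_) (by simp)
      obtain ⟨c, hc, rfl⟩ := Multiset.mem_map.1 hb
      exact (mem_nthRootsFinset hr.pos 1).2 (by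
        rw [mul_pow, ha.pow_eq_one, (mem_nthRootsFinset hr.pos 1).1 hc, mul_one])
  · exact Nat.card_eq_zero.2 (Or.inl ⟨fun D => h ⟨_, D.2.1.2 ▸ key' _ D.2.1.1 D.2.2⟩⟩)

theorem count [Finite G] [IsCyclic (center G)] {ρ : G →* Matrix (Fin n) (Fin n) K} (hρ : Function.Injective ρ)
    (hc : ∀ a b, IsConj a b ↔ IsConj (ρ a) (ρ b)) {r : ℕ} (hr : r.Prime) (hrd : r ∣ Nat.card (center G))
    {ζ : K} (hζ : IsPrimitiveRoot ζ r) (hz : ∀ c : center G, ∃ a : K, ρ c = a • 1)
    (hd : ∀ d : Fin n → K, (∀ i, d i ^ r = 1) → ∃ x, ρ x = diagonal d) (hn : 0 < n)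
    (hk : ∀ (z : center G) (a : K), (∀ d, d ^ r ≠ z) → ρ z = a • 1 → (∀ b, b ^ r ≠ a) ∧ (r ∣ n → ∃ x, x ^ r = z.1)) :
    Nat.card {C : ConjClasses (G ⧸ center G) // ∃ g, ConjClasses.mk g = C ∧ orderOf g = r} =
      ((n + r - 1).choose (r - 1) - r - (if r ∣ n then 1 else 0)) / r + r * (if r ∣ n then 1 else 0) := by
  have : Nonempty (Fin n) := ⟨⟨0, hn⟩⟩
  have B := burn (G := G) (M := (n + r - 1).choose (r - 1)) (δ := if r ∣ n then 1 else 0) hr hrd (by
    rw [NN_lin hρ hc hζ hr.pos hd (a := 1) (by simp)]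
    have := card_ms_eq (nthRootsFinset r (1 : K)) n
    rw [hζ.card_nthRootsFinset, ← Nat.choose_symm (by have := hr.pos; omega)] at this
    simp only [one_mul, Multiset.map_id', and_true, this]
    congr 1 <;> have := hr.pos <;> omega) (fun c h1 h2 => by
    obtain ⟨a, ha⟩ := hz c
    have k : a ^ r = 1 := smul_left_injective K (one_ne_zero (α := Matrix (Fin n) (Fin n) K)) (by
      simp only; rw [← one_pow r, ← _root_.smul_pow, ← ha, ← map_pow, ← Subgroup.coe_pow, h2]; simp)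
    have := Fact.mk hr
    rw [NN_lin hρ hc hζ hr.pos hd ha, card_fixed hr (orderOf_eq_prime k (by
      rintro rfl; exact h1 (Subtype.ext (hρ (by simpa using ha)))) ▸ IsPrimitiveRoot.orderOf a)])
    fun c z h1 h2 => by
      obtain ⟨a, ha⟩ := hz z
      obtain ⟨k1, k2⟩ := hk z a h2 ha
      have k3 : ∀ x, x ^ r = z.1 → (toLin' (ρ x) : End K _) ^ r = a • 1 := fun x hx => by
        rw [← pow_iff, ← map_pow, hx, ha]
      have k4 : ∀ x y, x ^ r = z.1 → y ^ r = z.1 → IsConj x y := fun x y hx hy =>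
        (hc x y).2 (isConj_iff_sim.2 (kum_sim hr k1 (k3 x hx) (k3 y hy) rfl))
      unfold NN
      split_ifs with h
      · obtain ⟨x, hx⟩ := k2 h
        refine Nat.card_eq_one_iff_unique.2 ⟨⟨?_⟩, ⟨_, x, rfl, hx, k4 _ _ ?_ hx⟩⟩
        · rintro ⟨_, u, rfl, hu, -⟩ ⟨_, v, rfl, hv, -⟩
          exact Subtype.ext (ConjClasses.mk_eq_mk_iff_isConj.2 (k4 u v hu hv))
        · rw [cpow, hx, ← Subgroup.coe_pow, h1]; simp
      · refine Nat.card_eq_zero.2 (Or.inl ⟨?_⟩)
        rintro ⟨_, x, rfl, hx, -⟩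
        exact h (by simpa using kum_dvd hr k1 (k3 x hx) (W := ⊤) fun _ _ => trivial)
  rw [card_order_prime hr]
  generalize Nat.card {C : ConjClasses (G ⧸ center G) // ∃ g, ConjClasses.mk g = C ∧ g ^ r = 1} = O at B
  have l : (if r ∣ n then 1 else 0) + r ≤ (n + r - 1).choose (r - 1) := by
    obtain ⟨s, rfl⟩ : ∃ s, r = s + 1 := ⟨r - 1, by have := hr.pos; omega⟩
    have := hr.two_le
    rw [show n + (s + 1) - 1 = n + s by omega, Nat.add_sub_cancel]
    split_ifs with h
    · have := Nat.le_of_dvd hn h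
      refine le_trans ?_ (Nat.choose_le_choose s (show s + 2 ≤ n + s by omega))
      obtain ⟨t, rfl⟩ : ∃ t, s = t + 1 := ⟨s - 1, by omega⟩
      have := Nat.choose_pos (show t ≤ t + 2 by omega)
      rw [show t + 1 + 2 = t + 2 + 1 by omega, Nat.choose_succ_succ', Nat.choose_succ_self_right]
      omega
    · refine le_trans ?_ (Nat.choose_le_choose s (show s + 1 ≤ n + s by omega))
      simp
  generalize (n + r - 1).choose (r - 1) = M at B l
  generalize (if r ∣ n then 1 else 0) = δ at B l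
  obtain ⟨t, rfl⟩ := Nat.exists_eq_add_of_le l
  have e : t = r * (O - 1 - r * δ) := by
    have : r * (1 + r * δ) ≤ r * O := by nlinarith
    obtain ⟨u, rfl⟩ := Nat.exists_eq_add_of_le (Nat.le_of_mul_le_mul_left this hr.pos)
    rw [show 1 + r * δ + u - 1 - r * δ = u by omega]
    nlinarith
  have : r * (1 + r * δ) ≤ r * O := by nlinarith
  have := Nat.le_of_mul_le_mul_left this hr.pos
  rw [show δ + r + t - r - δ = t by omega, e, Nat.mul_div_cancel_left _ hr.pos]
  omega

theorem central_of {ρ : G →* Matrix (Fin n) (Fin n) K} (hρ : Function.Injective ρ) {x : G} {a : K}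
    (h : ρ x = a • 1) : x ∈ center G := mem_center_iff.2 fun g => hρ (by simp [h])

theorem count' [Finite G] {ρ : G →* Matrix (Fin n) (Fin n) K} (hρ : Function.Injective ρ)
    (hc : ∀ a b, IsConj a b ↔ IsConj (ρ a) (ρ b)) {r : ℕ} (hr : r.Prime)
    {ζ : K} (hζ : IsPrimitiveRoot ζ r) (hz : ∀ c : center G, ∃ a : K, ρ c = a • 1)
    (hd : ∀ d : Fin n → K, (∀ i, d i ^ r = 1) → ∃ x, ρ x = diagonal d) (hn : 0 < n)
    (hk : ∀ (z : center G) (a : K), (∀ d, d ^ r ≠ z) → ρ z = a • 1 → (∀ b, b ^ r ≠ a) ∧ (r ∣ n → ∃ x, x ^ r = z.1)) :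
    Nat.card {C : ConjClasses (G ⧸ center G) // ∃ g, ConjClasses.mk g = C ∧ orderOf g = r} =
      ((n + r - 1).choose (r - 1) - r - (if r ∣ n then 1 else 0)) / r + r * (if r ∣ n then 1 else 0) := by
  have : Nonempty (Fin n) := ⟨⟨0, hn⟩⟩
  have inj := (algebraMap K (Matrix (Fin n) (Fin n) K)).injective
  choose a ha using hz
  simp only [← Algebra.algebraMap_eq_smul_one] at ha
  let φ : center G →* K :=
    { toFun := a
      map_one' := inj (by rw [← ha]; simp)
      map_mul' := fun x y => inj (by rw [map_mul, ← ha, ← ha, ← ha]; simp) }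
  have : IsCyclic (center G) := isCyclic_of_injective_ringHom φ fun x y h =>
    Subtype.ext (hρ (by rw [ha, ha]; exact congrArg _ h))
  obtain ⟨x, hx⟩ := hd (fun _ => ζ) fun _ => hζ.pow_eq_one
  have hx' : ρ x = algebraMap K _ ζ := hx
  refine count hρ hc hr ?_ hζ (fun c => ⟨a c, by rw [ha, Algebra.algebraMap_eq_smul_one]⟩) hd hn hk
  have := orderOf_dvd_natCard (⟨x, central_of hρ (hx'.trans (Algebra.algebraMap_eq_smul_one _))⟩ : center G)
  rwa [← orderOf_injective (ρ.comp (center G).subtype) (hρ.comp Subtype.val_injective),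
    show (ρ.comp (center G).subtype) ⟨x, _⟩ = _ from hx',
    show algebraMap K (Matrix (Fin n) (Fin n) K) ζ = (algebraMap K _).toMonoidHom ζ from rfl,
    orderOf_injective _ inj, ← hζ.eq_orderOf] at this

theorem count_GL [Fintype K] {r : ℕ} (hr : r.Prime) (hq : r ∣ Fintype.card K - 1) (hn : 0 < n) :
    Nat.card {C : ConjClasses (GL (Fin n) K ⧸ center (GL (Fin n) K)) // ∃ g, ConjClasses.mk g = C ∧ orderOf g = r} =
      ((n + r - 1).choose (r - 1) - r - (if r ∣ n then 1 else 0)) / r + r * (if r ∣ n then 1 else 0) := by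
  have := Fact.mk hr
  obtain ⟨u, hu⟩ := exists_prime_orderOf_dvd_card' (G := Kˣ) r (by
    rwa [Nat.card_units, Nat.card_eq_fintype_card])
  have hζ : IsPrimitiveRoot (u : K) r := by rw [← hu, ← orderOf_units]; exact IsPrimitiveRoot.orderOf _
  have : Nonempty (Fin n) := ⟨⟨0, hn⟩⟩
  refine count' (ρ := Units.coeHom _) Units.val_injective (fun a b => isConj_GL.trans isConj_iff_sim.symm) hr hζ
    (fun c => ?_) (fun d hd => ?_) hn fun z a h1 h2 => ?_
  · obtain ⟨a, ha⟩ := GeneralLinearGroup.mem_center_iff_val_mem_range_scalar.1 c.2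
    exact ⟨a, ha.symm.trans (Algebra.algebraMap_eq_smul_one a)⟩
  · exact ⟨Units.ofPowEqOne (diagonal d) r (by rw [diagonal_pow, ← diagonal_one]; congr 1; exact funext hd)
      hr.ne_zero, rfl⟩
  · have a0 : a ≠ 0 := by rintro rfl; exact Units.ne_zero z.1 (by simpa using h2)
    have k : ∀ b, b ^ r ≠ a := fun b hb => by
      have b0 : b ≠ 0 := by rintro rfl; exact a0 (by rw [← hb, zero_pow hr.ne_zero])
      have e : (GeneralLinearGroup.scalar (Fin n) (Units.mk0 b b0)).1 = b • 1 := Algebra.algebraMap_eq_smul_one b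
      refine h1 ⟨GeneralLinearGroup.scalar (Fin n) (Units.mk0 b b0),
        central_of (ρ := Units.coeHom _) (a := b) Units.val_injective e⟩ (Subtype.ext (Units.ext ?_))
      rw [Subgroup.coe_pow, Units.val_pow_eq_pow_val, e, _root_.smul_pow, hb, one_pow]; exact h2.symm
    refine ⟨k, fun h => ?_⟩
    obtain ⟨A, hA⟩ := kum_equiv (V := Fin n → K) hr k (by simpa using h)
    refine ⟨GeneralLinearGroup.toLin.symm ((LinearMap.GeneralLinearGroup.generalLinearEquiv K _).symm A),
      Units.ext ?_⟩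
    rw [Units.val_pow_eq_pow_val, show z.1.1 = _ from h2, pow_iff, ← hA]
    congr 1
    exact toLin'_toMatrix' _

end CfsgH5.Pc
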