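import Cfsg.Agent.H5.Gc7

set_option autoImplicit false

namespace CfsgH5.Rs
open Module CForm

universe u u' v

theorem exists_ringHom (F : Type u) (K : Type u') [Field F] [Fintype F] [Field K] [Fintype K] {n : ℕ} (h : Fintype.card K = Fintype.card F ^ n) :
    Nonempty (F →+* K) := by
  obtain ⟨p, hc⟩ := CharP.exists F
  obtain ⟨a, hp, ha⟩ := FiniteField.card F p
  obtain ⟨p', hc'⟩ := CharP.exists K
  obtain ⟨b, hp', hb⟩ := FiniteField.card K p'
  obtain rfl : p' = p := (Nat.prime_dvd_prime_iff_eq hp' hp).mp (hp'.dvd_of_dvd_pow (n := a * n) (by rw [pow_mul, ← ha, ← h, hb]; exact dvd_pow_self _ b.ne_zero))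
  haveI := Fact.mk hp
  letI := ZMod.algebra F p'
  letI := ZMod.algebra K p'
  have h1 := Module.card_eq_pow_finrank (K := ZMod p') (V := F)
  have h2 := Module.card_eq_pow_finrank (K := ZMod p') (V := K)
  rw [h, h1, ← pow_mul, ZMod.card] at h2
  exact (FiniteField.nonempty_algHom_of_finrank_dvd (F := ZMod p') ⟨n, (Nat.pow_right_injective hp.two_le h2).symm⟩).map (·.toRingHom)

variable {F : Type u} {K : Type u'} [Field F] [Field K] [Algebra F K]

theorem finrank_eq [Fintype F] [Fintype K] {n : ℕ} (h : Fintype.card K = Fintype.card F ^ n) : finrank F K = n :=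
  Nat.pow_right_injective Fintype.one_lt_card ((Module.card_eq_pow_finrank (K := F) (V := K)).symm.trans h)

theorem fix_iff [Fintype F] {σ : K →+* K} (H : UF σ (Fintype.card F)) (x : K) : σ x = x ↔ x ∈ Set.range (algebraMap F K) := by
  haveI := H.fin
  have : Set.range (algebraMap F K) = {x | σ x = x} := Set.eq_of_subset_of_ncard_le
    (by rintro _ ⟨a, rfl⟩; exact (H.pow _).trans (by rw [← map_pow, FiniteField.pow_card]))
    (by rw [Set.ncard_range_of_injective (algebraMap F K).injective, Nat.card_eq_fintype_card]; exact H.card_fix.le)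
  rw [this]; rfl

variable {V : Type v} [AddCommGroup V] [Module F V] [Module K V] [IsScalarTower F K V]

theorem exists_emb {P : FP K} {P' : FP F} (f : CForm P V) (g : CForm P' V) (h : ∀ x ∈ f.Isom, x.restrictScalars F ∈ g.Isom) :
    ∃ φ : f.Isom →* g.Isom, Function.Injective φ ∧ ∀ x v, (φ x).1 v = x.1 v :=
  ⟨⟨⟨fun x => ⟨_, h x.1 x.2⟩, rfl⟩, fun _ _ => rfl⟩, fun _ _ e => Subtype.ext (LinearEquiv.ext fun v => congrArg (fun z => z.1 v) e), fun _ _ => rfl⟩

theorem nondeg_of_fun [FiniteDimensional K V] {P : FP K} {P' : FP F} {f : CForm P V} (hf : f.Nondeg) {g : CForm P' V} (ψ : K → F) (h0 : ∃ c, ψ c ≠ 0)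
    (h : ∀ u v, g.B u v = ψ (f.B u v)) : g.Nondeg := fun v hv => by
  by_contra k
  obtain ⟨c, hc⟩ := h0
  obtain ⟨y, hy⟩ := hf.exists_B_eq_one k
  exact hc (by simpa [h, f.B_smul_left, f.B_one_symm hy, mul_assoc, P.εε] using hv ((c * P.ε) • y))

theorem exists_symp_symp [FiniteDimensional K V] {f : CForm (FP.symp K) V} (hf : f.Nondeg) :
    ∃ g : CForm (FP.symp F) V, g.Nondeg ∧ ∀ x ∈ f.Isom, x.restrictScalars F ∈ g.Isom := by
  obtain ⟨ψ, hψ⟩ := Module.Projective.exists_dual_ne_zero F (one_ne_zero (α := K))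
  refine ⟨ofAlt (LinearMap.mk₂ F (fun u v => ψ (f.B u v)) (by simp [f.B_add_left])
    (fun a u v => by rw [← algebraMap_smul K a u, f.B_smul_left, ← Algebra.smul_def, map_smul]) (by simp)
    (fun a u v => by rw [← algebraMap_smul K a v, f.B_smul_right, FP.symp_σ, ← Algebra.smul_def, map_smul]))
    fun v => by simp [symp_B_self], nondeg_of_fun hf ψ ⟨1, hψ⟩ fun _ _ => rfl, fun x hx => mem_Isom_symp.mpr fun u v => ?_⟩
  exact congrArg ψ (f.Isom_B hx u v)

theorem exists_unit_symp [Fintype F] [FiniteDimensional K V] {σ : K →+* K} {h : ∀ a, σ (σ a) = a} (H : UF σ (Fintype.card F))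
    {f : CForm (FP.unit σ h) V} (hf : f.Nondeg) : ∃ g : CForm (FP.symp F) V, g.Nondeg ∧ ∀ x ∈ f.Isom, x.restrictScalars F ∈ g.Isom := by
  obtain ⟨c, hc⟩ : ∃ c, σ c ≠ c := by
    by_contra k; push Not at k; exact H.ne_id (RingHom.ext k)
  obtain ⟨ψ, h1, h2⟩ := Submodule.exists_le_ker_of_notMem (p := LinearMap.range (Algebra.linearMap F K)) (v := c) (fun k => hc ((fix_iff H c).mpr k))
  have hs : ∀ a : F, σ (algebraMap F K a) = algebraMap F K a := fun a => (fix_iff H _).mpr ⟨a, rfl⟩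
  refine ⟨ofAlt (LinearMap.mk₂ F (fun u v => ψ (f.B u v)) (by simp [f.B_add_left])
    (fun a u v => by rw [← algebraMap_smul K a u, f.B_smul_left, ← Algebra.smul_def, map_smul]) (by simp)
    (fun a u v => by rw [← algebraMap_smul K a v, f.B_smul_right, FP.unit_σ, hs, ← Algebra.smul_def, map_smul]))
    fun v => h2 ((fix_iff H _).mp (f.unit_B_symm v v).symm), nondeg_of_fun hf ψ ⟨c, h1⟩ fun _ _ => rfl, fun x hx => mem_Isom_symp.mpr fun u v => ?_⟩
  exact congrArg ψ (f.Isom_B hx u v)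

theorem exists_unit_orth [Fintype F] [FiniteDimensional K V] {σ : K →+* K} {h : ∀ a, σ (σ a) = a} (H : UF σ (Fintype.card F))
    {f : CForm (FP.unit σ h) V} (hf : f.Nondeg) : ∃ g : CForm (FP.orth F) V, g.Nondeg ∧ (∀ x ∈ f.Isom, x.restrictScalars F ∈ g.Isom) ∧
      (∀ v, algebraMap F K (g.Q v) = f.Q v) ∧ g.sgn = (-1) ^ finrank K V := by
  haveI := H.fin
  letI := Fintype.ofFinite K
  obtain ⟨ρ, hρ⟩ := (Algebra.linearMap F K).exists_leftInverse_of_injective (LinearMap.ker_eq_bot.mpr (algebraMap F K).injective)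
  have r1 : ∀ a, ρ (algebraMap F K a) = a := fun a => LinearMap.congr_fun hρ a
  have r2 : ∀ x, σ x = x → algebraMap F K (ρ x) = x := fun x hx => by obtain ⟨a, rfl⟩ := (fix_iff H x).mp hx; rw [r1]
  have hs : ∀ a : F, σ (algebraMap F K a) = algebraMap F K a := fun a => (fix_iff H _).mpr ⟨a, rfl⟩
  let β := LinearMap.mk₂ F (fun u v => ρ (f.B u v)) (by simp [f.B_add_left])
    (fun a u v => by rw [← algebraMap_smul K a u, f.B_smul_left, ← Algebra.smul_def, map_smul]) (by simp)
    (fun a u v => by rw [← algebraMap_smul K a v, f.B_smul_right, FP.unit_σ, hs, ← Algebra.smul_def, map_smul])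
  have n1 : (ofQuad (LinearMap.BilinMap.toQuadraticMap β)).Nondeg := nondeg_of_fun hf (fun x => ρ (x + σ x)) (by
      obtain ⟨a, ha⟩ := exists_trace_ne_zero H.ne_id
      exact ⟨a, fun k => ha (by rw [← r2 (a + σ a) (by simp [h, add_comm]), k, map_zero])⟩)
    fun u v => by rw [ofQuad_B, LinearMap.BilinMap.polar_toQuadraticMap, map_add, ← unit_B_symm]; rfl
  have n2 : ∀ v, algebraMap F K ((ofQuad (LinearMap.BilinMap.toQuadraticMap β)).Q v) = f.Q v := fun v => by
    rw [unit_Q]; exact r2 _ (f.unit_B_symm v v).symm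
  refine ⟨_, n1, fun x hx => mem_Isom_orth.mpr fun v => congrArg ρ (f.Isom_B hx v v), n2, ?_⟩
  generalize ofQuad (LinearMap.BilinMap.toQuadraticMap β) = g at n1 n2
  have d : finrank F K = 2 := finrank_eq (by rw [← H.card, Nat.card_eq_fintype_card])
  haveI : FiniteDimensional F K := Module.finite_of_finrank_pos (by omega)
  haveI : FiniteDimensional F V := Module.Finite.trans K V
  have a1 := (orth_nQ_even (finrank K V) n1 (by rw [← finrank_mul_finrank F K V, d])).1
  have a2 := (unit_nQ H _ hf rfl).1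
  have e : g.nQ 0 = f.nQ 0 := Nat.card_congr (Equiv.subtypeEquivRight fun v => by rw [← n2, map_eq_zero])
  rw [e, Nat.card_eq_fintype_card, a2, neg_pow, add_right_inj] at a1
  have := H.two_le
  exact (mul_right_cancel₀ (by positivity) (mul_right_cancel₀ (by omega) a1)).symm

theorem emb_of {G H A B : Type*} [Group G] [Group H] [Group A] [Group B] (e : G ≃* A) {φ : A →* B} (h : Function.Injective φ) (e' : B ≃* H) :
    ∃ ψ : G →* H, Function.Injective ψ := ⟨e'.toMonoidHom.comp (φ.comp e.toMonoidHom), e'.injective.comp (h.comp e.injective)⟩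

end CfsgH5.Rs
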