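import Cfsg.Agent.H5.Un1
import Cfsg.Agent.H5.Rk1
import Cfsg.Agent.H5.Au15

set_option autoImplicit false

/-! Regular unipotent elements of symplectic groups in odd characteristic. -/

namespace CfsgH5.Ru

open Module Polynomial CfsgH5 CfsgH5.Gl CfsgH5.Gc CfsgH5.CForm

section ring
variable {F R : Type*} [Field F] [CommRing R] [Algebra F R] {τ : R →+* R} {ev : R →ₐ[F] F}

theorem unit_of (hn : ∀ a, ev a = 0 → IsNilpotent a) {a : R} (h : ev a ≠ 0) : ∃ b, a * b = 1 := by
  have := (hn (a - algebraMap F R (ev a)) (by simp)).isUnit_add_right_of_commute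
    ((IsUnit.mk0 _ h).map (algebraMap F R)) (Commute.all _ _)
  rw [sub_add_cancel] at this
  exact this.exists_right_inv

theorem card_unitary (h2 : (2 : F) ≠ 0) (hn : ∀ a, ev a = 0 → IsNilpotent a) (hτ : ∀ a, τ (τ a) = a)
    (he : ∀ a, ev (τ a) = ev a) : Nat.card {a // τ a * a = 1} = 2 * Nat.card {s // τ s = -s} := by
  have e0 : ∀ s : {s // τ s = -s}, ev s = 0 := fun s => (mul_eq_zero.1 (show 2 * ev s = 0 by
    have := he s; rw [s.2, map_neg] at this; linear_combination -this)).resolve_left h2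
  choose i hi using fun s : {s // τ s = -s} => unit_of hn (a := 1 - s) (by simp [e0])
  obtain ⟨t, ht⟩ := unit_of hn (a := 2) (by rwa [map_ofNat])
  have ei : ∀ s, ev (i s) = 1 := fun s => by simpa [e0] using congrArg ev (hi s)
  rw [← Fintype.card_units_int, ← Nat.card_eq_fintype_card, ← Nat.card_prod]
  refine (Nat.card_eq_of_bijective (fun x => ⟨((x.1 : ℤ) : R) * ((1 + x.2) * i x.2), by
    obtain ⟨e, s⟩ := x
    have k := congrArg τ (hi s)
    have k' : ((e : ℤ) : R) * (e : ℤ) = 1 := by rw [← Int.cast_mul, Int.units_coe_mul_self, Int.cast_one]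
    simp only [map_mul, map_sub, map_add, map_one, s.2, map_intCast] at k ⊢
    linear_combination ((1 + s.1) * τ (i s) * ((1 - s.1) * i s)) * k' + ((1 - s.1) * i s) * k + hi s⟩)
    ⟨?_, ?_⟩).symm
  · rintro ⟨e, s⟩ ⟨e', s'⟩ h
    replace h := congrArg Subtype.val h
    have k := congrArg ev h
    simp only [map_mul, map_add, map_one, e0, ei, map_intCast, add_zero, mul_one] at k h
    obtain rfl : e = e' := Rk.sg_inj h2 k
    have k' : ((e : ℤ) : R) * (e : ℤ) = 1 := by rw [← Int.cast_mul, Int.units_coe_mul_self, Int.cast_one]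
    have h' : (1 + s.1) * i s = (1 + s'.1) * i s' := by
      linear_combination ((e : ℤ) : R) * h - ((1 + s.1) * i s - (1 + s'.1) * i s') * k'
    refine Prod.ext rfl (Subtype.ext ?_)
    linear_combination t * (1 - s.1) * (1 - s'.1) * h' - t * (1 + s.1) * (1 - s'.1) * hi s +
      t * (1 + s'.1) * (1 - s.1) * hi s' - (s.1 - s'.1) * ht
  · rintro ⟨a, ha⟩
    obtain ⟨e, b, rfl, hb⟩ : ∃ (e : ℤˣ) (b : R), a = ((e : ℤ) : R) * b ∧ ev b = 1 := by
      have := congrArg ev ha
      rw [map_mul, he, map_one, mul_self_eq_one_iff] at this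
      rcases this with h | h
      exacts [⟨1, a, by simp, h⟩, ⟨-1, -a, by simp, by simp [h]⟩]
    have k' : ((e : ℤ) : R) * (e : ℤ) = 1 := by rw [← Int.cast_mul, Int.units_coe_mul_self, Int.cast_one]
    rw [map_mul, map_intCast] at ha
    replace ha : τ b * b = 1 := by linear_combination ha - τ b * b * k'
    obtain ⟨j, hj⟩ := unit_of hn (a := b + 1) (by rw [map_add, hb, map_one, one_add_one_eq_two]; exact h2)
    have k := congrArg τ hj
    simp only [map_mul, map_add, map_one] at k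
    let s : {s // τ s = -s} := ⟨(b - 1) * j, by
      simp only [map_mul, map_sub, map_one]
      linear_combination (2 * j * τ j) * ha - (τ b - 1) * τ j * hj - (b - 1) * j * k⟩
    refine ⟨(e, s), Subtype.ext ?_⟩
    have := hi s
    simp only [s] at this ⊢
    linear_combination ((e : ℤ) : R) * (b * this + (b - 1) * i s * hj)

theorem exists_norm [Finite F] (h2 : (2 : F) ≠ 0) (hn : ∀ a, ev a = 0 → IsNilpotent a)
    (hc : ∀ c, τ (algebraMap F R c) = algebraMap F R c) {h : R} (hh : τ h = h) (h0 : ev h ≠ 0)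
    (hs : IsSquare (ev h)) : ∃ s, τ s * s = h := by
  obtain ⟨c, e⟩ := hs
  have c0 : c ≠ 0 := by rintro rfl; exact h0 (by simpa using e)
  obtain ⟨p, hp⟩ := CharP.exists F
  have := Fact.mk (CharP.char_is_prime F p)
  have : Nontrivial R := ev.toRingHom.domain_nontrivial
  have := charP_of_injective_algebraMap (algebraMap F R).injective p
  let u := algebraMap F R (c⁻¹ * c⁻¹) * h
  obtain ⟨k, hk⟩ := hn (u - 1) (by simp [u, e]; field_simp; simp)
  have k1 : u ^ p ^ k = 1 := by
    have := pow_eq_zero_of_le (Nat.lt_pow_self (Fact.out : p.Prime).one_lt).le hk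
    rwa [sub_pow_char_pow, one_pow, sub_eq_zero] at this
  obtain ⟨j, hj⟩ : Odd (p ^ k) := ((Fact.out : p.Prime).odd_of_ne_two (by
    rintro rfl; exact h2 (by simpa using CharP.cast_eq_zero F 2))).pow
  have k2 : τ u = u := by simp only [u, map_mul, hc, hh]
  refine ⟨algebraMap F R c * u ^ (j + 1), ?_⟩
  rw [map_mul, map_pow, hc, k2, mul_mul_mul_comm, ← pow_add, show j + 1 + (j + 1) = p ^ k + 1 by omega, pow_succ, k1,
    one_mul, ← mul_assoc, ← map_mul, ← map_mul]
  simp [show c * c * (c⁻¹ * c⁻¹) = 1 by field_simp]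

end ring

variable {F : Type*} [Field F]

variable (F) in
/-- Truncated polynomials. -/
abbrev RR (n : ℕ) := AdjoinRoot ((X : F[X]) ^ n)

/-- Evaluation at a nilpotent element. -/
noncomputable def lf {A : Type*} [Ring A] [Algebra F A] {n : ℕ} (T : A) (h : T ^ n = 0) : RR F n →ₐ[F] A :=
  Ideal.Quotient.liftₐ _ (aeval T) fun a ha => by
    obtain ⟨b, rfl⟩ := Ideal.mem_span_singleton.1 ha
    simp [h]

theorem lf_mk {A : Type*} [Ring A] [Algebra F A] {n : ℕ} (T : A) (h : T ^ n = 0) (p : F[X]) :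
    lf T h (AdjoinRoot.mk _ p) = aeval T p := rfl

theorem root_pow (n : ℕ) : AdjoinRoot.root ((X : F[X]) ^ n) ^ n = 0 := by
  rw [← AdjoinRoot.mk_X, ← map_pow, AdjoinRoot.mk_self]

/-- The involution `X ↦ -X`. -/
noncomputable def tau (n : ℕ) : RR F n →ₐ[F] RR F n :=
  lf (-AdjoinRoot.root _) (by rw [neg_pow, root_pow, mul_zero])

/-- The residue map. -/
noncomputable def res {n : ℕ} (h : n ≠ 0) : RR F n →ₐ[F] F := lf 0 (zero_pow h)

theorem alg_ext {A : Type*} [Ring A] [Algebra F A] {n : ℕ} {φ ψ : RR F n →ₐ[F] A}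
    (h : φ (AdjoinRoot.root _) = ψ (AdjoinRoot.root _)) (a : RR F n) : φ a = ψ a := by
  rw [AdjoinRoot.algHom_ext h]

theorem lf_root {A : Type*} [Ring A] [Algebra F A] {n : ℕ} (T : A) (h : T ^ n = 0) :
    lf (F := F) T h (AdjoinRoot.root _) = T := aeval_X T

theorem tau_tau (n : ℕ) (a : RR F n) : tau n (tau n a) = a :=
  alg_ext (φ := (tau n).comp (tau n)) (ψ := AlgHom.id _ _) (by simp [tau, lf_root]) a

theorem res_tau {n : ℕ} (h : n ≠ 0) (a : RR F n) : res h (tau n a) = res h a :=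
  alg_ext (φ := (res h).comp (tau n)) (by simp [tau, res, lf_root]) a

theorem res_decomp {n : ℕ} (h : n ≠ 0) (a : RR F n) :
    ∃ b, a = algebraMap F _ (res h a) + AdjoinRoot.root _ * b := by
  obtain ⟨p, rfl⟩ := AdjoinRoot.mk_surjective a
  refine ⟨AdjoinRoot.mk _ p.divX, ?_⟩
  conv_lhs => rw [← X_mul_divX_add p]
  rw [map_add, add_comm, map_mul, res, lf_mk, ← coeff_zero_eq_aeval_zero]; rfl

theorem res_nil {n : ℕ} (h : n ≠ 0) (a : RR F n) (k : res h a = 0) : IsNilpotent a := by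
  obtain ⟨b, hb⟩ := res_decomp h a
  rw [hb, k, map_zero, zero_add]
  exact ⟨n, by rw [mul_pow, root_pow, zero_mul]⟩

theorem card_skew [Finite F] (h2 : (2 : F) ≠ 0) (m : ℕ) :
    Nat.card {s : RR F (2 * m) // tau _ s = -s} = Nat.card F ^ m := by
  let b := (AdjoinRoot.powerBasis' (monic_X_pow (R := F) (2 * m))).basis.reindex (finCongr (natDegree_X_pow _))
  have hb : ∀ i, b i = AdjoinRoot.root _ ^ (i : ℕ) := fun i => by simp [b]; rfl
  have k : ∀ s i, b.equivFun (tau _ s) i = (-1) ^ (i : ℕ) * b.equivFun s i := fun s i => by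
    have : (b.coord i) ∘ₗ (tau (2 * m)).toLinearMap = (-1 : F) ^ (i : ℕ) • b.coord i := b.ext fun j => by
      have : tau _ (b j) = (-1 : F) ^ (j : ℕ) • b j := by
        rw [hb, map_pow, tau, lf_root, neg_pow, Algebra.smul_def]; simp
      by_cases h : j = i
      · subst h; simp [this]
      · simp [this, h]
    exact LinearMap.congr_fun this s
  rw [← Nat.card_fin m, ← Nat.card_fun, Nat.card_fin]
  refine Nat.card_eq_of_bijective (fun s j => b.equivFun s ⟨2 * j + 1, by omega⟩) ⟨fun s t h => ?_, fun w => ?_⟩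
  · have z : ∀ s : {s : RR F (2 * m) // tau _ s = -s}, ∀ i : Fin (2 * m), Even i.1 → b.equivFun s i = 0 :=
      fun s i hi => (mul_eq_zero.1 (show 2 * b.equivFun s i = 0 by
        have := k s i
        rw [s.2, map_neg, hi.neg_one_pow, Pi.neg_apply] at this
        linear_combination -this)).resolve_left h2
    refine Subtype.ext (b.equivFun.injective (funext fun i => ?_))
    rcases Nat.even_or_odd' i.1 with ⟨j, hj | hj⟩
    · rw [z s i ⟨j, by omega⟩, z t i ⟨j, by omega⟩]
    · have := congrFun h ⟨j, by omega⟩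
      simpa only [← hj] using this
  · refine ⟨⟨b.equivFun.symm fun i => if Even i.1 then 0 else w ⟨i / 2, by omega⟩,
      b.equivFun.injective (funext fun i => ?_)⟩, funext fun j => ?_⟩
    · rw [k, map_neg, Pi.neg_apply, LinearEquiv.apply_symm_apply]
      split_ifs with h
      · simp
      · rw [(Nat.not_even_iff_odd.1 h).neg_one_pow, neg_one_mul]
    · simp only [LinearEquiv.apply_symm_apply]
      rw [if_neg (by simp [Nat.even_add_one])]
      congr 2; omega

variable {V : Type*} [AddCommGroup V] [Module F V] [FiniteDimensional F V] {f : CForm (FP.symp F) V}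

/-- The skew element attached to an isometry. -/
def sk (x : V ≃ₗ[F] V) : End F V := x.toLinearMap - x.symm.toLinearMap

/-- Regular unipotent. -/
def RU (x : V ≃ₗ[F] V) : Prop := (x.toLinearMap - 1 : End F V) ^ finrank F V = 0 ∧
  finrank F (LinearMap.ker (x.toLinearMap - 1 : End F V)) = 1

omit [FiniteDimensional F V] in
theorem sk_comm {x : V ≃ₗ[F] V} {g : End F V} (h : g * x.toLinearMap = x.toLinearMap * g) :
    g * sk x = sk x * g := LinearMap.ext fun v => by
  have k := fun v => LinearMap.congr_fun h v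
  simp only [End.mul_apply, LinearEquiv.coe_coe] at k
  have : g (x.symm v) = x.symm (g v) := x.injective (by rw [← k]; simp)
  simp [sk, k, this]

omit [FiniteDimensional F V] in
theorem RU.pow {x : V ≃ₗ[F] V} (h : RU x) : sk x ^ finrank F V = 0 := by
  have e : sk x = (x.toLinearMap - 1) * (1 + x.symm.toLinearMap) := by ext; simp [sk]; abel
  have : Commute (x.toLinearMap - 1 : End F V) (1 + x.symm.toLinearMap) := by ext; simp; abel
  rw [e, this.mul_pow, h.1, zero_mul]

theorem RU.ht (h2 : (2 : F) ≠ 0) {x : V ≃ₗ[F] V} (h : RU x) : HT (sk x) {X ^ finrank F V} := by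
  have := reg_HT (f := sk x) (c := 0) (m := finrank F V) (by simpa using h.pow) (by
    rw [← h.2, map_zero, sub_zero]
    refine congrArg (fun W : Submodule F V => finrank F W) (Submodule.ext fun v => ?_)
    simp only [sk, LinearMap.mem_ker, LinearMap.sub_apply, LinearEquiv.coe_coe, End.one_apply, sub_eq_zero]
    refine ⟨fun k => ?_, fun k => by rw [k, eq_comm, LinearEquiv.symm_apply_eq, k]⟩
    have k1 : (x.toLinearMap - 1 : End F V) (x v - v) = (-2 : F) • (x v - v) := by
      have := congrArg x k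
      simp only [LinearEquiv.apply_symm_apply] at this
      simp only [LinearMap.sub_apply, LinearEquiv.coe_coe, map_sub, this, End.one_apply]
      module
    have k2 : ∀ j : ℕ, ((x.toLinearMap - 1 : End F V) ^ j) (x v - v) = (-2 : F) ^ j • (x v - v) := fun j => by
      induction j with
      | zero => simp
      | succ j ih => rw [pow_succ, End.mul_apply, k1, map_smul, ih, smul_smul, pow_succ']
    have := k2 (finrank F V)
    rw [h.1, LinearMap.zero_apply, eq_comm, smul_eq_zero] at this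
    exact sub_eq_zero.1 (this.resolve_left (pow_ne_zero _ (neg_ne_zero.2 h2))))
  simpa using this

theorem RU.inj (h2 : (2 : F) ≠ 0) {x : V ≃ₗ[F] V} (h : RU x) : Function.Injective (lf (F := F) _ h.pow) :=
  (injective_iff_map_eq_zero _).2 fun a ha => by
    obtain ⟨p, rfl⟩ := AdjoinRoot.mk_surjective a
    exact AdjoinRoot.mk_eq_zero.2 (((h.ht h2).aeval_eq_zero p).1 ha _ (by simp))

theorem RU.range (h2 : (2 : F) ≠ 0) {x : V ≃ₗ[F] V} (h : RU x) {g : End F V} :
    g * x.toLinearMap = x.toLinearMap * g ↔ ∃ a, lf (F := F) _ h.pow a = g := by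
  have k : ∀ g : End F V, g * x.toLinearMap = x.toLinearMap * g → ∃ a, lf (F := F) _ h.pow a = g := fun g hg => by
    obtain ⟨p, hp⟩ := (h.ht h2).comm_poly (sk_comm hg)
    exact ⟨AdjoinRoot.mk _ p, hp⟩
  refine ⟨k g, ?_⟩
  rintro ⟨a, rfl⟩
  obtain ⟨b, hb⟩ := k _ rfl
  rw [← hb, ← map_mul, ← map_mul, mul_comm]

theorem adj_lf (hf : f.Nondeg) {x : V ≃ₗ[F] V} (hx : x ∈ f.Isom) (h : RU x) (a : RR F (finrank F V)) :
    adj hf (lf _ h.pow a) = lf _ h.pow (tau _ a) := by
  have e : adj hf (sk x) = -sk x := by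
    rw [sk, map_sub, adj_isom hf hx, adj_isom hf (x := x.symm) (inv_mem hx), neg_sub]; rfl
  obtain ⟨p, rfl⟩ := AdjoinRoot.mk_surjective a
  induction p using Polynomial.induction_on with
  | C c =>
    rw [AdjoinRoot.mk_C, ← AdjoinRoot.algebraMap_eq, AlgHom.commutes, AlgHom.commutes, AlgHom.commutes,
      Algebra.algebraMap_eq_smul_one, adj_smul, adj_one]; rfl
  | add p q h1 h2 => simp only [map_add, h1, h2]
  | monomial n c h1 =>
    rw [pow_succ, ← mul_assoc, map_mul, map_mul, map_mul (tau _), mul_comm (tau _ _), map_mul (lf _ _), adj_mul, h1,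
      AdjoinRoot.mk_X, lf_root, e, tau, lf_root, map_neg, lf_root]

theorem isom_of_adj (hf : f.Nondeg) {g : End F V} (h : adj hf g * g = 1) : ∃ s ∈ f.Isom, s.toLinearMap = g := by
  refine ⟨LinearEquiv.ofInjectiveEndo g (Function.LeftInverse.injective (g := adj hf g)
    (LinearMap.congr_fun h)), mem_Isom_symp.2 fun u v => ?_, rfl⟩
  change f.B (g u) (g v) = _
  rw [← B_adj hf, ← End.mul_apply, h, End.one_apply]

theorem card_cent [Finite F] (hf : f.Nondeg) (h2 : (2 : F) ≠ 0) {x : f.Isom} (h : RU x.1) {m : ℕ}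
    (hm : finrank F V = 2 * m) (h0 : 0 < m) :
    Nat.card (Subgroup.centralizer ({x} : Set f.Isom)) = 2 * Nat.card F ^ m := by
  have hn : finrank F V ≠ 0 := by omega
  rw [← card_skew h2, ← hm]
  refine Eq.trans ?_ (card_unitary (τ := (tau _).toRingHom) h2 (res_nil hn) (tau_tau _) (res_tau hn))
  have k : ∀ a : {a : RR F (finrank F V) // (tau _).toRingHom a * a = 1},
      ∃ s ∈ f.Isom, s.toLinearMap = lf _ h.pow a.1 := fun a =>
    isom_of_adj hf (by rw [adj_lf hf x.2 h, ← map_mul]; exact (congrArg _ a.2).trans (map_one _))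
  choose s h1 h3 using k
  refine (Nat.card_eq_of_bijective (fun a => ⟨⟨s a, h1 a⟩, Subgroup.mem_centralizer_singleton_iff.2
    (Subtype.ext (LinearEquiv.toLinearMap_injective ((h.range h2).2 ⟨_, (h3 a).symm⟩)))⟩)
    ⟨fun a b e => Subtype.ext (h.inj h2 ?_), fun g => ?_⟩).symm
  · rw [← h3, ← h3]; exact congrArg (fun g => g.1.1.toLinearMap) e
  · obtain ⟨a, ha⟩ := (h.range h2 (g := g.1.1.toLinearMap)).1 (congrArg (fun g => g.1.toLinearMap)
      (Subgroup.mem_centralizer_singleton_iff.1 g.2))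
    refine ⟨⟨a, h.inj h2 ?_⟩, Subtype.ext (Subtype.ext (LinearEquiv.toLinearMap_injective ((h3 _).trans ha)))⟩
    erw [map_mul, ← adj_lf hf x.2 h, ha, adj_isom hf g.1.2, map_one]
    ext; simp

/-- The rank one quadratic form attached to a regular unipotent element. -/
noncomputable def ph (f : CForm (FP.symp F) V) (x : V ≃ₗ[F] V) (v : V) : F := f.B v ((sk x ^ (finrank F V - 1)) v)

omit [FiniteDimensional F V] in
theorem ph_conj {x y e : V ≃ₗ[F] V} (h : ∀ v, e (x v) = y (e v)) (v : V) :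
    ph f y (e v) = f.B (e v) (e ((sk x ^ (finrank F V - 1)) v)) := by
  have k : ∀ v, e (sk x v) = sk y (e v) := fun v => by
    have : e (x.symm v) = y.symm (e v) := y.injective (by rw [← h]; simp)
    simp [sk, h, this]
  have : ∀ j : ℕ, ∀ v, e ((sk x ^ j) v) = (sk y ^ j) (e v) := fun j => by
    induction j with
    | zero => simp
    | succ j ih => intro v; rw [pow_succ, pow_succ, End.mul_apply, End.mul_apply, ih, k]
  rw [ph, this]

omit [FiniteDimensional F V] in
theorem lf_top {x : V ≃ₗ[F] V} (h : RU x) (hn : finrank F V ≠ 0) (a : RR F (finrank F V)) :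
    lf _ h.pow a * sk x ^ (finrank F V - 1) = res hn a • sk x ^ (finrank F V - 1) ∧
    sk x ^ (finrank F V - 1) * lf _ h.pow a = res hn a • sk x ^ (finrank F V - 1) := by
  obtain ⟨b, hb⟩ := res_decomp hn a
  have e : sk x ^ (finrank F V - 1) = lf (F := F) _ h.pow (AdjoinRoot.root _ ^ (finrank F V - 1)) := by
    rw [map_pow, lf_root]
  have : a * AdjoinRoot.root _ ^ (finrank F V - 1) = res hn a • AdjoinRoot.root _ ^ (finrank F V - 1) := by
    conv_lhs => rw [hb, add_mul, mul_right_comm, ← pow_succ', Nat.sub_add_cancel (by omega), root_pow]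
    simp [Algebra.smul_def]
  rw [e, ← map_mul, ← map_mul, mul_comm _ a, this, map_smul]
  exact ⟨rfl, rfl⟩

theorem RU.ph_sq (hf : f.Nondeg) (h2 : (2 : F) ≠ 0) {x : V ≃ₗ[F] V} (hx : x ∈ f.Isom) (h : RU x)
    (hn : finrank F V ≠ 0) : ∃ v, ph f x v ≠ 0 ∧ ∀ w, ∃ c, ph f x w = c * c * ph f x v := by
  obtain ⟨v, hv⟩ := (h.ht h2).cyc
  have k : ∀ a u, f.B (lf (F := F) _ h.pow a v) ((sk x ^ (finrank F V - 1)) u) =
      res hn a * f.B v ((sk x ^ (finrank F V - 1)) u) := fun a u => by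
    rw [← B_adj hf, adj_lf hf hx h, ← End.mul_apply, (lf_top h hn _).1, res_tau]; simp
  refine ⟨v, fun e => ?_, fun w => ?_⟩
  · have e1 : (sk x ^ (finrank F V - 1)) v = 0 := hf _ fun u => by
      obtain ⟨p, rfl⟩ := hv u
      exact (k (AdjoinRoot.mk _ p) v).trans (by rw [show f.B v _ = 0 from e, mul_zero])
    have e2 : aeval (sk x) ((X : F[X]) ^ (finrank F V - 1)) = 0 := LinearMap.ext fun u => by
      obtain ⟨p, rfl⟩ := hv u
      rw [← End.mul_apply, ← map_mul, mul_comm, map_mul, End.mul_apply, map_pow, aeval_X, e1]; simp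
    have := natDegree_le_of_dvd (((h.ht h2).aeval_eq_zero _).1 e2 _ (Multiset.mem_singleton_self _)) (by simp)
    simp at this; omega
  · obtain ⟨p, rfl⟩ := hv w
    refine ⟨res hn (AdjoinRoot.mk _ p), ?_⟩
    rw [ph, ← lf_mk _ h.pow, k, ← End.mul_apply, (lf_top h hn _).2]
    simp [ph, mul_assoc]

/-- The invariant separating the two classes. -/
def Sq (f : CForm (FP.symp F) V) (x : V ≃ₗ[F] V) : Prop := ∃ v, ph f x v ≠ 0 ∧ IsSquare (ph f x v)

theorem RU.sq_iff (hf : f.Nondeg) (h2 : (2 : F) ≠ 0) {x : V ≃ₗ[F] V} (hx : x ∈ f.Isom) (h : RU x)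
    (hn : finrank F V ≠ 0) {v : V} (hv : ph f x v ≠ 0) : Sq f x ↔ IsSquare (ph f x v) := by
  refine ⟨fun ⟨w, h1, s, h3⟩ => ?_, fun k => ⟨v, hv, k⟩⟩
  obtain ⟨u, -, hu⟩ := h.ph_sq hf h2 hx hn
  obtain ⟨c, hc⟩ := hu v
  obtain ⟨d, hd⟩ := hu w
  have d0 : d ≠ 0 := by rintro rfl; exact h1 (by simpa using hd)
  exact ⟨c * s / d, by field_simp; linear_combination d ^ 2 * hc - c ^ 2 * hd + c ^ 2 * h3⟩

theorem RU.sim {x y : V ≃ₗ[F] V} (h : RU x) (k : RU y) : Sim x.toLinearMap y.toLinearMap :=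
  (reg_HT (c := 1) (m := finrank F V) (by simpa using h.1) (by rw [map_one]; exact h.2)).sim
    (reg_HT (c := 1) (m := finrank F V) (by simpa using k.1) (by rw [map_one]; exact k.2))

theorem conj_iff [Finite F] (hf : f.Nondeg) (h2 : (2 : F) ≠ 0) {x y : f.Isom} (h : RU x.1) (k : RU y.1)
    (hn : finrank F V ≠ 0) : IsConj x y ↔ (Sq f x.1 ↔ Sq f y.1) := by
  obtain ⟨v, hv, -⟩ := h.ph_sq hf h2 x.2 hn
  rw [h.sq_iff hf h2 x.2 hn hv]
  constructor
  · intro c
    obtain ⟨g, rfl⟩ := isConj_iff.1 c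
    have := (ph_conj (f := f) (x := x.1) (y := (g * x * g⁻¹).1) (e := g.1) (fun v => by simp) v).trans
      (f.Isom_B g.2 _ _)
    rw [k.sq_iff hf h2 (g * x * g⁻¹).2 hn (v := g.1 v) (by rw [this]; exact hv), this]; rfl
  · intro c
    obtain ⟨e, he⟩ := h.sim k
    have he' : ∀ v, e (x.1 v) = y.1 (e v) := he
    obtain ⟨a, ha⟩ := (h.range h2 (g := adj hf e.toLinearMap * e.toLinearMap)).1 (adj_ext hf fun u w => by
      obtain ⟨u, rfl⟩ := x.1.surjective u
      simp only [End.mul_apply, B_adj, LinearEquiv.coe_coe, f.Isom_B x.2, he', f.Isom_B y.2])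
    have k1 : ph f y.1 (e v) = res hn a * ph f x.1 v := by
      rw [ph_conj he']
      erw [← B_adj hf e.toLinearMap, ← End.mul_apply (adj hf _), ← ha, ← End.mul_apply, (lf_top h hn _).1]
      simp [ph]
    have a0 : res hn a ≠ 0 := fun z => by
      obtain ⟨j, hj⟩ := (res_nil hn a z).map (lf _ h.pow)
      have i1 : Function.Injective (lf (F := F) _ h.pow a) := by
        rw [ha, injective_iff_map_eq_zero]
        intro u hu
        refine e.map_eq_zero_iff.1 (hf _ fun w => ?_)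
        obtain ⟨w, rfl⟩ := e.surjective w
        erw [← B_adj hf e.toLinearMap, ← End.mul_apply (adj hf _), hu, B_zero_right]
      have := End.iterate_injective i1 j
      rw [hj] at this
      exact hv (by rw [show v = 0 from this (by simp)]; simp [ph])
    rw [k.sq_iff hf h2 y.2 hn (v := e v) (by rw [k1]; exact mul_ne_zero a0 hv), k1, ← Au.sqc_eq_one,
      ← Au.sqc_eq_one, Au.sqc_mul a0 hv] at c
    obtain ⟨s, hs⟩ := exists_norm (τ := (tau _).toRingHom) h2 (res_nil hn) (tau _).commutes (h := a)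
      (h.inj h2 (by erw [← adj_lf hf x.2 h, ha, adj_mul, adj_adj])) a0 (Au.sqc_eq_one.1 (by
        rcases Int.units_eq_one_or (Au.sqc (res hn a)) with e | e <;>
        rcases Int.units_eq_one_or (Au.sqc (ph f x.1 v)) with e' | e' <;> simp_all))
    obtain ⟨t, ht⟩ := unit_of (res_nil hn) (a := s) fun z => a0 (by rw [← hs, map_mul, z, mul_zero])
    obtain ⟨g, g1, g2⟩ := isom_of_adj hf (g := e.toLinearMap * lf _ h.pow t) (by
      rw [adj_mul, mul_assoc, ← mul_assoc (adj hf _) e.toLinearMap, ← ha, adj_lf hf x.2 h, ← map_mul, ← map_mul,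
        ← hs, ← map_one (lf (F := F) _ h.pow)]
      congr 1
      have := congrArg (tau _) ht
      rw [map_mul, map_one] at this
      change _ * (tau _ s * s * t) = 1
      linear_combination (s * t) * this + ht)
    refine isConj_iff.2 ⟨⟨g, g1⟩, mul_inv_eq_iff_eq_mul.2 (Subtype.ext (LinearEquiv.toLinearMap_injective ?_))⟩
    change g.toLinearMap * x.1.toLinearMap = y.1.toLinearMap * g.toLinearMap
    rw [g2, mul_assoc, (h.range h2).2 ⟨t, rfl⟩, ← mul_assoc, ← mul_assoc]
    congr 1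
    exact LinearMap.ext he'

omit [FiniteDimensional F V] in
theorem RU.of_sim {W : Type*} [AddCommGroup W] [Module F W] {x : W ≃ₗ[F] W} {y : V ≃ₗ[F] V} (e : W ≃ₗ[F] V)
    (he : ∀ v, e (x v) = y (e v)) {m : ℕ} (h1 : (x.toLinearMap - 1 : End F W) ^ m = 0)
    (h2 : finrank F (LinearMap.ker (x.toLinearMap - 1 : End F W)) = 1) [FiniteDimensional F W] : RU y := by
  have k := (reg_HT (c := 1) (m := m) (by simpa using h1) (by rw [map_one]; exact h2)).of_sim
    (g := y.toLinearMap) ⟨e, he⟩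
  rw [e.finrank_eq] at k
  have k1 := (k.aeval_eq_zero ((X - C 1) ^ finrank F V)).2 (by simp)
  refine ⟨by simpa using k1, ?_⟩
  rw [← h2]
  refine (LinearEquiv.finrank_eq (e.ofSubmodules _ _ ?_)).symm
  ext v
  obtain ⟨v, rfl⟩ := e.surjective v
  simp [sub_eq_zero, ← he]

theorem exists_two [Finite F] (hf : f.Nondeg) (h2 : (2 : F) ≠ 0) {m : ℕ} (hm : finrank F V = 2 * m) (h0 : 0 < m) :
    ∃ x y : f.Isom, RU x.1 ∧ RU y.1 ∧ ¬ (Sq f x.1 ↔ Sq f y.1) := by
  obtain ⟨W, _, _, _, g, hg, k1, x, hx, ⟨j, k2⟩, k3⟩ := Un.reg_symp (F := F) (m - 1)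
  obtain ⟨e, he⟩ := symp_exists_isIso _ hg hf rfl (by omega)
  let x' := he.isomEquiv ⟨x, hx⟩
  have r : RU x'.1 := RU.of_sim e (fun v => by
    change _ = e (x (e.symm (e v))); rw [e.symm_apply_apply]) k2 k3
  obtain ⟨a, a0, ha⟩ := Au.exists_nonsq h2
  obtain ⟨s, hs⟩ := Au.symp_sim hf a0
  have hy : s * x'.1 * s⁻¹ ∈ f.Isom := mem_Isom_symp.2 fun u v => by
    obtain ⟨u, rfl⟩ := s.surjective u
    obtain ⟨v, rfl⟩ := s.surjective v
    simp [hs.lin_B, f.Isom_B x'.2]
  have r' : RU (s * x'.1 * s⁻¹) := RU.of_sim s (fun v => by simp) r.1 r.2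
  refine ⟨x', ⟨_, hy⟩, r, r', ?_⟩
  have hn : finrank F V ≠ 0 := by omega
  obtain ⟨v, hv, -⟩ := r.ph_sq hf h2 x'.2 hn
  have := (ph_conj (f := f) (x := x'.1) (y := s * x'.1 * s⁻¹) (e := s) (fun v => by simp) v).trans (hs.lin_B _ _)
  change _ = a * ph f x'.1 v at this
  rw [r.sq_iff hf h2 x'.2 hn hv, r'.sq_iff hf h2 hy hn (v := s v) (by rw [this]; exact mul_ne_zero a0 hv), this,
    ← Au.sqc_eq_one, ← Au.sqc_eq_one, Au.sqc_mul a0 hv, ha]
  rcases Int.units_eq_one_or (Au.sqc (ph f x'.1 v)) with e' | e' <;> simp [e']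

theorem ru_iff {m : ℕ} (hm : 1 ≤ m) (u : Matrix.symplecticGroup (Fin m) F) : RU (spEquiv m u).1 ↔
    (u.1 - 1) ^ (2 * m) = 0 ∧ (u.1 - 1).rank = 2 * m - 1 := by
  have e : (spEquiv m u).1.toLinearMap = Matrix.toLin' u.1 := rfl
  have k := fun j => toLin_sub u.1 j
  have k1 := ker_add_rank ((u.1 - 1) ^ 1)
  rw [← k, pow_one, pow_one] at k1
  rw [map_one] at k k1
  rw [RU, e, finrank_sum_fun, k, Matrix.toLin'.map_eq_zero_iff]
  rw [Fintype.card_sum, Fintype.card_fin] at k1
  generalize finrank F (LinearMap.ker (Matrix.toLin' u.1 - 1 : End F _)) = a at k1 ⊢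
  exact and_congr_right' (by omega)

end CfsgH5.Ru
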