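import Cfsg.Agent.H6.DCB
import Cfsg.Agent.H3.More
import Cfsg.Agent.H3.Apps
import Cfsg.Agent.H5.GrpAux

set_option autoImplicit false

/-! Irreducible characters whose degree is the order of a Sylow subgroup. -/

namespace CfsgH5.Sb

open Cfsg CfsgH3

/-- there is an irreducible character whose degree is the `p`-part of the group order -/
def St0 (p : ℕ) (G : Type*) [Group G] : Prop :=
  ∃ χ : G → ℂ, IsIrrCharacter G χ ∧ χ 1 = (p ^ (Nat.card G).factorization p : ℕ)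

variable {p : ℕ} [hp : Fact p.Prime] {G H : Type*} [Group G] [Group H]

theorem St0.result [Finite G] (h : St0 p G) : ∃ χ : G → ℂ, IsIrrCharacter G χ ∧
    ∀ P : Sylow p G, χ 1 = Nat.card P ∧ ∀ x : G, x ∈ P → x ≠ 1 → χ x = 0 := by
  obtain ⟨χ, h1, h2⟩ := h
  refine ⟨χ, h1, fun P => ⟨by rw [h2, P.card_eq_multiplicity], fun x hx h0 =>
    h1.eq_zero_of_defect_zero hp.out h2 (Nat.not_dvd_ordCompl hp.out Nat.card_pos.ne') ?_⟩⟩
  obtain ⟨k, hk⟩ := IsPGroup.iff_orderOf.1 P.2 ⟨x, hx⟩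
  rw [Subgroup.orderOf_mk] at hk
  rcases k with _ | k
  · exact absurd (by simpa using hk) h0
  · exact hk ▸ dvd_pow_self p k.succ_ne_zero

omit hp in
theorem St0.of_hasSt (h : CfsgH6.HasSt p G) : St0 p G := let ⟨χ, a, b, _⟩ := h; ⟨χ, a, b⟩

omit hp in
theorem St0.of_surj (h : St0 p G) (f : H →* G) (hf : Function.Surjective f)
    (k : (Nat.card H).factorization p = (Nat.card G).factorization p) : St0 p H :=
  let ⟨χ, a, b⟩ := h; ⟨_, a.comp_of_surjective f hf, by simpa [k] using b⟩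

omit hp in
theorem St0.of_equiv (h : St0 p G) (e : H ≃* G) : St0 p H :=
  h.of_surj e.toMonoidHom e.surjective (by rw [Nat.card_congr e.toEquiv])

omit hp in
theorem St0.prod [Finite G] [Finite H] (h : St0 p G) (k : St0 p H) : St0 p (G × H) := by
  obtain ⟨χ, a, b⟩ := h
  obtain ⟨ψ, c, d⟩ := k
  refine ⟨_, isIrr_prod a c, ?_⟩
  simp [b, d, Nat.factorization_mul Nat.card_pos.ne' Nat.card_pos.ne', pow_add]

omit hp in
theorem st0_triv [Subsingleton G] : St0 p G := ⟨_, isIrr_one, by simp⟩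

omit hp in
theorem st0_dihedral {n : ℕ} (e : G ≃* DihedralGroup n) : St0 p (commutator G ⧸ Subgroup.center (commutator G)) := by
  have k : ∀ x ∈ commutator (DihedralGroup n), ∃ i, x = .r i := by
    let R : Subgroup (DihedralGroup n) := ⟨⟨⟨{x | ∃ i, x = .r i}, by rintro _ _ ⟨i, rfl⟩ ⟨j, rfl⟩; exact ⟨_, rfl⟩⟩,
      ⟨0, rfl⟩⟩, by rintro _ ⟨i, rfl⟩; exact ⟨_, rfl⟩⟩
    refine (Subgroup.commutator_le (H₃ := R)).2 ?_
    rintro (i | i) - (j | j) - <;> exact ⟨_, rfl⟩
  have : Subgroup.center (commutator (DihedralGroup n)) = ⊤ := by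
    refine eq_top_iff.2 fun ⟨x, hx⟩ _ => Subgroup.mem_center_iff.2 fun ⟨y, hy⟩ => Subtype.ext ?_
    obtain ⟨i, rfl⟩ := k x hx
    obtain ⟨j, rfl⟩ := k y hy
    simp [add_comm]
  have : Subsingleton (_ ⧸ Subgroup.center (commutator (DihedralGroup n))) := by
    rw [this]; exact QuotientGroup.subsingleton_quotient_top
  exact st0_triv.of_equiv (quotCenterEquiv (commutatorEquiv e))

end CfsgH5.Sb
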