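import Cfsg.Agent.H5.Un1
import Cfsg.Agent.H5.El3

set_option autoImplicit false

/-! Centralisers of unipotent elements in general linear groups. -/

namespace CfsgH5.Uc

open Module Polynomial CfsgH5.Gl

variable {F : Type*} [Field F]

theorem card_pre {A B : Type*} [AddCommGroup A] [AddCommGroup B] (φ : A →+ B) (hφ : Function.Surjective φ)
    (p : B → Prop) : Nat.card {a // p (φ a)} = Nat.card φ.ker * Nat.card {b // p b} := by
  choose s hs using hφ
  rw [← Nat.card_prod]
  refine Nat.card_congr ⟨fun a => (⟨a.1 - s (φ a.1), by simp [hs]⟩, ⟨_, a.2⟩),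
    fun x => ⟨x.1.1 + s x.2.1, by simpa [hs, show φ x.1.1 = 0 from x.1.2] using x.2.2⟩, fun a => by simp, ?_⟩
  rintro ⟨⟨a, ha⟩, b, hb⟩
  simp [hs, show φ a = 0 from ha]

variable {τ : Type} [Fintype τ] [DecidableEq τ] (d : τ → ℕ)

variable (F) in
/-- The module of unipotent type `d`. -/
abbrev MM : Type _ := ∀ k, F[X] ⧸ Ideal.span {((X : F[X]) - C 1) ^ d k}

/-- Standard generators. -/
noncomputable def ee (k : τ) : MM F d := Pi.single k 1

theorem ee_ann (k : τ) : ((X : F[X]) - C 1) ^ d k • ee (F := F) d k = 0 := by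
  rw [ee, ← Pi.single_smul, Pi.single_eq_zero_iff]
  exact Ideal.Quotient.eq_zero_iff_mem.2 (Ideal.mem_span_singleton.2 (dvd_mul_right _ _))

theorem single_mk (k : τ) (p : F[X]) : (Pi.single k (Ideal.Quotient.mk _ p) : MM F d) = p • ee d k := by
  rw [ee, ← Pi.single_smul]; congr 1
  exact congrArg (Ideal.Quotient.mk _) (mul_one p).symm

theorem span_ee (m : MM F d) : ∃ p : τ → F[X], m = ∑ k, p k • ee d k := by
  choose p hp using fun k => Ideal.Quotient.mk_surjective (m k)
  exact ⟨p, by simp [← single_mk, hp, Finset.univ_sum_single]⟩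

theorem exists_end (v : τ → MM F d) (hv : ∀ k, ((X : F[X]) - C 1) ^ d k • v k = 0) :
    ∃ g : End F[X] (MM F d), ∀ k, g (ee d k) = v k := by
  refine ⟨∑ k, (Submodule.liftQ _ (LinearMap.toSpanSingleton F[X] _ (v k))
    (Submodule.span_le.2 (by rintro _ rfl; exact hv k))) ∘ₗ LinearMap.proj k, fun k => ?_⟩
  rw [LinearMap.sum_apply, Finset.sum_eq_single k (fun l _ h => by simp [ee, h]) (by simp)]
  simp only [ee, LinearMap.comp_apply, LinearMap.proj_apply, Pi.single_eq_same]
  exact one_smul F[X] (v k)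

theorem end_ext {g h : End F[X] (MM F d)} (e : ∀ k, g (ee d k) = h (ee d k)) : g = h := LinearMap.ext fun m => by
  obtain ⟨p, rfl⟩ := span_ee d m
  simp [e]

instance : FiniteDimensional F (MM F d) :=
  have := fun k => fd_quot (pow_ne_zero (d k) (X_sub_C_ne_zero (1 : F)))
  inferInstance

theorem card_end [Finite F] : Nat.card (End F[X] (MM F d)) = Nat.card F ^ ∑ k, ∑ l, min (d l) (d k) := by
  have := fun k => fd_quot (pow_ne_zero (d k) (X_sub_C_ne_zero (1 : F)))
  rw [Nat.card_eq_of_bijective (β := ∀ k, LinearMap.ker ((LinearMap.lsmul F[X] (MM F d)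
    ((X - C 1) ^ d k)).restrictScalars F)) (fun g k => ⟨g (ee d k), by
      change ((X : F[X]) - C 1) ^ d k • g (ee d k) = 0
      rw [← map_smul, ee_ann, map_zero]⟩) ⟨fun g h e => end_ext d fun k => congrArg Subtype.val (congrFun e k),
      fun v => (exists_end d (fun k => (v k).1) fun k => (v k).2).imp fun g h => funext fun k => Subtype.ext (h k)⟩,
    Nat.card_pi, ← Finset.prod_pow_eq_pow_sum]
  refine Finset.prod_congr rfl fun k _ => ?_
  rw [Module.natCard_eq_pow_finrank (K := F)]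
  congr 1
  refine (kd_pi _ _).trans (Finset.sum_congr rfl fun l _ => ?_)
  exact (cd_pow (X_sub_C_ne_zero (1 : F)) (d l) (d k)).trans (by rw [natDegree_X_sub_C, mul_one])

variable {d}

/-- Evaluation at one. -/
noncomputable def ev (hd : ∀ k, 1 ≤ d k) (l : τ) : (F[X] ⧸ Ideal.span {((X : F[X]) - C 1) ^ d l}) →+* F :=
  Ideal.Quotient.lift _ (evalRingHom 1) fun a ha => by
    obtain ⟨b, rfl⟩ := Ideal.mem_span_singleton.1 ha
    simp [Nat.one_le_iff_ne_zero.1 (hd l)]

theorem ev_smul (hd : ∀ k, 1 ≤ d k) (l : τ) (p : F[X]) (x) : ev hd l (p • x) = p.eval 1 * ev hd l x := by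
  obtain ⟨x, rfl⟩ := Ideal.Quotient.mk_surjective x
  exact eval_mul

/-- The action on the top quotient. -/
noncomputable def th (hd : ∀ k, 1 ≤ d k) (g : End F[X] (MM F d)) : Matrix τ τ F :=
  Matrix.of fun l k => ev hd l (g (ee d k) l)

theorem th_mulVec (hd : ∀ k, 1 ≤ d k) (g : End F[X] (MM F d)) (m : MM F d) :
    (fun l => ev hd l (g m l)) = (th hd g).mulVec fun l => ev hd l (m l) := by
  obtain ⟨p, rfl⟩ := span_ee d m
  funext l
  simp only [map_sum, map_smul, Finset.sum_apply, Pi.smul_apply, ev_smul, Matrix.mulVec, dotProduct, th,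
    Matrix.of_apply]
  refine Finset.sum_congr rfl fun k _ => ?_
  rw [Finset.sum_eq_single k (fun j _ h => by simp [ee, h.symm]) (by simp)]
  simp [ee, mul_comm]

theorem ev_surj (hd : ∀ k, 1 ≤ d k) (w : τ → F) : ∃ m : MM F d, (fun l => ev hd l (m l)) = w :=
  ⟨fun l => Ideal.Quotient.mk _ (C (w l)), funext fun _ => eval_C⟩

theorem ev_ker (hd : ∀ k, 1 ≤ d k) {m : MM F d} (h : ∀ l, ev hd l (m l) = 0) :
    ∃ b, m = ((X : F[X]) - C 1) • b := by
  choose p hp using fun k => Ideal.Quotient.mk_surjective (m k)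
  choose b hb using fun l => dvd_iff_isRoot.2 (show (p l).IsRoot 1 from by have := h l; rw [← hp] at this; exact this)
  exact ⟨fun l => Ideal.Quotient.mk _ (b l), funext fun l => by rw [← hp, hb]; rfl⟩

theorem bij_iff [Finite F] (hd : ∀ k, 1 ≤ d k) {g : End F[X] (MM F d)} :
    Function.Bijective g ↔ (th hd g).det ≠ 0 := by
  have : Finite (MM F d) := Module.finite_of_finite F
  rw [← isUnit_iff_ne_zero, ← Matrix.isUnit_iff_isUnit_det, ← Matrix.mulVec_surjective_iff_isUnit,
    ← Finite.surjective_iff_bijective]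
  refine ⟨fun h w => ?_, fun h => ?_⟩
  · obtain ⟨m, rfl⟩ := ev_surj hd w
    obtain ⟨m, rfl⟩ := h m
    exact ⟨_, (th_mulVec hd g m).symm⟩
  have key : ∀ j : ℕ, ∀ m, ∃ a b, m = g a + ((X : F[X]) - C 1) ^ j • b := fun j => by
    induction j with
    | zero => exact fun m => ⟨0, m, by simp⟩
    | succ j ih =>
      intro m
      obtain ⟨a, b, rfl⟩ := ih m
      obtain ⟨w, hw⟩ := h fun l => ev hd l (b l)
      obtain ⟨c, rfl⟩ := ev_surj hd w
      rw [← th_mulVec] at hw
      obtain ⟨b', hb⟩ := ev_ker hd (m := b - g c) fun l => by rw [Pi.sub_apply, map_sub, congrFun hw l, sub_self]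
      refine ⟨a + ((X : F[X]) - C 1) ^ j • c, b', ?_⟩
      rw [pow_succ, mul_smul, ← hb, map_add, map_smul, smul_sub]; abel
  intro m
  obtain ⟨a, b, rfl⟩ := key (Finset.univ.sup d) m
  refine ⟨a, left_eq_add.2 (funext fun l => ?_)⟩
  obtain ⟨p, hp⟩ := Ideal.Quotient.mk_surjective (b l)
  rw [Pi.smul_apply, ← hp]
  exact Ideal.Quotient.eq_zero_iff_mem.2 (Ideal.mem_span_singleton.2
    ((pow_dvd_pow _ (Finset.le_sup (Finset.mem_univ l))).mul_right _))

theorem th_tri (hd : ∀ k, 1 ≤ d k) (g : End F[X] (MM F d)) : (th hd g).BlockTriangular d := fun l k h => by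
  have e : (((X : F[X]) - C 1) ^ d k • g (ee d k)) l = 0 := by rw [← map_smul, ee_ann, map_zero]; rfl
  obtain ⟨p, hp⟩ := Ideal.Quotient.mk_surjective (g (ee d k) l)
  rw [Pi.smul_apply, ← hp] at e
  have : _ ∣ (X - C 1) ^ d k * p := Ideal.mem_span_singleton.1 (Ideal.Quotient.eq_zero_iff_mem.1 e)
  obtain ⟨j, hj⟩ := Nat.exists_eq_add_of_lt h
  rw [hj, add_assoc, pow_add, mul_dvd_mul_iff_left (pow_ne_zero _ (X_sub_C_ne_zero _))] at this
  change ev hd l _ = 0
  rw [← hp]
  exact dvd_iff_isRoot.1 ((dvd_pow_self _ (by omega)).trans this)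

/-- Diagonal blocks. -/
noncomputable def thb (hd : ∀ k, 1 ≤ d k) (D : ℕ) :
    End F[X] (MM F d) →+ ∀ i : Fin D, Matrix {k // d k = i} {k // d k = i} F :=
  AddMonoidHom.mk' (fun g i => (th hd g).toSquareBlock d i) fun g h => by
    ext i k l; simp [th, Matrix.toSquareBlock_def]

theorem thb_surj (hd : ∀ k, 1 ≤ d k) {D : ℕ} (hD : ∀ k, d k < D) : Function.Surjective (thb (F := F) hd D) := by
  intro A
  obtain ⟨g, hg⟩ := exists_end d (fun k l => if h : d l = d k then
    Ideal.Quotient.mk _ (C (A ⟨d k, hD k⟩ ⟨l, h⟩ ⟨k, rfl⟩)) else 0) fun k => funext fun l => by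
      rw [Pi.smul_apply]
      split_ifs with h
      · exact Ideal.Quotient.eq_zero_iff_mem.2 (Ideal.mem_span_singleton.2 ((pow_dvd_pow _ h.le).mul_right _))
      · simp
  refine ⟨g, ?_⟩
  ext ⟨i, hi⟩ ⟨l, hl⟩ ⟨k, hk⟩
  obtain rfl : d k = i := hk
  change ev hd l (g (ee d k) l) = _
  rw [hg]; simp only [dif_pos hl]
  exact eval_C

theorem card_aut [Fintype F] (hd : ∀ k, 1 ≤ d k) {D : ℕ} (hD : ∀ k, d k < D) :
    Nat.card {g : End F[X] (MM F d) // Function.Bijective g} *
      Fintype.card F ^ ∑ i ∈ Finset.range D, (Finset.univ.filter (d · = i)).card ^ 2 =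
    Fintype.card F ^ (∑ k, ∑ l, min (d l) (d k)) * ∏ i ∈ Finset.range D,
      ∏ j : Fin (Finset.univ.filter (d · = i)).card,
        (Fintype.card F ^ (Finset.univ.filter (d · = i)).card - Fintype.card F ^ (j : ℕ)) := by
  have h1 := card_pre (A := End F[X] (MM F d)) (B := ∀ i : Fin D, Matrix {k // d k = i} {k // d k = i} F)
    (thb hd D) (thb_surj hd hD) fun A => ∀ i, (A i).det ≠ 0
  have h2 := card_pre (A := End F[X] (MM F d)) (B := ∀ i : Fin D, Matrix {k // d k = i} {k // d k = i} F)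
    (thb hd D) (thb_surj hd hD) fun _ => True
  rw [Nat.card_subtype_true, Nat.card_subtype_true, card_end, Nat.card_pi, Nat.card_eq_fintype_card (α := F)] at h2
  have e : ∀ g : End F[X] (MM F d), Function.Bijective g ↔ ∀ i, (thb hd D g i).det ≠ 0 := fun g => by
    rw [bij_iff hd, (th_tri hd g).det, Finset.prod_ne_zero_iff]
    refine ⟨fun h i => ?_, fun h i hi => ?_⟩
    · by_cases k : ∃ k, d k = i
      · exact h _ (by simpa using k)
      · have : IsEmpty {k // d k = i} := ⟨fun x => k ⟨_, x.2⟩⟩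
        simp
    · obtain ⟨k, -, rfl⟩ := Finset.mem_image.1 hi
      exact h ⟨_, hD k⟩
  rw [Nat.card_congr (Equiv.subtypeEquivRight e), h1, h2, Nat.card_congr (Equiv.subtypePiEquivPi
    (β := fun i : Fin D => Matrix {k // d k = i} {k // d k = i} F) (p := fun _ A => A.det ≠ 0)), Nat.card_pi,
    mul_right_comm, ← Finset.prod_pow_eq_pow_sum, Finset.prod_range, Finset.prod_range]
  refine congrArg₂ _ (congrArg _ (Finset.prod_congr rfl fun i _ => ?_)) (Finset.prod_congr rfl fun i _ => ?_)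
  · simp [Matrix, Nat.card_eq_fintype_card, Fintype.card_subtype, ← pow_mul, sq]
  · rw [← Fintype.card_subtype, ← Matrix.card_GL_field]
    let e := Fintype.equivFin {k // d k = i}
    refine Nat.card_eq_of_bijective (fun A => Matrix.GeneralLinearGroup.mkOfDetNeZero
      (Matrix.reindex e e A.1) (by simpa using A.2)) ⟨fun A B h => Subtype.ext
        ((Matrix.reindex e e).injective (congrArg Units.val h)), fun A => ⟨⟨(Matrix.reindex e e).symm A.1, by
          simpa using A.det_ne_zero⟩, Units.ext (by simp)⟩⟩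

theorem sum_min {D : ℕ} (hd : ∀ k, 1 ≤ d k) (hD : ∀ k, d k < D) : ∑ k, ∑ l, min (d l) (d k) =
    (2 * (∑ i ∈ Finset.range D, ∑ j ∈ Finset.range D, if i < j then
      i * (Finset.univ.filter (d · = i)).card * (Finset.univ.filter (d · = j)).card else 0) +
      ∑ i ∈ Finset.range D, (i - 1) * (Finset.univ.filter (d · = i)).card ^ 2) +
      ∑ i ∈ Finset.range D, (Finset.univ.filter (d · = i)).card ^ 2 := by
  have fib : ∀ g : ℕ → ℕ, ∑ k, g (d k) = ∑ i ∈ Finset.range D, (Finset.univ.filter (d · = i)).card * g i :=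
    fun g => by
      rw [← Finset.sum_fiberwise_of_maps_to (g := d) (t := Finset.range D) fun k _ => Finset.mem_range.2 (hD k)]
      exact Finset.sum_congr rfl fun i _ => by
        rw [Finset.sum_congr rfl fun k hk => congrArg g (Finset.mem_filter.1 hk).2]; simp
  rw [fib fun i => ∑ l, min (d l) i]
  simp only [fun i => fib fun j => min j i]
  have a0 : (Finset.univ.filter (d · = 0)).card = 0 := by simpa using fun k => Nat.one_le_iff_ne_zero.1 (hd k)
  generalize ha : (fun i => (Finset.univ.filter (d · = i)).card) = a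
  simp only [show ∀ i, (Finset.univ.filter (d · = i)).card = a i from congrFun ha] at a0 ⊢
  rw [add_assoc, ← Finset.sum_add_distrib, two_mul]
  conv_rhs => enter [1, 2]; rw [Finset.sum_comm]
  rw [← Finset.sum_add_distrib, ← Finset.sum_add_distrib]
  refine Finset.sum_congr rfl fun i hi => ?_
  have : (i - 1) * a i ^ 2 + a i ^ 2 = ∑ j ∈ Finset.range D, if j = i then i * a i ^ 2 else 0 := by
    rw [Finset.sum_ite_eq', if_pos hi]
    rcases i with _ | i
    · simp [a0]
    · simp; ring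
  rw [this, Finset.mul_sum, ← Finset.sum_add_distrib, ← Finset.sum_add_distrib]
  refine Finset.sum_congr rfl fun j _ => ?_
  rcases lt_trichotomy i j with h | rfl | h
  · simp [h, h.le, h.not_gt, h.ne']; ring
  · simp; ring
  · simp [h, h.le, h.not_gt, h.ne]; ring

theorem card_cent {ι : Type*} [Fintype ι] [DecidableEq ι] [Fintype F] {J : Matrix ι ι F} (hd : ∀ k, 1 ≤ d k)
    {D : ℕ} (hD : ∀ k, d k < D) (h : HT (Matrix.toLin' J) (Finset.univ.val.map fun k => (X - C 1) ^ d k)) :
    Nat.card {g : GL ι F // g.1 * J = J * g.1} = Fintype.card F ^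
      (2 * (∑ i ∈ Finset.range D, ∑ j ∈ Finset.range D, if i < j then
      i * (Finset.univ.filter (d · = i)).card * (Finset.univ.filter (d · = j)).card else 0) +
      ∑ i ∈ Finset.range D, (i - 1) * (Finset.univ.filter (d · = i)).card ^ 2) * ∏ i ∈ Finset.range D,
      ∏ j : Fin (Finset.univ.filter (d · = i)).card,
        (Fintype.card F ^ (Finset.univ.filter (d · = i)).card - Fintype.card F ^ (j : ℕ)) := by
  have k := card_aut (F := F) hd hD
  rw [sum_min hd hD, pow_add, mul_right_comm] at k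
  rw [← Nat.eq_of_mul_eq_mul_right (pow_pos Fintype.card_pos _) k]
  obtain ⟨n, a, h1, ⟨e⟩⟩ := h
  obtain ⟨e'⟩ := pi_reindex a _ h1
  replace e := e.trans e'
  refine Eq.trans ?_ (Nat.card_congr (e.conj.toEquiv.subtypeEquiv (p := fun g : End F[X] _ => Function.Bijective g) fun g => by
    simp [LinearEquiv.conj_apply]))
  refine Nat.card_eq_of_bijective (fun g => ⟨LinearMap.ofAEval _ ((AEval'.of _).toLinearMap ∘ₗ Matrix.toLin' g.1.1)
    fun v => ?_, ?_⟩) ⟨fun g h e => Subtype.ext (Units.ext (Matrix.toLin'.injective (LinearMap.ext fun v => ?_))), ?_⟩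
  · simp only [LinearMap.comp_apply, LinearEquiv.coe_coe, AEval'.X_smul_of, End.smul_def, Matrix.toLin'_apply,
      Matrix.mulVec_mulVec, g.2]
  · exact (Matrix.GeneralLinearGroup.toLin g.1).toLinearEquiv.bijective
  · exact (AEval'.of (Matrix.toLin' J)).injective (LinearMap.congr_fun (congrArg Subtype.val e) (AEval'.of _ v))
  · rintro ⟨g, hg⟩
    let g' : (ι → F) ≃ₗ[F] (ι → F) := (AEval'.of (Matrix.toLin' J)).trans
      (((LinearEquiv.ofBijective g hg).restrictScalars F).trans (AEval'.of (Matrix.toLin' J)).symm)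
    let A : GL ι F := Matrix.GeneralLinearGroup.toLin.symm
      ((LinearMap.GeneralLinearGroup.generalLinearEquiv F _).symm g')
    have hA : Matrix.toLin' A.1 = g' := Matrix.toLin'_toMatrix' _
    refine ⟨⟨A, Matrix.toLin'.injective (LinearMap.ext fun v => ?_)⟩, Subtype.ext (LinearMap.ext fun v => ?_)⟩
    · rw [Matrix.toLin'_mul, Matrix.toLin'_mul, hA]
      apply (AEval'.of (Matrix.toLin' J)).injective
      simp [g', ← AEval'.X_smul_of, -Matrix.toLin'_apply]
    · change AEval'.of _ (Matrix.toLin' A.1 _) = _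
      rw [hA]; rfl

end CfsgH5.Uc
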